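import Mathlib
import Cfsg.Agent.Spc.Kind
import Cfsg.Agent.Conj.UniEx

/-!
Invariant subspaces and invariant decompositions of an endomorphism, read off from its
eigenvalues or its Jordan type.
-/

set_option autoImplicit false
set_option backward.isDefEq.respectTransparency false

namespace Cfsg.Agent.Elu

open Module Polynomial Conj Spc
open scoped _root_.Classical

variable {F : Type*} [Field F] {V W : Type*} [AddCommGroup V] [Module F V] [AddCommGroup W]
  [Module F W]

theorem inv_iff {f : End F V} {U : Submodule F V} : U.map f ≤ U ↔ ∀ x ∈ U, f x ∈ U :=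
  Submodule.map_le_iff_le_comap

/-- restriction to an invariant subspace -/
def res (f : End F V) {U : Submodule F V} (h : U.map f ≤ U) : End F U :=
  f.restrict (inv_iff.1 h)

@[simp] theorem coe_res {f : End F V} {U : Submodule F V} (h : U.map f ≤ U) (x : U) :
    (res f h x : V) = f x := rfl

theorem coe_aeval_res {f : End F V} {U : Submodule F V} (h : U.map f ≤ U) (s : F[X]) (x : U) :
    (aeval (res f h) s x : V) = aeval f s x :=
  aeval_intertwine U.subtype (fun _ => rfl) s x

theorem aeval_res {f : End F V} {U : Submodule F V} (h : U.map f ≤ U) {s : F[X]}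
    (hs : aeval f s = 0) : aeval (res f h) s = 0 :=
  LinearMap.ext fun x => Subtype.ext (by rw [coe_aeval_res, hs]; rfl)

theorem coe_pow_res {f : End F V} {U : Submodule F V} (h : U.map f ≤ U) (k : ℕ) (x : U) :
    ((res f h ^ k) x : V) = (f ^ k) x := by
  simpa using coe_aeval_res h (X ^ k) x

theorem res_pow_eq {f : End F V} {U : Submodule F V} (h : U.map f ≤ U) {k : ℕ} {c : F}
    (hf : f ^ k = c • 1) : res f h ^ k = c • 1 :=
  LinearMap.ext fun x => Subtype.ext (by rw [coe_pow_res, hf]; rfl)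

theorem res_nil {f : End F V} {U : Submodule F V} (h : U.map f ≤ U) (hf : IsNilpotent (f - 1)) :
    IsNilpotent (res f h - 1) := by
  obtain ⟨k, hk⟩ := hf
  refine ⟨k, ?_⟩
  have := aeval_res h (s := (X - 1) ^ k) (by simpa using hk)
  simpa using this

theorem sim_res {f : End F V} {U U' : Submodule F V} (hc : IsCompl U U') (h : U.map f ≤ U)
    (h' : U'.map f ≤ U') : Sim f ((res f h).prodMap (res f h')) :=
  Sim.symm ⟨Submodule.prodEquivOfIsCompl U U' hc, fun v => by
    simp [Submodule.coe_prodEquivOfIsCompl']⟩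

theorem map_inv_of_intertwine {f : End F V} {g : End F W} (e : V →ₗ[F] W)
    (he : ∀ v, e (f v) = g (e v)) {U : Submodule F V} (h : U.map f ≤ U) :
    (U.map e).map g ≤ U.map e := by
  rw [inv_iff]
  rintro _ ⟨x, hx, rfl⟩
  exact ⟨f x, inv_iff.1 h x hx, he x⟩

theorem map_map_of_intertwine {f : End F V} {g : End F W} (e : V →ₗ[F] W)
    (he : ∀ v, e (f v) = g (e v)) (U : Submodule F V) :
    (U.map e).map g = (U.map f).map e := by
  rw [← Submodule.map_comp, ← Submodule.map_comp]
  congr 1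
  exact LinearMap.ext fun v => (he v).symm

/-- an invariant decomposition with first summand of dimension `m` -/
def Dec (f : End F V) (m : ℕ) : Prop :=
  ∃ U U' : Submodule F V, IsCompl U U' ∧ finrank F U = m ∧ U.map f ≤ U ∧ U'.map f ≤ U'

theorem Dec.sim {f : End F V} {g : End F W} {m : ℕ} (hd : Dec f m) (h : Sim f g) : Dec g m := by
  obtain ⟨e, he⟩ := h
  obtain ⟨U, U', hc, hm, h1, h2⟩ := hd
  exact ⟨U.map e.toLinearMap, U'.map e.toLinearMap,
    (Submodule.orderIsoMapComap e).isCompl hc, by rw [LinearEquiv.finrank_map_eq, hm],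
    map_inv_of_intertwine _ he h1, map_inv_of_intertwine _ he h2⟩

theorem dec_prodMap (f : End F V) (g : End F W) :
    Dec (f.prodMap g : End F (V × W)) (finrank F V) := by
  refine ⟨LinearMap.range (LinearMap.inl F V W), LinearMap.range (LinearMap.inr F V W),
    LinearMap.isCompl_range_inl_inr, LinearMap.finrank_range_of_inj LinearMap.inl_injective,
    ?_, ?_⟩
  · rw [inv_iff]; rintro _ ⟨x, rfl⟩; exact ⟨f x, by simp⟩
  · rw [inv_iff]; rintro _ ⟨x, rfl⟩; exact ⟨g x, by simp⟩

theorem exists_compl [FiniteDimensional F V] {f : End F V} {s : F[X]} (hs : Squarefree s)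
    (hf : aeval f s = 0) {U : Submodule F V} (h : U.map f ≤ U) :
    ∃ U', IsCompl U U' ∧ U'.map f ≤ U' := by
  obtain ⟨U', h1, h2⟩ := End.isSemisimple_iff.1 (End.isSemisimple_of_squarefree_aeval_eq_zero hs hf)
    U ((End.mem_invtSubmodule f).2 (Submodule.map_le_iff_le_comap.1 h))
  exact ⟨U', h2, Submodule.map_le_iff_le_comap.2 ((End.mem_invtSubmodule f).1 h1)⟩

theorem aeval_prodMap (f : End F V) (g : End F W) (s : F[X]) :
    aeval (f.prodMap g : End F (V × W)) s = (aeval f s).prodMap (aeval g s) := by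
  refine LinearMap.ext fun v => Prod.ext ?_ ?_
  · exact aeval_intertwine (LinearMap.fst F V W) (fun _ => rfl) s v
  · exact aeval_intertwine (LinearMap.snd F V W) (fun _ => rfl) s v

theorem aeval_prodMap_eq_zero {f : End F V} {g : End F W} {s : F[X]} (hf : aeval f s = 0)
    (hg : aeval g s = 0) : aeval (f.prodMap g : End F (V × W)) s = 0 := by
  rw [aeval_prodMap, hf, hg]; rfl

theorem Sim.aeval_eq_zero {f : End F V} {g : End F W} (h : Sim f g) {s : F[X]}
    (hg : aeval g s = 0) : aeval f s = 0 := (h.aeval s).zero_iff.2 hg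

variable [FiniteDimensional F V] [FiniteDimensional F W]
  (L : Type*) [Field L] [IsAlgClosed L] [Algebra F L]

/-- stability under the Frobenius map -/
def St (q : ℕ) {L : Type*} [Field L] (M : Multiset L) : Prop := M.map (· ^ q) = M

variable {L} in
omit [IsAlgClosed L] in
theorem St.add {q : ℕ} {M N : Multiset L} (hM : St q M) (hN : St q N) : St q (M + N) := by
  unfold St at *; rw [Multiset.map_add, hM, hN]

variable {L} in
omit [IsAlgClosed L] in
theorem St.cancel {q : ℕ} {M N : Multiset L} (hM : St q M) (hN : St q (M + N)) : St q N := by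
  unfold St at *; rw [Multiset.map_add, hM] at hN; exact add_left_cancel hN

variable {L} in
omit [IsAlgClosed L] in
theorem St.nsmul {q : ℕ} {M : Multiset L} (hM : St q M) (k : ℕ) : St q (k • M) := by
  unfold St at *; rw [Multiset.map_nsmul, hM]

variable {L} in
omit [IsAlgClosed L] in
theorem St.zero {q : ℕ} : St q (0 : Multiset L) := rfl

variable {L} in
omit [IsAlgClosed L] in
theorem St.of_fix {q : ℕ} {M : Multiset L} (h : ∀ z ∈ M, z ^ q = z) : St q M := by
  unfold St; conv_rhs => rw [← Multiset.map_id M]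
  exact Multiset.map_congr rfl h

theorem st_ev [Fintype F] (f : End F V) : St (Fintype.card F) (ev L f) := ev_frob L f

omit [IsAlgClosed L] in
theorem ev_res {f : End F V} {U U' : Submodule F V} (hc : IsCompl U U') (h : U.map f ≤ U)
    (h' : U'.map f ≤ U') : ev L f = ev L (res f h) + ev L (res f h') := by
  rw [(sim_res hc h h').ev L, ev_prodMap]

theorem exists_end_ev [Fintype F] (M : Multiset L) (hM : St (Fintype.card F) M) {s : F[X]}
    (hs : ∀ z ∈ M, aeval z s = 0) :
    ∃ g : End F (Fin M.card → F), aeval g s = 0 ∧ ev L g = M := by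
  obtain ⟨A, hA, hA'⟩ := exists_of_multiset L M hM hs (ι := Fin M.card) (by simp)
  exact ⟨Matrix.toLin' A, by rw [← toLin'_aeval, hA, map_zero], hA'⟩

theorem sim_of_ev_add [Fintype F] {f : End F V} {s : F[X]} (hs : Squarefree s)
    (hf : aeval f s = 0) {M N : Multiset L} (h : ev L f = M + N) (hM : St (Fintype.card F) M) :
    ∃ (g : End F (Fin M.card → F)) (k : End F (Fin N.card → F)), aeval g s = 0 ∧ aeval k s = 0 ∧
      ev L g = M ∧ ev L k = N ∧ Sim f (g.prodMap k) := by
  obtain ⟨g, hg, hg'⟩ := exists_end_ev L M hM (s := s) fun z hz =>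
    aeval_eq_zero_of_mem_ev L hf (by rw [h]; exact Multiset.mem_add.2 (Or.inl hz))
  obtain ⟨k, hk, hk'⟩ := exists_end_ev L N (hM.cancel (h ▸ st_ev L f)) (s := s) fun z hz =>
    aeval_eq_zero_of_mem_ev L hf (by rw [h]; exact Multiset.mem_add.2 (Or.inr hz))
  exact ⟨g, k, hg, hk, hg', hk', sim_of_ev L hs hs hf (aeval_prodMap_eq_zero hg hk)
    (by rw [ev_prodMap, hg', hk', h])⟩

theorem dec_iff_ev [Fintype F] {f : End F V} {s : F[X]} (hs : Squarefree s)
    (hf : aeval f s = 0) (m : ℕ) :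
    Dec f m ↔ ∃ M ≤ ev L f, St (Fintype.card F) M ∧ M.card = m := by
  constructor
  · rintro ⟨U, U', hc, hm, h1, h2⟩
    exact ⟨ev L (res f h1), by rw [ev_res L hc h1 h2]; exact Multiset.le_add_right _ _,
      st_ev L _, by rw [card_ev, hm]⟩
  · rintro ⟨M, hM, hst, rfl⟩
    obtain ⟨N, hN⟩ := Multiset.le_iff_exists_add.1 hM
    obtain ⟨g, k, -, -, -, -, h⟩ := sim_of_ev_add L hs hf hN hst
    simpa using (dec_prodMap g k).sim h.symm

theorem inv_iff_dec {f : End F V} {s : F[X]} (hs : Squarefree s) (hf : aeval f s = 0) (m : ℕ) :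
    (∃ U : Submodule F V, finrank F U = m ∧ U.map f ≤ U) ↔ Dec f m := by
  constructor
  · rintro ⟨U, hm, h⟩
    obtain ⟨U', h1, h2⟩ := exists_compl hs hf h
    exact ⟨U, U', h1, hm, h, h2⟩
  · rintro ⟨U, U', -, hm, h1, -⟩
    exact ⟨U, hm, h1⟩

theorem flag_iff_ev [Fintype F] {f : End F V} {s : F[X]} (hs : Squarefree s)
    (hf : aeval f s = 0) (m k : ℕ) :
    (∃ U U' : Submodule F V, U ≤ U' ∧ finrank F U = m ∧ finrank F U' = k ∧ U.map f ≤ U ∧
      U'.map f ≤ U') ↔ ∃ M M', M ≤ M' ∧ M' ≤ ev L f ∧ St (Fintype.card F) M ∧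
        St (Fintype.card F) M' ∧ M.card = m ∧ M'.card = k := by
  constructor
  · rintro ⟨U, U', hle, hm, hk, h1, h2⟩
    obtain ⟨U'', hc, h3⟩ := exists_compl hs hf h2
    obtain ⟨M, hM, hst, hcard⟩ := (dec_iff_ev L hs (aeval_res h2 hf) m).1
      ((inv_iff_dec hs (aeval_res h2 hf) m).1 ⟨U.comap U'.subtype, by
        rw [(Submodule.comapSubtypeEquivOfLe hle).finrank_eq, hm],
        inv_iff.2 fun x hx => inv_iff.1 h1 _ hx⟩)
    exact ⟨M, _, hM, by rw [ev_res L hc h2 h3]; exact Multiset.le_add_right _ _, hst, st_ev L _,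
      hcard, by rw [card_ev, hk]⟩
  · rintro ⟨M, M', hle, hM', hst, hst', rfl, rfl⟩
    obtain ⟨N, hN⟩ := Multiset.le_iff_exists_add.1 hM'
    obtain ⟨g, k, hg, -, hg', -, h⟩ := sim_of_ev_add L hs hf hN hst'
    obtain ⟨U, hU, hU'⟩ := (inv_iff_dec hs hg M.card).2 ((dec_iff_ev L hs hg _).2
      ⟨M, by rw [hg']; exact hle, hst, rfl⟩)
    obtain ⟨e, he⟩ := h.symm
    let j := e.toLinearMap ∘ₗ LinearMap.inl F (Fin M'.card → F) (Fin N.card → F)
    have hj : Function.Injective j := e.injective.comp LinearMap.inl_injective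
    have hj' : ∀ v, j (g v) = f (j v) := fun v => by
      simp only [j, LinearMap.comp_apply, LinearEquiv.coe_coe, ← he]; simp
    refine ⟨U.map j, (⊤ : Submodule F _).map j, Submodule.map_mono le_top, ?_, ?_,
      map_inv_of_intertwine j hj' hU', map_inv_of_intertwine j hj' le_top⟩
    · rw [← (Submodule.equivMapOfInjective j hj U).finrank_eq, hU]
    · rw [← (Submodule.equivMapOfInjective j hj ⊤).finrank_eq]; simp

theorem exists_unip (F : Type*) [Field F] (ν : Multiset ℕ) (h : ∀ a ∈ ν, 0 < a) :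
    ∃ g : End F (Fin ν.sum → F), IsNilpotent (g - 1) ∧ jt (g - 1) = ν := by
  obtain ⟨g, h1, h2⟩ := exists_unipotent F (ι := Fin ν.sum) h (by simp)
  exact ⟨_, h1, h2⟩

omit [FiniteDimensional F V] [FiniteDimensional F W] in
theorem prodMap_sub_one (f : End F V) (g : End F W) :
    (f.prodMap g : End F (V × W)) - 1 = (f - 1).prodMap (g - 1) := by
  ext <;> simp

theorem jt_res {f : End F V} (hf : IsNilpotent (f - 1)) {U U' : Submodule F V} (hc : IsCompl U U')
    (h : U.map f ≤ U) (h' : U'.map f ≤ U') :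
    jt (f - 1) = jt (res f h - 1) + jt (res f h' - 1) := by
  rw [← jt_prodMap (res_nil h hf) (res_nil h' hf), ← prodMap_sub_one]
  exact (sim_iff_jt hf (by
    rw [prodMap_sub_one]; exact isNilpotent_prodMap (res_nil h hf) (res_nil h' hf))).1
    (sim_res hc h h').sub_one

theorem sim_of_jt_add {f : End F V} (hf : IsNilpotent (f - 1)) {μ ν : Multiset ℕ}
    (h : jt (f - 1) = μ + ν) :
    ∃ (g : End F (Fin μ.sum → F)) (k : End F (Fin ν.sum → F)), IsNilpotent (g - 1) ∧
      IsNilpotent (k - 1) ∧ jt (g - 1) = μ ∧ jt (k - 1) = ν ∧ Sim f (g.prodMap k) := by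
  obtain ⟨g, hg, hg'⟩ := exists_unip F μ fun a ha =>
    jt_pos hf a (by rw [h]; exact Multiset.mem_add.2 (Or.inl ha))
  obtain ⟨k, hk, hk'⟩ := exists_unip F ν fun a ha =>
    jt_pos hf a (by rw [h]; exact Multiset.mem_add.2 (Or.inr ha))
  refine ⟨g, k, hg, hk, hg', hk', sim_sub_one_iff.1 ((sim_iff_jt hf ?_).2 ?_)⟩
  · rw [prodMap_sub_one]; exact isNilpotent_prodMap hg hk
  · rw [prodMap_sub_one, jt_prodMap hg hk, hg', hk', h]

theorem dec_iff_jt {f : End F V} (hf : IsNilpotent (f - 1)) (m : ℕ) :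
    Dec f m ↔ ∃ ν ≤ jt (f - 1), ν.sum = m := by
  constructor
  · rintro ⟨U, U', hc, hm, h1, h2⟩
    exact ⟨jt (res f h1 - 1), by rw [jt_res hf hc h1 h2]; exact Multiset.le_add_right _ _,
      by rw [sum_jt (res_nil h1 hf), hm]⟩
  · rintro ⟨M, hM, rfl⟩
    obtain ⟨N, hN⟩ := Multiset.le_iff_exists_add.1 hM
    obtain ⟨g, k, -, -, -, -, h⟩ := sim_of_jt_add hf hN
    simpa using (dec_prodMap g k).sim h.symm

end Cfsg.Agent.Elu
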