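import Mathlib
import Cfsg.Agent.Classical.SpSum

/-!
Counting subspaces, frames and decompositions.
-/

set_option autoImplicit false
set_option backward.isDefEq.respectTransparency false

namespace Cfsg.Agent.Elu

open Module
open scoped _root_.Classical Pointwise

theorem card_of_fib {α β : Type*} [Finite β] (π : α → β) (c : ℕ)
    (h : ∀ b, Nat.card {a // π a = b} = c) [Finite α] : Nat.card α = Nat.card β * c := by
  letI := Fintype.ofFinite β
  rw [← Nat.card_congr (Equiv.sigmaFiberEquiv π), Nat.card_sigma]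
  simp [h]

theorem card_mul_stab {G X : Type*} [Group G] [MulAction G X] (P : X → Prop) {x : X} (hx : P x)
    (h : ∀ y, P y → ∃ g : G, g • x = y) (h' : ∀ (g : G) y, P y → P (g • y)) :
    Nat.card {x // P x} * Nat.card (MulAction.stabilizer G x) = Nat.card G := by
  rw [← Nat.card_prod, ← Nat.card_congr (MulAction.orbitProdStabilizerEquivGroup G x),
    Nat.card_prod, Nat.card_prod]
  congr 1
  exact Nat.card_congr (Equiv.subtypeEquivRight fun y =>
    ⟨fun hy => h y hy, by rintro ⟨g, rfl⟩; exact h' g x hx⟩)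

theorem card_dvd_of_trans {G X : Type*} [Group G] [MulAction G X] (P : X → Prop) {x : X} (hx : P x)
    (h : ∀ y, P y → ∃ g : G, g • x = y) (h' : ∀ (g : G) y, P y → P (g • y)) :
    Nat.card {x // P x} ∣ Nat.card G := Dvd.intro _ (card_mul_stab P hx h h')

theorem card_mul_dvd {G X H : Type*} [Group G] [Group H] [MulAction G X] (P : X → Prop) {x : X}
    (hx : P x) (h : ∀ y, P y → ∃ g : G, g • x = y) (h' : ∀ (g : G) y, P y → P (g • y))
    (φ : H →* G) (hφ : Function.Injective φ) (hf : ∀ k, φ k • x = x) :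
    Nat.card {x // P x} * Nat.card H ∣ Nat.card G := by
  rw [← card_mul_stab P hx h h']
  refine Nat.mul_dvd_mul_left _ ?_
  exact Subgroup.card_dvd_of_injective (φ.codRestrict _ hf) fun a b e => hφ (congrArg Subtype.val e)

theorem card_dvd_of_free {G X : Type*} [Group G] [MulAction G X] (P : X → Prop)
    (h' : ∀ (g : G) y, P y → P (g • y)) (hf : ∀ (g : G) y, P y → g • y = y → g = 1) :
    Nat.card G ∣ Nat.card {x // P x} := by
  letI : MulAction G {x // P x} :=
    { smul := fun g x => ⟨g • x.1, h' g _ x.2⟩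
      one_smul := fun x => Subtype.ext (one_smul G x.1)
      mul_smul := fun g h x => Subtype.ext (mul_smul g h x.1) }
  have := Nat.card_congr (MulAction.selfEquivOrbitsQuotientProd (G := G) (X := {x // P x})
    fun b => eq_bot_iff.2 fun g hg => hf g b.1 b.2 (congrArg Subtype.val hg))
  rw [this, Nat.card_prod]
  exact Dvd.intro_left _ rfl

/-- permuting an injective family -/
theorem factorial_dvd {X : Type*} {t : ℕ} (P : (Fin t → X) → Prop)
    (h : ∀ (σ : Equiv.Perm (Fin t)) D, P D → P (D ∘ σ)) (hi : ∀ D, P D → Function.Injective D) :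
    t.factorial ∣ Nat.card {D // P D} := by
  letI : MulAction (Equiv.Perm (Fin t)) (Fin t → X) :=
    { smul := fun g D => D ∘ g.symm
      one_smul := fun _ => rfl
      mul_smul := fun _ _ _ => rfl }
  have := card_dvd_of_free (G := Equiv.Perm (Fin t)) P (fun g D hD => h g.symm D hD)
    fun g D hD e => by
      have : g.symm = Equiv.refl _ := Equiv.ext fun j => hi D hD (congrFun e j)
      rw [← g.symm_symm, this]; rfl
  rwa [Nat.card_perm, Nat.card_eq_fintype_card, Fintype.card_fin] at this

theorem dvd_of_dvd_div {r a b : ℕ} (h : b ∣ a) (hr : r ∣ a / b) : r ∣ a :=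
  hr.trans (Nat.div_dvd_of_dvd h)

variable {F : Type*} [Field F] [Fintype F] {V : Type*} [AddCommGroup V] [Module F V]
  [FiniteDimensional F V]

theorem card_frames_span (W : Submodule F V) {m : ℕ} (hW : finrank F W = m) :
    Nat.card {s : Fin m → V // LinearIndependent F s ∧ Submodule.span F (Set.range s) = W} =
      ∏ j ∈ Finset.range m, (Fintype.card F ^ m - Fintype.card F ^ j) := by
  haveI : Finite W := Module.finite_of_finite F
  have := card_linearIndependent (K := F) (V := W) (k := m) hW.ge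
  rw [hW, Fin.prod_univ_eq_prod_range (fun j => Fintype.card F ^ m - Fintype.card F ^ j)] at this
  rw [← this]
  symm
  refine Nat.card_congr (Equiv.ofBijective (fun s => ⟨W.subtype ∘ s.1,
    s.2.map' _ (Submodule.ker_subtype W), ?_⟩) ⟨fun s t e => ?_, ?_⟩)
  · apply Submodule.eq_of_le_of_finrank_eq
    · rw [Submodule.span_le]; rintro _ ⟨i, rfl⟩; exact (s.1 i).2
    · rw [finrank_span_eq_card (s.2.map' _ (Submodule.ker_subtype W)), hW, Fintype.card_fin]
  · exact Subtype.ext (funext fun i => Subtype.ext (congrFun (congrArg Subtype.val e) i))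
  · rintro ⟨s, h1, h2⟩
    exact ⟨⟨fun i => ⟨s i, h2 ▸ Submodule.subset_span ⟨i, rfl⟩⟩,
      LinearIndependent.of_comp W.subtype h1⟩, rfl⟩

theorem card_frames (P : Submodule F V → Prop) (hP : ∀ U W, U ≤ W → P W → P U) (h0 : P ⊥)
    (N : ℕ → ℕ) (m : ℕ) (hN : ∀ j < m, ∀ W : Submodule F V, finrank F W = j → P W →
      Nat.card {v // v ∉ W ∧ P (W ⊔ Submodule.span F {v})} = N j) :
    Nat.card {W : Submodule F V // finrank F W = m ∧ P W} *
      ∏ j ∈ Finset.range m, (Fintype.card F ^ m - Fintype.card F ^ j) =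
      ∏ j ∈ Finset.range m, N j := by
  haveI : Finite V := Module.finite_of_finite F
  have key : ∀ k ≤ m, Nat.card {s : Fin k → V // LinearIndependent F s ∧
      P (Submodule.span F (Set.range s))} = ∏ j ∈ Finset.range k, N j := by
    intro k
    induction k with
    | zero =>
      intro _
      rw [Finset.prod_range_zero, Nat.card_eq_one_iff_unique]
      exact ⟨⟨fun a b => Subtype.ext (Subsingleton.elim _ _)⟩,
        ⟨⟨0, linearIndependent_empty_type, by simpa using h0⟩⟩⟩
    | succ k ih =>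
      intro hk
      rw [Finset.prod_range_succ, ← ih (by omega)]
      have hsp : ∀ s : Fin (k + 1) → V, Submodule.span F (Set.range s) =
          Submodule.span F (Set.range (Fin.tail s)) ⊔ Submodule.span F {s 0} := fun s => by
        rw [Fin.range_fin_succ, Submodule.span_insert, sup_comm]
      refine card_of_fib (fun s => ⟨Fin.tail s.1, (linearIndependent_finSucc.1 s.2.1).1,
        hP _ _ (by rw [hsp]; exact le_sup_left) s.2.2⟩) _ fun t => ?_
      rw [← hN k hk _ (by rw [finrank_span_eq_card t.2.1, Fintype.card_fin]) t.2.2]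
      symm
      refine Nat.card_congr (Equiv.ofBijective (fun v => ⟨⟨Fin.cons v.1 t.1,
        linearIndependent_finCons.2 ⟨t.2.1, v.2.1⟩, by rw [hsp]; exact v.2.2⟩, rfl⟩)
        ⟨fun v w e => ?_, ?_⟩)
      · exact Subtype.ext (congrFun (congrArg (fun x => x.1.1) e) 0)
      · rintro ⟨⟨s, h1, h2⟩, rfl⟩
        exact ⟨⟨s 0, (linearIndependent_finSucc.1 h1).2, by rw [← hsp]; exact h2⟩,
          Subtype.ext (Subtype.ext (Fin.cons_self_tail s))⟩
  rw [← key m le_rfl]
  symm
  refine card_of_fib (fun s => ⟨Submodule.span F (Set.range s.1),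
    by rw [finrank_span_eq_card s.2.1, Fintype.card_fin], s.2.2⟩) _ fun W => ?_
  rw [← card_frames_span W.1 W.2.1]
  exact Nat.card_congr
    { toFun := fun s => ⟨s.1.1, s.1.2.1, congrArg Subtype.val s.2⟩
      invFun := fun s => ⟨⟨s.1, s.2.1, by rw [s.2.2]; exact W.2.2⟩, Subtype.ext s.2.2⟩
      left_inv := fun _ => rfl
      right_inv := fun _ => rfl }

theorem card_sub (W : Submodule F V) : Nat.card W = Fintype.card F ^ finrank F W := by
  rw [Module.natCard_eq_pow_finrank (K := F), Nat.card_eq_fintype_card]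

theorem card_diff {U W : Submodule F V} (h : U ≤ W) :
    Nat.card {v // v ∉ U ∧ v ∈ W} = Fintype.card F ^ finrank F W - Fintype.card F ^ finrank F U := by
  haveI : Finite V := Module.finite_of_finite F
  rw [← card_sub, ← card_sub]
  have := Set.ncard_diff (s := (U : Set V)) (t := (W : Set V)) h
  rw [← Nat.card_coe_set_eq, ← Nat.card_coe_set_eq, ← Nat.card_coe_set_eq] at this
  rw [← show _ = Nat.card W - Nat.card U from this]
  exact Nat.card_congr (Equiv.subtypeEquivRight fun v => and_comm)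

theorem prod_pow_sub {q : ℕ} (hq : 0 < q) (n m : ℕ) (h : m ≤ n) :
    ∏ j ∈ Finset.range m, (q ^ n - q ^ j) =
      (∏ j ∈ Finset.range m, q ^ j) * ∏ j ∈ Finset.range m, (q ^ (n - j) - 1) := by
  rw [← Finset.prod_mul_distrib]
  refine Finset.prod_congr rfl fun j hj => ?_
  have := Finset.mem_range.1 hj
  rw [Nat.mul_sub, ← pow_add, mul_one, Nat.add_sub_cancel' (by omega)]

/-- the number of `m`-subspaces inside `T` -/
theorem card_gr (T : Submodule F V) {m n : ℕ} (hn : finrank F T = n) (h : m ≤ n) :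
    Nat.card {W : Submodule F V // finrank F W = m ∧ W ≤ T} *
      ∏ j ∈ Finset.range m, (Fintype.card F ^ (m - j) - 1) =
      ∏ j ∈ Finset.range m, (Fintype.card F ^ (n - j) - 1) := by
  have := card_frames (fun W => W ≤ T) (fun _ _ => le_trans) bot_le
    (fun j => Fintype.card F ^ n - Fintype.card F ^ j) m fun j _ W hW hT => by
      rw [← hn, ← hW, ← card_diff hT]
      exact Nat.card_congr (Equiv.subtypeEquivRight fun v => by simp [hT])
  rw [prod_pow_sub Fintype.card_pos _ _ le_rfl, prod_pow_sub Fintype.card_pos _ _ h,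
    mul_left_comm] at this
  exact Nat.eq_of_mul_eq_mul_left (Finset.prod_pos fun j _ => pow_pos Fintype.card_pos _) this

theorem gr_dvd (T : Submodule F V) {m n : ℕ} (hn : finrank F T = n) (h : m ≤ n) :
    Nat.card {W : Submodule F V // finrank F W = m ∧ W ≤ T} ∣
      ∏ j ∈ Finset.range m, (Fintype.card F ^ (n - j) - 1) := Dvd.intro _ (card_gr T hn h)

theorem card_compl (U : Submodule F V) : Nat.card {W // IsCompl U W} =
    Fintype.card F ^ ((finrank F V - finrank F U) * finrank F U) := by
  obtain ⟨U', hc⟩ := U.exists_isCompl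
  have h1 := Submodule.finrank_add_eq_of_isCompl hc
  rw [Nat.card_congr U.isComplEquivProj, show finrank F V - finrank F U = finrank F U' by omega,
    ← Module.finrank_linearMap F F, ← Nat.card_eq_fintype_card,
    ← Module.natCard_eq_pow_finrank]
  exact Nat.card_congr
    { toFun := fun f => f.1 ∘ₗ U'.subtype
      invFun := fun g => ⟨LinearMap.ofIsCompl hc LinearMap.id g, fun x => by simp⟩
      left_inv := fun f => Subtype.ext (LinearMap.ofIsCompl_eq hc (fun x => (f.2 x).symm)
        fun _ => rfl)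
      right_inv := fun g => LinearMap.ext fun x => by simp }

theorem dvd_pow_sub_one_iff {r q j : ℕ} (hq : 0 < q) : r ∣ q ^ j - 1 ↔ orderOf (q : ZMod r) ∣ j := by
  rw [orderOf_dvd_iff_pow_eq_one, ← ZMod.natCast_eq_zero_iff,
    Nat.cast_sub (Nat.one_le_pow _ _ hq), sub_eq_zero]
  simp

theorem exists_of_dvd_prod {r q m : ℕ} (hr : r.Prime) (hq : 0 < q) (e : ℕ → ℕ)
    (h : r ∣ ∏ j ∈ Finset.range m, (q ^ e j - 1)) : ∃ j < m, orderOf (q : ZMod r) ∣ e j := by
  obtain ⟨j, hj, h⟩ := (Prime.dvd_finset_prod_iff hr.prime _).1 h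
  exact ⟨j, Finset.mem_range.1 hj, (dvd_pow_sub_one_iff hq).1 h⟩

theorem card_zmod_char {p : ℕ} [hp : Fact p.Prime] [CharP F p] : (Fintype.card F : ZMod p) = 0 := by
  obtain ⟨n, -, h⟩ := FiniteField.card F p
  rw [h]; simp

theorem orderOf_char {p : ℕ} [hp : Fact p.Prime] [CharP F p] :
    orderOf (Fintype.card F : ZMod p) = 0 := by
  rw [card_zmod_char, orderOf_eq_zero_iff']
  intro n hn
  simp [hn.ne']

theorem orderOf_pos_of_ne {p r : ℕ} [hp : Fact p.Prime] [CharP F p] [hr : Fact r.Prime]
    (h : r ≠ p) : 0 < orderOf (Fintype.card F : ZMod r) := by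
  have h0 : (Fintype.card F : ZMod r) ≠ 0 := by
    obtain ⟨n, -, h'⟩ := FiniteField.card F p
    rw [h', Ne, ZMod.natCast_eq_zero_iff]
    exact fun e => h ((Nat.prime_dvd_prime_iff_eq hr.out hp.out).1 (hr.out.dvd_of_dvd_pow e))
  exact (isOfFinOrder_iff_pow_eq_one.2 ⟨r - 1, by have := hr.out.two_le; omega,
    ZMod.pow_card_sub_one_eq_one h0⟩).orderOf_pos

theorem not_dvd_pow_card {p r : ℕ} [hp : Fact p.Prime] [CharP F p] [hr : Fact r.Prime]
    (h : r ≠ p) (k : ℕ) : ¬ r ∣ Fintype.card F ^ k := by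
  obtain ⟨n, -, h'⟩ := FiniteField.card F p
  rw [h', ← pow_mul]
  exact fun e => h ((Nat.prime_dvd_prime_iff_eq hr.out hp.out).1 (hr.out.dvd_of_dvd_pow e))

theorem orderOf_le_of_dvd_GL {p r : ℕ} [hp : Fact p.Prime] [CharP F p] [hr : Fact r.Prime]
    (h : r ≠ p) (hd : r ∣ Nat.card (V ≃ₗ[F] V)) :
    orderOf (Fintype.card F : ZMod r) ≤ finrank F V := by
  rw [Classical.SpSum.card_linearEquiv rfl, Nat.card_eq_fintype_card,
    Fin.prod_univ_eq_prod_range (fun j => Fintype.card F ^ finrank F V - Fintype.card F ^ j),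
    prod_pow_sub Fintype.card_pos _ _ le_rfl, hr.out.dvd_mul, Finset.prod_pow_eq_pow_sum] at hd
  obtain ⟨j, hj, hd⟩ := exists_of_dvd_prod hr.out Fintype.card_pos _
    (hd.resolve_left (not_dvd_pow_card h _))
  have := Nat.le_of_dvd (by omega) hd
  omega

end Cfsg.Agent.Elu
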