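import Mathlib
import Cfsg.Agent.Elu.Basic
import Cfsg.Agent.Elu.Cnt

/-!
Frobenius-stable multisets of roots of `X ^ r - c`.
-/

set_option autoImplicit false
set_option backward.isDefEq.respectTransparency false

namespace Cfsg.Agent.Elu

open Module Polynomial Conj Spc
open scoped _root_.Classical

theorem atoms {α : Type*} (P : Multiset α → Prop) (h0 : P 0)
    (hadd : ∀ M N, P M → P N → P (M + N)) (hcan : ∀ M N, P M → P (M + N) → P N) {d : ℕ}
    (hd : 0 < d) (Q : α → Prop)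
    (hat : ∀ M, P M → ∀ z ∈ M, Q z → ∃ O ≤ M, P O ∧ O.card = d) (M : Multiset α) (hM : P M)
    (hQ : ∀ z ∈ M, Q z) : ∃ s, M.card = d * s ∧ ∀ j ≤ s, ∃ M' ≤ M, P M' ∧ M'.card = d * j := by
  induction hn : M.card using Nat.strong_induction_on generalizing M with
  | _ n ih =>
    by_cases h : M = 0
    · subst h
      exact ⟨0, by simpa using hn.symm, fun j hj => ⟨0, le_rfl, h0, by simp [Nat.le_zero.1 hj]⟩⟩
    obtain ⟨z, hz⟩ := Multiset.exists_mem_of_ne_zero h
    obtain ⟨O, hO, hPO, hc⟩ := hat M hM z hz (hQ z hz)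
    obtain ⟨N, rfl⟩ := Multiset.le_iff_exists_add.1 hO
    rw [Multiset.card_add, hc] at hn
    obtain ⟨s, hs, hs'⟩ := ih N.card (by omega) N (hcan _ _ hPO hM)
      (fun w hw => hQ w (Multiset.mem_add.2 (Or.inr hw))) rfl
    refine ⟨s + 1, by rw [← hn, hs]; ring, fun j hj => ?_⟩
    rcases j with _ | j
    · exact ⟨0, zero_le, h0, by simp⟩
    · obtain ⟨M', h1, h2, h3⟩ := hs' j (by omega)
      exact ⟨O + M', add_le_add le_rfl h1, hadd _ _ hPO h2, by rw [Multiset.card_add, hc, h3]; ring⟩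

section
variable {L : Type*} [Field L] {q : ℕ}

/-- `z` has period `d` under the Frobenius map -/
def Per (q : ℕ) (z : L) (d : ℕ) : Prop := ∀ j, z ^ q ^ j = z ↔ d ∣ j

/-- the number of fixed points -/
noncomputable def fx (q : ℕ) (M : Multiset L) : ℕ := (M.filter fun z => z ^ q = z).card

/-- the number of moved points -/
noncomputable def nf (q : ℕ) (M : Multiset L) : ℕ := (M.filter fun z => ¬ z ^ q = z).card

theorem fx_add_nf (M : Multiset L) : fx q M + nf q M = M.card := by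
  rw [fx, nf, ← Multiset.card_add, Multiset.filter_add_not]

theorem fx_add (M N : Multiset L) : fx q (M + N) = fx q M + fx q N := by
  simp [fx]

theorem nf_add (M N : Multiset L) : nf q (M + N) = nf q M + nf q N := by
  simp [nf]

theorem fx_nsmul (M : Multiset L) (k : ℕ) : fx q (k • M) = k * fx q M := by
  simp [fx, Multiset.filter_nsmul]

theorem nf_nsmul (M : Multiset L) (k : ℕ) : nf q (k • M) = k * nf q M := by
  simp [nf, Multiset.filter_nsmul]

theorem fx_mono {M N : Multiset L} (h : M ≤ N) : fx q M ≤ fx q N :=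
  Multiset.card_le_card (Multiset.filter_le_filter _ h)

theorem nf_mono {M N : Multiset L} (h : M ≤ N) : nf q M ≤ nf q N :=
  Multiset.card_le_card (Multiset.filter_le_filter _ h)

theorem nf_eq_zero {M : Multiset L} : nf q M = 0 ↔ ∀ z ∈ M, z ^ q = z := by
  simp [nf, Multiset.filter_eq_nil]

theorem fx_eq_zero {M : Multiset L} : fx q M = 0 ↔ ∀ z ∈ M, z ^ q ≠ z := by
  simp [fx, Multiset.filter_eq_nil]

theorem fx_of_fix {M : Multiset L} (h : ∀ z ∈ M, z ^ q = z) : fx q M = M.card := by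
  have := fx_add_nf (q := q) M; rw [nf_eq_zero.2 h] at this; exact this

theorem nf_of_move {M : Multiset L} (h : ∀ z ∈ M, z ^ q ≠ z) : nf q M = M.card := by
  have := fx_add_nf (q := q) M; rw [fx_eq_zero.2 h, zero_add] at this; exact this

theorem St.filter_fix (M : Multiset L) : St q (M.filter fun z => z ^ q = z) :=
  St.of_fix fun _ hz => (Multiset.mem_filter.1 hz).2

theorem St.filter_move {M : Multiset L} (h : St q M) : St q (M.filter fun z => ¬ z ^ q = z) :=
  (St.filter_fix M).cancel (by rwa [Multiset.filter_add_not])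

theorem st_orb {z : L} {d : ℕ} (h : z ^ q ^ d = z) : St q (orb (· ^ q) z d) :=
  orb_stab (by rw [iterate_pow, h])

theorem mem_orb_pow {z w : L} {d : ℕ} : w ∈ orb (· ^ q) z d ↔ ∃ i < d, z ^ q ^ i = w := by
  simp only [mem_orb, iterate_pow]

theorem Per.minimalPeriod {z : L} {d : ℕ} (h : Per q z d) :
    Function.minimalPeriod (· ^ q) z = d := by
  apply Nat.dvd_antisymm
  · exact Function.IsPeriodicPt.minimalPeriod_dvd (by
      rw [Function.IsPeriodicPt, Function.IsFixedPt, iterate_pow]; exact (h d).2 dvd_rfl)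
  · have := Function.isPeriodicPt_minimalPeriod (· ^ q) z
    rw [Function.IsPeriodicPt, Function.IsFixedPt, iterate_pow] at this
    exact (h _).1 this

theorem Per.nodup {z : L} {d : ℕ} (h : Per q z d) : (orb (· ^ q) z d).Nodup :=
  nodup_orb h.minimalPeriod.ge

theorem St.orb_le (hq : Function.Injective fun z : L => z ^ q) {M : Multiset L} (hM : St q M)
    {z : L} {d : ℕ} (h : Per q z d) {k : ℕ} (hk : k ≤ M.count z) : k • orb (· ^ q) z d ≤ M := by
  rw [Multiset.le_iff_count]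
  intro w
  rw [Multiset.count_nsmul]
  by_cases hw : w ∈ orb (· ^ q) z d
  · rw [Multiset.count_eq_one_of_mem h.nodup hw, mul_one]
    obtain ⟨i, -, rfl⟩ := mem_orb.1 hw
    rwa [count_iterate hq hM]
  · simp [Multiset.count_eq_zero_of_notMem hw]

theorem St.per (hq : Function.Injective fun z : L => z ^ q) {M : Multiset L} (hM : St q M)
    {d : ℕ} (hd : 0 < d) (h : ∀ z ∈ M, Per q z d) :
    ∃ s, M.card = d * s ∧ ∀ j ≤ s, ∃ M' ≤ M, St q M' ∧ M'.card = d * j :=
  atoms (St q) St.zero (fun _ _ => St.add) (fun _ _ => St.cancel) hd (fun z => Per q z d)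
    (fun M hM z hz hp => ⟨orb (· ^ q) z d, by
      simpa using hM.orb_le hq hp (k := 1) (Multiset.one_le_count_iff_mem.2 hz),
      st_orb ((hp d).2 dvd_rfl), card_orb _ _ _⟩) M hM h

/-- all moved points have period `d` -/
def Ty (q d : ℕ) (M : Multiset L) : Prop := St q M ∧ ∀ z ∈ M, z ^ q ≠ z → Per q z d

theorem Ty.sub {d : ℕ} {M N : Multiset L} (h : Ty q d M) (hle : N ≤ M) (hN : St q N) : Ty q d N :=
  ⟨hN, fun z hz => h.2 z (Multiset.mem_of_le hle hz)⟩

theorem Ty.dvd (hq : Function.Injective fun z : L => z ^ q) {d : ℕ} (hd : 0 < d) {M : Multiset L}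
    (h : Ty q d M) : d ∣ nf q M := by
  obtain ⟨s, hs, -⟩ := h.1.filter_move.per hq hd fun z hz =>
    h.2 z (Multiset.mem_filter.1 hz).1 (Multiset.mem_filter.1 hz).2
  exact ⟨s, hs⟩

theorem exists_le_card {α : Type*} (M : Multiset α) {a : ℕ} (h : a ≤ M.card) :
    ∃ N ≤ M, N.card = a := by
  obtain ⟨l⟩ := M
  exact ⟨l.take a, (List.take_sublist _ _).subperm, by simpa using h⟩

theorem Ty.exists_sub (hq : Function.Injective fun z : L => z ^ q) {d : ℕ} (hd : 0 < d)
    {M : Multiset L} (h : Ty q d M) {a b : ℕ} (ha : a ≤ fx q M) (hb : d * b ≤ nf q M) :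
    ∃ N ≤ M, St q N ∧ fx q N = a ∧ nf q N = d * b := by
  obtain ⟨s, hs, hs'⟩ := h.1.filter_move.per hq hd fun z hz =>
    h.2 z (Multiset.mem_filter.1 hz).1 (Multiset.mem_filter.1 hz).2
  obtain ⟨B, hB, hB1, hB2⟩ := hs' b (by
    rw [nf, hs] at hb; exact Nat.le_of_mul_le_mul_left hb hd)
  obtain ⟨A, hA, hA'⟩ := exists_le_card _ ha
  have h1 : ∀ z ∈ A, z ^ q = z := fun z hz => (Multiset.mem_filter.1 (Multiset.mem_of_le hA hz)).2
  have h2 : ∀ z ∈ B, z ^ q ≠ z := fun z hz => (Multiset.mem_filter.1 (Multiset.mem_of_le hB hz)).2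
  refine ⟨A + B, ?_, (St.of_fix h1).add hB1, ?_, ?_⟩
  · rw [← Multiset.filter_add_not (fun z => z ^ q = z) M]; exact add_le_add hA hB
  · rw [fx_add, fx_of_fix h1, fx_eq_zero.2 h2, hA', add_zero]
  · rw [nf_add, nf_of_move h2, nf_eq_zero.2 h1, hB2, zero_add]

theorem Ty.sub_iff (hq : Function.Injective fun z : L => z ^ q) {d : ℕ} (hd : 0 < d)
    {M : Multiset L} (h : Ty q d M) (m : ℕ) : (∃ N ≤ M, St q N ∧ N.card = m) ↔
      ∃ a ≤ fx q M, ∃ b, d * b ≤ nf q M ∧ m = a + d * b := by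
  constructor
  · rintro ⟨N, h1, h2, rfl⟩
    obtain ⟨b, hb⟩ := (h.sub h1 h2).dvd hq hd
    exact ⟨_, fx_mono h1, b, hb ▸ nf_mono h1, by rw [← hb, fx_add_nf]⟩
  · rintro ⟨a, ha, b, hb, rfl⟩
    obtain ⟨N, h1, h2, h3, h4⟩ := h.exists_sub hq hd ha hb
    exact ⟨N, h1, h2, by rw [← fx_add_nf (q := q), h3, h4]⟩

theorem Ty.flag_iff (hq : Function.Injective fun z : L => z ^ q) {d : ℕ} (hd : 0 < d)
    {M : Multiset L} (h : Ty q d M) (m k : ℕ) :
    (∃ N N', N ≤ N' ∧ N' ≤ M ∧ St q N ∧ St q N' ∧ N.card = m ∧ N'.card = k) ↔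
      ∃ a a' b b', a ≤ a' ∧ a' ≤ fx q M ∧ d * b ≤ d * b' ∧ d * b' ≤ nf q M ∧ m = a + d * b ∧
        k = a' + d * b' := by
  constructor
  · rintro ⟨N, N', h0, h1, h2, h3, rfl, rfl⟩
    obtain ⟨b, hb⟩ := (h.sub (h0.trans h1) h2).dvd hq hd
    obtain ⟨b', hb'⟩ := (h.sub h1 h3).dvd hq hd
    exact ⟨_, _, b, b', fx_mono h0, fx_mono h1, hb ▸ hb' ▸ nf_mono h0, hb' ▸ nf_mono h1,
      by rw [← hb, fx_add_nf], by rw [← hb', fx_add_nf]⟩
  · rintro ⟨a, a', b, b', h1, h2, h3, h4, rfl, rfl⟩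
    obtain ⟨N', g1, g2, g3, g4⟩ := h.exists_sub hq hd h2 h4
    obtain ⟨N, f1, f2, f3, f4⟩ := (h.sub g1 g2).exists_sub hq hd (g3 ▸ h1) (g4 ▸ h3)
    exact ⟨N, N', f1, g1, f2, g2, by rw [← fx_add_nf (q := q), f3, f4],
      by rw [← fx_add_nf (q := q), g3, g4]⟩

theorem per_of_prim {ζ : L} {r : ℕ} (hζ : IsPrimitiveRoot ζ r) (hr : 0 < r) {w : L} (hw0 : w ≠ 0)
    (hw : w ^ q = w) : Per q (w * ζ) (orderOf (q : ZMod r)) := by
  intro j
  have h1 : w ^ q ^ j = w := by
    rw [← iterate_pow]; exact Function.iterate_fixed hw j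
  have h2 := iterate_zpow_eq_iff hζ hr q j
  rw [iterate_zpow, ← Nat.cast_pow, zpow_natCast] at h2
  rw [mul_pow, h1, mul_right_inj' hw0, h2, orderOf_dvd_iff_pow_eq_one]
  simp

theorem per_of_one {z c : L} {r : ℕ} (hr : r.Prime) (h1 : (q : ZMod r) = 1) (hz : z ^ r = c)
    (hc0 : c ≠ 0) (hc : c ^ q = c) (hm : z ^ q ≠ z) : Per q z r := by
  have hz0 : z ≠ 0 := by rintro rfl; rw [zero_pow hr.ne_zero] at hz; exact hc0 hz.symm
  have hη : IsPrimitiveRoot (z ^ q / z) r := isPrim_of_prime hr (by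
    rw [div_pow, ← pow_mul, mul_comm, pow_mul, hz, hc, div_self hc0]) fun e =>
      hm (by rwa [div_eq_one_iff_eq hz0] at e)
  have hηq : (z ^ q / z) ^ q = z ^ q / z := by
    have := (per_of_prim (q := q) hη hr.pos one_ne_zero (one_pow _) 1).2 (by rw [h1]; simp)
    simpa using this
  have key : ∀ j, z ^ q ^ j = z * (z ^ q / z) ^ j := by
    intro j
    induction j with
    | zero => simp
    | succ j ih =>
      rw [pow_succ, pow_mul, ih, mul_pow, ← pow_mul, mul_comm j q, pow_mul, hηq, pow_succ]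
      field_simp
  intro j
  rw [key, mul_eq_left₀ hz0, hη.pow_eq_one_iff_dvd]

end

variable {F : Type*} [Field F] [Fintype F] {V : Type*} [AddCommGroup V] [Module F V]
  [FiniteDimensional F V] (L : Type*) [Field L] [IsAlgClosed L] [Algebra F L]

theorem frob_inj : Function.Injective fun z : L => z ^ Fintype.card F := by
  obtain ⟨ψ, hψ⟩ := exists_frob_hom (F := F) L
  have : (fun z : L => z ^ Fintype.card F) = ψ := funext fun z => (hψ z).symm
  rw [this]; exact ψ.injective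

omit [IsAlgClosed L] in
theorem alg_pow_card (a : F) : algebraMap F L a ^ Fintype.card F = algebraMap F L a := by
  rw [← map_pow, FiniteField.pow_card]

theorem one_lt_card : 1 < Fintype.card F := Fintype.one_lt_card

theorem orderOf_eq_one_iff' {r : ℕ} :
    orderOf (Fintype.card F : ZMod r) = 1 ↔ r ∣ Fintype.card F - 1 := by
  rw [← Nat.dvd_one, ← dvd_pow_sub_one_iff Fintype.card_pos, pow_one]

theorem exists_root_of_ne {r : ℕ} (hr : r.Prime) (h : orderOf (Fintype.card F : ZMod r) ≠ 1)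
    (c : F) : ∃ w : F, w ^ r = c := by
  by_cases hc : c = 0
  · exact ⟨0, by rw [hc, zero_pow hr.ne_zero]⟩
  have h1 : (Nat.card Fˣ).Coprime r := by
    rw [Nat.card_units, Nat.card_eq_fintype_card]
    exact ((Nat.Prime.coprime_iff_not_dvd hr).2 fun e => h (orderOf_eq_one_iff'.2 e)).symm
  obtain ⟨w, hw⟩ := (powCoprime h1).surjective (Units.mk0 c hc)
  exact ⟨w, by simpa using congrArg Units.val hw⟩

theorem eq_one_of_pow_eq_one {r : ℕ} (hr : r.Prime) (h : orderOf (Fintype.card F : ZMod r) ≠ 1)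
    {c : F} (hc : c ^ r = 1) : c = 1 := by
  by_contra h1
  have hc0 : c ≠ 0 := by rintro rfl; simp [hr.ne_zero] at hc
  haveI := Fact.mk hr
  apply h
  rw [orderOf_eq_one_iff', ← orderOf_eq_prime hc h1]
  exact orderOf_dvd_of_pow_eq_one (FiniteField.pow_card_sub_one_eq_one c hc0)

/-- the common period of the moved roots -/
noncomputable def pd (q r : ℕ) : ℕ := if orderOf (q : ZMod r) = 1 then r else orderOf (q : ZMod r)

theorem pd_one {q r : ℕ} (h : orderOf (q : ZMod r) = 1) : pd q r = r := if_pos h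

theorem pd_ne {q r : ℕ} (h : orderOf (q : ZMod r) ≠ 1) : pd q r = orderOf (q : ZMod r) := if_neg h

omit [IsAlgClosed L] in
theorem per_root {r : ℕ} (hr : r.Prime) {c : F} (hc : c ≠ 0) {z : L}
    (hz : z ^ r = algebraMap F L c) (hm : z ^ Fintype.card F ≠ z) :
    Per (Fintype.card F) z (pd (Fintype.card F) r) := by
  by_cases h : orderOf (Fintype.card F : ZMod r) = 1
  · rw [pd_one h]
    exact per_of_one hr (orderOf_eq_one_iff.1 h) hz ((_root_.map_ne_zero _).2 hc)
      (alg_pow_card L c) hm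
  · rw [pd_ne h]
    obtain ⟨w, rfl⟩ := exists_root_of_ne hr h c
    have hw : algebraMap F L w ≠ 0 := (_root_.map_ne_zero _).2 (ne_zero_pow hr.ne_zero hc)
    have h1 : IsPrimitiveRoot (z / algebraMap F L w) r := isPrim_of_prime hr
      (by rw [div_pow, hz, map_pow, div_self (pow_ne_zero _ hw)]) fun e => hm (by
        rw [(div_eq_one_iff_eq hw).1 e, alg_pow_card])
    have := per_of_prim h1 hr.pos hw (alg_pow_card L w)
    rwa [mul_div_cancel₀ _ hw] at this

theorem ty_ev {r : ℕ} (hr : r.Prime) {c : F} (hc : c ≠ 0) {f : End F V} (hf : f ^ r = c • 1) :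
    Ty (Fintype.card F) (pd (Fintype.card F) r) (ev L f) :=
  ⟨st_ev L f, fun _ hz => per_root L hr hc (pow_eq_of_mem_ev' L hf hz)⟩

theorem aeval_of_pow_eq {r : ℕ} {c : F} {f : End F V} (hf : f ^ r = c • 1) :
    aeval f (X ^ r - C c : F[X]) = 0 := by
  simp [hf, Algebra.algebraMap_eq_smul_one]

omit [IsAlgClosed L] in
/-- if `r ∣ q - 1`, all roots are fixed or all are moved -/
theorem fix_of_fix {r : ℕ} (hr : r.Prime) (h : orderOf (Fintype.card F : ZMod r) = 1) {z w : L}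
    (hw0 : w ≠ 0) (hzw : z ^ r = w ^ r) (hw : w ^ Fintype.card F = w) :
    z ^ Fintype.card F = z := by
  by_cases e : z = w
  · rwa [e]
  have h1 : IsPrimitiveRoot (z / w) r := isPrim_of_prime hr
    (by rw [div_pow, hzw, div_self (pow_ne_zero _ hw0)]) fun e' => e ((div_eq_one_iff_eq hw0).1 e')
  have := (per_of_prim h1 hr.pos hw0 hw 1).2 (by rw [h])
  rwa [mul_div_cancel₀ _ hw0, pow_one] at this

theorem fx_or_nf {r : ℕ} (hr : r.Prime) (h : orderOf (Fintype.card F : ZMod r) = 1) {c : F}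
    (hc : c ≠ 0) {f : End F V} (hf : f ^ r = c • 1) :
    nf (Fintype.card F) (ev L f) = 0 ∨ fx (Fintype.card F) (ev L f) = 0 := by
  rw [nf_eq_zero, fx_eq_zero]
  by_contra! H
  obtain ⟨⟨z, hz, hz'⟩, w, hw, hw'⟩ := H
  have h1 := pow_eq_of_mem_ev' L hf hz
  have h2 := pow_eq_of_mem_ev' L hf hw
  exact hz' (fix_of_fix L hr h (fun e => by
    rw [e, zero_pow hr.ne_zero] at h2; exact hc ((_root_.map_eq_zero _).1 h2.symm))
    (h1.trans h2.symm) hw')

theorem eq_smul_of_ev {s : F[X]} (hs : Squarefree s) {f : End F V} (hf : aeval f s = 0) {a : F}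
    (h : ∀ z ∈ ev L f, z = algebraMap F L a) : f = a • 1 := by
  simpa using (ss_pow_eq_iff L hs hf 1 a).2 (by simpa using h)

theorem nf_pos {r : ℕ} (hr : r.Prime) (h0 : (r : F) ≠ 0)
    (h : orderOf (Fintype.card F : ZMod r) ≠ 1) {c : F} (hc : c ≠ 0) {f : End F V}
    (hf : f ^ r = c • 1) (hs : ∀ a : F, f ≠ a • 1) : 0 < nf (Fintype.card F) (ev L f) := by
  rw [Nat.pos_iff_ne_zero, Ne, nf_eq_zero]
  intro H
  obtain ⟨w, rfl⟩ := exists_root_of_ne hr h c
  refine hs w (eq_smul_of_ev L (squarefree_X_pow_sub_C h0 hc) (aeval_of_pow_eq hf) fun z hz => ?_)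
  obtain ⟨a, rfl⟩ := mem_range_of_pow_card L (H z hz)
  have h1 := pow_eq_of_mem_ev' L hf hz
  rw [← map_pow, (algebraMap F L).injective.eq_iff] at h1
  have hw : w ≠ 0 := ne_zero_pow hr.ne_zero hc
  rw [(div_eq_one_iff_eq hw).1 (eq_one_of_pow_eq_one hr h (c := a / w)
    (by rw [div_pow, h1, div_self hc]))]

omit [Fintype F] in
theorem nf_eq_zero_of_smul [Fintype F] (a : F) :
    nf (Fintype.card F) (ev L (a • 1 : End F V)) = 0 := by
  rw [nf_eq_zero, ← Algebra.algebraMap_eq_smul_one, ev_scalar]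
  intro z hz
  rw [Multiset.eq_of_mem_replicate hz, alg_pow_card]

end Cfsg.Agent.Elu
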