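import Mathlib
import Cfsg.Agent.Elu.Orb

/-!
Elements of prime order of `PSL_n(q)` and their eigenvalue shapes.
-/

set_option autoImplicit false
set_option backward.isDefEq.respectTransparency false

namespace Cfsg.Agent.Elu

open Module Polynomial Conj Spc Matrix
open scoped _root_.Classical MatrixGroups

theorem exists_nonpow_iff {G : Type*} [CommGroup G] [IsCyclic G] [Finite G] {r k : ℕ}
    (hr : r.Prime) (hN : r ∣ Nat.card G) (hk : k ≠ 0) :
    (∃ u : G, (¬ ∃ w, w ^ r = u) ∧ u ^ k = 1) ↔ padicValNat r (Nat.card G) ≤ padicValNat r k := by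
  haveI := Fact.mk hr
  have hN0 : Nat.card G ≠ 0 := Nat.card_pos.ne'
  simp only [exists_pow_eq_iff, Nat.gcd_eq_right hN]
  rw [← padicValNat_dvd_iff_le hk]
  constructor
  · rintro ⟨u, h1, h2⟩
    obtain ⟨t, ht⟩ := orderOf_dvd_natCard u
    have h3 : ¬ r ∣ t := by
      rintro ⟨t, rfl⟩
      apply h1
      rw [ht, mul_left_comm, Nat.mul_div_cancel_left _ hr.pos, pow_mul, pow_orderOf_eq_one, one_pow]
    refine (Nat.Coprime.dvd_of_dvd_mul_right (Nat.Coprime.pow_left _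
      ((Nat.Prime.coprime_iff_not_dvd hr).2 h3)) ?_).trans (orderOf_dvd_of_pow_eq_one h2)
    rw [← ht]; exact pow_padicValNat_dvd
  · intro h
    obtain ⟨g, hg⟩ := IsCyclic.exists_ofOrder_eq_natCard (α := G)
    have h1 : orderOf (g ^ (orderOf g / r ^ padicValNat r (Nat.card G))) =
        r ^ padicValNat r (Nat.card G) :=
      orderOf_pow_orderOf_div (hg ▸ hN0) (hg ▸ pow_padicValNat_dvd)
    refine ⟨_, fun e => ?_, orderOf_dvd_iff_pow_eq_one.1 (h1 ▸ h)⟩
    rw [← orderOf_dvd_iff_pow_eq_one, h1, Nat.dvd_div_iff_mul_dvd hN, ← pow_succ'] at e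
    exact pow_succ_padicValNat_not_dvd hN0 e

/-- the condition under which all elements of order `r` lift to diagonalisable ones -/
def Cnd (r n q : ℕ) : Prop :=
  padicValNat r n ≤ padicValNat r (q - 1) ∧ (r = 2 → Even n → q % 4 = 1)

variable {F : Type*} [Field F] [Fintype F] {V : Type*} [AddCommGroup V] [Module F V]
  [FiniteDimensional F V] (L : Type*) [Field L] [IsAlgClosed L] [Algebra F L]

theorem exists_units_iff {r : ℕ} (hr : r ≠ 0) (P : F → Prop) :
    (∃ c : F, c ≠ 0 ∧ (¬ ∃ w, w ^ r = c) ∧ P c) ↔ ∃ u : Fˣ, (¬ ∃ w, w ^ r = u) ∧ P u := by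
  constructor
  · rintro ⟨c, hc, h1, h2⟩
    exact ⟨Units.mk0 c hc, fun ⟨w, hw⟩ => h1 ⟨w, by simpa using congrArg Units.val hw⟩, h2⟩
  · rintro ⟨u, h1, h2⟩
    exact ⟨u, u.ne_zero, fun ⟨w, hw⟩ => h1 ⟨Units.mk0 w (ne_zero_pow hr (hw ▸ u.ne_zero)),
      Units.ext (by simpa using hw)⟩, h2⟩

theorem exists_nonpow_field {r k : ℕ} (hr : r.Prime) (hN : r ∣ Fintype.card F - 1) (hk : k ≠ 0) :
    (∃ c : F, c ≠ 0 ∧ (¬ ∃ w, w ^ r = c) ∧ ((-1) ^ (r + 1) * c) ^ k = 1) ↔
      ¬ Cnd r (k * r) (Fintype.card F) := by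
  haveI := Fact.mk hr
  have hc : Nat.card Fˣ = Fintype.card F - 1 := by rw [Nat.card_units, Nat.card_eq_fintype_card]
  have key : (∃ c : F, c ≠ 0 ∧ (¬ ∃ w, w ^ r = c) ∧ c ^ k = 1) ↔
      ¬ padicValNat r (k * r) ≤ padicValNat r (Fintype.card F - 1) := by
    rw [exists_units_iff hr.ne_zero, padicValNat.mul hk hr.ne_zero, padicValNat_self, ← hc,
      not_le, Nat.lt_succ_iff, ← exists_nonpow_iff hr (hc ▸ hN) hk]
    simp [Units.ext_iff]
  rcases hr.eq_two_or_odd' with rfl | ho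
  · have h2 := Fintype.one_lt_card (α := F)
    by_cases h4 : Fintype.card F % 4 = 1
    · obtain ⟨j, hj⟩ := FiniteField.isSquare_neg_one_iff.2 (by omega : Fintype.card F % 4 ≠ 3)
      simp only [Cnd, h4, implies_true, and_true]
      rw [← key]
      have : ∀ c : F, (∃ w, w ^ 2 = c) → ∃ w, w ^ 2 = -c := fun c ⟨w, hw⟩ =>
        ⟨j * w, by rw [mul_pow, hw, sq, ← hj]; ring⟩
      constructor
      · rintro ⟨c, h1, h2, h3⟩
        exact ⟨-c, neg_ne_zero.2 h1, fun h => h2 (by simpa using this _ h), by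
          rw [← h3]; congr 1; ring⟩
      · rintro ⟨c, h1, h2, h3⟩
        exact ⟨-c, neg_ne_zero.2 h1, fun h => h2 (by simpa using this _ h), by
          rw [show (-1) ^ (2 + 1) * -c = c by ring, h3]⟩
    · refine iff_of_true ⟨-1, by simp, fun ⟨w, hw⟩ => ?_, by norm_num⟩
        fun h => h4 (h.2 rfl (by simp))
      have := FiniteField.isSquare_neg_one_iff.1 ⟨w, by rw [← hw, sq]⟩
      omega
  · rw [ho.add_one.neg_one_pow]
    simp only [one_mul, key, Cnd]
    have : r ≠ 2 := by rintro rfl; exact absurd ho (by decide)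
    simp [this]

omit [IsAlgClosed L] in
theorem orb_eq_nthRoots {q r : ℕ} (hr : 0 < r) {z c : L} (hz : z ^ r = c) (hc : c ^ q = c)
    (hp : Per q z r) : orb (· ^ q) z r = nthRoots r c := by
  apply Multiset.eq_of_le_of_card_le
  · rw [Multiset.le_iff_subset hp.nodup]
    intro w hw
    obtain ⟨i, -, rfl⟩ := mem_orb_pow.1 hw
    rw [mem_nthRoots hr, ← pow_mul, mul_comm, pow_mul, hz, ← iterate_pow]
    exact Function.iterate_fixed hc i
  · simpa using card_nthRoots r c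

omit [IsAlgClosed L] in
theorem eq_nsmul_nthRoots {q r : ℕ} (hq : Function.Injective fun z : L => z ^ q) (hr : 0 < r)
    {c : L} (hc : c ^ q = c) {M : Multiset L} (hM : St q M) (h : ∀ z ∈ M, z ^ r = c ∧ Per q z r) :
    ∃ k : ℕ, M = k • nthRoots r c := by
  by_cases h0 : M = 0
  · exact ⟨0, by simp [h0]⟩
  obtain ⟨z, hz⟩ := Multiset.exists_mem_of_ne_zero h0
  refine ⟨M.count z, Multiset.ext.2 fun w => ?_⟩
  rw [Multiset.count_nsmul]
  by_cases hw : w ∈ nthRoots r c
  · rw [← orb_eq_nthRoots L hr (h z hz).1 hc (h z hz).2] at hw ⊢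
    rw [Multiset.count_eq_one_of_mem (h z hz).2.nodup hw, mul_one]
    obtain ⟨i, -, rfl⟩ := mem_orb.1 hw
    rw [count_iterate hq hM]
  · rw [Multiset.count_eq_zero_of_notMem hw, mul_zero, Multiset.count_eq_zero]
    exact fun e => hw ((mem_nthRoots hr).2 (h w e).1)

theorem card_nthRoots' {r : ℕ} (c : L) : (nthRoots r c).card = r := by
  rcases Nat.eq_zero_or_pos r with rfl | hr
  · simp
  rw [nthRoots, IsAlgClosed.card_roots_eq_natDegree, natDegree_X_pow_sub_C]

theorem prod_nthRoots {r : ℕ} (hr : 0 < r) (c : L) : (nthRoots r c).prod = (-1) ^ (r + 1) * c := by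
  have := (IsAlgClosed.splits (X ^ r - C c : L[X])).coeff_zero_eq_prod_roots_of_monic
    (monic_X_pow_sub_C c hr.ne')
  rw [natDegree_X_pow_sub_C, coeff_sub, coeff_X_pow, if_neg hr.ne, coeff_C_zero] at this
  have h1 : ((-1 : L) ^ r) * (-1) ^ r = 1 := by rw [← mul_pow]; simp
  rw [nthRoots]
  linear_combination (-(-1) ^ r) * this - (X ^ r - C c).roots.prod * h1

omit [Fintype F] [IsAlgClosed L] in
theorem ev_cyc {r : ℕ} (hr : r ≠ 0) (c : F) :
    haveI := (monic_X_pow_sub_C c hr).finite_adjoinRoot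
    ev L (cyc (X ^ r - C c : F[X])) = nthRoots r (algebraMap F L c) := by
  haveI := (monic_X_pow_sub_C c hr).finite_adjoinRoot
  rw [ev, charpoly_root (monic_X_pow_sub_C c hr), nthRoots]
  simp

theorem st_nthRoots {r : ℕ} (c : F) : St (Fintype.card F) (nthRoots r (algebraMap F L c)) := by
  rcases Nat.eq_zero_or_pos r with rfl | hr
  · simpa using St.zero
  haveI := (monic_X_pow_sub_C c hr.ne').finite_adjoinRoot
  rw [← ev_cyc L hr.ne']
  exact st_ev L _

omit [Fintype F] in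
theorem ne_zero_of_det {f : End F V} (hd : LinearMap.det f ≠ 0) {r : ℕ} {c : F}
    (hf : f ^ r = c • 1) (hs : ∀ a : F, f ≠ a • 1) : c ≠ 0 := by
  rintro rfl
  rcases subsingleton_or_nontrivial V with h | h
  · exact hs 0 (Subsingleton.elim _ _)
  have := congrArg LinearMap.det hf
  rw [map_pow, zero_smul, LinearMap.det_zero'' ] at this
  exact hd (pow_eq_zero_iff (fun e => by simp [e] at this) |>.1 this)

theorem exists_end_pow (M : Multiset L) (hM : St (Fintype.card F) M) {r : ℕ} {c : F}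
    (h : ∀ z ∈ M, z ^ r = algebraMap F L c) {ι : Type*} [Fintype ι] [DecidableEq ι]
    (hn : M.card = Fintype.card ι) : ∃ f : End F (ι → F), f ^ r = c • 1 ∧ ev L f = M := by
  obtain ⟨A, hA, hA'⟩ := exists_of_multiset L M hM (s := X ^ r - C c) (fun z hz => by
    simp [h z hz]) hn
  refine ⟨toLin' A, ?_, hA'⟩
  rw [toLin'_eq_smul_iff]
  simpa [sub_eq_zero, Algebra.algebraMap_eq_smul_one] using hA

theorem ne_smul_of_nf {f : End F V} (h : 0 < nf (Fintype.card F) (ev L f)) (a : F) : f ≠ a • 1 := by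
  rintro rfl
  rw [nf_eq_zero_of_smul] at h
  exact lt_irrefl _ h

/-- elements representing elements of order `r` of the projective special linear group -/
def El (r : ℕ) (f : End F V) (c : F) : Prop :=
  LinearMap.det f = 1 ∧ f ^ r = c • 1 ∧ ∀ a : F, f ≠ a • 1

omit [Fintype F] in
theorem El.ne {r : ℕ} {f : End F V} {c : F} (h : El r f c) : c ≠ 0 :=
  ne_zero_of_det (by rw [h.1]; exact one_ne_zero) h.2.1 h.2.2

omit [Fintype F] in
theorem forall_SL_iff {n r : ℕ} (P : End F (Fin n → F) → Prop) :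
    (∀ x : SpecialLinearGroup (Fin n) F,
      (∃ c : F, ((x ^ r : SpecialLinearGroup (Fin n) F) : Matrix (Fin n) (Fin n) F) =
        c • (1 : Matrix (Fin n) (Fin n) F)) →
      (∀ c : F, (x : Matrix (Fin n) (Fin n) F) ≠ c • (1 : Matrix (Fin n) (Fin n) F)) →
      P (toLin' (x : Matrix (Fin n) (Fin n) F))) ↔ ∀ f c, El r f c → P f := by
  constructor
  · rintro h f c ⟨h1, h2, h3⟩
    obtain ⟨A, rfl⟩ := (toLin' (R := F) (m := Fin n) (n := Fin n)).surjective f
    rw [LinearMap.det_toLin'] at h1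
    exact h ⟨A, h1⟩ ⟨c, (toLin'_eq_smul_iff A r c).1 h2⟩ fun a e => h3 a (by
      simpa using (toLin'_eq_smul_iff A 1 a).2 (by simpa using e))
  · rintro h x ⟨c, hc⟩ h3
    exact h _ c ⟨by rw [LinearMap.det_toLin', x.2], (toLin'_eq_smul_iff _ r c).2 hc,
      fun a e => h3 a (by simpa using (toLin'_eq_smul_iff x.1 1 a).1 (by simpa using e))⟩

theorem not_cnd_of_fx {r : ℕ} (hr : r.Prime) (hi : orderOf (Fintype.card F : ZMod r) = 1)
    {f : End F V} {c : F} (hf : El r f c) (h : fx (Fintype.card F) (ev L f) = 0) :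
    ¬ Cnd r (finrank F V) (Fintype.card F) ∧
      ∃ k : ℕ, ev L f = k • nthRoots r (algebraMap F L c) := by
  obtain ⟨k, hk⟩ := eq_nsmul_nthRoots L (frob_inj (F := F) L) hr.pos (alg_pow_card L c) (st_ev L f)
    fun z hz => ⟨pow_eq_of_mem_ev' L hf.2.1 hz, by
      have := (ty_ev L hr hf.ne hf.2.1).2 z hz (fx_eq_zero.1 h z hz)
      rwa [pd_one hi] at this⟩
  refine ⟨?_, k, hk⟩
  have h1 := card_ev L f
  have h2 := prod_ev_eq_det L f
  rw [hk, Multiset.card_nsmul, card_nthRoots'] at h1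
  rw [hk, Multiset.prod_nsmul, prod_nthRoots L hr.pos, hf.1] at h2
  have hk0 : k ≠ 0 := by
    rintro rfl
    haveI := finrank_zero_iff.1 (h1.symm.trans (zero_mul _))
    exact hf.2.2 0 (Subsingleton.elim _ _)
  rw [← h1, ← exists_nonpow_field hr (orderOf_eq_one_iff'.1 hi) hk0]
  refine ⟨c, hf.ne, fun ⟨w, hw⟩ => fx_eq_zero.1 h (algebraMap F L w) ?_ (alg_pow_card L w),
    (algebraMap F L).injective (by simpa using h2)⟩
  rw [hk, Multiset.mem_nsmul, mem_nthRoots hr.pos, ← map_pow, hw]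
  exact ⟨hk0, rfl⟩

theorem exists_of_not_cnd {r n : ℕ} (hr : r.Prime) (hi : orderOf (Fintype.card F : ZMod r) = 1)
    (hn : 0 < n) (h : ¬ Cnd r n (Fintype.card F)) :
    ∃ (f : End F (Fin n → F)) (c : F), El r f c ∧ fx (Fintype.card F) (ev L f) = 0 := by
  have hd : r ∣ n := by
    by_contra hd
    exact h ⟨by rw [padicValNat.eq_zero_of_not_dvd hd]; exact Nat.zero_le _,
      fun e he => absurd (e ▸ he.two_dvd) hd⟩
  obtain ⟨k, rfl⟩ := hd
  have hk : k ≠ 0 := by rintro rfl; simp at hn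
  rw [mul_comm] at h
  obtain ⟨c, h0, h1, h2⟩ := (exists_nonpow_field hr (orderOf_eq_one_iff'.1 hi) hk).2 h
  obtain ⟨f, hf, hf'⟩ := exists_end_pow L (k • nthRoots r (algebraMap F L c))
    ((st_nthRoots L c).nsmul k) (r := r) (c := c)
    (fun z hz => (mem_nthRoots hr.pos).1 (Multiset.mem_nsmul.1 hz).2) (ι := Fin (r * k))
    (by rw [Multiset.card_nsmul, card_nthRoots', Fintype.card_fin, mul_comm])
  have h3 : ∀ z ∈ ev L f, z ^ Fintype.card F ≠ z := fun z hz e => by
    obtain ⟨w, rfl⟩ := mem_range_of_pow_card L e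
    exact h1 ⟨w, (algebraMap F L).injective (by
      rw [map_pow]; exact pow_eq_of_mem_ev' L hf hz)⟩
  refine ⟨f, c, ⟨(algebraMap F L).injective ?_, hf, ne_smul_of_nf L ?_⟩, fx_eq_zero.2 h3⟩
  · rw [← prod_ev_eq_det, hf', Multiset.prod_nsmul, prod_nthRoots L hr.pos, ← h2]; simp
  · rw [nf_of_move h3, card_ev]; simpa using hn

theorem lin_one {r n : ℕ} (hr : r.Prime) (hi : orderOf (Fintype.card F : ZMod r) = 1)
    (hn : 0 < n) (R : ℕ → ℕ → Prop) (hR : R n 0) :
    (∀ (f : End F (Fin n → F)) (c : F), El r f c →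
      R (fx (Fintype.card F) (ev L f)) (nf (Fintype.card F) (ev L f))) ↔
      (R 0 n ∨ Cnd r n (Fintype.card F)) := by
  have hc : ∀ f : End F (Fin n → F),
      fx (Fintype.card F) (ev L f) + nf (Fintype.card F) (ev L f) = n := fun f => by
    rw [fx_add_nf, card_ev]; simp
  constructor
  · intro h
    rw [or_iff_not_imp_right]
    intro h'
    obtain ⟨f, c, h1, h2⟩ := exists_of_not_cnd L hr hi hn h'
    have := h f c h1
    have h3 := hc f
    rw [h2, zero_add] at h3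
    rwa [h2, h3] at this
  · intro h f c hf
    have h3 := hc f
    rcases fx_or_nf L hr hi hf.ne hf.2.1 with h1 | h1
    · rw [h1, add_zero] at h3; rwa [h1, h3]
    · rw [h1, zero_add] at h3; rw [h1, h3]
      exact h.resolve_right (by simpa using (not_cnd_of_fx L hr hi hf h1).1)

theorem exists_el_of_ne {r n : ℕ} (hr : r.Prime) (hi : orderOf (Fintype.card F : ZMod r) ≠ 1)
    (M : Multiset L) (hM : St (Fintype.card F) M) (h : ∀ z ∈ M, z ^ r = 1) (hn : M.card = n)
    (h0 : 0 < nf (Fintype.card F) M) : ∃ f : End F (Fin n → F), El r f 1 ∧ ev L f = M := by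
  obtain ⟨f, hf, hf'⟩ := exists_end_pow L M hM (r := r) (c := 1) (by simpa using h) (ι := Fin n)
    (by simpa using hn)
  exact ⟨f, ⟨eq_one_of_pow_eq_one hr hi (by rw [← map_pow, hf]; simp), hf,
    ne_smul_of_nf L (hf' ▸ h0)⟩, hf'⟩

omit [IsAlgClosed L] [Algebra F L] in
theorem orb_move {q : ℕ} (hq : Function.Injective fun z : L => z ^ q) {z : L} (hz : z ^ q ≠ z)
    (d : ℕ) : ∀ w ∈ orb (· ^ q) z d, w ^ q ≠ w := by
  intro w hw e
  obtain ⟨i, -, rfl⟩ := mem_orb.1 hw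
  exact hz (hq.iterate i (by rw [← Function.iterate_succ_apply, Function.iterate_succ_apply', e]))

/-- the standard shape -/
noncomputable def shp {L : Type*} [Field L] (q : ℕ) (ζ : L) (i e s : ℕ) : Multiset L :=
  Multiset.replicate e 1 + s • orb (· ^ q) ζ i

theorem shp_spec {r : ℕ} (hr : r.Prime) (hi : orderOf (Fintype.card F : ZMod r) ≠ 1) {ζ : L}
    (hζ : IsPrimitiveRoot ζ r) (e s : ℕ) :
    let M := shp (Fintype.card F) ζ (orderOf (Fintype.card F : ZMod r)) e s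
    St (Fintype.card F) M ∧ (∀ z ∈ M, z ^ r = 1) ∧ fx (Fintype.card F) M = e ∧
      nf (Fintype.card F) M = orderOf (Fintype.card F : ZMod r) * s := by
  have hp : Per (Fintype.card F) ζ (orderOf (Fintype.card F : ZMod r)) := by
    simpa using per_of_prim (q := Fintype.card F) hζ hr.pos one_ne_zero (one_pow _)
  have h1 : ∀ z ∈ Multiset.replicate e (1 : L), z ^ Fintype.card F = z := fun z hz => by
    rw [Multiset.eq_of_mem_replicate hz, one_pow]
  have h2 := orb_move L (frob_inj (F := F) L) (z := ζ)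
    (fun e => hi (Nat.dvd_one.1 ((hp 1).1 (by simpa using e)))) (orderOf (Fintype.card F : ZMod r))
  refine ⟨(St.of_fix h1).add ((st_orb ((hp _).2 dvd_rfl)).nsmul s), fun z hz => ?_, ?_, ?_⟩
  · rcases Multiset.mem_add.1 hz with h | h
    · rw [Multiset.eq_of_mem_replicate h, one_pow]
    · obtain ⟨i, -, rfl⟩ := mem_orb_pow.1 (Multiset.mem_nsmul.1 h).2
      rw [← pow_mul, mul_comm, pow_mul, hζ.pow_eq_one, one_pow]
  · rw [shp, fx_add, fx_of_fix h1, fx_nsmul, fx_eq_zero.2 h2]; simp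
  · rw [shp, nf_add, nf_eq_zero.2 h1, nf_nsmul, nf_of_move h2]; simp [mul_comm]

omit [Fintype F] in
theorem exists_prim {r : ℕ} (h0 : (r : F) ≠ 0) : ∃ ζ : L, IsPrimitiveRoot ζ r := by
  haveI : NeZero (r : L) := ⟨by rw [← map_natCast (algebraMap F L)]; exact (_root_.map_ne_zero _).2 h0⟩
  exact HasEnoughRootsOfUnity.exists_primitiveRoot L r

theorem lin_ne {r n : ℕ} (hr : r.Prime) (h0 : (r : F) ≠ 0)
    (hi : orderOf (Fintype.card F : ZMod r) ≠ 1) (R : ℕ → ℕ → Prop) :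
    (∀ (f : End F (Fin n → F)) (c : F), El r f c →
      R (fx (Fintype.card F) (ev L f)) (nf (Fintype.card F) (ev L f))) ↔
      ∀ e s, 1 ≤ s → e + orderOf (Fintype.card F : ZMod r) * s = n →
        R e (orderOf (Fintype.card F : ZMod r) * s) := by
  haveI := Fact.mk hr
  have hi0 : 0 < orderOf (Fintype.card F : ZMod r) :=
    orderOf_pos_of_ne (p := ringChar F) (hp := ⟨CharP.char_is_prime F _⟩) fun e => h0 (by
      rw [e]; exact CharP.cast_eq_zero F _)
  constructor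
  · intro h e s hs hn
    obtain ⟨ζ, hζ⟩ := exists_prim L h0
    obtain ⟨h1, h2, h3, h4⟩ := shp_spec L hr hi hζ e s
    obtain ⟨f, hf, hf'⟩ := exists_el_of_ne L hr hi _ h1 h2 (n := n)
      (by rw [← fx_add_nf (q := Fintype.card F), h3, h4, hn]) (by rw [h4]; positivity)
    have := h f 1 hf
    rwa [hf', h3, h4] at this
  · intro h f c hf
    obtain ⟨s, hs⟩ := (ty_ev L hr hf.ne hf.2.1).dvd (frob_inj L) (by rw [pd_ne hi]; exact hi0)
    have h1 := nf_pos L hr h0 hi hf.ne hf.2.1 hf.2.2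
    rw [pd_ne hi] at hs
    rw [hs] at h1 ⊢
    exact h _ s (Nat.pos_of_mul_pos_left h1) (by rw [← hs, fx_add_nf, card_ev]; simp)

theorem pd_pos {r : ℕ} (hr : r.Prime) (h0 : (r : F) ≠ 0) : 0 < pd (Fintype.card F) r := by
  haveI := Fact.mk hr
  unfold pd
  split_ifs
  · exact hr.pos
  · exact orderOf_pos_of_ne (p := ringChar F) (hp := ⟨CharP.char_is_prime F _⟩) fun e => h0 (by
      rw [e]; exact CharP.cast_eq_zero F _)

theorem El.dec_iff {r : ℕ} (hr : r.Prime) (h0 : (r : F) ≠ 0) {f : End F V} {c : F}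
    (hf : El r f c) (m : ℕ) : Dec f m ↔ ∃ a ≤ fx (Fintype.card F) (ev L f), ∃ b,
      pd (Fintype.card F) r * b ≤ nf (Fintype.card F) (ev L f) ∧ m = a + pd (Fintype.card F) r * b := by
  rw [dec_iff_ev L (squarefree_X_pow_sub_C h0 hf.ne) (aeval_of_pow_eq hf.2.1),
    (ty_ev L hr hf.ne hf.2.1).sub_iff (frob_inj L) (pd_pos hr h0)]

theorem arith_dec {i m n : ℕ} (hi : 0 < i) (hm : m ≤ n) (h : ¬ (m < i ∧ m ≤ n % i)) :
    (∀ e s, 1 ≤ s → e + i * s = n → ∃ a ≤ e, ∃ b, i * b ≤ i * s ∧ m = a + i * b) ↔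
      i ≤ m ∧ m % i ≤ n % i := by
  have h1 := Nat.mod_add_div n i
  have h2 := Nat.mod_lt n hi
  constructor
  · intro H
    have : i ≤ n := by
      by_contra h3
      rw [Nat.mod_eq_of_lt (by omega)] at h
      omega
    obtain ⟨a, ha, b, -, rfl⟩ := H _ _ (Nat.div_pos this hi) h1
    rw [Nat.add_mul_mod_self_left, Nat.mod_eq_of_lt (by omega : a < i)]
    refine ⟨?_, ha⟩
    rcases b with _ | b
    · simp at h ⊢; omega
    · nlinarith
  · rintro ⟨-, h4⟩ e s hs rfl
    have h5 := Nat.mod_add_div m i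
    have h6 := Nat.mod_le e i
    rw [Nat.add_mul_mod_self_left] at h4
    by_cases h7 : m / i ≤ s
    · exact ⟨m % i, by omega, m / i, Nat.mul_le_mul_left _ h7, h5.symm⟩
    · have := Nat.mul_le_mul_left i (not_le.1 h7).le
      exact ⟨m - i * s, by omega, s, le_rfl, by omega⟩

/-- the criterion for every semisimple element to fix an `m`-space -/
theorem forall_dec_iff {r n m : ℕ} (hr : r.Prime) (h0 : (r : F) ≠ 0) (hn : 0 < n) (hm : m ≤ n)
    (h : ¬ (m < orderOf (Fintype.card F : ZMod r) ∧ m ≤ n % orderOf (Fintype.card F : ZMod r)) ∨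
      orderOf (Fintype.card F : ZMod r) = 1) :
    (∀ (f : End F (Fin n → F)) (c : F), El r f c → Dec f m) ↔
      ((orderOf (Fintype.card F : ZMod r) = 1 ∧ (r ∣ m ∨ Cnd r n (Fintype.card F))) ∨
        (2 ≤ orderOf (Fintype.card F : ZMod r) ∧ orderOf (Fintype.card F : ZMod r) ≤ m ∧
          m % orderOf (Fintype.card F : ZMod r) ≤ n % orderOf (Fintype.card F : ZMod r))) := by
  have hp := pd_pos hr h0
  rw [forall₃_congr fun f c hf => hf.dec_iff (AlgebraicClosure F) hr h0 m]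
  by_cases hi : orderOf (Fintype.card F : ZMod r) = 1
  · rw [pd_one hi, lin_one _ hr hi hn (fun e k => ∃ a ≤ e, ∃ b, r * b ≤ k ∧ m = a + r * b)
      ⟨m, hm, 0, by simp⟩]
    simp only [hi, true_and, Nat.reduceLeDiff, false_and, or_false]
    refine or_congr ⟨?_, ?_⟩ Iff.rfl
    · rintro ⟨a, ha, b, -, rfl⟩
      simp [Nat.le_zero.1 ha]
    · rintro ⟨b, rfl⟩
      exact ⟨0, le_rfl, b, hm, by simp⟩
  · rw [pd_ne hi] at hp ⊢
    rw [lin_ne _ hr h0 hi (fun e k => ∃ a ≤ e, ∃ b, _ * b ≤ k ∧ m = a + _ * b),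
      arith_dec hp hm (h.resolve_right hi)]
    simp only [hi, false_and, false_or, iff_and_self]
    omega

theorem not_lt_of_dvd {r n m : ℕ} (hr : r.Prime) (hm : m ≤ n)
    (h : r ∣ ∏ j ∈ Finset.range m, (Fintype.card F ^ (n - j) - 1)) :
    ¬ (m < orderOf (Fintype.card F : ZMod r) ∧ m ≤ n % orderOf (Fintype.card F : ZMod r)) := by
  obtain ⟨j, hj, hd⟩ := exists_of_dvd_prod hr Fintype.card_pos _ h
  generalize orderOf (Fintype.card F : ZMod r) = i at *
  rintro ⟨h1, h2⟩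
  have h3 := Nat.mod_add_div n i
  have h4 := Nat.mod_lt n (by omega : 0 < i)
  rw [show n - j = i * (n / i) + (n % i - j) by omega, Nat.dvd_add_right (Dvd.intro _ rfl)] at hd
  have := Nat.le_of_dvd (by omega) hd
  omega

theorem ne_char_of_dvd {p r n m : ℕ} [Fact p.Prime] [CharP F p] (hr : r.Prime) (hm : m ≤ n)
    (h : r ∣ ∏ j ∈ Finset.range m, (Fintype.card F ^ (n - j) - 1)) : r ≠ p := by
  rintro rfl
  obtain ⟨j, hj, hd⟩ := exists_of_dvd_prod hr Fintype.card_pos _ h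
  rw [orderOf_char, zero_dvd_iff] at hd
  omega

end Cfsg.Agent.Elu
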