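import Mathlib
import Cfsg.Agent.Elu.Lin

/-!
Unipotent elements of prime order, flags.
-/

set_option autoImplicit false
set_option backward.isDefEq.respectTransparency false

namespace Cfsg.Agent.Elu

open Module Polynomial Conj Spc Matrix
open scoped _root_.Classical MatrixGroups

variable {F : Type*} [Field F] {V : Type*} [AddCommGroup V] [Module F V]

theorem map_smul_eq {f : End F V} {a : F} (ha : a ≠ 0) (U : Submodule F V) :
    U.map (a • f) = U.map f := Submodule.map_smul f U a ha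

theorem dec_smul {f : End F V} {a : F} (ha : a ≠ 0) (m : ℕ) : Dec (a • f) m ↔ Dec f m := by
  simp only [Dec, map_smul_eq ha]

theorem sub_one_pow_char {p : ℕ} [Fact p.Prime] [CharP F p] (g : End F V) :
    (g - 1) ^ p = g ^ p - 1 := by
  rcases subsingleton_or_nontrivial V with h | h
  · exact Subsingleton.elim _ _
  haveI : CharP (End F V) p := charP_of_injective_algebraMap (algebraMap F _).injective p
  rw [sub_pow_char_of_commute _ (Commute.one_right g), one_pow]

variable [FiniteDimensional F V]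

theorem jt_zero : jt (0 : End F V) = Multiset.replicate (finrank F V) 1 := by
  have h : IsNilpotent (0 : End F V) := IsNilpotent.zero
  have h1 : ∀ a ∈ jt (0 : End F V), a = 1 := fun a ha =>
    le_antisymm ((pow_eq_zero_iff_jt h 1).1 (by simp) a ha) (jt_pos h a ha)
  have h2 := Multiset.eq_replicate_card.2 h1
  have h3 := sum_jt h
  rw [h2, Multiset.sum_replicate, smul_eq_mul, mul_one] at h3
  rw [h2, h3]

theorem det_of_unip {g : End F V} (h : IsNilpotent (g - 1)) : LinearMap.det g = 1 := by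
  apply (algebraMap F (AlgebraicClosure F)).injective
  rw [← prod_ev_eq_det, ev_unip _ h]; simp

theorem eq_one_of_unip_smul {a : F} (h : IsNilpotent ((a • 1 : End F V) - 1)) :
    (a • 1 : End F V) = 1 := by
  rcases subsingleton_or_nontrivial V with h' | h'
  · exact Subsingleton.elim _ _
  rw [← Algebra.algebraMap_eq_smul_one, ← map_one (algebraMap F (End F V)), ← map_sub,
    IsNilpotent.map_iff (algebraMap F _).injective, isNilpotent_iff_eq_zero, sub_eq_zero] at h
  simp [h]

theorem exists_unip_of_pow [Fintype F] {p : ℕ} [hp : Fact p.Prime] [CharP F p] {f : End F V}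
    {c : F} (hc : c ≠ 0) (hf : f ^ p = c • 1) :
    ∃ (w : F) (g : End F V), w ≠ 0 ∧ w ^ p = c ∧ f = w • g ∧ (g - 1) ^ p = 0 := by
  obtain ⟨w, rfl⟩ := exists_root_of_ne hp.out (by rw [orderOf_char]; exact zero_ne_one) c
  have hw : w ≠ 0 := ne_zero_pow hp.out.ne_zero hc
  exact ⟨w, w⁻¹ • f, hw, rfl, by rw [smul_inv_smul₀ hw], by
    rw [sub_one_pow_char, _root_.smul_pow, hf, smul_smul, ← mul_pow, inv_mul_cancel₀ hw]; simp⟩

theorem forall_unip_iff [Fintype F] {p n : ℕ} [hp : Fact p.Prime] [CharP F p]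
    (P : End F (Fin n → F) → Prop) (R : Multiset ℕ → Prop)
    (h1 : ∀ f (a : F), a ≠ 0 → P f → P (a • f))
    (h2 : ∀ g, (g - 1) ^ p = 0 → (P g ↔ R (jt (g - 1)))) (h3 : R (Multiset.replicate n 1)) :
    (∀ f c, El p f c → P f) ↔ ∀ μ : Multiset ℕ, (∀ a ∈ μ, 0 < a ∧ a ≤ p) → μ.sum = n → R μ := by
  constructor
  · intro h μ hμ hs
    obtain ⟨g, hg, rfl⟩ := exists_unipotent F (ι := Fin n) (fun a ha => (hμ a ha).1)
      (by simpa using hs)
    have h4 := (pow_eq_zero_iff_jt hg p).2 fun a ha => (hμ a ha).2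
    by_cases h5 : toLin' g.1 = (1 : End F _)
    · rw [h5, sub_self, jt_zero]; simpa using h3
    refine (h2 _ h4).1 (h _ 1 ⟨det_of_unip hg, ?_, fun a e => h5 ?_⟩)
    · rwa [sub_one_pow_char, sub_eq_zero, ← one_smul F (1 : End F _)] at h4
    · rw [e] at hg ⊢; exact eq_one_of_unip_smul hg
  · intro h f c hf
    obtain ⟨w, g, hw, -, rfl, hg⟩ := exists_unip_of_pow hf.ne hf.2.1
    have hn : IsNilpotent (g - 1) := ⟨p, hg⟩
    exact h1 _ _ hw ((h2 g hg).2 (h _ (fun a ha => ⟨jt_pos hn a ha,
      (pow_eq_zero_iff_jt hn p).1 hg a ha⟩) (by rw [sum_jt hn]; simp)))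

theorem eq_of_le_two {μ : Multiset ℕ} (h : ∀ a ∈ μ, 0 < a ∧ a ≤ 2) :
    μ = Multiset.replicate (μ.count 1) 1 + Multiset.replicate (μ.count 2) 2 := by
  ext a
  simp only [Multiset.count_add, Multiset.count_replicate]
  by_cases h1 : a = 1
  · simp [h1]
  by_cases h2 : a = 2
  · simp [h2]
  rw [if_neg (Ne.symm h1), if_neg (Ne.symm h2), Multiset.count_eq_zero]
  exact fun ha => by have := h a ha; omega

theorem parts_two {n m : ℕ} (hm : m ≤ n) :
    (∀ μ : Multiset ℕ, (∀ a ∈ μ, 0 < a ∧ a ≤ 2) → μ.sum = n → ∃ ν ≤ μ, ν.sum = m) ↔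
      (Odd n ∨ Even m) := by
  constructor
  · intro h
    rcases Nat.even_or_odd n with ⟨k, rfl⟩ | ho
    · obtain ⟨ν, h1, rfl⟩ := h (Multiset.replicate k 2) (fun a ha => by
        rw [Multiset.eq_of_mem_replicate ha]; simp) (by simp; ring)
      obtain ⟨j, -, rfl⟩ := Multiset.le_replicate_iff.1 h1
      simp
    · exact Or.inl ho
  · intro h μ h1 h2
    rw [eq_of_le_two h1] at h2 ⊢
    generalize μ.count 1 = a at *
    generalize μ.count 2 = b at *
    simp only [Multiset.sum_add, Multiset.sum_replicate, smul_eq_mul] at h2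
    rw [Nat.odd_iff, Nat.even_iff] at h
    exact ⟨Multiset.replicate (m - 2 * min b (m / 2)) 1 + Multiset.replicate (min b (m / 2)) 2,
      add_le_add ((Multiset.replicate_le_replicate _).2 (by omega))
        ((Multiset.replicate_le_replicate _).2 (by omega)), by simp; omega⟩

theorem arith_flag {i m n : ℕ} (hi : 0 < i) (hm : 2 * m ≤ n) (h : ¬ (m < i ∧ 2 * m ≤ n % i)) :
    (∀ e s, 1 ≤ s → e + i * s = n → ∃ a a' b b', a ≤ a' ∧ a' ≤ e ∧ i * b ≤ i * b' ∧
      i * b' ≤ i * s ∧ m = a + i * b ∧ n - m = a' + i * b') ↔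
      i ≤ m ∧ 2 * (m % i) ≤ n % i := by
  have h1 := Nat.mod_add_div n i
  have h2 := Nat.mod_lt n hi
  constructor
  · intro H
    have : i ≤ n := by
      by_contra h3
      rw [Nat.mod_eq_of_lt (by omega)] at h
      omega
    obtain ⟨a, a', b, b', h3, h4, h5, h6, h7, h8⟩ := H _ _ (Nat.div_pos this hi) h1
    have h9 : (a + a') % i = n % i := by
      rw [show n = a + a' + i * (b + b') by rw [mul_add]; omega, Nat.add_mul_mod_self_left]
    have h10 : a + a' = n % i := by
      by_cases h11 : a + a' < i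
      · rwa [Nat.mod_eq_of_lt h11] at h9
      · rw [Nat.mod_eq_sub_mod (by omega), Nat.mod_eq_of_lt (by omega)] at h9
        omega
    have h12 : m % i = a := by
      rw [h7, Nat.add_mul_mod_self_left, Nat.mod_eq_of_lt (by omega : a < i)]
    refine ⟨?_, by omega⟩
    rcases b with _ | b
    · simp at h7; omega
    · nlinarith
  · rintro ⟨-, h4⟩ e s hs rfl
    have h5 := Nat.mod_add_div m i
    have h6 := Nat.mod_le e i
    rw [Nat.add_mul_mod_self_left] at h4
    by_cases h7 : 2 * (m / i) ≤ s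
    · obtain ⟨c, rfl⟩ := Nat.exists_eq_add_of_le h7
      refine ⟨m % i, e - m % i, m / i, m / i + c, by omega, by omega,
        Nat.mul_le_mul_left _ (by omega), Nat.mul_le_mul_left _ (by omega), h5.symm, ?_⟩
      rw [mul_add, mul_add, two_mul, mul_add]
      omega
    · have h8 : i * s = i * (s / 2) + i * (s - s / 2) := by rw [← mul_add]; congr 1; omega
      have h9 := Nat.mul_le_mul_left i (show s - s / 2 ≤ m / i by omega)
      have h10 := Nat.mul_le_mul_left i (show s / 2 ≤ s - s / 2 by omega)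
      exact ⟨m - i * (s / 2), e + i * s - m - i * (s / 2), s / 2, s / 2, by omega, by omega,
        le_rfl, by omega, by omega, by omega⟩

variable [Fintype F]

theorem card_dec_eq (m : ℕ) :
    Nat.card {P : Submodule F V × Submodule F V // IsCompl P.1 P.2 ∧ finrank F P.1 = m} =
      Nat.card {W : Submodule F V // finrank F W = m ∧ W ≤ ⊤} *
        Fintype.card F ^ ((finrank F V - m) * m) := by
  haveI : Finite V := Module.finite_of_finite F
  refine card_of_fib (fun P => ⟨P.1.1, P.2.2, le_top⟩) _ fun W => ?_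
  have := card_compl W.1
  rw [W.2.1] at this
  rw [← this]
  exact Nat.card_congr
    { toFun := fun P => ⟨P.1.1.2, by have := P.1.2.1; rwa [← congrArg Subtype.val P.2]⟩
      invFun := fun U => ⟨⟨(W.1, U.1), U.2, W.2.1⟩, rfl⟩
      left_inv := by rintro ⟨_, rfl⟩; rfl
      right_inv := fun _ => rfl }

theorem card_flag_dvd {m k n : ℕ} (hn : finrank F V = n) (hm : m ≤ k) (hk : k ≤ n) :
    Nat.card {P : Submodule F V × Submodule F V //
      P.1 ≤ P.2 ∧ finrank F P.1 = m ∧ finrank F P.2 = k} ∣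
      (∏ j ∈ Finset.range (n - k), (Fintype.card F ^ (n - j) - 1)) *
        ∏ j ∈ Finset.range m, (Fintype.card F ^ (k - j) - 1) := by
  haveI : Finite V := Module.finite_of_finite F
  obtain ⟨c, hc⟩ : ∃ c, c * ∏ j ∈ Finset.range m, (Fintype.card F ^ (m - j) - 1) =
      ∏ j ∈ Finset.range m, (Fintype.card F ^ (k - j) - 1) :=
    ⟨_, card_gr (⊤ : Submodule F (Fin k → F)) (by simp) hm⟩
  have hpos : ∀ a b, a ≤ b → 0 < ∏ j ∈ Finset.range a, (Fintype.card F ^ (b - j) - 1) :=
    fun a b h => Finset.prod_pos fun j hj => Nat.sub_pos_of_lt (Nat.one_lt_pow (by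
      have := Finset.mem_range.1 hj; omega) Fintype.one_lt_card)
  rw [card_of_fib (β := {W : Submodule F V // finrank F W = k ∧ W ≤ ⊤})
    (fun P => ⟨P.1.2, P.2.2.2, le_top⟩) c fun W => ?_]
  · refine mul_dvd_mul ?_ (Dvd.intro _ hc)
    have h1 := card_gr (⊤ : Submodule F V) (by simpa using hn) hk
    have h2 : ∀ a b, ∏ j ∈ Finset.range (a + b), (Fintype.card F ^ (a + b - j) - 1) =
        (∏ j ∈ Finset.range a, (Fintype.card F ^ (a + b - j) - 1)) *
          ∏ j ∈ Finset.range b, (Fintype.card F ^ (b - j) - 1) := fun a b => by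
      rw [Finset.prod_range_add]
      congr 1
      exact Finset.prod_congr rfl fun j _ => by congr 2; omega
    obtain ⟨l, rfl⟩ := Nat.exists_eq_add_of_le hk
    have h3 := h2 k l
    have h4 := h2 l k
    rw [add_comm l k, h3, ← h1, mul_right_comm, mul_left_inj' (hpos _ _ le_rfl).ne'] at h4
    rw [Nat.add_sub_cancel_left]
    exact Dvd.intro _ h4
  · apply Nat.eq_of_mul_eq_mul_right (hpos m m le_rfl)
    rw [hc, ← card_gr W.1 W.2.1 hm]
    congr 1
    exact Nat.card_congr
      { toFun := fun P => ⟨P.1.1.1, P.1.2.2.1, by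
          have := P.1.2.1; rwa [← congrArg Subtype.val P.2]⟩
        invFun := fun U => ⟨⟨(U.1, W.1), U.2.2, U.2.1, W.2.1⟩, rfl⟩
        left_inv := by rintro ⟨_, rfl⟩; rfl
        right_inv := fun _ => rfl }

end Cfsg.Agent.Elu
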