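import Mathlib
import Cfsg.Prelude.Def_GeometricClasses
import Cfsg.Agent.Elu.Uni

/-!
Decompositions permuted by an endomorphism.
-/

set_option autoImplicit false
set_option backward.isDefEq.respectTransparency false

namespace Cfsg.Agent.Elu

open Module Polynomial Conj Spc Matrix
open scoped _root_.Classical MatrixGroups

variable {F : Type*} [Field F] {V W : Type*} [AddCommGroup V] [Module F V] [AddCommGroup W]
  [Module F W]

/-- orthogonal subspaces -/
def Ort (B : LinearMap.BilinForm F V) (U U' : Submodule F V) : Prop := ∀ u ∈ U, ∀ v ∈ U', B u v = 0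

theorem Ort.mono {B : LinearMap.BilinForm F V} {U U' T T' : Submodule F V} (h : Ort B T T')
    (h1 : U ≤ T) (h2 : U' ≤ T') : Ort B U U' := fun u hu v hv => h u (h1 hu) v (h2 hv)

theorem ort_zero (U U' : Submodule F V) : Ort 0 U U' := fun _ _ _ _ => rfl

theorem ort_iff_left {B : LinearMap.BilinForm F V} {U U' : Submodule F V} :
    Ort B U U' ↔ U ≤ ⨅ v ∈ U', LinearMap.ker (B.flip v) := by
  simp only [le_iInf_iff]
  exact ⟨fun h v hv u hu => h u hu v hv, fun h u hu v hv => h v hv hu⟩

theorem ort_iff_right {B : LinearMap.BilinForm F V} {U U' : Submodule F V} :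
    Ort B U U' ↔ U' ≤ ⨅ v ∈ U, LinearMap.ker (B v) := by
  simp only [le_iInf_iff]
  exact ⟨fun h v hv u hu => h v hv u hu, fun h u hu v hv => h u hu hv⟩

theorem ort_sup {ι κ : Type*} {B : LinearMap.BilinForm F V} {D : ι → Submodule F V}
    {E : κ → Submodule F V} {S : Finset ι} {S' : Finset κ}
    (h : ∀ i ∈ S, ∀ j ∈ S', Ort B (D i) (E j)) : Ort B (S.sup D) (S'.sup E) :=
  ort_iff_left.2 (Finset.sup_le fun i hi => ort_iff_left.1
    (ort_iff_right.2 (Finset.sup_le fun j hj => ort_iff_right.1 (h i hi j hj))))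

theorem Ort.sup_left {B : LinearMap.BilinForm F V} {U U' T : Submodule F V} (h : Ort B U T)
    (h' : Ort B U' T) : Ort B (U ⊔ U') T :=
  ort_iff_left.2 (sup_le (ort_iff_left.1 h) (ort_iff_left.1 h'))

theorem Ort.sup_right {B : LinearMap.BilinForm F V} {U U' T : Submodule F V} (h : Ort B T U)
    (h' : Ort B T U') : Ort B T (U ⊔ U') :=
  ort_iff_right.2 (sup_le (ort_iff_right.1 h) (ort_iff_right.1 h'))

/-- `f` permutes `t` mutually orthogonal `a`-subspaces spanning `T`. -/
def PD (B : LinearMap.BilinForm F V) (f : End F V) (a t : ℕ) (T : Submodule F V) : Prop :=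
  ∃ (ι : Type) (_ : Fintype ι) (D : ι → Submodule F V) (σ : Equiv.Perm ι), Fintype.card ι = t ∧
    (∀ j, finrank F (D j) = a) ∧ iSup D = T ∧ (∀ j k, j ≠ k → Ort B (D j) (D k)) ∧
    ∀ j, (D j).map f ≤ D (σ j)

variable {B : LinearMap.BilinForm F V} {f : End F V} {a t : ℕ}

theorem PD.zero : PD B f a 0 ⊥ :=
  ⟨Empty, inferInstance, Empty.elim, 1, rfl, fun j => j.elim, iSup_of_empty _, fun j => j.elim,
    fun j => j.elim⟩

theorem PD.one {T : Submodule F V} (h : finrank F T = a) (hT : T.map f ≤ T) : PD B f a 1 T :=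
  ⟨Unit, inferInstance, fun _ => T, 1, rfl, fun _ => h, iSup_const, fun _ _ h => absurd rfl h,
    fun _ => hT⟩

theorem PD.add {t' : ℕ} {T T' : Submodule F V} (h : PD B f a t T) (h' : PD B f a t' T')
    (h1 : Ort B T T') (h2 : Ort B T' T) : PD B f a (t + t') (T ⊔ T') := by
  obtain ⟨ι, _, D, σ, rfl, a1, rfl, a3, a4⟩ := h
  obtain ⟨κ, _, E, τ, rfl, b1, rfl, b3, b4⟩ := h'
  refine ⟨ι ⊕ κ, inferInstance, Sum.elim D E, σ.sumCongr τ, by simp, ?_, iSup_sum, ?_, ?_⟩
  · rintro (j | j); exacts [a1 j, b1 j]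
  · rintro (j | j) (k | k) h
    · exact a3 j k fun e => h (by rw [e])
    · exact h1.mono (le_iSup D j) (le_iSup E k)
    · exact h2.mono (le_iSup E j) (le_iSup D k)
    · exact b3 j k fun e => h (by rw [e])
  · rintro (j | j); exacts [a4 j, b4 j]

theorem PD.map {B' : LinearMap.BilinForm F W} {g : End F W} {T : Submodule F V}
    (h : PD B f a t T) (e : V →ₗ[F] W) (he : Function.Injective e) (h1 : ∀ v, e (f v) = g (e v))
    (h2 : ∀ u v, B' (e u) (e v) = B u v) : PD B' g a t (T.map e) := by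
  obtain ⟨ι, _, D, σ, rfl, a1, rfl, a3, a4⟩ := h
  refine ⟨ι, inferInstance, fun j => (D j).map e, σ, rfl, fun j => ?_,
    (Submodule.map_iSup _ _).symm, ?_, fun j => ?_⟩
  · rw [← (Submodule.equivMapOfInjective e he _).finrank_eq, a1]
  · rintro j k h _ ⟨u, hu, rfl⟩ _ ⟨v, hv, rfl⟩
    rw [h2, a3 j k h u hu v hv]
  · rw [map_map_of_intertwine e h1]; exact Submodule.map_mono (a4 j)

theorem PD.sim {g : End F W} (h : PD 0 f a t ⊤) (hs : Sim f g) : PD 0 g a t ⊤ := by
  obtain ⟨e, he⟩ := hs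
  simpa using h.map (B' := 0) e.toLinearMap e.injective he fun _ _ => rfl

theorem PD.tri {B' : LinearMap.BilinForm F W} {g : End F W} (h : PD B f a t ⊤)
    (hs : Tri B f B' g) : PD B' g a t ⊤ := by
  obtain ⟨e, he, he'⟩ := hs
  simpa using h.map e.toLinearMap e.injective he he'

theorem PD.prod {g : End F W} {t' : ℕ} (h : PD 0 f a t ⊤) (h' : PD 0 g a t' ⊤) :
    PD 0 (f.prodMap g : End F (V × W)) a (t + t') ⊤ := by
  have := (h.map (B' := 0) (g := (f.prodMap g : End F (V × W))) (LinearMap.inl F V W)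
    LinearMap.inl_injective (fun v => by simp) fun _ _ => rfl).add
    (h'.map (LinearMap.inr F V W) LinearMap.inr_injective (fun v => by simp) fun _ _ => rfl)
    (ort_zero _ _) (ort_zero _ _)
  rwa [Submodule.map_top, Submodule.map_top, LinearMap.sup_range_inl_inr] at this

theorem PD.smul {c : F} (hc : c ≠ 0) {T : Submodule F V} : PD B (c • f) a t T ↔ PD B f a t T := by
  simp only [PD, map_smul_eq hc]

theorem PD.cyc {r : ℕ} (hr : 0 < r) {c : F} (hf : f ^ r = c • 1) (hi : Function.Injective f)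
    {U : Submodule F V} (hU : finrank F U = a)
    (ho : ∀ j < r, ∀ k < r, j ≠ k → Ort B (U.map (f ^ j)) (U.map (f ^ k))) :
    PD B f a r (⨆ j : Fin r, U.map (f ^ j.val)) := by
  obtain ⟨r, rfl⟩ := Nat.exists_eq_succ_of_ne_zero hr.ne'
  refine ⟨Fin (r + 1), inferInstance, fun j => U.map (f ^ j.val), finRotate _, by simp,
    fun j => ?_, rfl, fun j k h => ho _ j.2 _ k.2 fun e => h (Fin.ext e), fun j => ?_⟩
  · rw [← (Submodule.equivMapOfInjective _ (by
      rw [End.coe_pow]; exact hi.iterate _) _).finrank_eq, hU]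
  · rw [← Submodule.map_comp, ← End.mul_eq_comp, ← pow_succ']
    by_cases h : j = Fin.last r
    · subst h
      rw [finRotate_last, Fin.val_last, hf]
      rintro _ ⟨x, hx, rfl⟩
      exact ⟨c • x, U.smul_mem c hx, by simp⟩
    · simp only [coe_finRotate_of_ne_last h, le_refl]

theorem PD.two {U : Submodule F V} {c : F} (hf : f ^ 2 = c • 1) (hi : Function.Injective f)
    (hU : finrank F U = a) (h1 : Ort B U (U.map f)) (h2 : Ort B (U.map f) U) :
    PD B f a 2 (U ⊔ U.map f) := by
  have := PD.cyc (B := B) two_pos hf hi hU fun j hj k hk h => by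
    interval_cases j <;> interval_cases k <;> simp_all [End.one_eq_id]
  rwa [← Finset.sup_univ_eq_iSup, Fin.univ_succ, Finset.sup_cons, Finset.univ_unique,
    Finset.map_singleton, Finset.sup_singleton, Fin.val_zero, pow_zero, End.one_eq_id,
    Submodule.map_id] at this

variable [FiniteDimensional F V]

theorem finrank_sup_le {ι : Type*} (D : ι → Submodule F V) (S : Finset ι) :
    finrank F (S.sup D : Submodule F V) ≤ ∑ j ∈ S, finrank F (D j) := by
  induction S using Finset.induction_on with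
  | empty => simp
  | insert j S hj ih =>
    rw [Finset.sup_insert, Finset.sum_insert hj]
    exact (Submodule.finrank_add_le_finrank_add_finrank _ _).trans (by omega)

theorem finrank_sup_eq {ι : Type*} {D : ι → Submodule F V} (h : iSupIndep D) (S : Finset ι) :
    finrank F (S.sup D : Submodule F V) = ∑ j ∈ S, finrank F (D j) := by
  induction S using Finset.induction_on with
  | empty => simp
  | insert j S hj ih =>
    have := Submodule.finrank_sup_add_finrank_inf_eq (D j) (S.sup D)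
    rw [Finset.sup_insert, Finset.sum_insert hj, ← ih, ← this, ((h.supIndep' (insert j S))
      (Finset.subset_insert _ _) (Finset.mem_insert_self _ _) hj).eq_bot, finrank_bot, add_zero]

theorem indep_of_finrank {ι : Type*} [Fintype ι] {D : ι → Submodule F V} (h : iSup D = ⊤)
    (h' : ∑ j, finrank F (D j) ≤ finrank F V) : iSupIndep D := by
  rw [iSupIndep_iff_supIndep_univ, Finset.supIndep_iff_disjoint_erase]
  intro j _
  have h1 := Submodule.finrank_sup_add_finrank_inf_eq (D j) ((Finset.univ.erase j).sup D)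
  have h2 := finrank_sup_le D (Finset.univ.erase j)
  rw [← Finset.sup_insert, Finset.insert_erase (Finset.mem_univ _), Finset.sup_univ_eq_iSup, h,
    finrank_top] at h1
  rw [← Finset.add_sum_erase _ _ (Finset.mem_univ j)] at h'
  exact disjoint_iff.2 (Submodule.finrank_eq_zero.1 (by omega))

theorem map_eq_of_le (hi : Function.Injective f) {U U' : Submodule F V} (h : U.map f ≤ U')
    (hd : finrank F U = finrank F U') : U.map f = U' :=
  Submodule.eq_of_le_of_finrank_eq h (by
    rw [← (Submodule.equivMapOfInjective _ hi _).finrank_eq, hd])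

theorem pd_iff {ι : Type} [Fintype ι] [DecidableEq ι] {B : LinearMap.BilinForm F (ι → F)}
    {f : End F (ι → F)} (hi : Function.Injective f) (ha : 0 < a) (ht : 2 ≤ t)
    (hn : Fintype.card ι = a * t) :
    (∃ D : Fin t → Submodule F (ι → F), (Geo.IsMDecomposition a D ∧
      ∀ j k, j ≠ k → Ort B (D j) (D k)) ∧ ∃ σ : Equiv.Perm (Fin t), ∀ j, (D j).map f = D (σ j)) ↔
      PD B f a t ⊤ := by
  constructor
  · rintro ⟨D, ⟨h1, h2⟩, σ, h3⟩
    exact ⟨Fin t, inferInstance, D, σ, by simp, h1.finrank_eq, h1.iSup_eq_top, h2,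
      fun j => (h3 j).le⟩
  · rintro ⟨κ, _, D, σ, rfl, a1, a2, a3, a4⟩
    let e := (Fintype.equivFin κ).symm
    have h1 : iSup (D ∘ e) = ⊤ := by rw [← a2]; exact e.iSup_comp
    refine ⟨D ∘ e, ⟨⟨ht, ha, fun j => a1 _, indep_of_finrank h1 (by simp [a1, hn, mul_comm]), h1⟩,
      fun j k h => a3 _ _ (e.injective.ne h)⟩, e.symm.permCongr σ, fun j => ?_⟩
    simpa using map_eq_of_le hi (a4 (e j)) (by rw [a1, a1])

omit [FiniteDimensional F V] in
theorem map_pow_le {ι : Type*} {D : ι → Submodule F V} {σ : Equiv.Perm ι}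
    (h : ∀ j, (D j).map f ≤ D (σ j)) (k : ℕ) (j : ι) : (D j).map (f ^ k) ≤ D ((σ ^ k) j) := by
  induction k with
  | zero => simp [End.one_eq_id]
  | succ k ih =>
    rw [pow_succ', pow_succ', End.mul_eq_comp, Submodule.map_comp]
    exact (Submodule.map_mono ih).trans (h _)

omit [FiniteDimensional F V] in
theorem perm_pow_eq_one {ι : Type*} {D : ι → Submodule F V} {σ : Equiv.Perm ι} (hD : iSupIndep D)
    (h0 : ∀ j, D j ≠ ⊥) (h : ∀ j, (D j).map f ≤ D (σ j)) {r : ℕ} {c : F} (hc : c ≠ 0)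
    (hf : f ^ r = c • 1) : σ ^ r = 1 := by
  ext j
  by_contra e
  have := map_pow_le h r j
  rw [hf, map_smul_eq hc, End.one_eq_id, Submodule.map_id] at this
  exact h0 j ((hD.pairwiseDisjoint (Ne.symm e)).eq_bot_of_le this)

omit [FiniteDimensional F V] in
theorem sup_inv {ι : Type*} {D : ι → Submodule F V} {σ : Equiv.Perm ι}
    (h : ∀ j, (D j).map f ≤ D (σ j)) {S S' : Finset ι} (hS : ∀ j ∈ S, σ j ∈ S') :
    (S.sup D).map f ≤ S'.sup D := by
  rw [Submodule.map_le_iff_le_comap]
  exact Finset.sup_le fun j hj => Submodule.map_le_iff_le_comap.1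
    ((h j).trans (Finset.le_sup (hS j hj)))

theorem sim_mdl_of_gen {r : ℕ} (hr : r ≠ 0) {c : F} (hf : f ^ r = c • 1) {κ : Type*} [Fintype κ]
    (w : κ → V) (hgen : ∀ U : Submodule F V, U.map f ≤ U → (∀ k, w k ∈ U) → U = ⊤)
    (hd : Fintype.card κ * r ≤ finrank F V) : Sim f (mdl fun _ : κ => (X ^ r - C c : F[X])) := by
  have hm : ∀ _ : κ, (X ^ r - C c : F[X]).Monic := fun _ => monic_X_pow_sub_C c hr
  obtain ⟨L, h1, h2⟩ := exists_lift_mdl hm f (w := w) fun k => by
    simp [hf, Algebra.algebraMap_eq_smul_one]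
  haveI := finite_alg hm
  have hs : Function.Surjective L := LinearMap.range_eq_top.1 (hgen _ (by
    rw [inv_iff]; rintro _ ⟨v, rfl⟩; exact ⟨_, h1 v⟩) fun k => ⟨_, h2 k⟩)
  have h3 := LinearMap.finrank_le_finrank_of_surjective hs
  have h4 := finrank_alg hm
  simp only [natDegree_X_pow_sub_C, Finset.sum_const, Finset.card_univ, smul_eq_mul] at h4
  exact Sim.symm ⟨LinearEquiv.ofBijective L ⟨(LinearMap.injective_iff_surjective_of_finrank_eq_finrank
    (by omega)).2 hs, hs⟩, h1⟩

theorem exists_reps {ι : Type*} [Fintype ι] {σ : Equiv.Perm ι} {r : ℕ} (hr : r.Prime)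
    (h : σ ^ r = 1) : ∃ (h : ℕ) (pt : Fin h → ι), σ.support.card = h * r ∧
      (∀ k, pt k ∈ σ.support) ∧ ∀ j ∈ σ.support, ∃ k, ∃ i : ℕ, (σ ^ i) (pt k) = j := by
  haveI := Fact.mk hr
  have h1 : ∀ c : σ.cycleFactorsFinset, ∃ j, j ∈ c.1.support := fun c =>
    (Equiv.Perm.mem_cycleFactorsFinset_iff.1 c.2).1.nonempty_support
  choose pt hpt using h1
  let e := (Fintype.equivFin σ.cycleFactorsFinset).symm
  refine ⟨_, pt ∘ e, ?_, fun k => Equiv.Perm.mem_cycleFactorsFinset_support_le (e k).2 (hpt _),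
    fun j hj => ?_⟩
  · rw [← Equiv.Perm.sum_cycleType, Equiv.Perm.cycleType_of_pow_prime_eq_one h,
      Multiset.sum_replicate, Equiv.Perm.cycleType_def]
    simp
  · have h2 := Equiv.Perm.cycleOf_mem_cycleFactorsFinset_iff.2 hj
    obtain ⟨i, hi⟩ := (Equiv.Perm.mem_support_cycleOf_iff.1 (hpt ⟨_, h2⟩)).1.symm.exists_nat_pow_eq
    exact ⟨e.symm ⟨_, h2⟩, i, by simpa using hi⟩

/-- structure of a permuted decomposition -/
theorem PD.struct (h : PD B f a t ⊤) (hn : finrank F V = a * t) (ha : 0 < a) {r : ℕ}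
    (hr : r.Prime) {c : F} (hc : c ≠ 0) (hf : f ^ r = c • 1) :
    ∃ (h : ℕ) (ι : Type) (D : ι → Submodule F V) (S : Finset ι) (U : Submodule F V)
      (hU : U.map f ≤ U), h * r + S.card = t ∧ iSupIndep D ∧ (∀ j, finrank F (D j) = a) ∧
      (∀ j ∈ S, (D j).map f ≤ D j) ∧ IsCompl U (S.sup D) ∧
      Sim (res f hU) (mdl fun _ : Fin h × Fin a => (X ^ r - C c : F[X])) ∧
      (∀ j ∈ S, Ort B (D j) (U ⊔ (S.erase j).sup D)) := by
  obtain ⟨ι, _, D, σ, rfl, a1, a2, a3, a4⟩ := h
  have hD := indep_of_finrank a2 (by simp [a1, hn, mul_comm])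
  have h1 := perm_pow_eq_one hD (fun j e => by have := a1 j; rw [e, finrank_bot] at this; omega)
    a4 hc hf
  obtain ⟨h, pt, h2, h3, h4⟩ := exists_reps hr h1
  have hU := sup_inv a4 (S := σ.support) (S' := σ.support) fun j hj => by simpa using hj
  refine ⟨h, ι, D, σ.supportᶜ, _, hU, by rw [← h2, Finset.card_add_card_compl], hD, a1,
    fun j hj => ?_, ⟨(hD.supIndep' Finset.univ).disjoint_sup_sup (Finset.subset_univ _)
      (Finset.subset_univ _) disjoint_compl_right, ?_⟩, ?_, fun j hj => ?_⟩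
  · have := a4 j
    rwa [Equiv.Perm.notMem_support.1 (Finset.mem_compl.1 hj)] at this
  · rw [codisjoint_iff, ← Finset.sup_union, Finset.union_compl, Finset.sup_univ_eq_iSup, a2]
  · let b := fun k => finBasisOfFinrankEq F (D (pt k)) (a1 _)
    refine sim_mdl_of_gen hr.ne_zero (res_pow_eq hU hf) (fun k => ⟨b k.1 k.2,
      (Finset.le_sup (f := D) (h3 k.1) :) (b k.1 k.2).2⟩) (fun T hT hb => ?_) ?_
    · have hT' := map_inv_of_intertwine (σ.support.sup D).subtype (g := f) (fun _ => rfl) hT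
      have h5 : ∀ k, D (pt k) ≤ T.map (σ.support.sup D).subtype := fun k => by
        rw [← (D (pt k)).range_subtype, ← Submodule.map_top, ← (b k).span_eq, Submodule.map_span,
          Submodule.span_le]
        rintro _ ⟨_, ⟨i, rfl⟩, rfl⟩
        exact ⟨_, hb (k, i), rfl⟩
      have hi : Function.Injective f := by
        have : IsUnit (f ^ r) := by
          rw [hf, ← Algebra.algebraMap_eq_smul_one]; exact (IsUnit.mk0 c hc).map _
        exact ((End.isUnit_iff _).1 ((isUnit_pow_iff hr.ne_zero).1 this)).1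
      have h6 : ∀ i k, D ((σ ^ i) (pt k)) ≤ T.map (σ.support.sup D).subtype := fun i k => by
        induction i with
        | zero => exact h5 k
        | succ i ih =>
          rw [pow_succ', Equiv.Perm.mul_apply, ← map_eq_of_le hi (a4 _) (by rw [a1, a1])]
          exact (Submodule.map_mono ih).trans hT'
      apply Submodule.map_injective_of_injective (σ.support.sup D).subtype_injective
      rw [Submodule.map_top, Submodule.range_subtype]
      refine le_antisymm (Submodule.map_subtype_le _ _) (Finset.sup_le fun j hj => ?_)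
      obtain ⟨k, i, rfl⟩ := h4 j hj
      exact h6 i k
    · rw [finrank_sup_eq hD]
      simp only [a1, Finset.sum_const, h2, smul_eq_mul, Fintype.card_prod, Fintype.card_fin]
      exact le_of_eq (by ring)
  · rw [← Finset.sup_union, ← Finset.sup_singleton (f := D) (b := j)]
    refine ort_sup fun i hi k hk => a3 _ _ ?_
    rw [Finset.mem_singleton.1 hi]
    rintro rfl
    simp only [Finset.mem_union, Finset.notMem_erase, or_false] at hk
    exact Finset.mem_compl.1 hj hk

end Cfsg.Agent.Elu
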