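import Mathlib
import Cfsg.Agent.Elu.Imp

/-!
Permuted decompositions: regrouping, eigenvalues, Jordan types.
-/

set_option autoImplicit false
set_option backward.isDefEq.respectTransparency false

namespace Cfsg.Agent.Elu

open Module Polynomial Conj Spc Matrix
open scoped _root_.Classical MatrixGroups

section comb
variable {ι : Type*} {σ : ι → ι} (hσ : Function.Involutive σ)
include hσ

theorem sdiff_inv {S A : Finset ι} (hS : ∀ j ∈ S, σ j ∈ S) (hA : ∀ j ∈ A, σ j ∈ A) :
    ∀ j ∈ S \ A, σ j ∈ S \ A := fun j hj => Finset.mem_sdiff.2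
  ⟨hS j (Finset.mem_sdiff.1 hj).1, fun h => (Finset.mem_sdiff.1 hj).2 (hσ j ▸ hA _ h)⟩

theorem exists_inv_even (b : ℕ) (S : Finset ι) (hS : ∀ j ∈ S, σ j ∈ S) (hb : 2 * b ≤ S.card) :
    ∃ A ⊆ S, (∀ j ∈ A, σ j ∈ A) ∧ A.card = 2 * b := by
  induction b generalizing S with
  | zero => exact ⟨∅, by simp, by simp, rfl⟩
  | succ b ih =>
    by_cases h : ∀ j ∈ S, σ j = j
    · obtain ⟨A, h1, h2⟩ := Finset.exists_subset_card_eq hb
      exact ⟨A, h1, fun j hj => by rwa [h j (h1 hj)], h2⟩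
    push Not at h
    obtain ⟨j, hj, h⟩ := h
    have h1 : ∀ k ∈ ({j, σ j} : Finset ι), σ k ∈ ({j, σ j} : Finset ι) := by simp [hσ j]
    have h2 : ({j, σ j} : Finset ι) ⊆ S := by simp [Finset.insert_subset_iff, hj, hS j hj]
    have h3 := Finset.card_pair h.symm
    obtain ⟨A, a1, a2, a3⟩ := ih _ (sdiff_inv hσ hS h1) (by rw [Finset.card_sdiff_of_subset h2]; omega)
    refine ⟨{j, σ j} ∪ A, Finset.union_subset h2 (a1.trans Finset.sdiff_subset), fun k hk => ?_, ?_⟩
    · exact Finset.mem_union.2 ((Finset.mem_union.1 hk).imp (h1 k) (a2 k))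
    · rw [Finset.card_union_of_disjoint (Finset.disjoint_sdiff.mono_right a1), h3, a3]; ring

theorem exists_inv_sub {b : ℕ} {S : Finset ι} (hS : ∀ j ∈ S, σ j ∈ S) (hb : b ≤ S.card)
    (h : Even b ∨ ∃ j ∈ S, σ j = j) : ∃ A ⊆ S, (∀ j ∈ A, σ j ∈ A) ∧ A.card = b := by
  rcases Nat.even_or_odd' b with ⟨b, rfl | rfl⟩
  · exact exists_inv_even hσ b S hS hb
  obtain ⟨j, hj, h⟩ := h.resolve_left (by simp)
  have h1 : ∀ k ∈ ({j} : Finset ι), σ k ∈ ({j} : Finset ι) := by simp [h]
  have h2 : ({j} : Finset ι) ⊆ S := by simpa using hj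
  obtain ⟨A, a1, a2, a3⟩ := exists_inv_even hσ b _ (sdiff_inv hσ hS h1)
    (by rw [Finset.card_sdiff_of_subset h2, Finset.card_singleton]; omega)
  refine ⟨{j} ∪ A, Finset.union_subset h2 (a1.trans Finset.sdiff_subset), fun k hk => ?_, ?_⟩
  · exact Finset.mem_union.2 ((Finset.mem_union.1 hk).imp (h1 k) (a2 k))
  · rw [Finset.card_union_of_disjoint (Finset.disjoint_sdiff.mono_right a1), a3,
      Finset.card_singleton, add_comm]

theorem exists_transv {S : Finset ι} (h : ∀ j ∈ S, σ j ≠ j) (b : ℕ) (hb : 2 * b ≤ S.card) :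
    ∃ A ⊆ S, A.card = b ∧ Disjoint A (A.image σ) := by
  induction b with
  | zero => exact ⟨∅, by simp, rfl, by simp⟩
  | succ b ih =>
    obtain ⟨A, a1, a2, a3⟩ := ih (by omega)
    obtain ⟨j, hj, hj'⟩ := Finset.exists_mem_notMem_of_card_lt_card (s := A ∪ A.image σ) (t := S)
      (by have := Finset.card_union_le A (A.image σ); have := Finset.card_image_le (s := A) (f := σ)
          omega)
    rw [Finset.mem_union, not_or] at hj'
    refine ⟨insert j A, Finset.insert_subset hj a1, by rw [Finset.card_insert_of_notMem hj'.1, a2],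
      ?_⟩
    rw [Finset.image_insert, Finset.disjoint_insert_left, Finset.disjoint_insert_right,
      Finset.mem_insert, not_or]
    exact ⟨⟨(h j hj).symm, hj'.2⟩, fun e => hj'.2 (Finset.mem_image.2 ⟨_, e, hσ j⟩), a3⟩

end comb

variable {F : Type*} [Field F] {V W : Type*} [AddCommGroup V] [Module F V] [AddCommGroup W]
  [Module F W] {B : LinearMap.BilinForm F V} {f : End F V} {a t : ℕ}

theorem inj_of_pow {r : ℕ} (hr : r ≠ 0) {c : F} (hc : c ≠ 0) (hf : f ^ r = c • 1) :
    Function.Injective f := by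
  have : IsUnit (f ^ r) := by
    rw [hf, ← Algebra.algebraMap_eq_smul_one]; exact (IsUnit.mk0 c hc).map _
  exact ((End.isUnit_iff _).1 ((isUnit_pow_iff hr).1 this)).1

theorem PD.inv {T : Submodule F V} (h : PD B f a t T) : T.map f ≤ T := by
  obtain ⟨ι, _, D, σ, -, -, rfl, -, a4⟩ := h
  rw [Submodule.map_iSup]
  exact iSup_le fun j => (a4 j).trans (le_iSup D _)

theorem aeval_mem_of_inv {U : Submodule F V} (h : U.map f ≤ U) (p : F[X]) {v : V} (hv : v ∈ U) :
    aeval f p v ∈ U := by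
  rw [← coe_aeval_res h p ⟨v, hv⟩]; exact Subtype.property _

theorem mdl_gen {κ : Type*} [Fintype κ] {p : κ → F[X]} {U : Submodule F (Alg p)}
    (h : U.map (mdl p) ≤ U) (h1 : ∀ k, Pi.single k 1 ∈ U) : U = ⊤ := by
  rw [eq_top_iff]
  intro v _
  rw [← Finset.univ_sum_single v]
  refine U.sum_mem fun k _ => ?_
  obtain ⟨g, hg⟩ := AdjoinRoot.mk_surjective (v k)
  rw [← hg, ← aeval_mdl_single]
  exact aeval_mem_of_inv h _ (h1 k)

theorem mdl_pow {κ : Type*} {r : ℕ} (c : F) :
    (mdl fun _ : κ => (X ^ r - C c : F[X])) ^ r = c • 1 := by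
  have := (aeval_mdl_eq_zero_iff (fun _ : κ => (X ^ r - C c : F[X])) (X ^ r - C c)).2
    fun _ => dvd_rfl
  simpa [sub_eq_zero, Algebra.algebraMap_eq_smul_one] using this

theorem pd_mdl {κ : Type*} [Fintype κ] {r : ℕ} (hr : 0 < r) {c : F} (hc : c ≠ 0) :
    PD 0 (mdl fun _ : κ => (X ^ r - C c : F[X])) (Fintype.card κ) r ⊤ := by
  haveI : Nontrivial (AdjoinRoot (X ^ r - C c : F[X])) :=
    AdjoinRoot.nontrivial _ (by rw [degree_X_pow_sub_C hr]; exact_mod_cast hr.ne')
  let j : (κ → F) →ₗ[F] Alg fun _ : κ => (X ^ r - C c : F[X]) :=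
    LinearMap.pi fun k => Algebra.linearMap F _ ∘ₗ LinearMap.proj k
  have hj : Function.Injective j := fun u v e => funext fun k =>
    (algebraMap F (AdjoinRoot (X ^ r - C c : F[X]))).injective (congrFun e k)
  have h := PD.cyc (B := 0) hr (mdl_pow c) (inj_of_pow hr.ne' hc (mdl_pow c))
    (U := LinearMap.range j) (a := Fintype.card κ)
    (by rw [LinearMap.finrank_range_of_inj hj]; simp) fun _ _ _ _ _ => ort_zero _ _
  have hk : ∀ k, j (Pi.single k 1) = Pi.single k 1 := fun k => by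
    funext l
    by_cases e : l = k
    · subst e; simp [j]
    · simp [j, e]
  rwa [mdl_gen h.inv fun k => Submodule.mem_iSup_of_mem ⟨0, hr⟩ ⟨_, ⟨_, hk k⟩, rfl⟩] at h

variable [FiniteDimensional F V]

theorem PD.regroup {b : ℕ} (h : PD B f a (b * t) ⊤) (hn : finrank F V = a * (b * t)) (ha : 0 < a)
    {c : F} (hc : c ≠ 0) (hf : f ^ 2 = c • 1) : PD B f (b * a) t ⊤ := by
  obtain ⟨ι, _, D, σ, a0, a1, a2, a3, a4⟩ := h
  have hD := indep_of_finrank a2 (by simp [a1, hn, a0, mul_comm])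
  have h1 := perm_pow_eq_one hD (fun j e => by have := a1 j; rw [e, finrank_bot] at this; omega)
    a4 hc hf
  have hσ : Function.Involutive σ := fun j => by
    rw [← Equiv.Perm.mul_apply, ← sq, h1]; rfl
  have hi := inj_of_pow two_ne_zero hc hf
  have hO : ∀ {S T : Finset ι}, Disjoint S T → Ort B (S.sup D) (T.sup D) := fun h =>
    ort_sup fun i hi j hj => a3 _ _ (Finset.disjoint_iff_ne.1 h i hi j hj)
  have hF : ∀ S : Finset ι, finrank F (S.sup D : Submodule F V) = S.card * a := fun S => by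
    simp [finrank_sup_eq hD, a1]
  have key : ∀ t, ∀ S : Finset ι, (∀ j ∈ S, σ j ∈ S) → S.card = b * t →
      PD B f (b * a) t (S.sup D) := by
    intro t
    induction t using Nat.strong_induction_on with
    | _ t ih =>
      intro S hS hc'
      have step : ∀ A ⊆ S, ∀ k, 0 < k → k ≤ t → (∀ j ∈ A, σ j ∈ A) → A.card = b * k →
          PD B f (b * a) k (A.sup D) → PD B f (b * a) t (S.sup D) := by
        intro A hA k hk hkt h2 h3 h4
        have := h4.add (ih (t - k) (by omega) _ (sdiff_inv hσ hS h2) (by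
          rw [Finset.card_sdiff_of_subset hA, hc', h3, Nat.mul_sub]))
          (hO Finset.disjoint_sdiff) (hO Finset.sdiff_disjoint)
        rwa [← Finset.sup_union, Finset.union_sdiff_of_subset hA, Nat.add_sub_cancel' hkt] at this
      rcases t with _ | _ | t
      · rw [Finset.card_eq_zero.1 hc']; exact PD.zero
      · exact PD.one (by rw [hF, hc', zero_add, mul_one]) (sup_inv a4 hS)
      by_cases h : ∃ j ∈ S, σ j = j
      · obtain ⟨A, b1, b2, b3⟩ := exists_inv_sub hσ hS (b := b) (by rw [hc']; nlinarith) (Or.inr h)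
        exact step A b1 1 one_pos (by omega) b2 (by rw [b3, mul_one])
          (PD.one (by rw [hF, b3]) (sup_inv a4 b2))
      · push Not at h
        obtain ⟨A, b1, b2, b3⟩ := exists_transv hσ h b (by rw [hc']; nlinarith)
        have b4 : (A.image σ).card = b := by rw [Finset.card_image_of_injective _ σ.injective, b2]
        have b5 : (A.sup D).map f = (A.image σ).sup D :=
          map_eq_of_le hi (sup_inv a4 fun j hj => Finset.mem_image_of_mem _ hj)
            (by rw [hF, hF, b2, b4])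
        have := PD.two (B := B) (U := A.sup D) hf hi (by rw [hF, b2]) (by rw [b5]; exact hO b3)
          (by rw [b5]; exact hO b3.symm)
        rw [b5, ← Finset.sup_union] at this
        refine step _ (Finset.union_subset b1 (Finset.image_subset_iff.2 fun j hj => hS j (b1 hj)))
          2 two_pos (by omega) (fun j hj => ?_)
          (by rw [Finset.card_union_of_disjoint b3, b2, b4]; ring) this
        rcases Finset.mem_union.1 hj with h | h
        · exact Finset.mem_union_right _ (Finset.mem_image_of_mem _ h)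
        · obtain ⟨k, hk, rfl⟩ := Finset.mem_image.1 h
          rw [hσ k]; exact Finset.mem_union_left _ hk
  rw [← a2, ← Finset.sup_univ_eq_iSup]
  exact key t _ (fun _ _ => Finset.mem_univ _) a0

omit [FiniteDimensional F V] in
theorem pd_mdl_of_cyc {k : ℕ} (p : Fin k → F[X]) (t : Fin k → ℕ)
    (h : ∀ i, PD 0 (cyc (p i)) a (t i) ⊤) : PD 0 (mdl p) a (∑ i, t i) ⊤ := by
  induction k with
  | zero => rw [Subsingleton.elim (⊤ : Submodule F (Alg p)) ⊥]; exact PD.zero
  | succ k ih =>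
    rw [Fin.sum_univ_succ]
    exact ((h 0).prod (ih _ _ fun i => h i.succ)).sim (sim_mdl_succ p).symm

theorem pd_one_of_sq {c : F} (hc : c ≠ 0) (hf : f ^ 2 = c • 1) : PD 0 f 1 (finrank F V) ⊤ := by
  obtain ⟨k, p, e, h1, h2, h3, h4⟩ := exists_model f
  have hm : ∀ i, (p i ^ e i).Monic := fun i => (h2 i).pow _
  rw [h4.finrank_eq, finrank_alg hm]
  refine (pd_mdl_of_cyc _ _ fun i => ?_).sim h4.symm
  have h5 : p i ^ e i ∣ X ^ 2 - C c := (aeval_mdl_eq_zero_iff _ _).1 (Sim.aeval_eq_zero h4.symm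
    (by simp [hf, Algebra.algebraMap_eq_smul_one])) i
  have h6 := natDegree_le_of_dvd h5 (X_pow_sub_C_ne_zero two_pos c)
  have h7 : 0 < (p i ^ e i).natDegree := by
    rw [natDegree_pow]; exact Nat.mul_pos (h3 i) (h1 i).natDegree_pos
  rw [natDegree_X_pow_sub_C] at h6
  rcases h6.eq_or_lt with h | h
  · rw [eq_of_monic_of_dvd_of_natDegree_le (hm i) (monic_X_pow_sub_C c two_ne_zero) h5
      (by rw [h, natDegree_X_pow_sub_C]) |>.symm, natDegree_X_pow_sub_C]
    exact (pd_mdl (κ := Unit) two_pos hc).sim (sim_mdl_single _ () fun _ h => absurd rfl h)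
  · rw [show (p i ^ e i).natDegree = 1 by omega]
    exact PD.one (by rw [finrank_top, finrank_adjoinRoot (hm i)]; omega) le_top

theorem jt_mdl_char {κ : Type*} [Fintype κ] {p : ℕ} [hp : Fact p.Prime] [CharP F p] :
    haveI := finite_alg fun _ : κ => monic_X_pow_sub_C (1 : F) hp.out.ne_zero
    jt ((mdl fun _ : κ => (X ^ p - C 1 : F[X])) - 1) = Multiset.replicate (Fintype.card κ) p := by
  have hm := fun _ : κ => monic_X_pow_sub_C (1 : F) hp.out.ne_zero
  haveI := finite_alg hm
  have := sim_mdl_of_gen (f := (mdl fun _ : κ => (X ^ p - C 1 : F[X])) - 1) hp.out.ne_zero (c := 0)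
    (by rw [sub_one_pow_char, mdl_pow]; simp) (fun k => Pi.single k 1) (fun U hU h => mdl_gen
      (inv_iff.2 fun x hx => by simpa using U.add_mem (inv_iff.1 hU x hx) hx) h)
    (by rw [finrank_alg hm]; simp only [natDegree_X_pow_sub_C]; simp)
  rw [jt_eq (d := fun _ : κ => p) (fun _ => hp.out.pos)
    (this.trans (sim_mdl_equiv (Equiv.refl _) fun _ => by simp))]
  simp

theorem PD.dec_or {p : ℕ} [hp : Fact p.Prime] [CharP F p] (h : PD B f a t ⊤)
    (hn : finrank F V = a * t) (ha : 0 < a) (ht : 0 < t) (hf : (f - 1) ^ p = 0) :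
    Dec f a ∨ a ≤ (jt (f - 1)).count p := by
  obtain ⟨h, ι, D, S, U, hU, h1, h2, h3, h4, h5, h6, -⟩ := h.struct hn ha hp.out one_ne_zero
    (by rwa [sub_one_pow_char, sub_eq_zero, ← one_smul F (1 : End F V)] at hf)
  have h8 : ∀ T ⊆ S, (T.sup D).map f ≤ T.sup D := fun T hT =>
    Submodule.map_le_iff_le_comap.2 (Finset.sup_le fun j hj => Submodule.map_le_iff_le_comap.1
      ((h4 j (hT hj)).trans (Finset.le_sup hj)))
  rcases h with _ | h
  · obtain ⟨j, hj⟩ := Finset.card_pos.1 (by omega : 0 < S.card)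
    haveI := finite_alg fun _ : Fin 0 × Fin a => monic_X_pow_sub_C (1 : F) hp.out.ne_zero
    have h9 : U = ⊥ := Submodule.finrank_eq_zero.1 (h6.finrank_eq.trans finrank_zero_of_subsingleton)
    refine Or.inl ⟨D j, (S.erase j).sup D, ⟨h2.supIndep' S (Finset.erase_subset _ _) hj
      (Finset.notMem_erase _ _), ?_⟩, h3 j, h4 j hj, h8 _ (Finset.erase_subset _ _)⟩
    rw [codisjoint_iff, ← Finset.sup_insert, Finset.insert_erase hj, ← h5.sup_eq_top, h9, bot_sup_eq]
  · right
    have hm := fun _ : Fin (h + 1) × Fin a => monic_X_pow_sub_C (1 : F) hp.out.ne_zero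
    haveI := finite_alg hm
    have hN : IsNilpotent (f - 1) := ⟨p, hf⟩
    rw [jt_res hN h5 hU (h8 S le_rfl), (sim_iff_jt (res_nil hU hN)
      (h6.sub_one.symm.isNilpotent (res_nil hU hN))).1 h6.sub_one, jt_mdl_char]
    simp only [Fintype.card_prod, Fintype.card_fin, Multiset.count_add,
      Multiset.count_replicate_self]
    nlinarith

variable (L : Type*) [Field L] [IsAlgClosed L] [Algebra F L]

omit [IsAlgClosed L] in
theorem ev_mdl_const {κ : Type*} [Fintype κ] {r : ℕ} (hr : r ≠ 0) (c : F) :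
    haveI := finite_alg fun _ : κ => monic_X_pow_sub_C c hr
    ev L (mdl fun _ : κ => (X ^ r - C c : F[X])) =
      Fintype.card κ • nthRoots r (algebraMap F L c) := by
  haveI := finite_alg fun _ : κ => monic_X_pow_sub_C c hr
  rw [ev, charpoly_mdl fun _ => monic_X_pow_sub_C c hr, nthRoots]
  simp [roots_pow]

omit [FiniteDimensional F V] in
theorem sim_res_sup {U U' : Submodule F V} (hd : Disjoint U U') (h : U.map f ≤ U)
    (h' : U'.map f ≤ U') (h'' : (U ⊔ U').map f ≤ U ⊔ U') :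
    Sim (res f h'') ((res f h).prodMap (res f h')) := by
  let e : (U × U') →ₗ[F] (U ⊔ U' : Submodule F V) :=
    (Submodule.inclusion le_sup_left).coprod (Submodule.inclusion le_sup_right)
  have he : ∀ v, (e v : V) = v.1 + v.2 := fun _ => rfl
  refine Sim.symm ⟨LinearEquiv.ofBijective e ⟨(injective_iff_map_eq_zero e).2 fun v hv => ?_,
    fun v => ?_⟩, fun v => Subtype.ext ?_⟩
  · have h1 : (v.1 : V) = -v.2 := eq_neg_of_add_eq_zero_left (congrArg Subtype.val hv)
    have h2 : (v.1 : V) = 0 := (Submodule.disjoint_def.1 hd) _ v.1.2 (h1 ▸ U'.neg_mem v.2.2)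
    exact Prod.ext (Subtype.ext h2) (Subtype.ext (neg_eq_zero.1 (h1.symm.trans h2)))
  · obtain ⟨x, hx, y, hy, h⟩ := Submodule.mem_sup.1 v.2
    exact ⟨(⟨x, hx⟩, ⟨y, hy⟩), Subtype.ext h⟩
  · simp [he]

/-- eigenvalues on a subspace -/
noncomputable def evS (f : End F V) (U : Submodule F V) : Multiset L :=
  if h : U.map f ≤ U then ev L (res f h) else 0

omit [IsAlgClosed L] in
theorem evS_eq {U : Submodule F V} (h : U.map f ≤ U) : evS L f U = ev L (res f h) := dif_pos h

theorem evS_sup {ι : Type*} {D : ι → Submodule F V} (hD : iSupIndep D) (S : Finset ι)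
    (h : ∀ j ∈ S, (D j).map f ≤ D j) :
    (S.sup D).map f ≤ S.sup D ∧ evS L f (S.sup D) = ∑ j ∈ S, evS L f (D j) := by
  induction S using Finset.induction_on with
  | empty =>
    refine ⟨by simp, ?_⟩
    rw [evS_eq L (by simp), Finset.sum_empty, ← Multiset.card_eq_zero, card_ev]
    simp
  | insert j S hj ih =>
    obtain ⟨h1, h2⟩ := ih fun k hk => h k (Finset.mem_insert_of_mem hk)
    have h3 := h j (Finset.mem_insert_self _ _)
    have h4 : (D j ⊔ S.sup D).map f ≤ D j ⊔ S.sup D := by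
      rw [Submodule.map_sup]; exact sup_le_sup h3 h1
    rw [Finset.sup_insert, Finset.sum_insert hj, ← h2, evS_eq L h4, evS_eq L h3, evS_eq L h1,
      (sim_res_sup ((hD.supIndep' (insert j S)) (Finset.subset_insert _ _)
        (Finset.mem_insert_self _ _) hj) h3 h1 h4).ev L, ev_prodMap]
    exact ⟨h4, rfl⟩

theorem PD.evs (h : PD B f a t ⊤) (hn : finrank F V = a * t) (ha : 0 < a) {r : ℕ}
    (hr : r.Prime) {c : F} (hc : c ≠ 0) (hf : f ^ r = c • 1) :
    ∃ (h : ℕ) (ι : Type) (S : Finset ι) (M : ι → Multiset L), h * r + S.card = t ∧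
      ev L f = (h * a) • nthRoots r (algebraMap F L c) + ∑ j ∈ S, M j ∧
      ∀ j ∈ S, ∃ (U : Submodule F V) (hU : U.map f ≤ U), finrank F U = a ∧ M j = ev L (res f hU) ∧
        ∃ U', U ⊔ U' = ⊤ ∧ Ort B U U' := by
  obtain ⟨h, ι, D, S, U, hU, h1, h2, h3, h4, h5, h6, h7⟩ := h.struct hn ha hr hc hf
  obtain ⟨h8, h9⟩ := evS_sup L h2 S h4
  haveI := finite_alg fun _ : Fin h × Fin a => monic_X_pow_sub_C c hr.ne_zero
  refine ⟨h, ι, S, fun j => evS L f (D j), h1, ?_, fun j hj =>
    ⟨D j, h4 j hj, h3 j, evS_eq L _, _, ?_, h7 j hj⟩⟩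
  · rw [ev_res L h5 hU h8, h6.ev L, ev_mdl_const L hr.ne_zero, ← h9, evS_eq L h8]
    simp
  · rw [sup_left_comm, ← Finset.sup_insert, Finset.insert_erase hj, h5.sup_eq_top]

variable [Fintype F]

variable {L} in
/-- the multiset `M` is realised by an endomorphism permuting a decomposition -/
def EP (s : F[X]) (a t : ℕ) (M : Multiset L) : Prop :=
  ∃ (n : ℕ) (g : End F (Fin n → F)), aeval g s = 0 ∧ ev L g = M ∧ PD 0 g a t ⊤

variable {L} {s : F[X]} {M N : Multiset L}

omit [Fintype F] in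
theorem EP.pd (hs : Squarefree s) (hf : aeval f s = 0) (h : EP s a t (ev L f)) : PD 0 f a t ⊤ := by
  obtain ⟨n, g, h1, h2, h3⟩ := h
  exact h3.sim (sim_of_ev L hs hs h1 hf h2)

omit [Fintype F] [IsAlgClosed L] in
theorem ep_of (hf : aeval f s = 0) (h : PD 0 f a t ⊤) : EP s a t (ev L f) := by
  obtain ⟨A, hA⟩ := exists_matrix_sim f (ι := Fin (finrank F V)) (by simp)
  exact ⟨_, _, Sim.aeval_eq_zero hA.symm hf, (hA.ev L).symm, h.sim hA⟩

omit [Fintype F] [IsAlgClosed L] in
theorem EP.add {t' : ℕ} (h : EP s a t M) (h' : EP s a t' N) : EP s a (t + t') (M + N) := by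
  obtain ⟨n, g, h1, rfl, h3⟩ := h
  obtain ⟨n', g', h1', rfl, h3'⟩ := h'
  rw [← ev_prodMap]
  exact ep_of (aeval_prodMap_eq_zero h1 h1') (h3.prod h3')

omit [Fintype F] in
theorem EP.zero : EP s a 0 (0 : Multiset L) :=
  ⟨0, 0, Subsingleton.elim _ _, by rw [← Multiset.card_eq_zero, card_ev]; simp, by
    rw [Subsingleton.elim (⊤ : Submodule F (Fin 0 → F)) ⊥]; exact PD.zero⟩

omit [Fintype F] in
theorem EP.nsmul (h : EP s a t M) (k : ℕ) : EP s a (k * t) (k • M) := by
  induction k with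
  | zero => simpa using EP.zero
  | succ k ih => rw [succ_nsmul, add_mul, one_mul]; exact ih.add h

theorem EP.one (hM : St (Fintype.card F) M) (hs : ∀ z ∈ M, aeval z s = 0) : EP s M.card 1 M := by
  obtain ⟨g, h1, h2⟩ := exists_end_ev L M hM hs
  exact ⟨_, g, h1, h2, PD.one (by simp) le_top⟩

omit [Fintype F] [IsAlgClosed L] in
theorem EP.cyc {r : ℕ} (hr : 0 < r) {c : F} (hc : c ≠ 0) :
    EP (X ^ r - C c) a r (a • nthRoots r (algebraMap F L c)) := by
  haveI := finite_alg fun _ : Fin a => monic_X_pow_sub_C c hr.ne'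
  have := ep_of (L := L) (s := X ^ r - C c) ((aeval_mdl_eq_zero_iff _ _).2 fun _ => dvd_rfl)
    (pd_mdl (κ := Fin a) hr hc)
  rwa [ev_mdl_const L hr.ne', Fintype.card_fin] at this

theorem EP.fd {d : ℕ} (hd : 0 < d) (hM : Ty (Fintype.card F) d M) (hs : ∀ z ∈ M, aeval z s = 0)
    (hc : M.card = a * t) (h : nf (Fintype.card F) M ≤ d * (t * (a / d))) : EP s a t M := by
  induction t generalizing M with
  | zero => rw [Multiset.card_eq_zero.1 hc]; exact EP.zero
  | succ t ih =>
    obtain ⟨k, hk⟩ := hM.dvd (frob_inj L) hd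
    have h1 := fx_add_nf (q := Fintype.card F) M
    have h2 := Nat.mul_div_le a d
    generalize a / d = u at *
    have h3 : k ≤ t * u + u := by
      rw [hk] at h; have := Nat.le_of_mul_le_mul_left h hd; rwa [add_mul, one_mul] at this
    have h4 : d * k ≤ d * min u k + d * (t * u) := by
      rw [← mul_add]; exact Nat.mul_le_mul_left _ (by omega)
    have h5 : d * (t * u) ≤ a * t := by rw [mul_left_comm, mul_comm a]; exact Nat.mul_le_mul_left _ h2
    have h6 : d * min u k ≤ d * u := Nat.mul_le_mul_left _ (by omega)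
    rw [mul_add, mul_one] at hc
    obtain ⟨N, g1, g2, g3, g4⟩ := hM.exists_sub (frob_inj L) hd (a := a - d * min u k)
      (b := min u k) (by omega) (by rw [hk]; exact Nat.mul_le_mul_left _ (by omega))
    obtain ⟨N', rfl⟩ := Multiset.le_iff_exists_add.1 g1
    have h7 : N.card = a := by rw [← fx_add_nf (q := Fintype.card F), g3, g4]; omega
    rw [add_comm t]
    refine (h7 ▸ EP.one g2 fun z hz => hs z (Multiset.mem_add.2 (Or.inl hz))).add
      (ih (hM.sub (Multiset.le_add_left _ _) (g2.cancel hM.1))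
        (fun z hz => hs z (Multiset.mem_add.2 (Or.inr hz))) ?_ ?_)
    · rw [Multiset.card_add] at hc; omega
    · rw [nf_add] at hk; omega

end Cfsg.Agent.Elu
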