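import Mathlib
import Cfsg.Agent.Elu.Imp2

/-!
Counting decompositions; the criterion for imprimitive linear groups.
-/

set_option autoImplicit false
set_option backward.isDefEq.respectTransparency false

namespace Cfsg.Agent.Elu

open Module Polynomial Conj Spc Matrix
open scoped _root_.Classical MatrixGroups

variable {F : Type*} [Field F] {V W : Type*} [AddCommGroup V] [Module F V] [AddCommGroup W]
  [Module F W]

theorem exists_equiv_of_indep {ι : Type*} {D : ι → Submodule F V} {E : ι → Submodule F W}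
    (hD : iSupIndep D) (hD' : iSup D = ⊤) (hE : iSupIndep E) (hE' : iSup E = ⊤)
    (e : ∀ j, D j ≃ₗ[F] E j) : ∃ g : V ≃ₗ[F] W, ∀ j (x : D j), g x = e j x := by
  let a := LinearEquiv.ofBijective (DirectSum.coeLinearMap D)
    (DirectSum.isInternal_submodule_of_iSupIndep_of_iSup_eq_top hD hD')
  let b := LinearEquiv.ofBijective (DirectSum.coeLinearMap E)
    (DirectSum.isInternal_submodule_of_iSupIndep_of_iSup_eq_top hE hE')
  refine ⟨a.symm.trans ((DFinsupp.mapRange.linearEquiv e).trans b), fun j x => ?_⟩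
  have h1 : a.symm x = DFinsupp.single j x := a.symm_apply_eq.2 (DirectSum.coeLinearMap_of D j x).symm
  rw [LinearEquiv.trans_apply, LinearEquiv.trans_apply, h1]
  exact (congrArg b (DFinsupp.mapRange_single (f := fun i => e i)
    (hf := fun i => map_zero (e i)))).trans (DirectSum.coeLinearMap_of E j _)

theorem bilin_ext {ι : Type*} {D : ι → Submodule F V} (hD : iSup D = ⊤)
    {B B' : LinearMap.BilinForm F V} (h : ∀ j k, ∀ x ∈ D j, ∀ y ∈ D k, B x y = B' x y) : B = B' := by
  have : Ort (B - B') (iSup D) (iSup D) := ort_iff_left.2 (iSup_le fun j => ort_iff_left.1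
    (ort_iff_right.2 (iSup_le fun k => ort_iff_right.1 fun x hx y hy => by simp [h j k x hx y hy])))
  rw [hD] at this
  exact LinearMap.ext₂ fun x y => by simpa [sub_eq_zero] using this x trivial y trivial

theorem map_eq_of_equiv {U : Submodule F V} {U' : Submodule F W} (g : V ≃ₗ[F] W) (e : U ≃ₗ[F] U')
    (h : ∀ x : U, g x = e x) : U.map g.toLinearMap = U' := by
  apply le_antisymm
  · rintro _ ⟨x, hx, rfl⟩
    exact h ⟨x, hx⟩ ▸ (e ⟨x, hx⟩).2
  · intro y hy
    exact ⟨e.symm ⟨y, hy⟩, (e.symm ⟨y, hy⟩).2, by simp [h]⟩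

/-- the action on families of subspaces -/
@[reducible] def famAct (F V : Type*) [Field F] [AddCommGroup V] [Module F V] (ι : Type*) :
    MulAction (V ≃ₗ[F] V) (ι → Submodule F V) where
  smul g D j := (D j).map g.toLinearMap
  one_smul D := funext fun j => Submodule.map_id (D j)
  mul_smul g h D := funext fun j => Submodule.map_comp h.toLinearMap g.toLinearMap (D j)

theorem dec_map {ι : Type} [Fintype ι] [DecidableEq ι] {a t : ℕ} {D : Fin t → Submodule F (ι → F)}
    (h : Geo.IsMDecomposition a D) (g : (ι → F) ≃ₗ[F] (ι → F)) :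
    Geo.IsMDecomposition a fun j => (D j).map g.toLinearMap :=
  ⟨h.two_le, h.pos, fun j => by rw [LinearEquiv.finrank_map_eq, h.finrank_eq],
    h.indep.map_orderIso (Submodule.orderIsoMapComap g),
    by rw [← Submodule.map_iSup, h.iSup_eq_top]; simp⟩

theorem dec_perm {ι : Type} [Fintype ι] [DecidableEq ι] {a t : ℕ} {D : Fin t → Submodule F (ι → F)}
    (h : Geo.IsMDecomposition a D) (σ : Equiv.Perm (Fin t)) : Geo.IsMDecomposition a (D ∘ σ) :=
  ⟨h.two_le, h.pos, fun _ => h.finrank_eq _, h.indep.comp σ.injective,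
    σ.iSup_comp.trans h.iSup_eq_top⟩

theorem dec_inj {ι : Type} [Fintype ι] [DecidableEq ι] {a t : ℕ} {D : Fin t → Submodule F (ι → F)}
    (h : Geo.IsMDecomposition a D) : Function.Injective D :=
  h.indep.injective fun j e => by
    have := h.finrank_eq j; rw [e, finrank_bot] at this; exact h.pos.ne this

theorem dvd_GL_of_dvd_dec [Finite F] {n a t r : ℕ} (ha : 0 < a) (ht : 2 ≤ t) (hn : n = a * t)
    (h : r ∣ Nat.card {D : Fin t → Submodule F (Fin n → F) // Geo.IsMDecomposition a D} /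
      t.factorial) : r ∣ Nat.card ((Fin n → F) ≃ₗ[F] (Fin n → F)) := by
  subst hn
  have h1 := pd_one_of_sq (f := (1 : End F (Fin (a * t) → F))) one_ne_zero (by simp)
  rw [Module.finrank_fin_fun] at h1
  have h2 := PD.regroup h1 (by simp) one_pos one_ne_zero (by simp)
  rw [mul_one] at h2
  obtain ⟨D, ⟨hD, -⟩, -⟩ := (pd_iff Function.injective_id ha ht (by simp)).2 h2
  letI := famAct F (Fin (a * t) → F) (Fin t)
  refine (dvd_of_dvd_div (factorial_dvd (Geo.IsMDecomposition a) (fun σ D h => dec_perm h σ)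
    fun D => dec_inj) h).trans (card_dvd_of_trans (G := (Fin (a * t) → F) ≃ₗ[F] (Fin (a * t) → F))
    (Geo.IsMDecomposition a (t := t)) (x := D) hD (fun E hE => ?_) fun g D h => dec_map h g)
  let e := fun j => LinearEquiv.ofFinrankEq (D j) (E j) (by rw [hD.finrank_eq, hE.finrank_eq])
  obtain ⟨g, hg⟩ := exists_equiv_of_indep hD.indep hD.iSup_eq_top hE.indep hE.iSup_eq_top e
  exact ⟨g, funext fun j => map_eq_of_equiv g (e j) (hg j)⟩

theorem pd_iff' {n a t : ℕ} {f : End F (Fin n → F)} (hi : Function.Injective f) (ha : 0 < a)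
    (ht : 2 ≤ t) (hn : n = a * t) :
    (∃ D : Fin t → Submodule F (Fin n → F), Geo.IsMDecomposition a D ∧
      ∃ σ : Equiv.Perm (Fin t), ∀ j, (D j).map f = D (σ j)) ↔ PD 0 f a t ⊤ := by
  rw [← pd_iff hi ha ht (by simp [hn])]
  simp only [ort_zero, implies_true, and_true]

variable [Fintype F] [FiniteDimensional F V] (L : Type*) [Field L] [IsAlgClosed L] [Algebra F L]

omit [Algebra F L] in
theorem fx_sum {q : ℕ} {ι : Type*} (S : Finset ι) (M : ι → Multiset L) :
    fx q (∑ j ∈ S, M j) = ∑ j ∈ S, fx q (M j) := by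
  induction S using Finset.induction_on with
  | empty => simp [fx]
  | insert j S hj ih => rw [Finset.sum_insert hj, Finset.sum_insert hj, fx_add, ih]

omit [Algebra F L] in
theorem nf_sum {q : ℕ} {ι : Type*} (S : Finset ι) (M : ι → Multiset L) :
    nf q (∑ j ∈ S, M j) = ∑ j ∈ S, nf q (M j) := by
  induction S using Finset.induction_on with
  | empty => simp [nf]
  | insert j S hj ih => rw [Finset.sum_insert hj, Finset.sum_insert hj, nf_add, ih]

theorem fix_iff_eq_one {r : ℕ} (hr : r.Prime) (hi : orderOf (Fintype.card F : ZMod r) ≠ 1) {z : L}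
    (hz : z ^ r = 1) : z ^ Fintype.card F = z ↔ z = 1 := by
  refine ⟨fun h => ?_, fun h => by simp [h]⟩
  obtain ⟨a, rfl⟩ := mem_range_of_pow_card L h
  rw [eq_one_of_pow_eq_one hr hi (c := a) ((algebraMap F L).injective (by simpa using hz)), map_one]

theorem nodup_nthRoots {r : ℕ} (h0 : (r : F) ≠ 0) : (nthRoots r (1 : L)).Nodup := by
  obtain ⟨ζ, hζ⟩ := exists_prim L h0
  exact hζ.nthRoots_one_nodup

theorem fx_nthRoots {r : ℕ} (hr : r.Prime) (h0 : (r : F) ≠ 0)
    (hi : orderOf (Fintype.card F : ZMod r) ≠ 1) :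
    fx (Fintype.card F) (nthRoots r (1 : L)) = 1 ∧
      nf (Fintype.card F) (nthRoots r (1 : L)) = r - 1 := by
  have h1 : fx (Fintype.card F) (nthRoots r (1 : L)) = 1 := by
    rw [fx, Multiset.filter_congr fun z hz => fix_iff_eq_one L hr hi ((mem_nthRoots hr.pos).1 hz),
      ← Multiset.count_eq_one_of_mem (nodup_nthRoots L h0) ((mem_nthRoots hr.pos).2 (one_pow _)),
      Multiset.count_eq_card_filter_eq]
    simp only [eq_comm]
  have := fx_add_nf (q := Fintype.card F) (nthRoots r (1 : L))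
  rw [card_nthRoots'] at this
  omega

theorem mod_le_fx {q d a : ℕ} {M : Multiset L} (h : d ∣ nf q M) (hc : M.card = a) :
    a % d ≤ fx q M := by
  obtain ⟨k, hk⟩ := h
  rw [← hc, ← fx_add_nf (q := q), hk, Nat.add_mul_mod_self_left]
  exact Nat.mod_le _ _

/-- numerical consequences of a permuted decomposition -/
theorem PD.num {B : LinearMap.BilinForm F V} {f : End F V} {a t : ℕ} (h : PD B f a t ⊤)
    (hn : finrank F V = a * t) (ha : 0 < a) {r : ℕ} (hr : r.Prime) (h0 : (r : F) ≠ 0)
    (hi : orderOf (Fintype.card F : ZMod r) ≠ 1) (hf : f ^ r = (1 : F) • 1) {d : ℕ}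
    (hd : ∀ (U : Submodule F V) (hU : U.map f ≤ U), (∃ U', U ⊔ U' = ⊤ ∧ Ort B U U') →
      d ∣ nf (Fintype.card F) (ev L (res f hU))) :
    ∃ h s, h * r + s = t ∧ h * a + s * (a % d) ≤ fx (Fintype.card F) (ev L f) ∧
      h * a * (r - 1) ≤ nf (Fintype.card F) (ev L f) ∧
      (a < d → nf (Fintype.card F) (ev L f) = h * a * (r - 1)) := by
  obtain ⟨h, ι, S, M, h1, h2, h3⟩ := h.evs L hn ha hr one_ne_zero hf
  obtain ⟨h4, h5⟩ := fx_nthRoots L hr h0 hi
  have h6 : ∀ j ∈ S, d ∣ nf (Fintype.card F) (M j) ∧ (M j).card = a := fun j hj => by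
    obtain ⟨U, hU, a1, a2, a3⟩ := h3 j hj
    exact ⟨a2 ▸ hd U hU a3, by rw [a2, card_ev, a1]⟩
  rw [h2, map_one, fx_add, nf_add, fx_nsmul, nf_nsmul, h4, h5, fx_sum, nf_sum, mul_one]
  refine ⟨h, S.card, h1, ?_, Nat.le_add_right _ _, fun had => ?_⟩
  · exact Nat.add_le_add_left (by
      simpa using Finset.card_nsmul_le_sum S _ _ fun j hj => mod_le_fx L (h6 j hj).1 (h6 j hj).2) _
  · rw [Finset.sum_eq_zero fun j hj => Nat.eq_zero_of_dvd_of_lt (h6 j hj).1 ?_, add_zero]
    have := fx_add_nf (q := Fintype.card F) (M j)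
    have := (h6 j hj).2
    omega

theorem normalize {r : ℕ} (hr : r.Prime) (hi : orderOf (Fintype.card F : ZMod r) ≠ 1)
    {f : End F V} {c : F} (hc : c ≠ 0) (hf : f ^ r = c • 1) : ∃ (w : F) (g : End F V), w ≠ 0 ∧
      w ^ r = c ∧ f = w • g ∧ g ^ r = (1 : F) • 1 := by
  obtain ⟨w, rfl⟩ := exists_root_of_ne hr hi c
  have hw : w ≠ 0 := ne_zero_pow hr.ne_zero hc
  exact ⟨w, w⁻¹ • f, hw, rfl, by rw [smul_inv_smul₀ hw], by
    rw [_root_.smul_pow, hf, smul_smul, ← mul_pow, inv_mul_cancel₀ hw, one_pow]⟩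

omit [IsAlgClosed L] in
theorem eq_nsmul_orb {q d : ℕ} (hq : Function.Injective fun z : L => z ^ q) (hd : 0 < d)
    {M O : Multiset L} (hM : St q M) (h : ∀ z ∈ M, Per q z d ∧ orb (· ^ q) z d = O) :
    ∃ k : ℕ, M = k • O := by
  by_cases h0 : M = 0
  · exact ⟨0, by simp [h0]⟩
  obtain ⟨z, hz⟩ := Multiset.exists_mem_of_ne_zero h0
  refine ⟨M.count z, Multiset.ext.2 fun w => ?_⟩
  rw [Multiset.count_nsmul]
  by_cases hw : w ∈ O
  · rw [← (h z hz).2] at hw ⊢
    rw [Multiset.count_eq_one_of_mem (h z hz).1.nodup hw, mul_one]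
    obtain ⟨i, -, rfl⟩ := mem_orb.1 hw
    rw [count_iterate hq hM]
  · rw [Multiset.count_eq_zero_of_notMem hw, mul_zero, Multiset.count_eq_zero]
    exact fun e => hw ((h w e).2 ▸ self_mem_orb _ _ hd)

theorem eq_of_prim_root {r : ℕ} (hr : r.Prime) (hi : orderOf (Fintype.card F : ZMod r) ≠ 1)
    (hi' : orderOf (Fintype.card F : ZMod r) = r - 1) {M : Multiset L}
    (hM : St (Fintype.card F) M) (h : ∀ z ∈ M, z ^ r = 1) : ∃ e s : ℕ,
      M = Multiset.replicate e 1 + s • (nthRoots r (1 : L)).erase 1 ∧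
        fx (Fintype.card F) M = e ∧ M.card = e + s * (r - 1) := by
  have h1 : (1 : L) ∈ nthRoots r (1 : L) := (mem_nthRoots hr.pos).2 (one_pow _)
  have h2 : ((nthRoots r (1 : L)).erase 1).card = r - 1 := by
    rw [Multiset.card_erase_of_mem h1, card_nthRoots', Nat.pred_eq_sub_one]
  obtain ⟨s, hs⟩ := eq_nsmul_orb L (frob_inj L) (d := r - 1) (by have := hr.two_le; omega)
    (O := (nthRoots r (1 : L)).erase 1) hM.filter_move fun z hz => by
      obtain ⟨a1, a2⟩ := Multiset.mem_filter.1 hz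
      have a3 := per_root L hr one_ne_zero (by simpa using h z a1) a2
      rw [pd_ne hi, hi'] at a3
      refine ⟨a3, Multiset.eq_of_le_of_card_le ((Multiset.le_iff_subset a3.nodup).2 fun w hw => ?_)
        (by simp [h2])⟩
      refine (Multiset.mem_erase_of_ne fun e => orb_move L (frob_inj L) a2 _ w hw
        (by simp [e])).2 ?_
      obtain ⟨i, -, rfl⟩ := mem_orb_pow.1 hw
      rw [mem_nthRoots hr.pos, ← pow_mul, mul_comm, pow_mul, h z a1, one_pow]
  have h3 : (M.filter fun z => z ^ Fintype.card F = z) =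
      Multiset.replicate (fx (Fintype.card F) M) 1 := Multiset.eq_replicate_card.2 fun z hz =>
    (fix_iff_eq_one L hr hi (h z (Multiset.mem_filter.1 hz).1)).1 (Multiset.mem_filter.1 hz).2
  refine ⟨_, s, by rw [← hs, ← h3, Multiset.filter_add_not], rfl, ?_⟩
  rw [← fx_add_nf (q := Fintype.card F), nf, hs, Multiset.card_nsmul, h2]

theorem pd_of_one {r : ℕ} (hr : r.Prime) (h0 : (r : F) ≠ 0)
    (hi : orderOf (Fintype.card F : ZMod r) = 1) {f : End F V} {c : F} (hf : El r f c) {a t : ℕ}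
    (hn : finrank F V = a * t) : PD 0 f a t ⊤ := by
  let L := AlgebraicClosure F
  have h1 := aeval_of_pow_eq hf.2.1
  refine EP.pd (L := L) (squarefree_X_pow_sub_C h0 hf.ne) h1 ?_
  have h2 := ty_ev L hr hf.ne hf.2.1
  rw [pd_one hi] at h2
  have h3 := fx_add_nf (q := Fintype.card F) (ev L f)
  rw [card_ev, hn] at h3
  have fd := EP.fd (a := a) (t := t) hr.pos h2 (fun z hz => aeval_eq_zero_of_mem_ev L h1 hz)
    (by rw [card_ev, hn])
  rcases fx_or_nf L hr hi hf.ne hf.2.1 with h | h
  · exact fd (by omega)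
  by_cases h4 : r ∣ a
  · exact fd (by rw [mul_left_comm, Nat.mul_div_cancel' h4, mul_comm]; omega)
  obtain ⟨-, k, hk⟩ := not_cnd_of_fx L hr hi hf h
  have h5 := card_ev L f
  rw [hk, Multiset.card_nsmul, card_nthRoots', hn] at h5
  obtain ⟨u, rfl⟩ := (hr.dvd_mul.1 (h5 ▸ Dvd.intro_left _ rfl)).resolve_left h4
  rw [hk, show k = u * a from Nat.eq_of_mul_eq_mul_right hr.pos (by rw [h5]; ring), mul_nsmul',
    mul_comm]
  exact (EP.cyc hr.pos hf.ne).nsmul u

theorem forall_pd_iff {r n a t : ℕ} (hr : r.Prime) (h0 : (r : F) ≠ 0) (ha : 0 < a)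
    (hn : n = a * t) (hi : orderOf (Fintype.card F : ZMod r) ≠ 1)
    (hc : orderOf (Fintype.card F : ZMod r) ≤ n) :
    (∀ (f : End F (Fin n → F)) c, El r f c → PD 0 f a t ⊤) ↔
      ((a = 1 ∧ orderOf (Fintype.card F : ZMod r) = r - 1 ∧
        n ≤ n % orderOf (Fintype.card F : ZMod r) * r) ∨
      (orderOf (Fintype.card F : ZMod r) ≤ a ∧ n % orderOf (Fintype.card F : ZMod r) =
        t * (a % orderOf (Fintype.card F : ZMod r)))) := by
  haveI := Fact.mk hr
  let L := AlgebraicClosure F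
  have hp := pd_pos hr h0
  rw [pd_ne hi] at hp
  have hV : finrank F (Fin n → F) = a * t := by simp [hn]
  have h1 := Nat.mod_add_div n (orderOf (Fintype.card F : ZMod r))
  have h2 := Nat.mod_lt n hp
  constructor
  · intro H
    obtain ⟨ζ, hζ⟩ := exists_prim L h0
    have key : ∀ e s, 1 ≤ s → e + orderOf (Fintype.card F : ZMod r) * s = n →
        ∃ h u, h * r + u = t ∧ h * a + u * (a % orderOf (Fintype.card F : ZMod r)) ≤ e ∧
          h * a * (r - 1) ≤ orderOf (Fintype.card F : ZMod r) * s ∧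
          (a < orderOf (Fintype.card F : ZMod r) →
            orderOf (Fintype.card F : ZMod r) * s = h * a * (r - 1)) := by
      intro e s hs he
      obtain ⟨a1, a2, a3, a4⟩ := shp_spec L hr hi hζ e s
      obtain ⟨f, hf, hf'⟩ := exists_el_of_ne L hr hi _ a1 a2 (n := n)
        (by rw [← fx_add_nf (q := Fintype.card F), a3, a4, he]) (by rw [a4]; positivity)
      have := (H f 1 hf).num L hV ha hr h0 hi hf.2.1 fun U hU _ => pd_ne hi ▸
        (ty_ev L hr one_ne_zero (res_pow_eq hU hf.2.1)).dvd (frob_inj L) (pd_pos hr h0)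
      rwa [hf', a3, a4] at this
    have h3 : orderOf (Fintype.card F : ZMod r) ≤ r - 1 :=
      Nat.le_of_dvd (by have := hr.two_le; omega) (ZMod.orderOf_dvd_card_sub_one
        (card_ne_zero_zmod h0))
    obtain ⟨h, u, -, -, -, b4⟩ := key (n - _) 1 le_rfl (by rw [mul_one, Nat.sub_add_cancel hc])
    obtain ⟨h', u', c1, c2, -, c4⟩ := key _ _ (Nat.div_pos hc hp) h1
    generalize orderOf (Fintype.card F : ZMod r) = i at *
    by_cases h4 : i ≤ a
    · have h5 : h' = 0 := by
        by_contra h5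
        have := Nat.mul_le_mul_right a (Nat.pos_of_ne_zero h5)
        omega
      subst h5
      obtain rfl : u' = t := by omega
      refine Or.inr ⟨h4, ?_⟩
      have h5 : n % i = u' * (a % i) % i := by rw [hn, mul_comm, Nat.mul_mod_mod]
      rw [h5]
      exact Nat.mod_eq_of_lt (by omega)
    · have h5 := b4 (by omega)
      have h6 := c4 (by omega)
      have h7 : h * a = 1 := by
        rcases hh : h * a with _ | _ | k
        · rw [hh] at h5; omega
        · rfl
        · rw [hh] at h5; nlinarith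
      rw [h7] at h5
      obtain rfl := Nat.eq_one_of_mul_eq_one_left h7
      obtain rfl : r = i + 1 := by have := hr.pos; omega
      refine Or.inl ⟨rfl, rfl, ?_⟩
      rw [mul_one, Nat.add_sub_cancel, mul_comm, mul_left_inj' hp.ne'] at h6
      have := Nat.mul_le_mul_left i (show n / i ≤ n % i by omega)
      nlinarith
  · rintro (⟨rfl, h3, h4⟩ | ⟨h3, h4⟩) f c hf
    · obtain ⟨w, g, hw, -, rfl, hg⟩ := normalize hr hi hf.ne hf.2.1
      rw [PD.smul hw]
      have h5 := aeval_of_pow_eq hg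
      refine EP.pd (L := L) (squarefree_X_pow_sub_C h0 one_ne_zero) h5 ?_
      obtain ⟨e, s, a1, a2, a3⟩ := eq_of_prim_root L hr hi h3 (st_ev L g) fun z hz => by
        simpa using pow_eq_of_mem_ev' L hg hz
      rw [card_ev, Module.finrank_fin_fun] at a3
      have h6 : s ≤ e := by
        rw [h3] at h4 hp
        rw [a3, Nat.add_mul_mod_self_right] at h4
        have := Nat.mul_le_mul_right r (Nat.mod_le e (r - 1))
        obtain ⟨r, rfl⟩ := Nat.exists_eq_succ_of_ne_zero hr.ne_zero
        simp only [Nat.succ_eq_add_one, Nat.add_sub_cancel] at *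
        exact Nat.le_of_mul_le_mul_right (by nlinarith) hp
      obtain ⟨e, rfl⟩ := Nat.exists_eq_add_of_le h6
      have h7 := ((EP.cyc (L := L) (a := 1) hr.pos (one_ne_zero (α := F))).nsmul s).add
        ((EP.one (s := X ^ r - C (1 : F)) (M := ({1} : Multiset L)) (St.of_fix (by simp))
          (by simp)).nsmul e)
      have h8 : t = s * r + e * 1 := by
        have := hr.pos
        obtain ⟨r, rfl⟩ := Nat.exists_eq_succ_of_ne_zero hr.ne_zero
        simp only [Nat.succ_eq_add_one, Nat.add_sub_cancel] at *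
        linarith
      rw [h8, a1]
      convert h7 using 1
      conv_rhs => rw [map_one, one_nsmul, ← Multiset.cons_erase (s := nthRoots r (1 : L)) (a := 1)
        ((mem_nthRoots hr.pos).2 (one_pow _)), ← Multiset.singleton_add, nsmul_add,
        Multiset.nsmul_singleton, Multiset.nsmul_singleton]
      rw [Multiset.replicate_add]
      abel
    · have h5 := aeval_of_pow_eq hf.2.1
      refine EP.pd (L := L) (squarefree_X_pow_sub_C h0 hf.ne) h5 ?_
      have h6 := ty_ev L hr hf.ne hf.2.1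
      rw [pd_ne hi] at h6
      refine EP.fd hp h6 (fun z hz => aeval_eq_zero_of_mem_ev L h5 hz) (by rw [card_ev, hV]) ?_
      have h7 := mod_le_fx L (h6.dvd (frob_inj L) hp) (card_ev L f)
      have h8 := fx_add_nf (q := Fintype.card F) (ev L f)
      rw [card_ev] at h8
      rw [Module.finrank_fin_fun] at h7 h8
      have h9 := Nat.mod_add_div a (orderOf (Fintype.card F : ZMod r))
      generalize orderOf (Fintype.card F : ZMod r) = i at *
      have : a * t = t * (a % i) + i * (t * (a / i)) := by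
        conv_lhs => rw [← h9]
        ring
      omega

end Cfsg.Agent.Elu
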