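import Mathlib
import Cfsg.Agent.Elu.Imp3

/-!
Multisets stable under an injective map.
-/

set_option autoImplicit false
set_option backward.isDefEq.respectTransparency false

namespace Cfsg.Agent.Elu

open Module Polynomial Conj Spc
open scoped _root_.Classical

variable {α : Type*} {χ : α → α}

/-- stability -/
def SX (χ : α → α) (M : Multiset α) : Prop := M.map χ = M

theorem SX.add {M N : Multiset α} (hM : SX χ M) (hN : SX χ N) : SX χ (M + N) := by
  unfold SX at *; rw [Multiset.map_add, hM, hN]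

theorem SX.cancel {M N : Multiset α} (hM : SX χ M) (hN : SX χ (M + N)) : SX χ N := by
  unfold SX at *; rw [Multiset.map_add, hM] at hN; exact add_left_cancel hN

theorem SX.nsmul {M : Multiset α} (hM : SX χ M) (k : ℕ) : SX χ (k • M) := by
  unfold SX at *; rw [Multiset.map_nsmul, hM]

theorem SX.zero : SX χ 0 := rfl

theorem SX.of_fix {M : Multiset α} (h : ∀ z ∈ M, χ z = z) : SX χ M := by
  unfold SX; conv_rhs => rw [← Multiset.map_id M]
  exact Multiset.map_congr rfl h

theorem SX.congr {χ' : α → α} {M : Multiset α} (hM : SX χ M) (h : ∀ z ∈ M, χ' z = χ z) :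
    SX χ' M := (Multiset.map_congr rfl h).trans hM

theorem SX.comp {χ' : α → α} {M : Multiset α} (hM : SX χ M) (hM' : SX χ' M) : SX (χ ∘ χ') M := by
  unfold SX at *; rw [← Multiset.map_map, hM', hM]

theorem SX.iterate {M : Multiset α} (hM : SX χ M) (k : ℕ) : SX χ^[k] M := by
  induction k with
  | zero => exact Multiset.map_id M
  | succ k ih => exact ih.comp hM

theorem SX.mem {M : Multiset α} (hM : SX χ M) {z : α} (hz : z ∈ M) : χ z ∈ M :=
  hM ▸ Multiset.mem_map_of_mem _ hz

theorem SX.map {ι : α → α} (h : Function.Commute ι χ) {M : Multiset α} (hM : SX χ M) :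
    SX χ (M.map ι) := by
  unfold SX at *
  rw [Multiset.map_map, ← h.comp_eq, ← Multiset.map_map, hM]

theorem sx_iff_count (hχ : Function.Injective χ) {M : Multiset α} :
    SX χ M ↔ ∀ z, M.count (χ z) = M.count z := by
  refine ⟨fun h z => count_iterate hχ h z 1, fun h => Multiset.eq_of_le_of_card_le
    (Multiset.le_iff_count.2 fun w => ?_) (by simp)⟩
  by_cases hw : w ∈ M.map χ
  · obtain ⟨z, -, rfl⟩ := Multiset.mem_map.1 hw
    rw [Multiset.count_map_eq_count' _ _ hχ, h]
  · simp [Multiset.count_eq_zero_of_notMem hw]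

/-- exact period -/
def PX (χ : α → α) (z : α) (d : ℕ) : Prop := ∀ j, χ^[j] z = z ↔ d ∣ j

/-- number of fixed points -/
noncomputable def fX (χ : α → α) (M : Multiset α) : ℕ := (M.filter fun z => χ z = z).card

/-- number of moved points -/
noncomputable def nX (χ : α → α) (M : Multiset α) : ℕ := (M.filter fun z => ¬ χ z = z).card

theorem fX_add_nX (M : Multiset α) : fX χ M + nX χ M = M.card := by
  rw [fX, nX, ← Multiset.card_add, Multiset.filter_add_not]

theorem fX_add (M N : Multiset α) : fX χ (M + N) = fX χ M + fX χ N := by simp [fX]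

theorem nX_add (M N : Multiset α) : nX χ (M + N) = nX χ M + nX χ N := by simp [nX]

theorem fX_nsmul (M : Multiset α) (k : ℕ) : fX χ (k • M) = k * fX χ M := by
  simp [fX, Multiset.filter_nsmul]

theorem nX_nsmul (M : Multiset α) (k : ℕ) : nX χ (k • M) = k * nX χ M := by
  simp [nX, Multiset.filter_nsmul]

theorem fX_mono {M N : Multiset α} (h : M ≤ N) : fX χ M ≤ fX χ N :=
  Multiset.card_le_card (Multiset.filter_le_filter _ h)

theorem nX_mono {M N : Multiset α} (h : M ≤ N) : nX χ M ≤ nX χ N :=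
  Multiset.card_le_card (Multiset.filter_le_filter _ h)

theorem nX_eq_zero {M : Multiset α} : nX χ M = 0 ↔ ∀ z ∈ M, χ z = z := by
  simp [nX, Multiset.filter_eq_nil]

theorem fX_eq_zero {M : Multiset α} : fX χ M = 0 ↔ ∀ z ∈ M, χ z ≠ z := by
  simp [fX, Multiset.filter_eq_nil]

theorem fX_of_fix {M : Multiset α} (h : ∀ z ∈ M, χ z = z) : fX χ M = M.card := by
  have := fX_add_nX (χ := χ) M; rw [nX_eq_zero.2 h] at this; exact this

theorem nX_of_move {M : Multiset α} (h : ∀ z ∈ M, χ z ≠ z) : nX χ M = M.card := by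
  have := fX_add_nX (χ := χ) M; rw [fX_eq_zero.2 h, zero_add] at this; exact this

theorem fX_eq_count {M : Multiset α} {a : α} (h : ∀ z ∈ M, χ z = z ↔ z = a) :
    fX χ M = M.count a := by
  rw [fX, Multiset.filter_congr h, Multiset.count_eq_card_filter_eq]
  simp only [eq_comm]

theorem SX.filter_fix (M : Multiset α) : SX χ (M.filter fun z => χ z = z) :=
  SX.of_fix fun _ hz => (Multiset.mem_filter.1 hz).2

theorem SX.filter_move {M : Multiset α} (h : SX χ M) : SX χ (M.filter fun z => ¬ χ z = z) :=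
  (SX.filter_fix M).cancel (by rwa [Multiset.filter_add_not])

theorem PX.minimalPeriod {z : α} {d : ℕ} (h : PX χ z d) : Function.minimalPeriod χ z = d :=
  Nat.dvd_antisymm (Function.IsPeriodicPt.minimalPeriod_dvd ((h d).2 dvd_rfl))
    ((h _).1 (Function.isPeriodicPt_minimalPeriod χ z))

theorem PX.nodup {z : α} {d : ℕ} (h : PX χ z d) : (orb χ z d).Nodup := nodup_orb h.minimalPeriod.ge

theorem PX.sx {z : α} {d : ℕ} (h : PX χ z d) : SX χ (orb χ z d) := orb_stab ((h d).2 dvd_rfl)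

theorem PX.ne {z : α} {d : ℕ} (h : PX χ z d) (hd : d ≠ 1) : χ z ≠ z :=
  fun e => hd (Nat.dvd_one.1 ((h 1).1 e))

theorem orbX_move (hχ : Function.Injective χ) {z : α} (hz : χ z ≠ z) (d : ℕ) :
    ∀ w ∈ orb χ z d, χ w ≠ w := by
  intro w hw e
  obtain ⟨i, -, rfl⟩ := mem_orb.1 hw
  exact hz (hχ.iterate i (by rw [← Function.iterate_succ_apply, Function.iterate_succ_apply', e]))

theorem SX.orb_le (hχ : Function.Injective χ) {M : Multiset α} (hM : SX χ M)
    {z : α} {d : ℕ} (h : PX χ z d) {k : ℕ} (hk : k ≤ M.count z) : k • orb χ z d ≤ M := by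
  rw [Multiset.le_iff_count]
  intro w
  rw [Multiset.count_nsmul]
  by_cases hw : w ∈ orb χ z d
  · rw [Multiset.count_eq_one_of_mem h.nodup hw, mul_one]
    obtain ⟨i, -, rfl⟩ := mem_orb.1 hw
    rwa [count_iterate hχ hM]
  · simp [Multiset.count_eq_zero_of_notMem hw]

theorem SX.orb_le' (hχ : Function.Injective χ) {M : Multiset α} (hM : SX χ M)
    {z : α} {d : ℕ} (h : PX χ z d) (hz : z ∈ M) : orb χ z d ≤ M := by
  simpa using hM.orb_le hχ h (k := 1) (Multiset.one_le_count_iff_mem.2 hz)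

theorem SX.induction (hχ : Function.Injective χ) {d : ℕ} (hd : 0 < d) (Q : α → Prop)
    (P : Multiset α → Prop) (h0 : P 0) (h1 : ∀ z N, Q z → P N → P (orb χ z d + N))
    {M : Multiset α} (hM : SX χ M) (h : ∀ z ∈ M, Q z ∧ PX χ z d) : P M := by
  induction hn : M.card using Nat.strong_induction_on generalizing M with
  | _ n ih =>
    by_cases h' : M = 0
    · rwa [h']
    obtain ⟨z, hz⟩ := Multiset.exists_mem_of_ne_zero h'
    obtain ⟨N, rfl⟩ := Multiset.le_iff_exists_add.1 (hM.orb_le' hχ (h z hz).2 hz)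
    rw [Multiset.card_add, card_orb] at hn
    exact h1 z N (h z hz).1 (ih _ (by omega) ((h z hz).2.sx.cancel hM)
      (fun w hw => h w (Multiset.mem_add.2 (Or.inr hw))) rfl)

theorem SX.per (hχ : Function.Injective χ) {M : Multiset α} (hM : SX χ M)
    {d : ℕ} (hd : 0 < d) (h : ∀ z ∈ M, PX χ z d) :
    ∃ s, M.card = d * s ∧ ∀ j ≤ s, ∃ M' ≤ M, SX χ M' ∧ M'.card = d * j :=
  atoms (SX χ) SX.zero (fun _ _ => SX.add) (fun _ _ => SX.cancel) hd (fun z => PX χ z d)
    (fun _ hM _ hz hp => ⟨_, hM.orb_le' hχ hp hz, hp.sx, card_orb _ _ _⟩) M hM h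

/-- all moved points have period `d` -/
def TX (χ : α → α) (d : ℕ) (M : Multiset α) : Prop := SX χ M ∧ ∀ z ∈ M, χ z ≠ z → PX χ z d

theorem TX.sub {d : ℕ} {M N : Multiset α} (h : TX χ d M) (hle : N ≤ M) (hN : SX χ N) : TX χ d N :=
  ⟨hN, fun z hz => h.2 z (Multiset.mem_of_le hle hz)⟩

theorem TX.dvd (hχ : Function.Injective χ) {d : ℕ} (hd : 0 < d) {M : Multiset α}
    (h : TX χ d M) : d ∣ nX χ M := by
  obtain ⟨s, hs, -⟩ := h.1.filter_move.per hχ hd fun z hz =>
    h.2 z (Multiset.mem_filter.1 hz).1 (Multiset.mem_filter.1 hz).2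
  exact ⟨s, hs⟩

theorem TX.exists_sub (hχ : Function.Injective χ) {d : ℕ} (hd : 0 < d)
    {M : Multiset α} (h : TX χ d M) {a b : ℕ} (ha : a ≤ fX χ M) (hb : d * b ≤ nX χ M) :
    ∃ N ≤ M, SX χ N ∧ fX χ N = a ∧ nX χ N = d * b := by
  obtain ⟨s, hs, hs'⟩ := h.1.filter_move.per hχ hd fun z hz =>
    h.2 z (Multiset.mem_filter.1 hz).1 (Multiset.mem_filter.1 hz).2
  obtain ⟨B, hB, hB1, hB2⟩ := hs' b (by
    rw [nX, hs] at hb; exact Nat.le_of_mul_le_mul_left hb hd)
  obtain ⟨A, hA, hA'⟩ := exists_le_card _ ha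
  have h1 : ∀ z ∈ A, χ z = z := fun z hz => (Multiset.mem_filter.1 (Multiset.mem_of_le hA hz)).2
  have h2 : ∀ z ∈ B, χ z ≠ z := fun z hz => (Multiset.mem_filter.1 (Multiset.mem_of_le hB hz)).2
  refine ⟨A + B, ?_, (SX.of_fix h1).add hB1, ?_, ?_⟩
  · rw [← Multiset.filter_add_not (fun z => χ z = z) M]; exact add_le_add hA hB
  · rw [fX_add, fX_of_fix h1, fX_eq_zero.2 h2, hA', add_zero]
  · rw [nX_add, nX_of_move h2, nX_eq_zero.2 h1, hB2, zero_add]

theorem TX.sub_iff (hχ : Function.Injective χ) {d : ℕ} (hd : 0 < d)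
    {M : Multiset α} (h : TX χ d M) (m : ℕ) : (∃ N ≤ M, SX χ N ∧ N.card = m) ↔
      ∃ a ≤ fX χ M, ∃ b, d * b ≤ nX χ M ∧ m = a + d * b := by
  constructor
  · rintro ⟨N, h1, h2, rfl⟩
    obtain ⟨b, hb⟩ := (h.sub h1 h2).dvd hχ hd
    exact ⟨_, fX_mono h1, b, hb ▸ nX_mono h1, by rw [← hb, fX_add_nX]⟩
  · rintro ⟨a, ha, b, hb, rfl⟩
    obtain ⟨N, h1, h2, h3, h4⟩ := h.exists_sub hχ hd ha hb
    exact ⟨N, h1, h2, by rw [← fX_add_nX (χ := χ), h3, h4]⟩

/-- half of a multiset -/
noncomputable def half (M : Multiset α) : Multiset α :=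
  Finsupp.toMultiset ((Multiset.toFinsupp M).mapRange (· / 2) rfl)

theorem count_half (M : Multiset α) (z : α) : (half M).count z = M.count z / 2 := by
  simp [half, Finsupp.count_toMultiset]

theorem le_half_iff {M N : Multiset α} : N ≤ half M ↔ N + N ≤ M := by
  simp only [Multiset.le_iff_count, count_half, Multiset.count_add]
  exact forall_congr' fun z => by omega

theorem half_le (M : Multiset α) : half M ≤ M :=
  (Multiset.le_add_right _ _).trans (le_half_iff.1 le_rfl)

theorem SX.half (hχ : Function.Injective χ) {M : Multiset α} (h : SX χ M) : SX χ (half M) :=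
  (sx_iff_count hχ).2 fun z => by rw [count_half, count_half, (sx_iff_count hχ).1 h]

theorem exists_half_add (M : Multiset α) : ∃ D : Multiset α, D.Nodup ∧ M = half M + half M + D := by
  obtain ⟨D, hD⟩ := Multiset.le_iff_exists_add.1 (le_half_iff.1 (le_refl (half M)))
  refine ⟨D, Multiset.nodup_iff_count_le_one.2 fun z => ?_, hD⟩
  have := congrArg (Multiset.count z) hD
  simp only [Multiset.count_add, count_half] at this
  omega

theorem half_add_add {H D : Multiset α} (hD : D.Nodup) : half (H + H + D) = H := by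
  ext z
  have := Multiset.nodup_iff_count_le_one.1 hD z
  simp only [Multiset.count_add, count_half]
  omega

theorem exists_nodup_orbits (hχ : Function.Injective χ) {d : ℕ} (hd : 0 < d) {R : Multiset α}
    (hR : SX χ R) (h : ∀ z ∈ R, PX χ z d) {o : ℕ} (ho : o ≤ R.card / d) :
    ∃ D ≤ R, SX χ D ∧ D.card = d * o := by
  obtain ⟨s, h1, h2⟩ := hR.per hχ hd h
  exact h2 o (by rwa [h1, Nat.mul_div_cancel_left _ hd] at ho)

end Cfsg.Agent.Elu
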