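import Mathlib
import Cfsg.Agent.Elu.OrbX

/-!
Invariant nondegenerate and totally isotropic subspaces of isometries of reflexive forms.
-/

set_option autoImplicit false
set_option backward.isDefEq.respectTransparency false

namespace Cfsg.Agent.Elu

open Module Polynomial Conj Spc Matrix
open Herm (perp Iso mem_perp b_smul_left b_add_left)
open scoped _root_.Classical

variable {F : Type*} [Field F] {V W : Type*} [AddCommGroup V] [Module F V] [AddCommGroup W]
  [Module F W] {σ : F →+* F} {B : V →ₛₗ[σ] V →ₗ[F] F} {B' : W →ₛₗ[σ] W →ₗ[F] F} {ε : F}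
  {f : End F V} {g : End F W}

/-- isometry -/
def Im (B : V →ₛₗ[σ] V →ₗ[F] F) (f : End F V) : Prop := ∀ x y, B (f x) (f y) = B x y

/-- nondegenerate subspace -/
def NDs (B : V →ₛₗ[σ] V →ₗ[F] F) (U : Submodule F V) : Prop := ∀ u ∈ U, u ≠ 0 → ∃ v ∈ U, B u v ≠ 0

/-- an invariant nondegenerate `m`-space -/
def NDec (B : V →ₛₗ[σ] V →ₗ[F] F) (f : End F V) (m : ℕ) : Prop :=
  ∃ U : Submodule F V, finrank F U = m ∧ NDs B U ∧ U.map f ≤ U

/-- an invariant totally isotropic `m`-space -/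
def TS (B : V →ₛₗ[σ] V →ₗ[F] F) (f : End F V) (m : ℕ) : Prop :=
  ∃ U : Submodule F V, finrank F U = m ∧ Iso B U ∧ U.map f ≤ U

/-- isomorphic triples -/
def TrS (B : V →ₛₗ[σ] V →ₗ[F] F) (f : End F V) (B' : W →ₛₗ[σ] W →ₗ[F] F) (g : End F W) : Prop :=
  ∃ e : V ≃ₗ[F] W, (∀ v, e (f v) = g (e v)) ∧ ∀ x y, B' (e x) (e y) = B x y

theorem TrS.symm (h : TrS B f B' g) : TrS B' g B f := by
  obtain ⟨e, h1, h2⟩ := h
  exact ⟨e.symm, fun v => e.injective (by simp [h1]), fun x y => by rw [← h2]; simp⟩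

theorem Im.res (h : Im B f) {U : Submodule F V} (hU : U.map f ≤ U) : Im (Herm.res B U) (res f hU) :=
  fun x y => h x y

theorem Im.pow (h : Im B f) (k : ℕ) : Im B (f ^ k) := by
  induction k with
  | zero => exact fun _ _ => rfl
  | succ k ih => exact fun x y => by rw [pow_succ, End.mul_apply, End.mul_apply, ih, h]

theorem Im.smul (h : Im B f) {c : F} (hc : σ c * c = 1) : Im B (c • f) := fun x y => by
  simp only [LinearMap.smul_apply, b_smul_left, map_smul, smul_eq_mul, h x y]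
  linear_combination B x y * hc

theorem NDs.map {U : Submodule F V} (h : NDs B U) (e : V →ₗ[F] W)
    (he : ∀ x y, B' (e x) (e y) = B x y) : NDs B' (U.map e) := by
  rintro _ ⟨u, hu, rfl⟩ h0
  obtain ⟨v, hv, h1⟩ := h u hu fun e' => h0 (by rw [e', map_zero])
  exact ⟨e v, ⟨v, hv, rfl⟩, by rwa [he]⟩

theorem iso_map {U : Submodule F V} (h : Iso B U) (e : V →ₗ[F] W)
    (he : ∀ x y, B' (e x) (e y) = B x y) : Iso B' (U.map e) := by
  rintro _ ⟨u, hu, rfl⟩ _ ⟨v, hv, rfl⟩
  rw [he, h u hu v hv]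

theorem finrank_map_inj {e : V →ₗ[F] W} (he : Function.Injective e) (U : Submodule F V) :
    finrank F (U.map e) = finrank F U := (Submodule.equivMapOfInjective e he U).finrank_eq.symm

theorem NDec.map {m : ℕ} (h : NDec B f m) (e : V →ₗ[F] W) (hi : Function.Injective e)
    (h1 : ∀ v, e (f v) = g (e v)) (h2 : ∀ x y, B' (e x) (e y) = B x y) : NDec B' g m := by
  obtain ⟨U, a1, a2, a3⟩ := h
  exact ⟨U.map e, by rw [finrank_map_inj hi, a1], a2.map e h2, map_inv_of_intertwine e h1 a3⟩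

theorem TS.map {m : ℕ} (h : TS B f m) (e : V →ₗ[F] W) (hi : Function.Injective e)
    (h1 : ∀ v, e (f v) = g (e v)) (h2 : ∀ x y, B' (e x) (e y) = B x y) : TS B' g m := by
  obtain ⟨U, a1, a2, a3⟩ := h
  exact ⟨U.map e, by rw [finrank_map_inj hi, a1], iso_map a2 e h2, map_inv_of_intertwine e h1 a3⟩

theorem NDec.tr {m : ℕ} (h : NDec B f m) (h' : TrS B f B' g) : NDec B' g m := by
  obtain ⟨e, h1, h2⟩ := h'
  exact h.map e.toLinearMap e.injective h1 h2

theorem TS.tr {m : ℕ} (h : TS B f m) (h' : TrS B f B' g) : TS B' g m := by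
  obtain ⟨e, h1, h2⟩ := h'
  exact h.map e.toLinearMap e.injective h1 h2

theorem ndec_smul {m : ℕ} {c : F} (hc : c ≠ 0) : NDec B (c • f) m ↔ NDec B f m := by
  simp only [NDec, map_smul_eq hc]

theorem ts_smul {m : ℕ} {c : F} (hc : c ≠ 0) : TS B (c • f) m ↔ TS B f m := by
  simp only [TS, map_smul_eq hc]

theorem nds_top (hB : EF B ε) : NDs B ⊤ := fun u _ h0 => by
  by_contra! h
  exact h0 (hB.nd u fun y => h y trivial)

theorem ef_res (hB : EF B ε) {U : Submodule F V} (h : NDs B U) : EF (Herm.res B U) ε :=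
  ⟨hB.invol, hB.eps, fun x y => hB.symm x y, fun x hx => by
    by_contra h0
    obtain ⟨v, hv, h1⟩ := h x x.2 fun e => h0 (Subtype.ext e)
    exact h1 (hx ⟨v, hv⟩)⟩

theorem nds_iff (hB : EF B ε) {U : Submodule F V} : NDs B U ↔ Disjoint U (perp B U) := by
  rw [Submodule.disjoint_def]
  refine ⟨fun h x hx hx' => ?_, fun h x hx h0 => ?_⟩
  · by_contra h0
    obtain ⟨v, hv, h1⟩ := h x hx h0
    exact h1 (hB.zero_symm (hx' v hv))
  · by_contra! h1
    exact h0 (h x hx fun w hw => hB.zero_symm (h1 w hw))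

/-- orthogonal sum -/
def sumB (B : V →ₛₗ[σ] V →ₗ[F] F) (B' : W →ₛₗ[σ] W →ₗ[F] F) : (V × W) →ₛₗ[σ] (V × W) →ₗ[F] F :=
  (B.comp (LinearMap.fst F V W)).compl₂ (LinearMap.fst F V W) +
    (B'.comp (LinearMap.snd F V W)).compl₂ (LinearMap.snd F V W)

@[simp] theorem sumB_apply (x y : V × W) : sumB B B' x y = B x.1 y.1 + B' x.2 y.2 := rfl

theorem ef_sum (hB : EF B ε) (hB' : EF B' ε) : EF (sumB B B') ε :=
  ⟨hB.invol, hB.eps, fun x y => by
    rw [sumB_apply, sumB_apply, hB.symm x.1, hB'.symm x.2, map_add, mul_add], fun x hx =>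
    Prod.ext (hB.nd _ fun y => by simpa using hx (y, 0)) (hB'.nd _ fun y => by simpa using hx (0, y))⟩

theorem Im.prod (h : Im B f) (h' : Im B' g) : Im (sumB B B') (f.prodMap g) := fun x y => by
  simp [h x.1, h' x.2]

theorem NDec.inl {m : ℕ} (h : NDec B f m) : NDec (sumB B B') (f.prodMap g) m :=
  h.map (LinearMap.inl F V W) LinearMap.inl_injective (by simp) (by simp)

theorem TS.inl {m : ℕ} (h : TS B f m) : TS (sumB B B') (f.prodMap g) m :=
  h.map (LinearMap.inl F V W) LinearMap.inl_injective (by simp) (by simp)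

theorem ndec_self (hB : EF B ε) : NDec B f (finrank F V) := ⟨⊤, finrank_top F V, nds_top hB, le_top⟩

theorem Im.inj (h : Im B f) (hB : EF B ε) : Function.Injective f :=
  (injective_iff_map_eq_zero f).2 fun x hx => hB.nd x fun y => by rw [← h, hx]; simp

theorem NDs.sup (hB : EF B ε) {U U' : Submodule F V} (h : NDs B U) (h' : NDs B U')
    (ho : U' ≤ perp B U) : NDs B (U ⊔ U') := by
  intro x hx h0
  obtain ⟨u, hu, u', hu', rfl⟩ := Submodule.mem_sup.1 hx
  by_cases e : u = 0
  · subst e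
    obtain ⟨v, hv, h1⟩ := h' u' hu' (by simpa using h0)
    exact ⟨v, Submodule.mem_sup_right hv, by simpa using h1⟩
  · obtain ⟨v, hv, h1⟩ := h u hu e
    exact ⟨v, Submodule.mem_sup_left hv, by
      rwa [b_add_left, hB.zero_symm (ho hu' v hv), add_zero]⟩

variable [FiniteDimensional F V] [FiniteDimensional F W]

theorem finrank_perp_add (hB : EF B ε) (U : Submodule F V) :
    finrank F U + finrank F (perp B U) = finrank F V := by
  let b := Module.finBasis F U
  have hb : LinearIndependent F (U.subtype ∘ b) := b.linearIndependent.map' _ U.ker_subtype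
  have hb' : LinearIndependent F fun i => B ((U.subtype ∘ b) i) := by
    rw [Fintype.linearIndependent_iff] at hb ⊢
    intro c hc i
    have := hb (fun i => σ (c i)) (hB.nd _ fun y => by
      simpa [Herm.b_sum_left, hB.invol] using LinearMap.congr_fun hc y) i
    simpa using this
  have h1 := finrank_span_eq_card hb'
  have h2 := Subspace.finrank_add_finrank_dualCoannihilator_eq
    (Submodule.span F (Set.range fun i => B ((U.subtype ∘ b) i)))
  have h3 : (Submodule.span F (Set.range fun i => B ((U.subtype ∘ b) i))).dualCoannihilator =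
      perp B U := by
    have h4 : U = Submodule.span F (Set.range (U.subtype ∘ b)) := by
      rw [Set.range_comp, ← Submodule.map_span, b.span_eq, Submodule.map_top,
        Submodule.range_subtype]
    ext x
    conv_rhs => rw [h4, Herm.mem_perp_span]
    rw [Submodule.mem_dualCoannihilator]
    constructor
    · rintro h _ ⟨i, rfl⟩; exact h _ (Submodule.subset_span ⟨i, rfl⟩)
    · intro h φ hφ
      induction hφ using Submodule.span_induction with
      | mem w hw => obtain ⟨i, rfl⟩ := hw; exact h _ ⟨i, rfl⟩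
      | zero => simp
      | add a b _ _ ha hb => simp [ha, hb]
      | smul c a _ ha => simp [ha]
  rw [h1, h3, Fintype.card_fin] at h2
  exact h2

theorem perp_perp (hB : EF B ε) (U : Submodule F V) : perp B (perp B U) = U := by
  symm
  refine Submodule.eq_of_le_of_finrank_eq (fun x hx w hw => hB.zero_symm (hw x hx)) ?_
  have h1 := finrank_perp_add hB U
  have h2 := finrank_perp_add hB (perp B U)
  omega

theorem NDs.isCompl (hB : EF B ε) {U : Submodule F V} (h : NDs B U) : IsCompl U (perp B U) :=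
  ⟨(nds_iff hB).1 h, codisjoint_iff.2 (Submodule.eq_top_of_finrank_eq (by
    rw [← finrank_perp_add hB U, ← Submodule.finrank_sup_add_finrank_inf_eq,
      ((nds_iff hB).1 h).eq_bot, finrank_bot, add_zero]))⟩

theorem NDs.perp (hB : EF B ε) {U : Submodule F V} (h : NDs B U) : NDs B (perp B U) := by
  rw [nds_iff hB, perp_perp hB]; exact ((nds_iff hB).1 h).symm

theorem perp_inv (hB : EF B ε) (hf : Im B f) {U : Submodule F V} (h : U.map f ≤ U) :
    (perp B U).map f ≤ perp B U := by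
  rw [inv_iff]
  intro x hx w hw
  rw [← map_eq_of_le (hf.inj hB) h rfl] at hw
  obtain ⟨w, hw, rfl⟩ := hw
  rw [hf, hx w hw]

theorem tr_res (hB : EF B ε) {U U' : Submodule F V} (hc : IsCompl U U') (ho : U' ≤ perp B U)
    (h : U.map f ≤ U) (h' : U'.map f ≤ U') :
    TrS (sumB (Herm.res B U) (Herm.res B U')) ((res f h).prodMap (res f h')) B f :=
  ⟨Submodule.prodEquivOfIsCompl U U' hc, fun v => by simp [Submodule.coe_prodEquivOfIsCompl'],
    fun x y => by simp [Submodule.coe_prodEquivOfIsCompl', b_add_left, ho y.2.2 _ x.1.2,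
      hB.zero_symm (ho x.2.2 _ y.1.2)]⟩

theorem two_mul_le_of_iso (hB : EF B ε) {U : Submodule F V} (h : Iso B U) :
    2 * finrank F U ≤ finrank F V := by
  have h1 := finrank_perp_add hB U
  have h2 := Submodule.finrank_mono (Herm.iso_iff_le_perp.1 h)
  omega

variable (L : Type*) [Field L] [IsAlgClosed L] [Algebra F L] {ψ : L →+* L}

theorem ev_pair [Finite F] (hψ : ∀ a, ψ (algebraMap F L a) = algebraMap F L (σ a))
    (P : V →ₛₗ[σ] W →ₗ[F] F) (hd : finrank F V = finrank F W)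
    (hP : ∀ w, (∀ v, P v w = 0) → w = 0) (h : ∀ v w, P (f v) (g w) = P v w) :
    ev L g = (ev L f).map fun z => (ψ z)⁻¹ := by
  let b := finBasisOfFinrankEq F V hd
  let φ : W →ₗ[F] (Fin (finrank F W) → F) := LinearMap.pi fun i => P (b i)
  have hφ : Function.Injective φ := (injective_iff_map_eq_zero φ).2 fun w hw => hP w fun v => by
    rw [← b.sum_repr v, map_sum P, LinearMap.sum_apply]
    exact Finset.sum_eq_zero fun i _ => by
      simp [LinearMap.map_smulₛₗ, show P (b i) w = 0 from congrFun hw i]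
  let e := LinearEquiv.ofBijective φ ⟨hφ,
    (LinearMap.injective_iff_surjective_of_finrank_eq_finrank (by simp)).1 hφ⟩
  have h1 : toLin' ((LinearMap.toMatrix b b f).map σ)ᵀ * e.conj g = 1 := by
    refine LinearMap.ext fun y => ?_
    obtain ⟨w, rfl⟩ := e.surjective y
    funext i
    change _ = P (b i) w
    rw [← h, ← b.sum_repr (f (b i)), map_sum P, LinearMap.sum_apply]
    simp [LinearMap.map_smulₛₗ, e, φ, mulVec, dotProduct, LinearMap.toMatrix_apply]
  rw [Sim.ev L (g := e.conj g) ⟨e, fun v => by simp⟩, ev_inv' L h1, ev_transpose,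
    ev_map L _ σ ψ hψ, ← (sim_toMatrix b f).ev L, Multiset.map_map]
  rfl

theorem iso_ev [Finite F] (hψ : ∀ a, ψ (algebraMap F L a) = algebraMap F L (σ a)) (hB : EF B ε)
    (hf : Im B f) {s : F[X]} (hs : Squarefree s) (hs' : aeval f s = 0) {U : Submodule F V}
    (hU : Iso B U) (h : U.map f ≤ U) : ∃ (C : Submodule F V) (hC : C.map f ≤ C), C ≤ perp B U ∧
      finrank F C + 2 * finrank F U = finrank F V ∧ NDs B C ∧
      ev L f = ev L (res f h) + (ev L (res f h)).map (fun z => (ψ z)⁻¹) + ev L (res f hC) := by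
  have h1 := perp_inv hB hf h
  have h2 := Herm.iso_iff_le_perp.1 hU
  obtain ⟨D, hD, hD'⟩ := exists_compl hs hs' h1
  obtain ⟨C, hC, hC'⟩ := exists_compl hs hs' h
  have h3 : (C ⊓ perp B U).map f ≤ C ⊓ perp B U :=
    (Submodule.map_inf_le f).trans (inf_le_inf hC' h1)
  have h4 : U ⊔ C ⊓ perp B U = perp B U := by
    rw [← sup_inf_assoc_of_le _ h2, hC.sup_eq_top, top_inf_eq]
  have h5 : Disjoint U (C ⊓ perp B U) := hC.disjoint.mono_right inf_le_left
  have h6 := finrank_perp_add hB U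
  have h7 := Submodule.finrank_add_eq_of_isCompl hD
  have h8 := Submodule.finrank_sup_add_finrank_inf_eq U (C ⊓ perp B U)
  rw [h4, h5.eq_bot, finrank_bot] at h8
  refine ⟨_, h3, inf_le_right, by omega, (nds_iff hB).2 (Submodule.disjoint_def.2 fun x hx hx' =>
    Submodule.disjoint_def.1 h5 x ?_ hx), ?_⟩
  · rw [← perp_perp hB U, ← h4, Herm.perp_sup]
    exact ⟨hx.2, hx'⟩
  · have h9 := (sim_res_sup h5 h h3 (by rw [h4]; exact h1)).ev L
    rw [← evS_eq, h4, evS_eq L h1] at h9
    rw [ev_res L hD h1 hD', h9, ev_prodMap, ev_pair L hψ (f := res f h) (g := res f hD')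
      (B.domRestrict₁₂ U D) (by omega) (fun w hw => Subtype.ext (Submodule.disjoint_def.1
        hD.disjoint _ (fun u hu => hw ⟨u, hu⟩) w.2)) fun v w => hf v w]
    abel

omit [FiniteDimensional F V] [FiniteDimensional F W]

variable (σ ε) in
/-- the hyperbolic form -/
def hypB (ι : Type*) [Fintype ι] : ((ι → F) × (ι → F)) →ₛₗ[σ] ((ι → F) × (ι → F)) →ₗ[F] F :=
  ((Herm.stdB σ ι).comp (LinearMap.fst F _ _)).compl₂ (LinearMap.snd F _ _) +
    ε • ((Herm.stdB σ ι).comp (LinearMap.snd F _ _)).compl₂ (LinearMap.fst F _ _)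

theorem hypB_apply {ι : Type*} [Fintype ι] (x y : (ι → F) × (ι → F)) :
    hypB σ ε ι x y = Herm.stdB σ ι x.1 y.2 + ε * Herm.stdB σ ι x.2 y.1 := rfl

theorem ef_stdB (hσ : ∀ a, σ (σ a) = a) (ι : Type*) [Fintype ι] : EF (Herm.stdB σ ι) 1 :=
  ⟨hσ, Or.inl rfl, fun x y => by simp [Herm.stdB_apply, hσ, mul_comm], fun x hx => funext fun i => by
    simpa [Herm.stdB_single_right] using hx (Pi.single i 1)⟩

theorem ef_hypB (hσ : ∀ a, σ (σ a) = a) (hε : ε = 1 ∨ ε = -1) (ι : Type*) [Fintype ι] :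
    EF (hypB σ ε ι) ε := by
  have h := ef_stdB hσ ι
  refine ⟨hσ, hε, fun x y => ?_, fun x hx => Prod.ext (h.nd _ fun y => ?_) (h.nd _ fun y => ?_)⟩
  · rw [hypB_apply, hypB_apply, h.symm x.2, h.symm x.1]
    rcases hε with rfl | rfl <;> simp [add_comm]
  · simpa [hypB_apply] using hx (0, y)
  · have := hx (y, 0)
    rcases hε with rfl | rfl <;> simpa [hypB_apply] using this

theorem im_hypB (hσ : ∀ a, σ (σ a) = a) {ι : Type*} [Fintype ι] {g k : End F (ι → F)}
    (h : ∀ x y, Herm.stdB σ ι (g x) (k y) = Herm.stdB σ ι x y) :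
    Im (hypB σ ε ι) (g.prodMap k) := fun x y => by
  have h' := ef_stdB hσ ι
  simp only [hypB_apply, LinearMap.prodMap_apply, h]
  rw [h'.symm (g _), h, ← h'.symm]

theorem iso_hyp_inl {ι : Type*} [Fintype ι] :
    Iso (hypB σ ε ι) (LinearMap.range (LinearMap.inl F _ _)) := by
  rintro _ ⟨x, rfl⟩ _ ⟨y, rfl⟩; simp [hypB_apply]

theorem iso_hyp_inr {ι : Type*} [Fintype ι] :
    Iso (hypB σ ε ι) (LinearMap.range (LinearMap.inr F _ _)) := by
  rintro _ ⟨x, rfl⟩ _ ⟨y, rfl⟩; simp [hypB_apply]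

theorem inv_inl (f : End F V) (g : End F W) :
    (LinearMap.range (LinearMap.inl F V W)).map (f.prodMap g) ≤
      LinearMap.range (LinearMap.inl F V W) := by
  rw [inv_iff]; rintro _ ⟨x, rfl⟩; exact ⟨f x, by simp⟩

theorem inv_inr (f : End F V) (g : End F W) :
    (LinearMap.range (LinearMap.inr F V W)).map (f.prodMap g) ≤
      LinearMap.range (LinearMap.inr F V W) := by
  rw [inv_iff]; rintro _ ⟨x, rfl⟩; exact ⟨g x, by simp⟩

theorem ts_hyp {ι : Type*} [Fintype ι] (g k : End F (ι → F)) :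
    TS (hypB σ ε ι) (g.prodMap k) (Fintype.card ι) :=
  ⟨_, by rw [LinearMap.finrank_range_of_inj LinearMap.inl_injective]; simp, iso_hyp_inl, inv_inl g k⟩

theorem exists_dual {ι : Type*} [Fintype ι] {g : End F (ι → F)} (hg : Function.Injective g) :
    ∃ k : End F (ι → F), ∀ x y, Herm.stdB σ ι (g x) (k y) = Herm.stdB σ ι x y := by
  obtain ⟨A, rfl⟩ := (toLin' (R := F) (m := ι) (n := ι)).surjective g
  have h := Herm.isUnit_ct (σ := σ) (Matrix.mulVec_injective_iff_isUnit.1 hg)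
  refine ⟨toLin' (Herm.ct σ A)⁻¹, fun x y => ?_⟩
  rw [toLin'_apply, toLin'_apply, Herm.stdB_mulVec_left, mulVec_mulVec,
    mul_nonsing_inv _ ((isUnit_iff_isUnit_det _).1 h), one_mulVec]

theorem dual_pow (hσ : ∀ a, σ (σ a) = a) {ι : Type*} [Fintype ι] {g k : End F (ι → F)}
    (h : ∀ x y, Herm.stdB σ ι (g x) (k y) = Herm.stdB σ ι x y) {N : ℕ} {c : F} (hc : σ c * c = 1)
    (hg : g ^ N = c • 1) : k ^ N = c • 1 := by
  have h1 : ∀ (j : ℕ) x y, Herm.stdB σ ι ((g ^ j) x) ((k ^ j) y) = Herm.stdB σ ι x y := by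
    intro j
    induction j with
    | zero => exact fun _ _ => rfl
    | succ j ih => exact fun x y => by rw [pow_succ', pow_succ', End.mul_apply, End.mul_apply, h, ih]
  refine LinearMap.ext fun y => (ef_stdB hσ ι).ext_right fun x => ?_
  have := h1 N x y
  simp only [hg, LinearMap.smul_apply, End.one_apply, b_smul_left, map_smul, smul_eq_mul] at this ⊢
  linear_combination c * this - (Herm.stdB σ ι x ((k ^ N) y)) * hc

theorem exists_hyp [Fintype F] (hψ : ∀ a, ψ (algebraMap F L a) = algebraMap F L (σ a))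
    (hσ : ∀ a, σ (σ a) = a) (M : Multiset L) (hM : St (Fintype.card F) M) {N : ℕ} (hN : N ≠ 0)
    {c : F} (hc : σ c * c = 1) (h : ∀ z ∈ M, z ^ N = algebraMap F L c) :
    ∃ g k : End F (Fin M.card → F), (g.prodMap k : End F _) ^ N = c • 1 ∧
      ev L (g.prodMap k : End F _) = M + M.map (fun z => (ψ z)⁻¹) ∧
      ∀ x y, Herm.stdB σ _ (g x) (k y) = Herm.stdB σ _ x y := by
  obtain ⟨g, h1, h2⟩ := exists_end_pow L M hM h (ι := Fin M.card) (by simp)
  obtain ⟨k, hk⟩ := exists_dual (σ := σ) (inj_of_pow hN (right_ne_zero_of_mul_eq_one hc) h1)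
  refine ⟨g, k, ?_, ?_, hk⟩
  · rw [prodMap_pow', h1, dual_pow hσ hk hc h1]; ext <;> simp
  · rw [ev_prodMap, ev_pair L hψ _ rfl (fun w hw => (ef_stdB hσ _).ext_right fun y => by
      simp [hw]) hk, h2]

end Cfsg.Agent.Elu
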