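import Mathlib
import Cfsg.Agent.Herm.Iso
import Cfsg.Agent.Elu.Frm

/-!
Transitivity on subspaces; splitting of unipotent isometries.
-/

set_option autoImplicit false
set_option backward.isDefEq.respectTransparency false

namespace Cfsg.Agent.Elu

open Module Polynomial Conj Spc Matrix
open Herm (perp Iso mem_perp b_smul_left b_add_left UG)
open scoped _root_.Classical

variable {F : Type*} [Field F] {V W : Type*} [AddCommGroup V] [Module F V] [AddCommGroup W]
  [Module F W] {σ : F →+* F} {B : V →ₛₗ[σ] V →ₗ[F] F} {B' : W →ₛₗ[σ] W →ₗ[F] F} {ε : F}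
  {f : End F V} {g : End F W} [FiniteDimensional F V]

omit [FiniteDimensional F V] in
theorem exists_equiv_of_compl {U U' : Submodule F V} {T T' : Submodule F W} (h : IsCompl U U')
    (h' : IsCompl T T') (e : U ≃ₗ[F] T) (e' : U' ≃ₗ[F] T') :
    ∃ g : V ≃ₗ[F] W, ∀ (x : U) (y : U'), g (x + y) = e x + e' y :=
  ⟨(U.prodEquivOfIsCompl U' h).symm.trans ((e.prodCongr e').trans (T.prodEquivOfIsCompl T' h')),
    fun x y => by
      rw [← Submodule.coe_prodEquivOfIsCompl' U U' h (x, y), LinearEquiv.trans_apply,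
        LinearEquiv.symm_apply_apply]; rfl⟩

theorem exists_ug_of_iso (hB : EF B ε) {U T : Submodule F V} (hU : NDs B U) (hT : NDs B T)
    (e : U ≃ₗ[F] T) (he : ∀ x y, B (e x) (e y) = B x y) (e' : perp B U ≃ₗ[F] perp B T)
    (he' : ∀ x y, B (e' x) (e' y) = B x y) : ∃ g : UG B, g • U = T := by
  obtain ⟨g, hg⟩ := exists_equiv_of_compl (hU.isCompl hB) (hT.isCompl hB) e e'
  refine ⟨⟨g, fun x y => ?_⟩, map_eq_of_equiv g e fun x => by simpa using hg x 0⟩
  obtain ⟨a, b, rfl, -⟩ := Submodule.existsUnique_add_of_isCompl (hU.isCompl hB) x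
  obtain ⟨c, d, rfl, -⟩ := Submodule.existsUnique_add_of_isCompl (hU.isCompl hB) y
  simp [hg, b_add_left, he, he', d.2 _ a.2, (e' d).2 _ (e a).2, hB.zero_symm (b.2 _ c.2),
    hB.zero_symm ((e' b).2 _ (e c).2)]

theorem card_nd_dvd (hB : EF B ε) (P : Submodule F V → Prop) {U : Submodule F V} (hU : NDs B U)
    (h0 : P U) (h1 : ∀ T, P T → ∃ g : UG B, g • U = T) (h2 : ∀ (g : UG B) T, P T → P (g • T)) :
    Nat.card {T // P T} * (Nat.card (UG (Herm.res B U)) * Nat.card (UG (Herm.res B (perp B U)))) ∣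
      Nat.card (UG B) := by
  have h : Herm.IsSum (Herm.res B U) (Herm.res B (perp B U)) B
      (Submodule.prodEquivOfIsCompl _ _ (hU.isCompl hB)) := fun x y x' y' => by
    simp [Submodule.coe_prodEquivOfIsCompl', b_add_left, y'.2 _ x.2, hB.zero_symm (y.2 _ x'.2)]
  rw [← Nat.card_prod]
  refine card_mul_dvd P h0 h1 h2 h.hom h.hom_injective fun k => map_eq_of_equiv _ k.1.1 fun x => ?_
  simpa [Submodule.coe_prodEquivOfIsCompl'] using h.hom_apply k x 0

theorem finrank_of_pair (hB : EF B ε) {U U' : Submodule F V} (h : IsCompl U U') (hU : Iso B U)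
    (hU' : Iso B U') : finrank F U' = finrank F U ∧ 2 * finrank F U = finrank F V := by
  have := two_mul_le_of_iso hB hU
  have := two_mul_le_of_iso hB hU'
  have := Submodule.finrank_add_eq_of_isCompl h
  omega

theorem exists_coord (hB : EF B ε) {U U' : Submodule F V} (h : IsCompl U U') (hU : Iso B U)
    (hU' : Iso B U') {n : ℕ} (b : Basis (Fin n) F U) :
    ∃ φ : U' ≃ₗ[F] (Fin n → F), ∀ w i, φ w i = B (b i) w := by
  let φ : U' →ₗ[F] (Fin n → F) := LinearMap.pi fun i => B (b i) ∘ₗ U'.subtype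
  have hφ : Function.Injective φ := (injective_iff_map_eq_zero φ).2 fun w hw =>
    Subtype.ext (hB.ext_right fun v => by
      obtain ⟨a, c, rfl, -⟩ := Submodule.existsUnique_add_of_isCompl h v
      rw [b_add_left, hU' _ c.2 _ w.2, ← b.sum_repr a, Submodule.coe_sum, Herm.b_sum_left]
      simp only [Submodule.coe_smul, b_smul_left, show ∀ i, B (b i) w = 0 from congrFun hw]
      simp)
  exact ⟨LinearEquiv.ofBijective φ ⟨hφ, (LinearMap.injective_iff_surjective_of_finrank_eq_finrank
    (by simp [(finrank_of_pair hB h hU hU').1, finrank_eq_card_basis b])).1 hφ⟩, fun _ _ => rfl⟩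

theorem exists_tr_pair [FiniteDimensional F W] (hB : EF B ε) (hB' : EF B' ε) {U U' : Submodule F V}
    (h : IsCompl U U') (hU : Iso B U) (hU' : Iso B U') {T T' : Submodule F W} (h' : IsCompl T T')
    (hT : Iso B' T) (hT' : Iso B' T') (e : U ≃ₗ[F] T) :
    ∃ g : V ≃ₗ[F] W, (∀ x y, B' (g x) (g y) = B x y) ∧ (∀ x : U, g x = e x) ∧
      U'.map g.toLinearMap = T' := by
  let b := finBasis F U
  obtain ⟨φ, hφ⟩ := exists_coord hB h hU hU' b
  obtain ⟨φ', hφ'⟩ := exists_coord hB' h' hT hT' (b.map e)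
  have h1 : ∀ (x : U) (y : U'), B' (e x) (φ'.symm (φ y)) = B x y := fun x y => by
    rw [← b.sum_repr x]
    have : ∀ i, B' (e (b i)) (φ'.symm (φ y)) = B (b i) y := fun i => by
      rw [← hφ, ← b.map_apply e, ← hφ', φ'.apply_symm_apply]
    simp only [map_sum, map_smul, Submodule.coe_sum, Submodule.coe_smul, b_smul_left, this,
      LinearMap.sum_apply, map_smulₛₗ, LinearMap.smul_apply, RingHom.id_apply]
  obtain ⟨g, hg⟩ := exists_equiv_of_compl h h' e (φ.trans φ'.symm)
  refine ⟨g, fun x y => ?_, fun x => by simpa using hg x 0,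
    map_eq_of_equiv g (φ.trans φ'.symm) fun x => by simpa using hg 0 x⟩
  obtain ⟨a, b, rfl, -⟩ := Submodule.existsUnique_add_of_isCompl h x
  obtain ⟨c, d, rfl, -⟩ := Submodule.existsUnique_add_of_isCompl h y
  rw [hg, hg]
  simp only [b_add_left, map_add, LinearEquiv.trans_apply, LinearMap.add_apply, h1,
    hU _ a.2 _ c.2, hU' _ b.2 _ d.2, hT _ (e a).2 _ (e c).2, hT' _ (φ'.symm _).2 _ (φ'.symm _).2]
  rw [hB'.symm (e c), h1, ← hB.symm]

/-- pairs of complementary totally isotropic subspaces -/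
def HPair (B : V →ₛₗ[σ] V →ₗ[F] F) (P : Submodule F V × Submodule F V) : Prop :=
  IsCompl P.1 P.2 ∧ Iso B P.1 ∧ Iso B P.2

omit [FiniteDimensional F V] in
theorem HPair.smul {P : Submodule F V × Submodule F V} (h : HPair B P) (g : UG B) :
    HPair B (g • P) :=
  ⟨(Submodule.orderIsoMapComap g.1).isCompl h.1, iso_map h.2.1 _ g.2, iso_map h.2.2 _ g.2⟩

theorem HPair.trans (hB : EF B ε) {P Q : Submodule F V × Submodule F V} (h : HPair B P)
    (h' : HPair B Q) : ∃ g : UG B, g • P = Q := by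
  have h1 := (finrank_of_pair hB h.1 h.2.1 h.2.2).2
  have h2 := (finrank_of_pair hB h'.1 h'.2.1 h'.2.2).2
  let e := LinearEquiv.ofFinrankEq (R := F) P.1 Q.1 (by omega)
  obtain ⟨g, a1, a2, a3⟩ := exists_tr_pair hB hB h.1 h.2.1 h.2.2 h'.1 h'.2.1 h'.2.2 e
  exact ⟨⟨g, a1⟩, Prod.ext (map_eq_of_equiv g e a2) a3⟩

theorem HPair.card_dvd (hB : EF B ε) {P : Submodule F V × Submodule F V} (h : HPair B P) :
    Nat.card {Q // HPair B Q} * Nat.card (P.1 ≃ₗ[F] P.1) ∣ Nat.card (UG B) := by
  rw [← card_mul_stab (G := UG B) (HPair B) h (fun Q => h.trans hB) fun g Q hQ => hQ.smul g]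
  refine Nat.mul_dvd_mul_left _ (Subgroup.card_dvd_of_surjective (G := MulAction.stabilizer (UG B) P)
    { toFun := fun g => g.1.1.ofSubmodules P.1 P.1 (congrArg Prod.fst g.2)
      map_one' := rfl
      map_mul' := fun _ _ => rfl } fun e => ?_)
  obtain ⟨g, a1, a2, a3⟩ := exists_tr_pair hB hB h.1 h.2.1 h.2.2 h.1 h.2.1 h.2.2 e
  exact ⟨⟨⟨g, a1⟩, Prod.ext (map_eq_of_equiv g e a2) a3⟩,
    LinearEquiv.ext fun x => Subtype.ext (a2 x)⟩

omit [FiniteDimensional F V] in
theorem two_dvd_card_pair [Nontrivial V] : 2 ∣ Nat.card {Q // HPair B Q} := by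
  have := factorial_dvd (t := 2) (fun D : Fin 2 → Submodule F V => HPair B (D 0, D 1))
    (fun s D h => by
      have : s = 1 ∨ s = Equiv.swap 0 1 := by revert s; decide
      rcases this with rfl | rfl
      · exact h
      · exact ⟨h.1.symm, h.2.2, h.2.1⟩)
    fun D h => by
      have : D 0 ≠ D 1 := fun e => by
        have h1 := h.1
        simp only [e] at h1
        exact bot_ne_top (h1.disjoint.eq_bot_of_self.symm.trans h1.codisjoint.eq_top_of_self)
      intro i j e
      fin_cases i <;> fin_cases j <;> simp_all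
  exact this.trans (Nat.card_congr ((finTwoArrowEquiv _).subtypeEquiv (q := HPair B)
    fun _ => Iff.rfl)).dvd

/-! ### Unipotent isometries -/

omit [FiniteDimensional F V] in
theorem exists_ker_of_inv {N : End F V} (hN : IsNilpotent N) {R : Submodule F V}
    (hR : ∀ x ∈ R, N x ∈ R) (h0 : R ≠ ⊥) : ∃ a ∈ R, a ≠ 0 ∧ N a = 0 := by
  obtain ⟨a, ha, h1⟩ := R.ne_bot_iff.1 h0
  obtain ⟨k, hk⟩ := hN
  have h2 : ∃ k, (N ^ k) a = 0 := ⟨k, by rw [hk]; rfl⟩
  have h3 : ∀ j, (N ^ j) a ∈ R := fun j => by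
    induction j with
    | zero => exact ha
    | succ j ih => rw [pow_succ']; exact hR _ ih
  obtain ⟨j, hj⟩ := Nat.exists_eq_succ_of_ne_zero (n := Nat.find h2) fun e => h1 (by
    simpa [e] using Nat.find_spec h2)
  refine ⟨_, h3 j, Nat.find_min h2 (by omega), ?_⟩
  rw [← End.mul_apply, ← pow_succ', ← Nat.succ_eq_add_one, ← hj]
  exact Nat.find_spec h2

omit [FiniteDimensional F V] in
theorem eq_of_root_mul {n : ℕ} {x : AdjoinRoot ((X : F[X]) ^ (n + 1))}
    (h : AdjoinRoot.root _ * x = 0) : ∃ c : F, x = c • AdjoinRoot.root _ ^ n := by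
  obtain ⟨p, rfl⟩ := AdjoinRoot.mk_surjective x
  rw [← AdjoinRoot.mk_X, ← map_mul, AdjoinRoot.mk_eq_zero, pow_succ',
    mul_dvd_mul_iff_left X_ne_zero] at h
  obtain ⟨p, rfl⟩ := h
  refine ⟨p.coeff 0, ?_⟩
  conv_lhs => rw [← X_mul_divX_add p, mul_add, ← mul_assoc, ← pow_succ, map_add, map_mul,
    AdjoinRoot.mk_self, zero_mul, zero_add, map_mul, map_pow, AdjoinRoot.mk_X, AdjoinRoot.mk_C]
  rw [mul_comm, Algebra.smul_def]
  rfl

theorem split_free (hB : EF B ε) (hf : Im B f) {n : ℕ} (hn : (f - 1) ^ (n + 1) = 0) {κ : Type*}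
    [Fintype κ] (w : κ → V) (hw : ∀ c : κ → F,
      (∀ j, B (w j) (((f - 1) ^ n) (∑ k, c k • w k)) = 0) → c = 0) :
    ∃ (U : Submodule F V) (hU : U.map f ≤ U), NDs B U ∧
      jt (res f hU - 1) = Multiset.replicate (Fintype.card κ) (n + 1) := by
  have hN : IsNilpotent (f - 1) := ⟨_, hn⟩
  obtain ⟨L, h1, h2⟩ := exists_lift_mdl (f := fun _ : κ => (X : F[X]) ^ (n + 1))
    (fun _ => monic_X_pow _) (f - 1) (w := w) fun k => by simp [hn]
  have hU : (LinearMap.range L).map f ≤ LinearMap.range L := inv_iff.2 (by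
    rintro _ ⟨a, rfl⟩
    exact ⟨mdl _ a + a, by simp [h1]⟩)
  have h3 := perp_inv hB hf hU
  have h4 : (perp B (LinearMap.range L)).comap L = ⊥ := by
    by_contra h0
    obtain ⟨a, ha, a1, a2⟩ := exists_ker_of_inv (isNilpotent_nil fun _ : κ => n + 1)
      (R := (perp B (LinearMap.range L)).comap L) (fun x hx => by
        rw [Submodule.mem_comap, h1]
        exact Submodule.sub_mem _ (inv_iff.1 h3 _ hx) hx) h0
    choose c hc using fun k => eq_of_root_mul (congrFun a2 k)
    have h5 : a = (nil F (fun _ : κ => n + 1) ^ n) (∑ k, c k • Pi.single k 1) := funext fun k => by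
      have : nil F (fun _ : κ => n + 1) ^ n = aeval (mdl fun _ : κ => (X : F[X]) ^ (n + 1))
        ((X : F[X]) ^ n) := by rw [aeval_X_pow]
      rw [hc k, this, aeval_mdl_apply]
      simp [Finset.sum_apply, Pi.single_apply, Algebra.smul_def, mul_comm]
    have h6 : L a = ((f - 1) ^ n) (∑ k, c k • w k) := by
      have := aeval_intertwine L h1 (X ^ n) (∑ k, c k • Pi.single k 1)
      rw [aeval_X_pow, aeval_X_pow] at this
      rw [h5, this]
      simp [h2]
    have h7 := hw c fun j => by rw [← h6]; exact ha _ ⟨_, h2 j⟩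
    exact a1 (by rw [h5, h7]; simp)
  have hL : Function.Injective L := (injective_iff_map_eq_zero L).2 fun a ha => by
    rw [← Submodule.mem_bot F, ← h4, Submodule.mem_comap, ha]; exact Submodule.zero_mem _
  refine ⟨_, hU, (nds_iff hB).2 (Submodule.disjoint_def.2 ?_), ?_⟩
  · rintro _ ⟨a, rfl⟩ ha
    rw [← Submodule.mem_comap, h4, Submodule.mem_bot] at ha
    rw [ha, map_zero]
  · rw [jt_eq (d := fun _ : κ => n + 1) (fun _ => Nat.succ_pos _) (Sim.symm (g := res f hU - 1)
      ⟨LinearEquiv.ofInjective L hL, fun v => Subtype.ext (by simpa using h1 v)⟩)]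
    simp

theorem split_top {B : LinearMap.BilinForm F V} (h2 : (2 : F) ≠ 0) (hB : EF B ε) (hf : Im B f)
    (hN : IsNilpotent (f - 1)) [Nontrivial V] :
    ∃ (n : ℕ) (U : Submodule F V) (hU : U.map f ≤ U), NDs B U ∧
      jt (res f hU - 1) = Multiset.replicate (if (-1) ^ n * ε = 1 then 1 else 2) (n + 1) := by
  obtain ⟨n, hn⟩ := Nat.exists_eq_succ_of_ne_zero (n := Nat.find hN) fun e => by
    simpa [e] using Nat.find_spec hN
  have h1 : (f - 1) ^ (n + 1) = 0 := by rw [← Nat.succ_eq_add_one, ← hn]; exact Nat.find_spec hN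
  obtain ⟨y, hy⟩ := DFunLike.ne_iff.1 (Nat.find_min hN (show n < Nat.find hN by omega))
  have hu : UIso B (f - 1) := uIso_iff.2 hf
  have h3 : ∀ x y, B y (((f - 1) ^ n) x) = (-1) ^ n * ε * B x (((f - 1) ^ n) y) := fun x y => by
    have := hu.shift n 0 (x := x) (by rw [add_zero, h1]; rfl) y
    rw [hB.symm, RingHom.id_apply]
    simp only [pow_zero, End.one_apply, add_zero] at this
    rw [this]; ring
  obtain ⟨x, hx⟩ : ∃ x, B x (((f - 1) ^ n) y) ≠ 0 := by
    by_contra! h
    exact hy (hB.ext_right fun v => by simp [h])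
  refine ⟨n, ?_⟩
  split_ifs with h
  · obtain ⟨v, hv⟩ : ∃ v, B v (((f - 1) ^ n) v) ≠ 0 := by
      by_contra! h'
      have := h' (x + y)
      simp only [map_add, LinearMap.add_apply, h', h3 x y, h] at this
      exact mul_ne_zero h2 hx (by linear_combination this)
    simpa using split_free hB hf h1 (fun _ : Unit => v) fun c hc => funext fun j => by
      simpa [hv] using hc ()
  · have h4 : (-1) ^ n * ε = -1 := by
      rcases hB.eps with e' | e' <;> rcases neg_one_pow_eq_or F n with e | e <;> rw [e, e'] at h ⊢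
      · simp at h
      · simp
      · simp
      · simp at h
    have h5 : ∀ v, B v (((f - 1) ^ n) v) = 0 := fun v => by
      have := h3 v v
      rw [h4] at this
      exact (mul_eq_zero.1 (by linear_combination this)).resolve_left h2
    simpa using split_free hB hf h1 ![x, y] fun c hc => by
      have a1 := hc 0
      have a2 := hc 1
      simp only [Fin.sum_univ_two, map_add, map_smul, smul_eq_mul, cons_val_zero, cons_val_one,
        h5, h3 x y, h4] at a1 a2
      funext j
      fin_cases j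
      · simpa [hx] using a2
      · simpa [hx] using a1

theorem ndec_of_jt {V : Type*} [AddCommGroup V] [Module F V] [FiniteDimensional F V]
    {B : LinearMap.BilinForm F V} {f : End F V} (h2 : (2 : F) ≠ 0) (hB : EF B ε) (hf : Im B f)
    (hN : IsNilpotent (f - 1)) {ν : Multiset ℕ} (hν : ν ≤ jt (f - 1))
    (h : ∀ n, (-1) ^ n * ε ≠ 1 → Even (ν.count (n + 1))) : NDec B f ν.sum := by
  induction hd : finrank F V using Nat.strong_induction_on generalizing V ν with
  | _ d ih =>
  rcases subsingleton_or_nontrivial V with h0 | h0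
  · obtain ⟨ν', e⟩ := Multiset.le_iff_exists_add.1 hν
    have := sum_jt hN
    rw [e, Multiset.sum_add, finrank_zero_of_subsingleton] at this
    exact ⟨⊥, by simp; omega, by simp [NDs], by simp⟩
  obtain ⟨n, U, hU, a1, a2⟩ := split_top h2 hB hf hN
  have a3 := perp_inv hB hf hU
  have a4 := jt_res hN (a1.isCompl hB) hU a3
  have a5 := sum_jt (res_nil hU hN)
  have a6 := finrank_perp_add hB U
  have a7 : 0 < finrank F U := by rw [← a5, a2]; split_ifs <;> simp
  have key := fun ν hν h => ih _ (by omega) (ν := ν) (ef_res hB (a1.perp hB)) (hf.res a3)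
    (res_nil a3 hN) hν h rfl
  by_cases hn : n + 1 ∈ ν
  · obtain ⟨ν', rfl⟩ := Multiset.le_iff_exists_add.1 (show jt (res f hU - 1) ≤ ν by
      rw [a2, ← Multiset.le_count_iff_replicate_le]
      have := Multiset.one_le_count_iff_mem.2 hn
      split_ifs with h'
      · exact this
      · obtain ⟨k, hk⟩ := h n h'; omega)
    obtain ⟨T, b1, b2, b3⟩ := (key ν' (by rwa [a4, add_le_add_iff_left] at hν) fun j hj => by
      have := h j hj
      rw [Multiset.count_add, a2, Multiset.count_replicate, Nat.even_add] at this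
      refine this.1 ?_
      split_ifs with e1 e2
      · exact (hj (by rwa [← Nat.succ_injective e1])).elim
      · exact even_two
      · exact Even.zero)
    have b4 : T.map (perp B U).subtype ≤ perp B U := Submodule.map_subtype_le _ _
    refine ⟨U ⊔ T.map (perp B U).subtype, ?_, a1.sup hB (b2.map _ fun _ _ => rfl) b4, ?_⟩
    · have := Submodule.finrank_sup_add_finrank_inf_eq U (T.map (perp B U).subtype)
      rw [((a1.isCompl hB).disjoint.mono_right b4).eq_bot, finrank_bot,
        Submodule.finrank_map_subtype_eq, b1] at this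
      rw [Multiset.sum_add, a5]; omega
    · rw [Submodule.map_sup]
      exact sup_le_sup hU (map_inv_of_intertwine (g := f) (perp B U).subtype (fun _ => rfl) b3)
  · refine (key ν (Multiset.le_iff_count.2 fun j => ?_) h).map (perp B U).subtype
      (Submodule.injective_subtype _) (fun _ => rfl) fun _ _ => rfl
    have := Multiset.le_iff_count.1 hν j
    rw [a4, Multiset.count_add, a2, Multiset.count_replicate] at this
    split_ifs at this with e
    · rw [← e, Multiset.count_eq_zero_of_notMem hn]; exact Nat.zero_le _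
    · rw [← e, Multiset.count_eq_zero_of_notMem hn]; exact Nat.zero_le _
    · omega

end Cfsg.Agent.Elu
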