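import Mathlib
import Cfsg.Agent.Elu.Frm2

/-!
Invariant subspaces of rigid isometries in terms of eigenvalues; shapes of eigenvalue multisets.
-/

set_option autoImplicit false
set_option backward.isDefEq.respectTransparency false

namespace Cfsg.Agent.Elu

open Module Polynomial Conj Spc
open Herm (perp Iso mem_perp b_smul_left b_add_left UG)
open scoped _root_.Classical

section comb
variable {α : Type*} {χ φ ι : α → α}

theorem orb_two_mul (χ : α → α) (z : α) (b : ℕ) :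
    orb χ z (2 * b) = orb (χ ∘ χ) z b + (orb (χ ∘ χ) z b).map χ := by
  have h : ∀ k, (χ ∘ χ)^[k] z = χ^[2 * k] z := fun k => by rw [Function.iterate_mul]; rfl
  induction b with
  | zero => simp [orb]
  | succ b ih =>
    simp only [orb, Nat.mul_succ, Multiset.range_succ, Multiset.map_cons, Multiset.cons_add,
      Multiset.add_cons, h] at ih ⊢
    rw [ih, Function.iterate_succ_apply', Multiset.cons_swap]

theorem SX.split_two (hχ : Function.Injective χ) {b : ℕ} (hb : 0 < b) {R : Multiset α}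
    (hR : SX χ R) (h : ∀ z ∈ R, PX χ z (2 * b)) : ∃ M, SX (χ ∘ χ) M ∧ R = M + M.map χ :=
  SX.induction hχ (d := 2 * b) (by omega) (fun z => PX χ z (2 * b))
    (fun R => ∃ M, SX (χ ∘ χ) M ∧ R = M + M.map χ) ⟨0, rfl, rfl⟩
    (fun z N hz ⟨M, h1, h2⟩ => ⟨orb (χ ∘ χ) z b + M, SX.add (orb_stab (by
      have := (hz _).2 dvd_rfl
      rwa [Function.iterate_mul] at this)) h1, by rw [orb_two_mul, h2, Multiset.map_add]; abel⟩)
    hR fun z hz => ⟨h z hz, h z hz⟩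

/-- sizes of isotropic and nondegenerate stable parts -/
def MS (φ ι : α → α) (R : Multiset α) (b c s w : ℕ) : Prop :=
  R.card = c * s ∧ (∀ m, (∃ M, SX φ M ∧ M + M.map ι ≤ R ∧ M.card = m) ↔ ∃ j ≤ w, m = b * j) ∧
    ∀ m, (∃ M ≤ R, SX φ M ∧ SX ι M ∧ M.card = m) ↔ ∃ j ≤ s, m = c * j

theorem sub_iff_of_per (hχ : Function.Injective χ) {R : Multiset α} (hR : SX χ R) {d s : ℕ}
    (hd : 0 < d) (h : ∀ z ∈ R, PX χ z d) (hs : R.card = d * s) (m : ℕ) :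
    (∃ M ≤ R, SX χ M ∧ M.card = m) ↔ ∃ j ≤ s, m = d * j := by
  constructor
  · rintro ⟨M, h1, h2, rfl⟩
    obtain ⟨j, hj, -⟩ := h2.per hχ hd fun z hz => h z (Multiset.mem_of_le h1 hz)
    have := Multiset.card_le_card h1
    rw [hj, hs] at this
    exact ⟨j, Nat.le_of_mul_le_mul_left this hd, hj⟩
  · rintro ⟨j, hj, rfl⟩
    obtain ⟨s', h1, h2⟩ := hR.per hχ hd h
    exact h2 j (by rwa [← Nat.eq_of_mul_eq_mul_left hd (hs.symm.trans h1)])

theorem ms_A (hφ : Function.Injective φ) {b : ℕ} (hb : 0 < b) {R : Multiset α} (hR : SX φ R)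
    (h : ∀ z ∈ R, PX φ z b) (hι : ∀ M, (∀ z ∈ M, z ∈ R) → SX φ M → SX ι M) {s w : ℕ}
    (hs : R.card = b * s) (hw : (half R).card = b * w) : MS φ ι R b b s w := by
  refine ⟨hs, fun m => ?_, fun m => ?_⟩
  · rw [← sub_iff_of_per hφ (hR.half hφ) hb (fun z hz => h z (Multiset.mem_of_le (half_le R) hz)) hw]
    refine exists_congr fun M => ⟨fun ⟨a1, a2, a3⟩ => ⟨?_, a1, a3⟩, fun ⟨a1, a2, a3⟩ => ⟨a2, ?_, a3⟩⟩
    · rwa [hι M (fun z hz => Multiset.mem_of_le a2 (Multiset.mem_add.2 (Or.inl hz))) a1,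
        ← le_half_iff] at a2
    · rwa [hι M (fun z hz => Multiset.mem_of_le (a1.trans (half_le R)) hz) a2, ← le_half_iff]
  · rw [← sub_iff_of_per hφ hR hb h hs]
    exact exists_congr fun M => ⟨fun ⟨a1, a2, _, a3⟩ => ⟨a1, a2, a3⟩, fun ⟨a1, a2, a3⟩ =>
      ⟨a1, a2, hι M (fun z hz => Multiset.mem_of_le a1 hz) a2, a3⟩⟩

theorem ms_B (hφ : Function.Injective φ) (hχ : Function.Injective χ) {b : ℕ} (hb : 0 < b)
    {R : Multiset α} (hR : SX χ R) (h : ∀ z ∈ R, PX φ z b) (h' : ∀ z ∈ R, PX χ z (2 * b))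
    (h1 : ∀ M, (∀ z ∈ M, z ∈ R) → (SX φ M ∧ SX ι M ↔ SX χ M))
    (h2 : ∀ M, (∀ z ∈ M, z ∈ R) → SX (χ ∘ χ) M → SX φ M ∧ M.map χ = M.map ι) {s : ℕ}
    (hs : R.card = 2 * b * s) : MS φ ι R b (2 * b) s s := by
  refine ⟨hs, fun m => ⟨?_, ?_⟩, fun m => ?_⟩
  · rintro ⟨M, a1, a2, rfl⟩
    obtain ⟨j, hj, -⟩ := a1.per hφ hb fun z hz =>
      h z (Multiset.mem_of_le a2 (Multiset.mem_add.2 (Or.inl hz)))
    have := Multiset.card_le_card a2
    rw [Multiset.card_add, Multiset.card_map, hj, hs] at this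
    exact ⟨j, by nlinarith, hj⟩
  · rintro ⟨j, hj, rfl⟩
    obtain ⟨N, a1, a2, a3⟩ := (sub_iff_of_per hχ hR (by omega) h' hs _).2 ⟨j, hj, rfl⟩
    obtain ⟨M, a4, rfl⟩ := a2.split_two hχ hb fun z hz => h' z (Multiset.mem_of_le a1 hz)
    obtain ⟨a5, a6⟩ := h2 M (fun z hz => Multiset.mem_of_le a1 (Multiset.mem_add.2 (Or.inl hz))) a4
    rw [Multiset.card_add, Multiset.card_map] at a3
    exact ⟨M, a5, a6 ▸ a1, by nlinarith⟩
  · rw [← sub_iff_of_per hχ hR (by omega) h' hs]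
    refine exists_congr fun M => and_congr_right fun a1 => ?_
    rw [← and_assoc, h1 M fun z hz => Multiset.mem_of_le a1 hz]

end comb

section pw
variable {L : Type*} [Field L] {r : ℕ}

/-- integer power map -/
def pw (a : ℤ) (z : L) : L := z ^ a

theorem pw_iterate (a : ℤ) (j : ℕ) (z : L) : (pw a)^[j] z = z ^ a ^ j := by
  induction j with
  | zero => simp
  | succ j ih => rw [Function.iterate_succ_apply', ih, pw, ← zpow_mul, pow_succ]

theorem zpow_congr {z : L} (hz : z ^ r = 1) (hr : r ≠ 0) {a a' : ℤ} (h : (a : ZMod r) = a') :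
    z ^ a = z ^ a' := by
  obtain ⟨k, rfl⟩ : ∃ k, a' = a + r * k := by
    obtain ⟨k, hk⟩ := (ZMod.intCast_eq_intCast_iff_dvd_sub a a' r).1 h
    exact ⟨k, by omega⟩
  rw [zpow_add₀ (ne_zero_pow hr (by rw [hz]; exact one_ne_zero)), zpow_mul, zpow_natCast, hz,
    one_zpow, mul_one]

theorem px_pw {z : L} (hz : IsPrimitiveRoot z r) (hr : r ≠ 0) (a : ℤ) :
    PX (pw a) z (orderOf (a : ZMod r)) := fun j => by
  rw [pw_iterate, orderOf_dvd_iff_pow_eq_one, ← mul_inv_eq_one₀ (hz.ne_zero hr), ← zpow_sub_one₀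
    (hz.ne_zero hr), hz.zpow_eq_one_iff_dvd, ← ZMod.intCast_zmod_eq_zero_iff_dvd]
  push_cast
  rw [sub_eq_zero]

theorem map_pw_congr {M : Multiset L} (hM : ∀ z ∈ M, z ^ r = 1) (hr : r ≠ 0) {a a' : ℤ}
    (h : (a : ZMod r) = a') : M.map (pw a) = M.map (pw a') :=
  Multiset.map_congr rfl fun z hz => zpow_congr (hM z hz) hr h

theorem SX.pw_pow {M : Multiset L} (hM : ∀ z ∈ M, z ^ r = 1) (hr : r ≠ 0) {a a' : ℤ} {k : ℕ}
    (h : (a' : ZMod r) = a ^ k) (hs : SX (pw a) M) : SX (pw a') M :=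
  (hs.iterate k).congr fun z hz => by
    rw [pw_iterate]; exact zpow_congr (hM z hz) hr (by push_cast; exact h)

theorem pw_comp (a a' : ℤ) : (pw a : L → L) ∘ pw a' = pw (a' * a) := funext fun z => by
  simp [pw, zpow_mul]

theorem map_pw_mul {M : Multiset L} {a : ℤ} (hs : SX (pw a) M) (a' : ℤ) :
    M.map (pw (a * a')) = M.map (pw a') := by
  rw [← pw_comp, ← Multiset.map_map, hs]

theorem prim_orb {a : ℤ} (ha : 0 < orderOf (a : ZMod r)) {z : L}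
    (hz : IsPrimitiveRoot z r) (d : ℕ) : ∀ w ∈ orb (pw a) z d, IsPrimitiveRoot w r := by
  intro w hw
  obtain ⟨j, -, rfl⟩ := mem_orb.1 hw
  rw [pw_iterate]
  exact hz.zpow_of_gcd_eq_one _ (Int.isCoprime_iff_gcd_eq_one.1 ((ZMod.coe_int_isUnit_iff_isCoprime
    a r).1 (orderOf_pos_iff.1 ha).isUnit).symm.pow_left)

variable (L) in
/-- arithmetic configuration: Frobenius exponent `Q`, duality exponent `κ`, joint exponent `a` -/
structure Cfg (r : ℕ) (Q κ a : ℤ) (b c : ℕ) : Prop where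
  ne : r ≠ 0
  injQ : Function.Injective (pw Q : L → L)
  inja : Function.Injective (pw a : L → L)
  hb : b = orderOf (Q : ZMod r)
  hc : c = orderOf (a : ZMod r)
  pos : 0 < b
  cases : (a = Q ∧ ∃ k : ℕ, (κ : ZMod r) = Q ^ k) ∨ (c = 2 * b ∧ (∃ k : ℕ, (Q : ZMod r) = (a * a : ℤ) ^ k) ∧
    (∃ k : ℕ, (a : ZMod r) = Q ^ k * κ) ∧ ∃ k : ℕ, (κ : ZMod r) = a ^ k)

/-- admissible shapes -/
def Adm (t b c s w : ℕ) : Prop := (c = b ∧ ∃ o ≤ t, s = 2 * w + o) ∨ (c = 2 * b ∧ w = s)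

variable {Q κ a : ℤ} {b c : ℕ}

theorem Cfg.cpos (h : Cfg L r Q κ a b c) : 0 < c := by
  have := h.pos
  rcases h.cases with ⟨e, -⟩ | ⟨e, -⟩
  · rw [h.hc, e, ← h.hb]; exact this
  · omega

theorem Cfg.sx_iff (h : Cfg L r Q κ a b c) {M : Multiset L} (hM : ∀ z ∈ M, z ^ r = 1) :
    SX (pw Q) M ∧ SX (pw κ) M ↔ SX (pw a) M := by
  have hr := h.ne
  rcases h.cases with ⟨rfl, k, hk⟩ | ⟨-, ⟨k, hk⟩, ⟨k', hk'⟩, k'', hk''⟩
  · exact ⟨fun h => h.1, fun h => ⟨h, h.pw_pow hM hr hk⟩⟩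
  · refine ⟨fun ⟨h1, h2⟩ => ?_, fun h1 => ⟨h1.pw_pow hM hr (k := 2 * k) (by
      rw [hk]; push_cast; ring), h1.pw_pow hM hr hk''⟩⟩
    rw [SX, map_pw_congr hM hr (a' := Q ^ k' * κ) (by push_cast; exact hk'),
      map_pw_mul (h1.pw_pow hM hr (k := k') (by push_cast; rfl)), h2]

theorem Cfg.ms (h : Cfg L r Q κ a b c) {R : Multiset L} (hR : SX (pw a) R)
    (hp : ∀ z ∈ R, IsPrimitiveRoot z r) {s w : ℕ} (hs : R.card = c * s)
    (hw : (c = b ∧ (half R).card = b * w) ∨ (c = 2 * b ∧ w = s)) :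
    MS (pw Q) (pw κ) R b c s w := by
  have hr := h.ne
  have hb := h.pos
  have h1 : ∀ z ∈ R, PX (pw Q) z b := fun z hz => h.hb ▸ px_pw (hp z hz) hr Q
  have h2 : ∀ M : Multiset L, (∀ z ∈ M, z ∈ R) → ∀ z ∈ M, z ^ r = 1 := fun M hM z hz =>
    (hp z (hM z hz)).pow_eq_one
  rcases h.cases with ⟨rfl, k, hk⟩ | ⟨e, ⟨k, hk⟩, ⟨k', hk'⟩, -⟩
  · have e : c = b := h.hc.trans h.hb.symm
    subst e
    exact ms_A h.injQ hb hR h1 (fun M hM h3 => h3.pw_pow (h2 M hM) hr hk) hs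
      (hw.resolve_right (by omega)).2
  · obtain ⟨-, rfl⟩ := hw.resolve_left (by omega)
    subst e
    refine ms_B h.injQ h.inja hb hR h1 (fun z hz => h.hc ▸ px_pw (hp z hz) hr a)
      (fun M hM => h.sx_iff (h2 M hM)) (fun M hM h3 => ?_) hs
    rw [pw_comp] at h3
    have h4 := h3.pw_pow (h2 M hM) hr hk
    exact ⟨h4, by rw [map_pw_congr (h2 M hM) hr (a' := Q ^ k' * κ) (by push_cast; exact hk'),
      map_pw_mul (h4.pw_pow (h2 M hM) hr (k := k') (by push_cast; rfl))]⟩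

theorem card_le_of_nodup (hr : r ≠ 0) {D : Multiset L} (hD : D.Nodup)
    (hp : ∀ z ∈ D, IsPrimitiveRoot z r) : D.card ≤ r.totient := by
  rcases D.empty_or_exists_mem with rfl | ⟨z, hz⟩
  · simp
  · rw [← (hp z hz).card_primitiveRoots]
    exact Multiset.card_le_card ((Multiset.le_iff_subset hD).2 fun w hw =>
      (mem_primitiveRoots hr.bot_lt).2 (hp w hw))

theorem Cfg.exists_adm (h : Cfg L r Q κ a b c) {R : Multiset L} (hR : SX (pw a) R)
    (hp : ∀ z ∈ R, IsPrimitiveRoot z r) :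
    ∃ s w, Adm (r.totient / b) b c s w ∧ MS (pw Q) (pw κ) R b c s w := by
  have hr := h.ne
  have hb := h.pos
  have h1 : ∀ z ∈ R, PX (pw a) z c := fun z hz => h.hc ▸ px_pw (hp z hz) hr a
  obtain ⟨s, hs, -⟩ := hR.per h.inja h.cpos h1
  by_cases e : c = b
  · subst e
    obtain ⟨D, h2, h3⟩ := exists_half_add R
    have h4 := hR.half h.inja
    have h5 : D ≤ R := h3 ▸ Multiset.le_add_left _ _
    obtain ⟨w, hw, -⟩ := h4.per h.inja hb fun z hz => h1 z (Multiset.mem_of_le (half_le R) hz)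
    obtain ⟨o, ho, -⟩ := ((h4.add h4).cancel (h3 ▸ hR)).per h.inja hb fun z hz =>
      h1 z (Multiset.mem_of_le h5 hz)
    have h6 := card_le_of_nodup hr h2 fun z hz => hp z (Multiset.mem_of_le h5 hz)
    have h7 := congrArg Multiset.card h3
    rw [Multiset.card_add, Multiset.card_add, hs, hw, ho] at h7
    refine ⟨s, w, Or.inl ⟨rfl, o, (Nat.le_div_iff_mul_le hb).2 (by rw [mul_comm, ← ho]; exact h6),
      Nat.eq_of_mul_eq_mul_left hb (by rw [h7]; ring)⟩, h.ms hR hp hs (Or.inl ⟨rfl, hw⟩)⟩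
  · have e' : c = 2 * b := by
      rcases h.cases with ⟨rfl, -⟩ | ⟨e', -⟩
      · exact (e (h.hc.trans h.hb.symm)).elim
      · exact e'
    exact ⟨s, s, Or.inr ⟨e', rfl⟩, h.ms hR hp hs (Or.inr ⟨e', rfl⟩)⟩

theorem Cfg.exists_ms (h : Cfg L r Q κ a b c) {ζ : L} (hζ : IsPrimitiveRoot ζ r) {s w : ℕ}
    (hw : Adm (r.totient / b) b c s w) : ∃ R : Multiset L, SX (pw a) R ∧
      (∀ z ∈ R, IsPrimitiveRoot z r) ∧ MS (pw Q) (pw κ) R b c s w := by
  have hr := h.ne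
  have hb := h.pos
  have h1 : PX (pw a) ζ c := h.hc ▸ px_pw hζ hr a
  have h2 := prim_orb (h.hc ▸ h.cpos) hζ c
  have h3 : ∀ k, ∀ z ∈ k • orb (pw a) ζ c, IsPrimitiveRoot z r := fun k z hz =>
    h2 z (Multiset.mem_of_mem_nsmul hz)
  rcases hw with ⟨rfl, o, ho, rfl⟩ | ⟨e, rfl⟩
  · have h4 : ∀ z ∈ (primitiveRoots r L).val, IsPrimitiveRoot z r := fun z hz =>
      (mem_primitiveRoots hr.bot_lt).1 hz
    have h5 : SX (pw a) (primitiveRoots r L).val := Multiset.eq_of_le_of_card_le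
      ((Multiset.le_iff_subset ((primitiveRoots r L).nodup.map h.inja)).2 fun z hz => by
        obtain ⟨w, hw, rfl⟩ := Multiset.mem_map.1 hz
        exact (mem_primitiveRoots hr.bot_lt).2
          (prim_orb (h.hc ▸ h.cpos) (h4 w hw) 2 _ (mem_orb.2 ⟨1, one_lt_two, rfl⟩))) (by simp)
    obtain ⟨D, a1, a2, a3⟩ := exists_nodup_orbits h.inja hb h5
      (fun z hz => h.hc ▸ px_pw (h4 z hz) hr a) (o := o) (by
        rwa [Finset.card_val, hζ.card_primitiveRoots])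
    have a4 := ((h1.sx.nsmul w).add (h1.sx.nsmul w)).add a2
    have a5 : ∀ z ∈ w • orb (pw a) ζ c + w • orb (pw a) ζ c + D, IsPrimitiveRoot z r := by
      simp only [Multiset.mem_add, or_self]
      exact fun z hz => hz.elim (h3 w z) fun hz => h4 z (Multiset.mem_of_le a1 hz)
    refine ⟨_, a4, a5, h.ms a4 a5 (by simp [a3]; ring) (Or.inl ⟨rfl, ?_⟩)⟩
    rw [half_add_add (Multiset.nodup_of_le a1 (primitiveRoots r L).nodup)]
    simp [mul_comm]
  · exact ⟨_, h1.sx.nsmul w, h3 w, h.ms (h1.sx.nsmul w) (h3 w) (by simp [mul_comm])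
      (Or.inr ⟨e, rfl⟩)⟩

end pw

universe u
variable {F : Type u} [Field F] [Fintype F] {V : Type*} [AddCommGroup V] [Module F V]
  [FiniteDimensional F V] {σ : F →+* F} {B : V →ₛₗ[σ] V →ₗ[F] F} {ε : F} {f : End F V}
  (L : Type*) [Field L] [IsAlgClosed L] [Algebra F L] {ψ : L →+* L}

theorem sx_ev (hψ : ∀ a, ψ (algebraMap F L a) = algebraMap F L (σ a)) (hB : EF B ε)
    (hf : Im B f) : SX (fun z => (ψ z)⁻¹) (ev L f) :=
  (ev_pair L hψ B rfl (fun _ hw => hB.ext_right fun y => by simp [hw]) hf).symm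

/-- every admissible part of the eigenvalues is realised by a subspace -/
def Rig (ψ : L →+* L) (B : V →ₛₗ[σ] V →ₗ[F] F) (f : End F V) : Prop :=
  (∀ M ≤ ev L f, St (Fintype.card F) M → SX (fun z => (ψ z)⁻¹) M → NDec B f M.card) ∧
    ∀ M, St (Fintype.card F) M → M + M.map (fun z => (ψ z)⁻¹) ≤ ev L f → TS B f M.card

theorem rig_of (hψ : ∀ a, ψ (algebraMap F L a) = algebraMap F L (σ a))
    (hB : EF B ε)
    (hf : Im B f) {N : ℕ} (hN : (N : F) ≠ 0) (h1 : f ^ N = 1)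
    (hre : ∀ M ≤ ev L f, St (Fintype.card F) M → SX (fun z => (ψ z)⁻¹) M →
      ∃ (B' : (Fin M.card → F) →ₛₗ[σ] (Fin M.card → F) →ₗ[F] F) (g : End F (Fin M.card → F)),
        EF B' ε ∧ Im B' g ∧ g ^ N = 1 ∧ ev L g = M)
    (hri : ∀ (W : Type u) [AddCommGroup W] [Module F W] [FiniteDimensional F W]
      (B' : W →ₛₗ[σ] W →ₗ[F] F) (g : End F W), EF B' ε → Im B' g → Sim g f → TrS B' g B f) :
    Rig L ψ B f := by
  have hs := squarefree_X_pow_sub_one (F := F) hN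
  have h2 := sx_ev L hψ hB hf
  have h3 := st_ev L f
  refine ⟨fun M hM a1 a2 => ?_, fun M a1 hM => ?_⟩
  · obtain ⟨M', e⟩ := Multiset.le_iff_exists_add.1 hM
    obtain ⟨B₁, g₁, b1, b2, b3, b4⟩ := hre M hM a1 a2
    obtain ⟨B₂, g₂, c1, c2, c3, c4⟩ := hre M' (e ▸ Multiset.le_add_left _ _) (a1.cancel (e ▸ h3))
      (a2.cancel (e ▸ h2))
    have := (ndec_self (f := g₁) b1).inl (B' := B₂) (g := g₂)
    rw [Module.finrank_fin_fun] at this
    exact this.tr (hri _ _ _ (ef_sum b1 c1) (b2.prod c2) (sim_of_ev L hs hs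
      (aeval_prodMap_eq_zero (aeval_of_pow b3) (aeval_of_pow c3)) (aeval_of_pow h1)
      (by rw [ev_prodMap, b4, c4, e])))
  · obtain ⟨M', e⟩ := Multiset.le_iff_exists_add.1 hM
    obtain ⟨g, k, b1, b2, b3⟩ := exists_hyp L hψ hB.invol M a1 (N := N) (by rintro rfl; simp at hN)
      (c := 1) (by simp) fun z hz => pow_eq_of_mem_ev L (f := f) (by simp [h1])
        (Multiset.mem_of_le hM (Multiset.mem_add.2 (Or.inl hz)))
    have b4 := im_hypB (ε := ε) hB.invol b3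
    have b5 := ef_hypB hB.invol hB.eps (Fin M.card)
    obtain ⟨B₂, g₂, c1, c2, c3, c4⟩ := hre M' (e ▸ Multiset.le_add_left _ _)
      ((b2 ▸ st_ev L _ : St _ _).cancel (e ▸ h3)) ((b2 ▸ sx_ev L hψ b5 b4 : SX _ _).cancel (e ▸ h2))
    have := (ts_hyp (σ := σ) (ε := ε) g k).inl (B' := B₂) (g := g₂)
    rw [Fintype.card_fin] at this
    exact this.tr (hri _ _ _ (ef_sum b5 c1) (b4.prod c2) (sim_of_ev L hs hs
      (aeval_prodMap_eq_zero (aeval_of_pow (by simpa using b1)) (aeval_of_pow c3)) (aeval_of_pow h1)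
      (by rw [ev_prodMap, b2, c4, e])))

theorem Rig.ndec_iff (hψ : ∀ a, ψ (algebraMap F L a) = algebraMap F L (σ a)) (h : Rig L ψ B f)
    (hB : EF B ε) (hf : Im B f) (m : ℕ) : NDec B f m ↔
      ∃ M ≤ ev L f, St (Fintype.card F) M ∧ SX (fun z => (ψ z)⁻¹) M ∧ M.card = m := by
  refine ⟨?_, fun ⟨M, a1, a2, a3, a4⟩ => a4 ▸ h.1 M a1 a2 a3⟩
  rintro ⟨U, rfl, a1, a2⟩
  exact ⟨_, ev_res L (a1.isCompl hB) a2 (perp_inv hB hf a2) ▸ Multiset.le_add_right _ _,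
    st_ev L _, sx_ev L hψ (ef_res hB a1) (hf.res a2), card_ev L _⟩

theorem Rig.ts_iff (hψ : ∀ a, ψ (algebraMap F L a) = algebraMap F L (σ a)) (h : Rig L ψ B f)
    (hB : EF B ε) (hf : Im B f) {s : F[X]} (hs : Squarefree s) (hs' : aeval f s = 0) (m : ℕ) :
    TS B f m ↔ ∃ M, St (Fintype.card F) M ∧ M + M.map (fun z => (ψ z)⁻¹) ≤ ev L f ∧
      M.card = m := by
  refine ⟨?_, fun ⟨M, a1, a2, a3⟩ => a3 ▸ h.2 M a1 a2⟩
  rintro ⟨U, rfl, a1, a2⟩
  obtain ⟨C, hC, -, -, -, e⟩ := iso_ev L hψ hB hf hs hs' a1 a2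
  exact ⟨_, st_ev L _, e ▸ Multiset.le_add_right _ _, card_ev L _⟩

/-- dimensions of invariant subspaces -/
def Shp (B : V →ₛₗ[σ] V →ₗ[F] F) (f : End F V) (b c s w : ℕ) : Prop :=
  finrank F V = c * s ∧ (∀ m, TS B f m ↔ ∃ j ≤ w, m = b * j) ∧
    ∀ m, NDec B f m ↔ ∃ j ≤ s, m = c * j

theorem pw_card : (pw (Fintype.card F : ℤ) : L → L) = (· ^ Fintype.card F) :=
  funext fun z => zpow_natCast z _

theorem Rig.shp (hψ : ∀ a, ψ (algebraMap F L a) = algebraMap F L (σ a)) (h : Rig L ψ B f)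
    (hB : EF B ε) (hf : Im B f) {N : ℕ} (hN : (N : F) ≠ 0) (h1 : f ^ N = 1) {κ : ℤ}
    (hκ : (pw κ : L → L) = fun z => (ψ z)⁻¹) {b c s w : ℕ}
    (hM : MS (pw (Fintype.card F)) (pw κ) (ev L f) b c s w) : Shp B f b c s w := by
  rw [pw_card, hκ] at hM
  exact ⟨(card_ev L f).symm.trans hM.1, fun m => (h.ts_iff L hψ hB hf (squarefree_X_pow_sub_one hN)
    (aeval_of_pow h1) m).trans (hM.2.1 m), fun m => (h.ndec_iff L hψ hB hf m).trans (hM.2.2 m)⟩

end Cfsg.Agent.Elu
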