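import Mathlib
import Cfsg.Agent.Elu.Rig

/-!
Fixed point free isometries of bilinear forms; splitting off the fixed space.
-/

set_option autoImplicit false
set_option backward.isDefEq.respectTransparency false

namespace Cfsg.Agent.Elu

open Module Polynomial Conj Spc
open Herm (perp Iso mem_perp b_smul_left b_add_left UG)
open scoped _root_.Classical

section split
variable {F : Type*} [Field F] {V W : Type*} [AddCommGroup V] [Module F V] [AddCommGroup W]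
  [Module F W] {σ : F →+* F} {B : V →ₛₗ[σ] V →ₗ[F] F} {B' : W →ₛₗ[σ] W →ₗ[F] F} {ε : F}
  {f : End F V} {g : End F W}

/-- fixed space -/
abbrev Fx (f : End F V) : Submodule F V := LinearMap.ker (f - 1)

/-- moved space -/
abbrev Mo (f : End F V) : Submodule F V := LinearMap.range (f - 1)

theorem mem_Fx {x : V} : x ∈ Fx f ↔ f x = x := sub_eq_zero

theorem Fx_inv (f : End F V) : (Fx f).map f ≤ Fx f := inv_iff.2 fun x hx => by
  rwa [mem_Fx.1 hx]

theorem Mo_inv (f : End F V) : (Mo f).map f ≤ Mo f := inv_iff.2 (by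
  rintro _ ⟨x, rfl⟩
  exact ⟨f x, by simp⟩)

theorem res_Fx (f : End F V) : res f (Fx_inv f) = 1 :=
  LinearMap.ext fun x => Subtype.ext (mem_Fx.1 x.2)

theorem Mo_le_perp (hf : Im B f) : Mo f ≤ perp B (Fx f) := by
  rintro _ ⟨x, rfl⟩ w hw
  rw [LinearMap.sub_apply, map_sub, ← mem_Fx.1 hw, hf, mem_Fx.1 hw]
  exact sub_self _

theorem disjoint_Fx {N : ℕ} (hN : (N : F) ≠ 0) (h : f ^ N = 1) : Disjoint (Fx f) (Mo f) :=
  Submodule.disjoint_def.2 fun x h1 h2 => eq_zero_of_mem_Mv (a := 1)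
    (squarefree_X_pow_sub_one hN) (aeval_of_pow h) (by simpa using h2) (by simpa using mem_Fx.1 h1)

theorem fpf_Mo {N : ℕ} (hN : (N : F) ≠ 0) (h : f ^ N = 1) (x : Mo f) (hx : res f (Mo_inv f) x = x) :
    x = 0 := Subtype.ext (Submodule.disjoint_def.1 (disjoint_Fx hN h) _
  (mem_Fx.2 (congrArg Subtype.val hx)) x.2)

theorem nds_of_ort (hB : EF B ε) {U U' : Submodule F V} (h : U ⊔ U' = ⊤) (ho : U' ≤ perp B U) :
    NDs B U := fun u hu h0 => by
  by_contra! h1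
  refine h0 (hB.nd u fun y => ?_)
  obtain ⟨a, ha, b, hb, rfl⟩ := Submodule.mem_sup.1 (h ▸ Submodule.mem_top : y ∈ U ⊔ U')
  rw [map_add, h1 a ha, ho hb u hu, add_zero]

theorem le_perp_comm (hB : EF B ε) {U U' : Submodule F V} (h : U' ≤ perp B U) : U ≤ perp B U' :=
  fun _ hx _ hy => hB.zero_symm (h hy _ hx)

theorem prod_inv {U : Submodule F V} {U' : Submodule F W} (h : U.map f ≤ U) (h' : U'.map g ≤ U') :
    (U.prod U').map (f.prodMap g) ≤ U.prod U' :=
  inv_iff.2 fun x hx => ⟨inv_iff.1 h _ hx.1, inv_iff.1 h' _ hx.2⟩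

theorem one_inv (U : Submodule F V) : U.map (1 : End F V) ≤ U := inv_iff.2 fun _ h => h

theorem nds_prod {U : Submodule F V} {U' : Submodule F W} :
    NDs (sumB B B') (U.prod U') ↔ NDs B U ∧ NDs B' U' := by
  refine ⟨fun h => ⟨fun u hu h0 => ?_, fun u hu h0 => ?_⟩, fun ⟨h, h'⟩ u hu h0 => ?_⟩
  · obtain ⟨v, h1, h2⟩ := h (u, 0) ⟨hu, zero_mem _⟩ (by simpa using h0)
    exact ⟨v.1, h1.1, by simpa using h2⟩
  · obtain ⟨v, h1, h2⟩ := h (0, u) ⟨zero_mem _, hu⟩ (by simpa using h0)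
    exact ⟨v.2, h1.2, by simpa using h2⟩
  · by_cases e : u.1 = 0
    · obtain ⟨v, h1, h2⟩ := h' u.2 hu.2 fun e' => h0 (Prod.ext e e')
      exact ⟨(0, v), ⟨zero_mem _, h1⟩, by simpa using h2⟩
    · obtain ⟨v, h1, h2⟩ := h u.1 hu.1 e
      exact ⟨(v, 0), ⟨h1, zero_mem _⟩, by simpa using h2⟩

theorem iso_prod {U : Submodule F V} {U' : Submodule F W} :
    Iso (sumB B B') (U.prod U') ↔ Iso B U ∧ Iso B' U' :=
  ⟨fun h => ⟨fun u hu v hv => by simpa using h (u, 0) ⟨hu, zero_mem _⟩ (v, 0) ⟨hv, zero_mem _⟩,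
    fun u hu v hv => by simpa using h (0, u) ⟨zero_mem _, hu⟩ (0, v) ⟨zero_mem _, hv⟩⟩,
    fun ⟨h, h'⟩ u hu v hv => by rw [sumB_apply, h _ hu.1 _ hv.1, h' _ hu.2 _ hv.2, add_zero]⟩

theorem range_prodMap_subtype (U : Submodule F V) (U' : Submodule F W) :
    (⊤ : Submodule F (U × U')).map (U.subtype.prodMap U'.subtype) = U.prod U' := by
  rw [← Submodule.prod_top, LinearMap.prodMap_map_prod]
  simp

theorem inj_prodMap_subtype (U : Submodule F V) (U' : Submodule F W) :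
    Function.Injective (U.subtype.prodMap U'.subtype) :=
  U.injective_subtype.prodMap U'.injective_subtype

variable [FiniteDimensional F V] [FiniteDimensional F W]

theorem finrank_sprod (U : Submodule F V) (U' : Submodule F W) :
    finrank F (U.prod U') = finrank F U + finrank F U' := by
  rw [← range_prodMap_subtype, finrank_map_inj (inj_prodMap_subtype U U'), finrank_top,
    finrank_prod]

theorem isCompl_Fx {N : ℕ} (hN : (N : F) ≠ 0) (h : f ^ N = 1) : IsCompl (Fx f) (Mo f) :=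
  ⟨disjoint_Fx hN h, codisjoint_iff.2 (Submodule.eq_top_of_finrank_eq (by
    have := Submodule.finrank_sup_add_finrank_inf_eq (Fx f) (Mo f)
    rw [(disjoint_Fx hN h).eq_bot, finrank_bot] at this
    have : finrank F (Mo f) + finrank F (Fx f) = _ :=
      LinearMap.finrank_range_add_finrank_ker (f - 1)
    omega))⟩

theorem nds_Fx (hB : EF B ε) (hf : Im B f) {N : ℕ} (hN : (N : F) ≠ 0) (h : f ^ N = 1) :
    NDs B (Fx f) := nds_of_ort hB (isCompl_Fx hN h).sup_eq_top (Mo_le_perp hf)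

theorem nds_Mo (hB : EF B ε) (hf : Im B f) {N : ℕ} (hN : (N : F) ≠ 0) (h : f ^ N = 1) :
    NDs B (Mo f) :=
  nds_of_ort hB (isCompl_Fx hN h).symm.sup_eq_top (le_perp_comm hB (Mo_le_perp hf))

theorem tr_Fx (hB : EF B ε) (hf : Im B f) {N : ℕ} (hN : (N : F) ≠ 0) (h : f ^ N = 1) :
    TrS (sumB (Herm.res B (Fx f)) (Herm.res B (Mo f)))
      ((1 : End F (Fx f)).prodMap (res f (Mo_inv f))) B f :=
  res_Fx f ▸ tr_res hB (isCompl_Fx hN h) (Mo_le_perp hf) (Fx_inv f) (Mo_inv f)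

omit [FiniteDimensional F V] in
theorem eq_prod_of_inv (hg : ∀ y, g y = y → y = 0) {U : Submodule F (V × W)}
    (h : U.map ((1 : End F V).prodMap g) ≤ U) :
    ∃ (U₁ : Submodule F V) (U₂ : Submodule F W), U = U₁.prod U₂ ∧ U₂.map g ≤ U₂ := by
  have h1 : (U.comap (LinearMap.inr F V W)).map g ≤ U.comap (LinearMap.inr F V W) :=
    inv_iff.2 fun y hy => by simpa using inv_iff.1 h _ hy
  refine ⟨U.comap (LinearMap.inl F V W), _, le_antisymm (fun x hx => ?_) fun x hx => ?_, h1⟩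
  · obtain ⟨y, hy⟩ := surj_sub_one (g := res g h1) (fun y hy => Subtype.ext (hg _
      (congrArg Subtype.val hy))) ⟨g x.2 - x.2, by
        have := U.sub_mem (inv_iff.1 h _ hx) hx
        rwa [show ((1 : End F V).prodMap g) x - x = (0, g x.2 - x.2) from Prod.ext (sub_self _) rfl]
          at this⟩
    have h2 : (y : W) = x.2 := sub_eq_zero.1 (hg _ (by
      have : g y - y = g x.2 - x.2 := congrArg Subtype.val hy
      rw [map_sub, sub_eq_sub_iff_sub_eq_sub, this]))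
    have h3 : (0, x.2) ∈ U := h2 ▸ y.2
    have h4 := U.sub_mem hx h3
    rw [show x - (0, x.2) = (x.1, 0) from Prod.ext (sub_zero _) (sub_self _)] at h4
    exact ⟨h4, h3⟩
  · simpa using U.add_mem hx.1 hx.2

theorem ts_prod_iff (hg : ∀ y, g y = y → y = 0) (m : ℕ) :
    TS (sumB B B') ((1 : End F V).prodMap g) m ↔
      ∃ a b, m = a + b ∧ TS B 1 a ∧ TS B' g b := by
  constructor
  · rintro ⟨U, rfl, h1, h2⟩
    obtain ⟨U₁, U₂, rfl, h3⟩ := eq_prod_of_inv hg h2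
    exact ⟨_, _, finrank_sprod _ _, ⟨_, rfl, (iso_prod.1 h1).1, one_inv _⟩, _, rfl,
      (iso_prod.1 h1).2, h3⟩
  · rintro ⟨_, _, rfl, ⟨U₁, rfl, a1, a2⟩, U₂, rfl, b1, b2⟩
    exact ⟨_, finrank_sprod _ _, iso_prod.2 ⟨a1, b1⟩, prod_inv a2 b2⟩

theorem ndec_prod_iff (hg : ∀ y, g y = y → y = 0) (m : ℕ) :
    NDec (sumB B B') ((1 : End F V).prodMap g) m ↔
      ∃ a b, m = a + b ∧ NDec B 1 a ∧ NDec B' g b := by
  constructor
  · rintro ⟨U, rfl, h1, h2⟩
    obtain ⟨U₁, U₂, rfl, h3⟩ := eq_prod_of_inv hg h2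
    exact ⟨_, _, finrank_sprod _ _, ⟨_, rfl, (nds_prod.1 h1).1, one_inv _⟩, _, rfl,
      (nds_prod.1 h1).2, h3⟩
  · rintro ⟨_, _, rfl, ⟨U₁, rfl, a1, a2⟩, U₂, rfl, b1, b2⟩
    exact ⟨_, finrank_sprod _ _, nds_prod.2 ⟨a1, b1⟩, prod_inv a2 b2⟩

omit [FiniteDimensional F V] [FiniteDimensional F W]

theorem TrS.ts_iff (h : TrS B f B' g) (m : ℕ) : TS B f m ↔ TS B' g m :=
  ⟨fun a => a.tr h, fun a => a.tr h.symm⟩

theorem TrS.ndec_iff (h : TrS B f B' g) (m : ℕ) : NDec B f m ↔ NDec B' g m :=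
  ⟨fun a => a.tr h, fun a => a.tr h.symm⟩

theorem TrS.sim (h : TrS B f B' g) : Sim f g := ⟨h.choose, h.choose_spec.1⟩

/-- transport of an isometry along an isometry of forms -/
theorem exists_tr (e : V ≃ₗ[F] W) (he : ∀ x y, B' (e x) (e y) = B x y) (hf : Im B f) :
    ∃ g : End F W, Im B' g ∧ TrS B f B' g :=
  ⟨e.conj f, fun x y => by
    rw [LinearEquiv.conj_apply_apply, LinearEquiv.conj_apply_apply, he, hf, ← he]; simp,
    e, fun v => by simp, he⟩

theorem Sim.pow_eq (h : Sim f g) {N : ℕ} {c : F} (hf : f ^ N = c • 1) : g ^ N = c • 1 := by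
  obtain ⟨e, he⟩ := h
  refine LinearMap.ext fun w => ?_
  obtain ⟨v, rfl⟩ := e.surjective w
  rw [← pow_intertwine he, hf]
  simp

theorem Sim.ne_smul (h : Sim f g) (hf : ∀ a : F, f ≠ a • 1) (a : F) : g ≠ a • 1 := fun e =>
  hf a (by simpa using Sim.pow_eq h.symm (N := 1) (by simpa using e))

theorem Im.smul_one [Nontrivial V] (hB : EF B ε) {a : F} (h : Im B (a • 1)) : σ a * a = 1 := by
  obtain ⟨x, hx⟩ := exists_ne (0 : V)
  obtain ⟨y, hy⟩ := not_forall.1 (mt (hB.nd x) hx)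
  have := h x y
  simp only [LinearMap.smul_apply, End.one_apply, b_smul_left, map_smul, smul_eq_mul] at this
  exact mul_right_cancel₀ hy (by linear_combination this)

end split

universe u
variable {F : Type u} [Field F] [Fintype F] {V : Type*} [AddCommGroup V] [Module F V]
  [FiniteDimensional F V] {B : LinearMap.BilinForm F V} {ε : F} {f : End F V}
  (L : Type*) [Field L] [IsAlgClosed L] [Algebra F L]

/-- no eigenvalue `±1` -/
def Fp (f : End F V) : Prop := (∀ x, f x = x → x = 0) ∧ ∀ x, f x = -x → x = 0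

omit [Fintype F] in
theorem fp_iff : Fp f ↔ ∀ z ∈ ev L f, z ≠ 1 ∧ z ≠ -1 := by
  refine ⟨fun h z hz => ⟨?_, ?_⟩, fun h => ⟨fun x hx => ?_, fun x hx => ?_⟩⟩
  · rintro rfl
    obtain ⟨v, h1, h2⟩ := exists_apply_of_mem_ev L (a := (1 : F)) (by simpa using hz)
    exact h1 (h.1 v (by simpa using h2))
  · rintro rfl
    obtain ⟨v, h1, h2⟩ := exists_apply_of_mem_ev L (a := (-1 : F)) (by simpa using hz)
    exact h1 (h.2 v (by simpa using h2))
  · by_contra h0
    exact (h _ (mem_ev_of_apply L (a := (1 : F)) h0 (by simpa using hx))).1 (map_one _)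
  · by_contra h0
    exact (h _ (mem_ev_of_apply L (a := (-1 : F)) h0 (by simpa using hx))).2 (by simp)

theorem rig_fp (hB : EF B ε) (hf : Im B f) {N : ℕ} (hN : (N : F) ≠ 0) (h1 : f ^ N = 1)
    (h : Fp f) : Rig L (RingHom.id L) B f := by
  refine rig_of L (fun _ => rfl) hB hf hN h1 (fun M hM a1 a2 => ?_) fun W _ _ _ B' g a1 a2 a3 => ?_
  · obtain ⟨g, b1, b2, -, -, ⟨B₁, b3, b4, b5⟩, Q, b6, b7⟩ := exists_fpf_ev L hN M a1 a2
      (fun z hz => pow_eq_of_mem_ev L (c := (1 : F)) (by simp [h1]) (Multiset.mem_of_le hM hz) |>.trans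
        (map_one _)) fun z hz => (fp_iff L).1 h z (Multiset.mem_of_le hM hz)
    rcases hB.eps with rfl | rfl
    · exact ⟨_, g, ef_polar b6, Orth.polar_of_isom g b7, b1, b2⟩
    · exact ⟨_, g, ef_of_alt b3 b4, b5, b1, b2⟩
  · have := (fp_iff L).2 (a3.ev L ▸ (fp_iff L).1 h)
    exact tri_of_fpf a1 hB a2 hf a3 this.1 this.2

theorem pw_neg_one : (pw (-1) : L → L) = fun z => (RingHom.id L z)⁻¹ := funext fun z => zpow_neg_one z

theorem inj_pw_card : Function.Injective (pw (Fintype.card F : ℤ) : L → L) :=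
  pw_card (F := F) L ▸ frob_inj L

theorem inj_pw_neg {L : Type*} [Field L] {a : ℤ} (h : Function.Injective (pw a : L → L)) :
    Function.Injective (pw (-a) : L → L) := fun x y e => h (by
  simpa [pw] using e)

variable {L} {r : ℕ} {a : ℤ} {b c : ℕ}

theorem Cfg.prim_of_fp (hr : r.Prime) (h1 : f ^ r = 1) (h : ∀ x, f x = x → x = 0) :
    ∀ z ∈ ev L f, IsPrimitiveRoot z r := fun z hz => by
  haveI := Fact.mk hr
  refine isPrimitiveRoot_of_mem_nthRootsFinset hr ((mem_nthRootsFinset hr.pos 1).2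
    (pow_eq_of_mem_ev L (c := (1 : F)) (by simp [h1]) hz |>.trans (map_one _))) ?_
  rintro rfl
  obtain ⟨v, h1, h2⟩ := exists_apply_of_mem_ev L (a := (1 : F)) (by simpa using hz)
  exact h1 (h v (by simpa using h2))

theorem ne_pm_of_prim {z : L} (hz : IsPrimitiveRoot z r) (hr : 2 < r) : z ≠ 1 ∧ z ≠ -1 := by
  have : z ^ 2 ≠ 1 := hz.pow_ne_one_of_pos_of_lt two_ne_zero hr
  constructor <;> rintro rfl <;> simp at this

theorem Cfg.shp_of (h : Cfg L r (Fintype.card F) (-1) a b c) (hr : 2 < r) (h0 : (r : F) ≠ 0)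
    (hB : EF B ε) (hf : Im B f) (h1 : f ^ r = 1) (hp : ∀ z ∈ ev L f, IsPrimitiveRoot z r)
    {s w : ℕ} (hM : MS (pw (Fintype.card F)) (pw (-1)) (ev L f) b c s w) : Shp B f b c s w :=
  Rig.shp L (σ := RingHom.id F) (ψ := RingHom.id L) (fun _ => rfl) (rig_fp L hB hf h0 h1
    ((fp_iff L).2 fun z hz => ne_pm_of_prim (hp z hz) hr)) hB hf h0 h1 (pw_neg_one L) hM

theorem Cfg.shp (h : Cfg L r (Fintype.card F) (-1) a b c) (hr : 2 < r) (h0 : (r : F) ≠ 0)
    (hB : EF B ε) (hf : Im B f) (h1 : f ^ r = 1) (hp : ∀ z ∈ ev L f, IsPrimitiveRoot z r) :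
    ∃ s w, Adm (r.totient / b) b c s w ∧ Shp B f b c s w := by
  obtain ⟨s, w, a1, a2⟩ := h.exists_adm ((h.sx_iff fun z hz => (hp z hz).pow_eq_one).1
    ⟨pw_card (F := F) L ▸ st_ev L f, pw_neg_one L ▸ sx_ev L (fun _ => rfl) hB hf⟩) hp
  exact ⟨s, w, a1, h.shp_of hr h0 hB hf h1 hp a2⟩

theorem Cfg.exists_shp (h : Cfg L r (Fintype.card F) (-1) a b c) (hr : 2 < r) (h0 : (r : F) ≠ 0)
    {s w : ℕ} (hw : Adm (r.totient / b) b c s w) : ∃ (k : ℕ) (g : End F (Fin k → F)),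
      g ^ r = 1 ∧ (∀ z ∈ ev L g, IsPrimitiveRoot z r) ∧
      (∃ B : LinearMap.BilinForm F (Fin k → F), B.Nondegenerate ∧ B.IsAlt ∧ Im B g) ∧
      (∃ Q : QuadraticForm F (Fin k → F), Orth.ND Q ∧ ∀ x, Q (g x) = Q x) ∧
      ∀ (B : LinearMap.BilinForm F (Fin k → F)) (ε : F), EF B ε → Im B g → Shp B g b c s w := by
  obtain ⟨ζ, hζ⟩ := exists_prim L h0
  obtain ⟨R, a1, a2, a3⟩ := h.exists_ms hζ hw
  obtain ⟨a4, a5⟩ := (h.sx_iff fun z hz => (a2 z hz).pow_eq_one).2 a1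
  rw [pw_card] at a4
  rw [pw_neg_one] at a5
  obtain ⟨g, b1, b2, -, -, b3, b4⟩ := exists_fpf_ev L h0 R a4 a5 (fun z hz => (a2 z hz).pow_eq_one)
    fun z hz => ne_pm_of_prim (a2 z hz) hr
  rw [← b2] at a2
  exact ⟨_, g, b1, a2, b3, b4, fun B ε hB hg => h.shp_of hr h0 hB hg b1 a2 (b2.symm ▸ a3)⟩

/-- the joint period -/
def cc (i : ℕ) : ℕ := if Even i then i else 2 * i

theorem orderOf_neg_of_odd {R : Type*} [CommRing R] (h2 : (-1 : R) ≠ 1) {u : R}
    (h : Odd (orderOf u)) : orderOf (-u) = 2 * orderOf u := by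
  have h1 : orderOf (-1 : R) = 2 := orderOf_eq_prime (by simp) h2
  rw [← neg_one_mul, (Commute.all _ _).orderOf_mul_eq_mul_orderOf_of_coprime
    (by rw [h1]; exact Nat.coprime_two_left.2 h), h1]

theorem neg_one_ne_one (hr : 2 < r) : (-1 : ZMod r) ≠ 1 := by
  haveI := Fact.mk hr
  exact ZMod.neg_one_ne_one

variable (L) in
theorem cfg_bil (hr : 2 < r) (hc : ∀ x : ZMod r, x ^ 2 = 1 → x = 1 ∨ x = -1)
    (hi : 0 < orderOf (Fintype.card F : ZMod r)) : ∃ a, Cfg L r (Fintype.card F) (-1) a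
      (orderOf (Fintype.card F : ZMod r)) (cc (orderOf (Fintype.card F : ZMod r))) := by
  have h1 := pow_orderOf_eq_one (Fintype.card F : ZMod r)
  unfold cc
  split_ifs with h
  · refine ⟨_, by omega, inj_pw_card L, inj_pw_card L, by simp, by simp, hi, Or.inl ⟨rfl, ?_⟩⟩
    obtain ⟨k, hk⟩ := h
    refine ⟨k, ?_⟩
    push_cast
    exact ((hc _ (by rw [← pow_mul, mul_two, ← hk, h1])).resolve_left
      (pow_ne_one_of_lt_orderOf (by omega) (by omega))).symm
  · have h' := Nat.not_even_iff_odd.1 h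
    refine ⟨-Fintype.card F, by omega, inj_pw_card L, inj_pw_neg (inj_pw_card L), by simp, by
      push_cast; rw [orderOf_neg_of_odd (neg_one_ne_one hr) h'], hi,
      Or.inr ⟨rfl, ?_, ⟨1, by simp⟩, orderOf (Fintype.card F : ZMod r), ?_⟩⟩
    · obtain ⟨k, hk⟩ := h'
      refine ⟨k + 1, ?_⟩
      push_cast
      rw [hk] at h1
      linear_combination (-Fintype.card F : ZMod r) * h1
    · push_cast
      rw [h'.neg_pow, h1]

theorem ord_pos (h0 : (r : F) ≠ 0) (hr : r.Prime) : 0 < orderOf (Fintype.card F : ZMod r) := by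
  haveI := Fact.mk hr
  exact orderOf_pos_iff.2 (isOfFinOrder_iff_isUnit.2 (card_ne_zero_zmod h0).isUnit)

variable (L) in
theorem cfg_prime (hr : r.Prime) (h2 : r ≠ 2) (h0 : (r : F) ≠ 0) : ∃ a, Cfg L r (Fintype.card F) (-1) a
      (orderOf (Fintype.card F : ZMod r)) (cc (orderOf (Fintype.card F : ZMod r))) := by
  haveI := Fact.mk hr
  exact cfg_bil L (by have := hr.two_le; omega) (fun x hx => sq_eq_one_iff.1 hx) (ord_pos h0 hr)

end Cfsg.Agent.Elu
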