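import Mathlib
import Cfsg.Agent.Elu.Fpf

/-!
Invariant subspaces of symplectic elements.
-/

set_option autoImplicit false
set_option backward.isDefEq.respectTransparency false

namespace Cfsg.Agent.Elu

open Module Polynomial Conj Spc
open Herm (perp Iso mem_perp b_smul_left b_add_left UG)
open Classical.SpMat (sB sB_alt sB_nondeg mem_iff_sB)
open scoped _root_.Classical

universe u
variable {F : Type u} [Field F] {V W : Type*} [AddCommGroup V] [Module F V] [AddCommGroup W]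
  [Module F W] {B : LinearMap.BilinForm F V} {B' : LinearMap.BilinForm F W} {ε : F}
  {f : End F V} {g : End F W}

/-- nondegenerate alternating form -/
structure AF (B : LinearMap.BilinForm F V) : Prop where
  ef : EF B (-1)
  alt : B.IsAlt

theorem af_sB (d : ℕ) : AF (sB (Fin d) F) := ⟨ef_of_alt sB_nondeg sB_alt, sB_alt⟩

theorem AF.res (h : AF B) {U : Submodule F V} (hU : NDs B U) : AF (Herm.res B U) :=
  ⟨ef_res h.ef hU, fun x => h.alt x⟩

theorem AF.sum (h : AF B) (h' : AF B') : AF (sumB B B') :=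
  ⟨ef_sum h.ef h'.ef, fun x => by rw [sumB_apply, h.alt, h'.alt, add_zero]⟩

theorem af_hyp (k : ℕ) : AF (hypB (RingHom.id F) (-1) (Fin k)) :=
  ⟨ef_hypB (fun _ => rfl) (Or.inr rfl) _, fun x => by simp [hypB_apply, Herm.stdB_apply, mul_comm]⟩

theorem AF.flip (h : AF B) (x y : V) : B y x = -B x y := (h.alt.neg_eq x y).symm

theorem AF.pair (h : AF B) {u v : V} (huv : B u v ≠ 0) :
    NDs B (Submodule.span F {u, v}) ∧ finrank F (Submodule.span F {u, v}) = 2 := by
  have h1 : ∀ a b : F, B (a • u + b • v) v = a * B u v ∧ B (a • u + b • v) u = -(b * B u v) :=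
    fun a b => by simp [h.alt u, h.alt v, h.flip u v]
  have h2 : ∀ a b : F, B (a • u + b • v) v = 0 → B (a • u + b • v) u = 0 → a = 0 ∧ b = 0 :=
    fun a b => by simp only [h1]; simp [huv]; tauto
  refine ⟨fun x hx h0 => ?_, ?_⟩
  · obtain ⟨a, b, rfl⟩ := Submodule.mem_span_pair.1 hx
    by_contra! h3
    obtain ⟨rfl, rfl⟩ := h2 a b (h3 v (Submodule.subset_span (by simp)))
      (h3 u (Submodule.subset_span (by simp)))
    simp at h0
  · have := finrank_span_eq_card (LinearIndependent.pair_iff.2 fun a b e =>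
      h2 a b (by simp [e]) (by simp [e]) : LinearIndependent F ![u, v])
    rwa [Matrix.range_cons_cons_empty] at this

/-- a pair of complementary isotropic subspaces, fixed or swapped -/
def HP (B : LinearMap.BilinForm F V) (f : End F V) : Prop :=
  ∃ U W : Submodule F V, IsCompl U W ∧ Iso B U ∧ Iso B W ∧
    ((U.map f = U ∧ W.map f = W) ∨ (U.map f = W ∧ W.map f = U))

theorem HP.tr (h : HP B f) (h' : TrS B f B' g) : HP B' g := by
  obtain ⟨U, W, a1, a2, a3, a4⟩ := h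
  obtain ⟨e, b1, b2⟩ := h'
  refine ⟨U.map e.toLinearMap, W.map e.toLinearMap, (Submodule.orderIsoMapComap e).isCompl a1,
    iso_map a2 _ b2, iso_map a3 _ b2, ?_⟩
  simp only [map_map_of_intertwine e.toLinearMap b1]
  exact a4.imp (fun h => by rw [h.1, h.2]; exact ⟨rfl, rfl⟩) fun h => by
    rw [h.1, h.2]; exact ⟨rfl, rfl⟩

theorem forall_Sp_iff {d r : ℕ} (P : End F (Fin d ⊕ Fin d → F) → Prop) :
    (∀ x : Matrix.symplecticGroup (Fin d) F,
      (∃ c : F, ((x ^ r : Matrix.symplecticGroup (Fin d) F) :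
        Matrix (Fin d ⊕ Fin d) (Fin d ⊕ Fin d) F) = c • (1 : Matrix _ _ F)) →
      (∀ c : F, (x : Matrix (Fin d ⊕ Fin d) (Fin d ⊕ Fin d) F) ≠ c • (1 : Matrix _ _ F)) →
      P (Matrix.toLin' (x : Matrix (Fin d ⊕ Fin d) (Fin d ⊕ Fin d) F))) ↔
      ∀ f (c : F), Im (sB (Fin d) F) f → f ^ r = c • 1 → (∀ a : F, f ≠ a • 1) → P f := by
  constructor
  · rintro h f c h1 h2 h3
    obtain ⟨A, rfl⟩ := (Matrix.toLin' (R := F)).surjective f
    exact h ⟨A, mem_iff_sB.2 h1⟩ ⟨c, (toLin'_eq_smul_iff A r c).1 h2⟩ fun a e => h3 a (by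
      simpa using (toLin'_eq_smul_iff A 1 a).2 (by simpa using e))
  · rintro h x ⟨c, hc⟩ h3
    exact h _ c (mem_iff_sB.1 x.2) ((toLin'_eq_smul_iff _ r c).2 hc)
      fun a e => h3 a (by simpa using (toLin'_eq_smul_iff x.1 1 a).1 (by simpa using e))

theorem Im.pm [Nontrivial V] (hB : EF B ε) (hf : Im B f) {r : ℕ} {c : F} (h : f ^ r = c • 1) :
    c = 1 ∨ c = -1 := mul_self_eq_one_iff.1 (Im.smul_one hB (h ▸ hf.pow r))

theorem forall_odd_iff [Nontrivial V] (hB : EF B ε) {r : ℕ} (hr : Odd r) (P : End F V → Prop)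
    (hP : ∀ f, P f → P ((-1 : F) • f)) :
    (∀ f (c : F), Im B f → f ^ r = c • 1 → (∀ a : F, f ≠ a • 1) → P f) ↔
      ∀ f, Im B f → f ^ r = 1 → f ≠ 1 → P f := by
  refine ⟨fun h f h1 h2 h3 => h f 1 h1 (by simpa using h2) ?_, fun h f c h1 h2 h3 => ?_⟩
  · rintro a rfl
    rcases Im.pm hB h1 (r := 1) (pow_one _) with rfl | rfl
    · simp at h3
    · rw [_root_.smul_pow, hr.neg_one_pow, one_pow] at h2
      exact h3 h2
  · rcases h1.pm hB h2 with rfl | rfl
    · exact h f h1 (by simpa using h2) (by simpa using h3 1)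
    · simpa using hP _ (h ((-1 : F) • f) (h1.smul (by simp))
        (by rw [_root_.smul_pow, h2, hr.neg_one_pow]; simp) fun e => h3 (-1) (by rw [← e]; simp))

variable [FiniteDimensional F V] [FiniteDimensional F W]

theorem AF.even (h : AF B) : Even (finrank F V) := h.ef.even_of_alt h.alt

theorem AF.iso (h : AF B) (h' : AF B') (hd : finrank F V = finrank F W) :
    ∃ e : V ≃ₗ[F] W, ∀ x y, B' (e x) (e y) = B x y :=
  iso_of_alt h.ef.nondeg h.alt h'.ef.nondeg h'.alt hd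

theorem AF.tr_smul (h : AF B) (h' : AF B') (hd : finrank F V = finrank F W) (c : F) :
    TrS B (c • 1) B' (c • 1) :=
  let ⟨e, he⟩ := h.iso h' hd
  ⟨e, by simp, he⟩

theorem AF.ts_one_iff (h : AF B) (a : ℕ) : TS B 1 a ↔ 2 * a ≤ finrank F V := by
  refine ⟨fun ⟨U, h1, h2, _⟩ => h1 ▸ two_mul_le_of_iso h.ef h2, fun ha => ?_⟩
  obtain ⟨k, hk⟩ := h.even
  have h1 := (ts_hyp (σ := RingHom.id F) (ε := -1) (ι := Fin a) 1 1).inl
    (B' := sB (Fin (k - a)) F) (g := 1)
  rw [Fintype.card_fin] at h1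
  have h2 := ((af_hyp a).sum (af_sB (k - a))).tr_smul h (by simp; omega) 1
  rw [one_smul, one_smul] at h2
  exact h1.tr h2

theorem AF.ndec_one_iff (h : AF B) (a : ℕ) : NDec B 1 a ↔ Even a ∧ a ≤ finrank F V := by
  refine ⟨fun ⟨U, h1, h2, _⟩ => h1 ▸ ⟨(h.res h2).even, U.finrank_le⟩, fun ⟨⟨a, e⟩, ha⟩ => ?_⟩
  obtain ⟨k, hk⟩ := h.even
  have h1 := (ndec_self (f := 1) (af_sB (F := F) a).ef).inl (B' := sB (Fin (k - a)) F) (g := 1)
  have h2 := ((af_sB a).sum (af_sB (k - a))).tr_smul h (by simp; omega) 1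
  rw [one_smul, one_smul] at h2
  simpa [e] using h1.tr h2

theorem AF.exists_hpair (h : AF B) : ∃ P, HPair B P := by
  obtain ⟨k, hk⟩ := h.even
  obtain ⟨e, he⟩ := (af_hyp k).iso h (by simp [hk])
  exact ⟨(_, _), (Submodule.orderIsoMapComap e).isCompl LinearMap.isCompl_range_inl_inr,
    iso_map iso_hyp_inl _ he, iso_map iso_hyp_inr _ he⟩

theorem PD.add_perp (hB : EF B ε) {U : Submodule F V} (hU : NDs B U) (h : (perp B U).map f ≤ perp B U)
    {a t t' : ℕ} (h1 : PD B f a t U) (h2 : PD (Herm.res B (perp B U)) (res f h) a t' ⊤) :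
    PD B f a (t + t') ⊤ := by
  have h3 := h2.map (B' := B) (g := f) (perp B U).subtype (Submodule.injective_subtype _)
    (fun _ => rfl) fun _ _ => rfl
  rw [Submodule.map_top, Submodule.range_subtype] at h3
  exact (hU.isCompl hB).sup_eq_top ▸ h1.add h3 (fun u hu v hv => hv u hu)
    fun u hu v hv => hB.zero_symm (hu v hv)

theorem exists_pd_two [Nontrivial V] (hB : AF B) (hf : Im B f) {c : F} (h : f ^ 2 = c • 1) :
    ∃ (U : Submodule F V) (k : ℕ), 0 < k ∧ finrank F U = 2 * k ∧ NDs B U ∧ PD B f 2 k U := by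
  have h1 : ∀ v, f (f v) = c • v := fun v => congr($h v)
  have h2 : ∀ u v, B u v ≠ 0 → f u ∈ Submodule.span F {u, v} → f v ∈ Submodule.span F {u, v} →
      ∃ (U : Submodule F V) (k : ℕ), 0 < k ∧ finrank F U = 2 * k ∧ NDs B U ∧ PD B f 2 k U :=
    fun u v a1 a2 a3 => ⟨_, 1, one_pos, (hB.pair a1).2, (hB.pair a1).1, PD.one (hB.pair a1).2 (by
      rw [Submodule.map_span, Submodule.span_le, Set.image_pair, Set.pair_subset_iff]
      exact ⟨a2, a3⟩)⟩
  have hl : ∀ u v : V, u ∈ Submodule.span F {u, v} := fun u v => Submodule.subset_span (by simp)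
  have hr : ∀ u v : V, v ∈ Submodule.span F {u, v} := fun u v => Submodule.subset_span (by simp)
  by_cases h3 : ∃ v, B v (f v) ≠ 0
  · obtain ⟨v, hv⟩ := h3
    exact h2 v (f v) hv (hr _ _) (h1 v ▸ Submodule.smul_mem _ _ (hl _ _))
  push Not at h3
  by_cases h4 : ∃ u v, B u v ≠ 0 ∧ B u (f v) = 0
  · obtain ⟨u, v, a1, a2⟩ := h4
    have a3 : B v (f u) = 0 := by simpa [h3, a2] using h3 (u + v)
    have a4 : Ort B (Submodule.span F {u, v}) ((Submodule.span F {u, v}).map f) := by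
      rintro x hx _ ⟨y, hy, rfl⟩
      obtain ⟨a, b, rfl⟩ := Submodule.mem_span_pair.1 hx
      obtain ⟨a', b', rfl⟩ := Submodule.mem_span_pair.1 hy
      simp [h3, a2, a3]
    have a5 := (hB.pair a1).1.sup hB.ef ((hB.pair a1).1.map f hf) fun x hx y hy => a4 y hy x hx
    refine ⟨_, 2, two_pos, ?_, a5, PD.two h (hf.inj hB.ef) (hB.pair a1).2 a4
      fun x hx y hy => hB.ef.zero_symm (a4 y hy x hx)⟩
    have := Submodule.finrank_sup_add_finrank_inf_eq (Submodule.span F {u, v})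
      ((Submodule.span F {u, v}).map f)
    rw [(((nds_iff hB.ef).1 (hB.pair a1).1).mono_right fun x hx y hy => a4 y hy x hx).eq_bot,
      finrank_bot, finrank_map_inj (hf.inj hB.ef), (hB.pair a1).2] at this
    exact this
  · push Not at h4
    have h5 : ∀ u, f u ∈ Submodule.span F {u} := fun u => by
      rw [← perp_perp hB.ef (Submodule.span F {u})]
      intro w hw
      by_contra h0
      refine h4 (f (f u)) (f w) (by rw [hf]; exact fun e => h0 (hB.ef.zero_symm e)) ?_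
      rw [hf, hf]
      exact hw u (Submodule.mem_span_singleton_self u)
    obtain ⟨x, hx⟩ := exists_ne (0 : V)
    obtain ⟨y, hy⟩ := not_forall.1 (mt (hB.ef.nd x) hx)
    exact h2 x y hy (Submodule.span_mono (by simp) (h5 x)) (Submodule.span_mono (by simp) (h5 y))

theorem pd_two {V : Type*} [AddCommGroup V] [Module F V] [FiniteDimensional F V]
    {B : LinearMap.BilinForm F V} {f : End F V} (hB : AF B) (hf : Im B f) {c : F}
    (h : f ^ 2 = c • 1) {t : ℕ} (ht : finrank F V = 2 * t) : PD B f 2 t ⊤ := by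
  induction t using Nat.strong_induction_on generalizing V with
  | _ t ih =>
  rcases subsingleton_or_nontrivial V with h0 | h0
  · rw [finrank_zero_of_subsingleton] at ht
    rw [Subsingleton.elim (⊤ : Submodule F V) ⊥, show t = 0 by omega]
    exact PD.zero
  obtain ⟨U, k, a1, a2, a3, a4⟩ := exists_pd_two hB hf h
  have a5 := perp_inv hB.ef hf a4.inv
  have a6 := finrank_perp_add hB.ef U
  have := a4.add_perp hB.ef a3 a5 (ih (t - k) (by omega) (hB.res (a3.perp hB.ef)) (hf.res a5)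
    (res_pow_eq a5 h) (by omega))
  rwa [Nat.add_sub_cancel' (by omega)] at this

theorem PD.ndec (hB : EF B ε) {a t b : ℕ} (h : PD B f a t ⊤) (hn : finrank F V = a * t)
    (ha : 0 < a) {c : F} (hc : c ≠ 0) (hf : f ^ 2 = c • 1) (hb : b ≤ t) (h' : Even b ∨ Odd t) :
    NDec B f (a * b) := by
  obtain ⟨ι, _, D, σ, rfl, a1, a2, a3, a4⟩ := h
  have hD := indep_of_finrank a2 (by simp [a1, hn, mul_comm])
  have h1 := perm_pow_eq_one hD (fun j e => by have := a1 j; rw [e, finrank_bot] at this; omega)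
    a4 hc hf
  have hσ : Function.Involutive σ := fun j => by
    rw [← Equiv.Perm.mul_apply, ← sq, h1]; rfl
  obtain ⟨A, -, b2, b3⟩ := exists_inv_sub hσ (S := Finset.univ) (fun _ _ => Finset.mem_univ _)
    (b := b) hb (h'.imp_right fun h' => by
      obtain ⟨j, hj⟩ := Equiv.Perm.exists_fixed_point_of_prime (p := 2) (n := 1)
        (Nat.two_dvd_ne_zero.2 (Nat.odd_iff.1 h')) (by simpa using h1)
      exact ⟨j, Finset.mem_univ _, hj⟩)
  refine ⟨A.sup D, by simp [finrank_sup_eq hD, a1, b3, mul_comm], nds_of_ort hB (U' := Aᶜ.sup D)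
    (by rw [← Finset.sup_union, Finset.union_compl, Finset.sup_univ_eq_iSup, a2]) fun x hx y hy =>
    ort_sup (fun i hi j hj => a3 _ _ ?_) y hy x hx, sup_inv a4 b2⟩
  rintro rfl
  exact Finset.mem_compl.1 hj hi

theorem pd_iff_nd {ι : Type} [Fintype ι] [DecidableEq ι] {B : LinearMap.BilinForm F (ι → F)}
    {f : End F (ι → F)} (hB : EF B ε) (hi : Function.Injective f) {a t : ℕ} (ha : 0 < a)
    (ht : 2 ≤ t) (hn : Fintype.card ι = a * t) :
    (∃ D : Fin t → Submodule F (ι → F), (Geo.IsMDecomposition a D ∧ (∀ j, NDs B (D j)) ∧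
      ∀ j k, j ≠ k → Ort B (D j) (D k)) ∧ ∃ σ : Equiv.Perm (Fin t), ∀ j, (D j).map f = D (σ j)) ↔
      PD B f a t ⊤ := by
  rw [← pd_iff hi ha ht hn]
  refine exists_congr fun D => and_congr_left fun _ => and_congr_right fun h => and_iff_right_of_imp
    fun h' j => nds_of_ort hB (U' := (Finset.univ.erase j).sup D) ?_ fun x hx y hy =>
      ort_sup (S := {j}) (fun i hi k hk => h' _ _ ?_) y (by simpa using hy) x hx
  · rw [← Finset.sup_insert, Finset.insert_erase (Finset.mem_univ j), Finset.sup_univ_eq_iSup,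
      h.iSup_eq_top]
  · exact Finset.mem_singleton.1 hi ▸ (Finset.ne_of_mem_erase hk).symm

theorem AF.ndec_iff_jt (h2 : (2 : F) ≠ 0) (hB : AF B) (hf : Im B f) (hN : IsNilpotent (f - 1))
    (m : ℕ) : NDec B f m ↔
      ∃ ν ≤ jt (f - 1), ν.sum = m ∧ ∀ a, Odd a → Even (ν.count a) := by
  constructor
  · rintro ⟨U, rfl, a1, a2⟩
    exact ⟨_, jt_res hN (a1.isCompl hB.ef) a2 (perp_inv hB.ef hf a2) ▸ Multiset.le_add_right _ _,
      sum_jt (res_nil a2 hN), fun a ha => even_count_of_alt (hB.res a1).ef (hB.res a1).alt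
        (uIso_iff.2 (hf.res a2)) (res_nil a2 hN) ha⟩
  · rintro ⟨ν, a1, rfl, a2⟩
    refine ndec_of_jt h2 hB.ef hf hN a1 fun n hn => a2 _ ?_
    rcases Nat.even_or_odd n with h | h
    · exact h.add_one
    · simp [h.neg_one_pow] at hn

theorem not_ndec_two (hB : AF B) (hf : Im B f) (h1 : ∀ v, f (f v - v) = f v - v)
    (h2 : ∀ v, B v (f v) = 0) (h3 : ∀ u v, f u = u → f v = v → B u v = 0) : ¬ NDec B f 2 := by
  rintro ⟨P, a1, a2, a3⟩
  obtain ⟨u, b1, b2, b3⟩ := exists_ker_of_inv (N := f - 1) ⟨2, LinearMap.ext fun v => by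
    simpa [sq, sub_eq_zero] using h1 v⟩ (R := P) (fun x hx => P.sub_mem (inv_iff.1 a3 x hx) hx)
    (by rintro rfl; simp at a1)
  obtain ⟨v, c1, c2⟩ := a2 u b1 b2
  have b4 : f u = u := sub_eq_zero.1 b3
  have e : Submodule.span F {u, v} = P := Submodule.eq_of_le_of_finrank_eq
    (Submodule.span_le.2 (Set.pair_subset b1 c1)) ((hB.pair c2).2.trans a1.symm)
  refine c2 (h3 u v b4 (sub_eq_zero.1 ?_))
  by_contra h0
  obtain ⟨w, d1, d2⟩ := a2 _ (P.sub_mem (inv_iff.1 a3 v c1) c1) h0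
  obtain ⟨a, b, rfl⟩ := Submodule.mem_span_pair.1 (e ▸ d1 : w ∈ Submodule.span F {u, v})
  refine d2 ?_
  rw [map_add, map_smul, map_smul, h3 _ _ (h1 v) b4, map_sub, LinearMap.sub_apply,
    hB.ef.zero_symm (h2 v), hB.alt v]
  simp

omit [FiniteDimensional F V] in
theorem res_Mo_sq (h : f ^ 2 = 1) : res f (Mo_inv f) = (-1 : F) • 1 := LinearMap.ext (by
  rintro ⟨_, x, rfl⟩
  exact Subtype.ext (by simp [show f (f x) = x from congr($h x)]))

theorem hp_of_sq_one (h2 : (2 : F) ≠ 0) (hB : AF B) (hf : Im B f) (h : f ^ 2 = 1) : HP B f := by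
  refine HP.tr ?_ (tr_Fx hB.ef hf (N := 2) h2 h)
  obtain ⟨P, a1, a2, a3⟩ := (hB.res (nds_Fx hB.ef hf (N := 2) h2 h)).exists_hpair
  obtain ⟨Q, b1, b2, b3⟩ := (hB.res (nds_Mo hB.ef hf (N := 2) h2 h)).exists_hpair
  have e := res_Mo_sq h
  have key : ∀ (U : Submodule F (Fx f)) (W : Submodule F (Mo f)),
      (U.prod W).map ((1 : End F (Fx f)).prodMap (res f (Mo_inv f))) = U.prod W := fun U W => by
    rw [LinearMap.prodMap_map_prod, e, map_smul_eq (by simp), End.one_eq_id, End.one_eq_id,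
      Submodule.map_id, Submodule.map_id]
  exact ⟨P.1.prod Q.1, P.2.prod Q.2, ⟨by
      rw [disjoint_iff, Submodule.prod_inf_prod, a1.inf_eq_bot, b1.inf_eq_bot, Submodule.prod_bot],
    by rw [codisjoint_iff, Submodule.prod_sup_prod, a1.sup_eq_top, b1.sup_eq_top,
      Submodule.prod_top]⟩, iso_prod.2 ⟨a2, b2⟩, iso_prod.2 ⟨a3, b3⟩, Or.inl ⟨key _ _, key _ _⟩⟩

theorem HP.ts (hB : EF B ε) (h : HP B f) {r d : ℕ} (hr : Odd r) (hf : f ^ r = 1)
    (hd : finrank F V = 2 * d) : TS B f d := by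
  obtain ⟨U, W, a1, a2, a3, a4⟩ := h
  refine ⟨U, by have := finrank_of_pair hB a1 a2 a3; omega, a2, a4.elim (fun h => h.1.le) fun h => ?_⟩
  have : (f * f) ^ (r / 2 + 1) = f := by
    rw [← sq, ← pow_mul, show 2 * (r / 2 + 1) = r + 1 by have := Nat.odd_iff.1 hr; omega, pow_succ,
      hf, one_mul]
  rw [← this, ← aeval_X_pow (R := F)]
  exact inv_iff.2 fun x hx => aeval_mem_of_inv (by
    rw [End.mul_eq_comp, Submodule.map_comp, h.1, h.2]) _ hx

end Cfsg.Agent.Elu
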