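import Mathlib
import Cfsg.Agent.Elu.Sp

/-!
Shapes of semisimple symplectic elements of prime order; counting.
-/

set_option autoImplicit false
set_option backward.isDefEq.respectTransparency false

namespace Cfsg.Agent.Elu

open Module Polynomial Conj Spc
open Herm (perp Iso mem_perp b_smul_left b_add_left UG)
open Classical.SpMat (sB sB_alt sB_nondeg mem_iff_sB)
open scoped _root_.Classical

theorem cc_pos {i : ℕ} (h : 0 < i) : 0 < cc i := by unfold cc; split_ifs <;> omega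

theorem even_cc (i : ℕ) : Even (cc i) := by
  unfold cc; split_ifs with h
  · exact h
  · exact even_two_mul i

theorem cc_dvd {i j : ℕ} (h : i ∣ 2 * j) : cc i ∣ 2 * j := by
  unfold cc; split_ifs with h'
  · exact h
  · exact Nat.mul_dvd_mul_left 2 ((Nat.coprime_two_right.2 (Nat.not_even_iff_odd.1 h')).dvd_of_dvd_mul_left h)

theorem exists_adm {t i : ℕ} (ht : 1 ≤ t) (s : ℕ) : ∃ w, Adm t i (cc i) s w := by
  unfold cc; split_ifs
  · exact ⟨s / 2, Or.inl ⟨rfl, s % 2, by omega, by omega⟩⟩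
  · exact ⟨s, Or.inr ⟨rfl, rfl⟩⟩

theorem adm_even {t i s w : ℕ} (hi : 0 < i) (h : Even i) :
    Adm t i (cc i) s w ↔ ∃ o ≤ t, s = 2 * w + o := by
  simp only [Adm, cc, h, if_true, true_and, or_iff_left_iff_imp]; omega

theorem adm_odd {t i s w : ℕ} (h : Odd i) : Adm t i (cc i) s w ↔ w = s := by
  have := h.pos
  simp only [Adm, cc, Nat.not_even_iff_odd.2 h, if_false, true_and, or_iff_right_iff_imp]; omega

theorem arith_ts {i t n m : ℕ} (hi : 0 < i) (ht : 1 ≤ t) (hm : 2 * m ≤ n) (hn : i ≤ n)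
    (h : ¬ (m < i ∧ 2 * m ≤ n % i)) :
    (∀ e w o, o ≤ t → 1 ≤ 2 * w + o → e + i * (2 * w + o) = n →
      ∃ a j, 2 * a ≤ e ∧ j ≤ w ∧ m = a + i * j) ↔
      i ≤ m ∧ 2 * (m % i) ≤ n % i ∧ t + 2 * (m / i) ≤ n / i := by
  have h1 := Nat.mod_add_div n i
  have h2 := Nat.mod_add_div m i
  have h3 := Nat.mod_lt n hi
  have h4 := Nat.div_pos hn hi
  have key : ∀ a j, a < i → m = a + i * j → m % i = a ∧ m / i = j := fun a j h e => by
    rw [e, Nat.add_mul_mod_self_left, Nat.add_mul_div_left _ _ hi, Nat.mod_eq_of_lt h,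
      Nat.div_eq_of_lt h, zero_add]
    exact ⟨rfl, rfl⟩
  constructor
  · intro H
    obtain ⟨a, j, a1, -, a3⟩ := H (n % i) (n / i / 2) (n / i % 2) (by omega) (by omega)
      (by rw [Nat.div_add_mod, h1])
    obtain ⟨rfl, rfl⟩ := key a j (by omega) a3
    have h5 : i ≤ m := by
      by_contra h5
      rw [Nat.mod_eq_of_lt (by omega)] at a1
      omega
    have h6 := Nat.div_pos h5 hi
    have h7 : 2 * (m / i) ≤ n / i := (Nat.le_div_iff_mul_le hi).2 (by
      rw [mul_assoc, mul_comm (m / i)]; omega)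
    refine ⟨h5, a1, ?_⟩
    by_contra h8
    by_cases h9 : n / i ≤ t
    · obtain ⟨a, j, b1, b2, b3⟩ := H (n % i) 0 (n / i) h9 (by omega) (by simpa using h1)
      have := key a j (by omega) b3
      omega
    · rcases Nat.even_or_odd' (n / i - t) with ⟨w, hw | hw⟩
      · obtain ⟨a, j, b1, b2, b3⟩ := H (n % i) w t le_rfl (by omega) (by
          rwa [show 2 * w + t = n / i by omega])
        have := key a j (by omega) b3
        omega
      · obtain ⟨a, j, b1, b2, b3⟩ := H (n % i + i) w t le_rfl (by omega) (by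
          rw [show n / i = 2 * w + t + 1 by omega] at h1; linarith)
        have := key a j (by omega) b3
        omega
  · rintro ⟨-, a2, a3⟩ e w o ho - he
    have h5 : 2 * w + o ≤ n / i := (Nat.le_div_iff_mul_le hi).2 (by nlinarith)
    obtain ⟨u, hu⟩ := Nat.exists_eq_add_of_le h5
    rw [hu, mul_add] at h1
    rcases le_total (m / i) w with h6 | h6
    · exact ⟨m % i, m / i, by omega, h6, h2.symm⟩
    · obtain ⟨v, hv⟩ := Nat.exists_eq_add_of_le h6
      have := Nat.mul_le_mul_left i (show 2 * v ≤ u by omega)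
      rw [hv] at h2
      exact ⟨m % i + i * v, w, by nlinarith, le_rfl, by linarith⟩

universe u
variable {F : Type u} [Field F] [Fintype F] {V W : Type*} [AddCommGroup V] [Module F V]
  [AddCommGroup W] [Module F W] [FiniteDimensional F V] [FiniteDimensional F W]
  {B : LinearMap.BilinForm F V} {B' : LinearMap.BilinForm F W} {ε : F} {f : End F V} {g : End F W}
  {r : ℕ}

theorem one_le_t (hr : r.Prime) (h0 : (r : F) ≠ 0) :
    1 ≤ (r - 1) / orderOf (Fintype.card F : ZMod r) := by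
  haveI := Fact.mk hr
  exact Nat.div_pos (Nat.le_of_dvd (by have := hr.two_le; omega)
    (ZMod.orderOf_dvd_card_sub_one (card_ne_zero_zmod h0))) (ord_pos h0 hr)

theorem cc_le (hr : r.Prime) (h2 : r ≠ 2) (h0 : (r : F) ≠ 0) :
    cc (orderOf (Fintype.card F : ZMod r)) ≤ r - 1 := by
  haveI := Fact.mk hr
  obtain ⟨k, hk⟩ := (hr.even_sub_one h2).two_dvd
  rw [hk]
  exact Nat.le_of_dvd (by have := hr.two_le; omega)
    (cc_dvd (hk ▸ ZMod.orderOf_dvd_card_sub_one (card_ne_zero_zmod h0)))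

theorem shp_fpf (hr : r.Prime) (h2 : r ≠ 2) (h0 : (r : F) ≠ 0) (hB : EF B ε) (hf : Im B f)
    (h1 : f ^ r = 1) (h : ∀ x, f x = x → x = 0) {i : ℕ} (hi : i = orderOf (Fintype.card F : ZMod r)) :
    ∃ s w, Adm ((r - 1) / i) i (cc i) s w ∧ Shp B f i (cc i) s w := by
  obtain ⟨a, ha⟩ := cfg_prime (AlgebraicClosure F) hr h2 h0
  rw [hi, ← Nat.totient_prime hr]
  exact ha.shp (by have := hr.two_le; omega) h0 hB hf h1 (Cfg.prim_of_fp hr h1 h)

theorem exists_shp_fpf (hr : r.Prime) (h2 : r ≠ 2) (h0 : (r : F) ≠ 0) {i : ℕ}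
    (hi : i = orderOf (Fintype.card F : ZMod r)) {s w : ℕ} (hw : Adm ((r - 1) / i) i (cc i) s w) :
    ∃ (k : ℕ) (g : End F (Fin k → F)), g ^ r = 1 ∧ (∀ x, g x = x → x = 0) ∧
      (∃ B : LinearMap.BilinForm F (Fin k → F), AF B ∧ Im B g) ∧
      (∃ Q : QuadraticForm F (Fin k → F), Orth.ND Q ∧ ∀ x, Q (g x) = Q x) ∧
      ∀ (B : LinearMap.BilinForm F (Fin k → F)) (ε : F), EF B ε → Im B g →
        Shp B g i (cc i) s w := by
  obtain ⟨a, ha⟩ := cfg_prime (AlgebraicClosure F) hr h2 h0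
  rw [hi, ← Nat.totient_prime hr] at hw
  obtain ⟨k, g, a1, a2, ⟨B, b1, b2, b3⟩, a4, a5⟩ :=
    ha.exists_shp (by have := hr.two_le; omega) h0 hw
  exact ⟨k, g, a1, ((fp_iff _).2 fun z hz => ne_pm_of_prim (a2 z hz)
    (by have := hr.two_le; omega)).1, ⟨B, ⟨ef_of_alt b1 b2, b2⟩, b3⟩, a4, hi ▸ a5⟩

omit [Fintype F] [FiniteDimensional F V] in
theorem res_pow_one {U : Submodule F V} (h : U.map f ≤ U) (h1 : f ^ r = 1) : res f h ^ r = 1 := by
  simpa using res_pow_eq (c := (1 : F)) h (by simpa using h1)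

omit [Fintype F] in
theorem finrank_Fx_add (f : End F V) : finrank F (Fx f) + finrank F (Mo f) = finrank F V :=
  (add_comm _ _).trans (LinearMap.finrank_range_add_finrank_ker (f - 1))

omit [Fintype F] [FiniteDimensional F V] [FiniteDimensional F W] in
theorem Sim.finrank_Fx (h : Sim f g) : finrank F (Fx f) = finrank F (Fx g) := by
  obtain ⟨e, he⟩ := h
  rw [← e.finrank_map_eq]
  refine congrArg (fun U : Submodule F W => finrank F U) (Submodule.ext fun x => ?_)
  obtain ⟨y, rfl⟩ := e.surjective x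
  rw [mem_Fx, ← he, e.injective.eq_iff, ← mem_Fx]
  simp

omit [Fintype F] [FiniteDimensional F V] [FiniteDimensional F W] in
theorem finrank_Fx_prod (hg : ∀ y, g y = y → y = 0) :
    finrank F (Fx ((1 : End F V).prodMap g : End F (V × W))) = finrank F V := by
  rw [← LinearMap.finrank_range_of_inj (LinearMap.inl_injective (R := F) (M := V) (M₂ := W))]
  refine congrArg (fun U : Submodule F (V × W) => finrank F U) (Submodule.ext fun ⟨x, y⟩ => ?_)
  rw [mem_Fx]
  simpa using ⟨fun h => (hg y h).symm, fun h => by simp [← h]⟩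

/-- shape of a symplectic element -/
def SpS (B : LinearMap.BilinForm F V) (f : End F V) (i e s w : ℕ) : Prop :=
  finrank F V = e + cc i * s ∧ finrank F (Fx f) = e ∧
    (∀ m, TS B f m ↔ ∃ a j, 2 * a ≤ e ∧ j ≤ w ∧ m = a + i * j) ∧
    ∀ m, NDec B f m ↔ ∃ a j, (Even a ∧ a ≤ e) ∧ j ≤ s ∧ m = a + cc i * j

omit [Fintype F] in
theorem sps_prod (hB : AF B) (hg : ∀ y, g y = y → y = 0) {i s w : ℕ}
    (h : Shp B' g i (cc i) s w) :
    SpS (sumB B B') ((1 : End F V).prodMap g) i (finrank F V) s w := by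
  refine ⟨by rw [finrank_prod, h.1], finrank_Fx_prod hg, fun m => ?_, fun m => ?_⟩
  · simp only [ts_prod_iff hg, hB.ts_one_iff, h.2.1]
    exact ⟨fun ⟨a, _, e, a1, j, a2, e'⟩ => ⟨a, j, a1, a2, e' ▸ e⟩,
      fun ⟨a, j, a1, a2, e⟩ => ⟨a, _, e, a1, j, a2, rfl⟩⟩
  · simp only [ndec_prod_iff hg, hB.ndec_one_iff, h.2.2]
    exact ⟨fun ⟨a, _, e, a1, j, a2, e'⟩ => ⟨a, j, a1, a2, e' ▸ e⟩,
      fun ⟨a, j, a1, a2, e⟩ => ⟨a, _, e, a1, j, a2, rfl⟩⟩

omit [Fintype F] [FiniteDimensional F V] [FiniteDimensional F W] in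
theorem SpS.tr {i e s w : ℕ} (h : SpS B f i e s w) (h' : TrS B f B' g) : SpS B' g i e s w :=
  ⟨h'.choose.finrank_eq.symm.trans h.1, (Sim.finrank_Fx h'.sim).symm.trans h.2.1,
    fun m => (h'.ts_iff m).symm.trans (h.2.2.1 m), fun m => (h'.ndec_iff m).symm.trans (h.2.2.2 m)⟩

omit [Fintype F] in
theorem eq_one_iff_Fx : f = 1 ↔ finrank F (Fx f) = finrank F V := by
  rw [← sub_eq_zero, ← LinearMap.ker_eq_top]
  exact ⟨fun h => by rw [show Fx f = ⊤ from h, finrank_top], Submodule.eq_top_of_finrank_eq⟩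

theorem forall_sps (hr : r.Prime) (h2 : r ≠ 2) (h0 : (r : F) ≠ 0) (hB : AF B) {i : ℕ}
    (hi : i = orderOf (Fintype.card F : ZMod r)) (P : End F V → Prop) (R : ℕ → ℕ → ℕ → Prop)
    (h : ∀ f e s w, Im B f → f ^ r = 1 → SpS B f i e s w → (P f ↔ R e s w)) :
    (∀ f, Im B f → f ^ r = 1 → f ≠ 1 → P f) ↔ ∀ e s w, 1 ≤ s → e + cc i * s = finrank F V →
      Adm ((r - 1) / i) i (cc i) s w → R e s w := by
  have hc := cc_pos (hi ▸ ord_pos h0 hr : 0 < i)
  constructor
  · intro H e s w a1 a2 a3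
    obtain ⟨k, g, b1, b2, ⟨B₂, b3, b4⟩, -, b5⟩ := exists_shp_fpf hr h2 h0 hi a3
    have b6 := b5 B₂ _ b3.ef b4
    obtain ⟨e, rfl⟩ : Even e := by
      have := hB.even
      rw [← a2, Nat.even_add] at this
      exact this.2 ((even_cc i).mul_right s)
    obtain ⟨φ, hφ⟩ := ((af_sB e).sum b3).iso hB (by rw [finrank_prod, b6.1, ← a2]; simp)
    obtain ⟨f, c1, c2⟩ := exists_tr φ hφ (Im.prod (f := 1) (fun _ _ => rfl) b4)
    have c3 := (sps_prod (af_sB e) b2 b6).tr c2
    have c4 : f ^ r = 1 := by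
      simpa using Sim.pow_eq c2.sim (c := 1) (by rw [prodMap_pow', b1, one_pow, one_smul]; rfl)
    rw [finrank_fintype_fun_eq_card, Fintype.card_sum, Fintype.card_fin] at c3
    refine (h f _ s w c1 c4 c3).1 (H f c1 c4 fun e' => ?_)
    have := c3.2.1.symm.trans (eq_one_iff_Fx.1 e')
    nlinarith
  · intro H f a1 a2 a3
    obtain ⟨s, w, b1, b2⟩ := shp_fpf hr h2 h0 (ef_res hB.ef (nds_Mo hB.ef a1 h0 a2))
      (a1.res (Mo_inv f)) (res_pow_one _ a2)
      (fpf_Mo h0 a2) hi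
    have b3 := (sps_prod (hB.res (nds_Fx hB.ef a1 h0 a2)) (fpf_Mo h0 a2) b2).tr
      (tr_Fx hB.ef a1 h0 a2)
    refine (h f _ s w a1 a2 b3).2 (H _ s w (Nat.pos_of_ne_zero ?_) b3.1.symm b1)
    rintro rfl
    exact a3 (eq_one_iff_Fx.2 b3.1.symm)

theorem nf_eq_Mo (L : Type*) [Field L] [IsAlgClosed L] [Algebra F L] (hr : r.Prime)
    (h0 : (r : F) ≠ 0) (hi : orderOf (Fintype.card F : ZMod r) ≠ 1) (h1 : f ^ r = 1) :
    fx (Fintype.card F) (ev L f) = finrank F (Fx f) ∧
      nf (Fintype.card F) (ev L f) = finrank F (Mo f) := by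
  have h2 := fx_add_nf (q := Fintype.card F) (ev L f)
  have h3 := finrank_Fx_add f
  rw [card_ev] at h2
  suffices fx (Fintype.card F) (ev L f) = finrank F (Fx f) by omega
  rw [ev_res L (isCompl_Fx h0 h1) (Fx_inv f) (Mo_inv f), fx_add, res_Fx, ← map_one (algebraMap F _),
    ev_scalar, fx_of_fix (by simp [Multiset.mem_replicate]), Multiset.card_replicate,
    fx_eq_zero.2 fun z hz => ?_, add_zero]
  have := Cfg.prim_of_fp hr (res_pow_one _ h1)
    (fpf_Mo h0 h1) z hz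
  exact mt (fix_iff_eq_one L hr hi this.pow_eq_one).1 (this.ne_one hr.one_lt)

theorem pd_prod (hr : r.Prime) (h2 : r ≠ 2) (h0 : (r : F) ≠ 0) {i : ℕ}
    (hi : i = orderOf (Fintype.card F : ZMod r)) {a : ℕ} (ha : Even a) (t : ℕ)
    {V W : Type*} [AddCommGroup V] [Module F V]
    [AddCommGroup W] [Module F W] [FiniteDimensional F V] [FiniteDimensional F W]
    {B : LinearMap.BilinForm F V} {B' : LinearMap.BilinForm F W} {g : End F W} (hB : AF B)
    (hB' : EF B' (-1)) (hg : Im B' g) (h1 : g ^ r = 1) (h : ∀ x, g x = x → x = 0)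
    (hn : finrank F V + finrank F W = a * t) (hW : finrank F W ≤ cc i * (t * (a / cc i))) :
    PD (sumB B B') ((1 : End F V).prodMap g) a t ⊤ := by
  have hc := cc_pos (hi ▸ ord_pos h0 hr : 0 < i)
  induction t generalizing V W with
  | zero =>
    rw [Submodule.finrank_eq_zero.1 (show finrank F (⊤ : Submodule F (V × W)) = 0 by simpa using hn)]
    exact PD.zero
  | succ t ih =>
    obtain ⟨s, w, -, a1, -, a2⟩ := shp_fpf hr h2 h0 hB' hg h1 h hi
    have a3 := Nat.mod_add_div a (cc i)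
    have a4 : s ≤ (t + 1) * (a / cc i) := Nat.le_of_mul_le_mul_left (a1 ▸ hW) hc
    obtain ⟨j, b1, b2, b3, b4⟩ : ∃ j ≤ s, cc i * j ≤ a ∧ a ≤ finrank F V + cc i * j ∧
        s ≤ t * (a / cc i) + j := by
      rcases le_total s (a / cc i) with h | h
      · have := Nat.mul_le_mul_left (cc i) h
        exact ⟨s, le_rfl, by omega, by nlinarith, by omega⟩
      · refine ⟨_, h, by omega, ?_, by linarith⟩
        have := Nat.mul_le_mul_left (cc i) a4
        have : a * t = a % cc i * t + cc i * (a / cc i) * t := by rw [← add_mul, a3]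
        nlinarith [Nat.zero_le (a % cc i * t)]
    obtain ⟨U, c1, c2, -⟩ := (hB.ndec_one_iff (a - cc i * j)).2
      ⟨(Nat.even_sub b2).2 (iff_of_true ha ((even_cc i).mul_right j)), by omega⟩
    obtain ⟨U', d1, d2, d3⟩ := (a2 _).2 ⟨j, b1, rfl⟩
    have d4 := perp_inv hB' hg d3
    have e1 := finrank_perp_add hB.ef U
    have e2 := finrank_perp_add hB' U'
    have e3 := (ih (hB.res (c2.perp hB.ef)) (ef_res hB' (d2.perp hB')) (hg.res d4)
      (res_pow_one d4 h1)
      (fun x hx => Subtype.ext (h _ (congrArg Subtype.val hx))) (by rw [mul_add] at hn; omega)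
      (by have := Nat.mul_le_mul_left (cc i) b4; rw [mul_add] at this; omega)).map
      (B' := sumB B B') (g := (1 : End F V).prodMap g) _ (inj_prodMap_subtype _ _) (fun _ => rfl)
      fun _ _ => rfl
    rw [range_prodMap_subtype] at e3
    have := e3.add (PD.one (T := U.prod U') (by rw [finrank_sprod]; omega) (prod_inv (one_inv U) d3))
      (fun x hx y hy => by
        rw [sumB_apply, hB.ef.zero_symm (hx.1 _ hy.1), hB'.zero_symm (hx.2 _ hy.2), add_zero])
      fun x hx y hy => by rw [sumB_apply, hy.1 _ hx.1, hy.2 _ hx.2, add_zero]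
    rwa [Submodule.prod_sup_prod, (c2.isCompl hB.ef).symm.sup_eq_top,
      (d2.isCompl hB').symm.sup_eq_top, Submodule.prod_top] at this

/-! ### elements with square `-1` -/

theorem ord_four (h2 : (2 : F) ≠ 0) :
    (Fintype.card F % 4 = 1 ∧ orderOf (Fintype.card F : ZMod 4) = 1) ∨
      (Fintype.card F % 4 = 3 ∧ orderOf (Fintype.card F : ZMod 4) = 2) := by
  have := FiniteField.odd_card_of_char_ne_two (F := F) fun e => h2 (by
    have := (ringChar.spec F 2).2 (e ▸ dvd_rfl); simpa using this)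
  rw [← ZMod.natCast_mod]
  rcases Nat.odd_mod_four_iff.1 this with h | h <;> rw [h]
  · simp
  · exact Or.inr ⟨rfl, orderOf_eq_prime (by decide) (by decide)⟩

theorem cfg_four (h2 : (2 : F) ≠ 0) : ∃ a, Cfg (AlgebraicClosure F) 4 (Fintype.card F) (-1) a
    (orderOf (Fintype.card F : ZMod 4)) (cc (orderOf (Fintype.card F : ZMod 4))) :=
  cfg_bil _ (by norm_num) (by decide) (by rcases ord_four h2 with h | h <;> omega)

omit [Fintype F] in
theorem four_ne (h2 : (2 : F) ≠ 0) : ((4 : ℕ) : F) ≠ 0 := by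
  simpa [show (4 : F) = 2 * 2 by norm_num] using h2

theorem prim_four_iff {L : Type*} [Field L] (h2 : (2 : L) ≠ 0) {z : L} :
    IsPrimitiveRoot z 4 ↔ z ^ 2 = -1 := by
  refine ⟨fun h => (h.pow_of_dvd two_ne_zero (by norm_num)).eq_neg_one_of_two_right, fun h => ?_⟩
  have h1 : z ^ 2 ^ 1 ≠ 1 := fun e => h2 (by linear_combination h - e)
  have h3 : orderOf z = 4 :=
    orderOf_eq_prime_pow h1 (by rw [show 2 ^ (1 + 1) = 2 * 2 from rfl, pow_mul, h]; simp)
  exact h3 ▸ IsPrimitiveRoot.orderOf z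

omit [Fintype F] in
theorem two_ne_alg (h2 : (2 : F) ≠ 0) (L : Type*) [Field L] [Algebra F L] : (2 : L) ≠ 0 := by
  rw [← map_ofNat (algebraMap F L) 2]
  exact (map_ne_zero (algebraMap F L)).2 h2

omit [Fintype F] in
theorem prim_four (h2 : (2 : F) ≠ 0) (L : Type*) [Field L] [IsAlgClosed L] [Algebra F L]
    (h : f ^ 2 = (-1 : F) • 1) : ∀ z ∈ ev L f, IsPrimitiveRoot z 4 := fun z hz =>
  (prim_four_iff (two_ne_alg h2 L)).2 (by simpa using pow_eq_of_mem_ev' L h hz)

omit [Fintype F] [FiniteDimensional F V] in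
theorem pow_four (h : f ^ 2 = (-1 : F) • 1) : f ^ 4 = 1 := by
  rw [show 4 = 2 * 2 from rfl, pow_mul, h]; simp

theorem shp_four (h2 : (2 : F) ≠ 0) (hB : EF B ε) (hf : Im B f) (h : f ^ 2 = (-1 : F) • 1) :
    ∃ d, finrank F V = 2 * d ∧ (∀ m, NDec B f m ↔ Even m ∧ m ≤ 2 * d) ∧
      ∀ m, TS B f m ↔ m ≤ d ∧ (Even m ∨ Fintype.card F % 4 = 1) := by
  obtain ⟨a, ha⟩ := cfg_four h2
  obtain ⟨s, w, a1, a2, a3, a4⟩ := ha.shp (by norm_num) (four_ne h2) hB hf (pow_four h)
    (prim_four h2 _ h)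
  rcases ord_four h2 with ⟨h3, h4⟩ | ⟨h3, h4⟩ <;> rw [h4] at a1 a2 a3 a4 <;>
    refine ⟨s, a2, fun m => (a4 m).trans ⟨fun ⟨j, b1, b2⟩ => ⟨⟨j, b2.trans (two_mul j)⟩, b2.le.trans
      (Nat.mul_le_mul_left 2 b1)⟩, fun ⟨⟨j, b1⟩, b2⟩ => ⟨j, by omega, b1.trans (two_mul j).symm⟩⟩,
      fun m => (a3 m).trans ?_⟩
  · simp [(adm_odd odd_one).1 a1, h3]
  · obtain ⟨o, b1, rfl⟩ := (adm_even two_pos even_two).1 a1
    change o ≤ 1 at b1
    exact ⟨fun ⟨j, c1, c2⟩ => ⟨by omega, Or.inl ⟨j, by omega⟩⟩,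
      fun ⟨c1, c2⟩ => by obtain ⟨j, rfl⟩ := c2.resolve_right (by omega); exact ⟨j, by omega, by omega⟩⟩

theorem tr_four (h2 : (2 : F) ≠ 0) (hB : EF B ε) (hB' : EF B' ε) (hf : Im B f) (hg : Im B' g)
    (h : f ^ 2 = (-1 : F) • 1) (h' : g ^ 2 = (-1 : F) • 1) (hd : finrank F V = finrank F W) :
    TrS B f B' g := by
  let L := AlgebraicClosure F
  obtain ⟨ζ, hζ⟩ := exists_prim L (four_ne h2)
  have h3 := (prim_four_iff (two_ne_alg h2 L)).1 hζ
  have h4 : ζ ≠ -ζ := fun e => mul_ne_zero (two_ne_alg h2 L) (hζ.ne_zero (by norm_num))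
    (by linear_combination e)
  have key : ∀ M : Multiset L, SX (fun z => (RingHom.id L z)⁻¹) M → (∀ z ∈ M, IsPrimitiveRoot z 4) →
      M = Multiset.replicate (M.card / 2) ζ + Multiset.replicate (M.card / 2) (-ζ) := by
    intro M a1 a2
    have a3 := (sx_iff_count inv_injective).1 a1 ζ
    rw [inv_eq_of_mul_eq_one_right (show ζ * -ζ = 1 by linear_combination -h3)] at a3
    have a4 : M = Multiset.replicate (M.count ζ) ζ + Multiset.replicate (M.count ζ) (-ζ) := by
      ext z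
      rw [Multiset.count_add, Multiset.count_replicate, Multiset.count_replicate]
      split_ifs with e1 e2 e2
      · exact (h4 (e1.trans e2.symm)).elim
      · rw [e1, add_zero]
      · rw [← e2, a3, zero_add]
      · exact Multiset.count_eq_zero.2 fun hz => (sq_eq_sq_iff_eq_or_eq_neg.1
          (((prim_four_iff (two_ne_alg h2 L)).1 (a2 z hz)).trans h3.symm)).elim (Ne.symm e1)
          (Ne.symm e2)
    have a5 := congrArg Multiset.card a4
    simp only [Multiset.card_add, Multiset.card_replicate] at a5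
    rwa [show M.card / 2 = M.count ζ by omega]
  have h5 := (fp_iff L).2 fun z hz => ne_pm_of_prim (prim_four h2 L h z hz) (by norm_num)
  have hs := squarefree_X_pow_sub_one (four_ne h2)
  refine tri_of_fpf hB hB' hf hg (sim_of_ev L hs hs (aeval_of_pow (pow_four h))
    (aeval_of_pow (pow_four h')) ?_) h5.1 h5.2
  rw [key _ (sx_ev L (σ := RingHom.id F) (fun _ => rfl) hB hf) (prim_four h2 L h),
    key _ (sx_ev L (σ := RingHom.id F) (fun _ => rfl) hB' hg) (prim_four h2 L h'), card_ev, card_ev,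
    hd]

/-- the standard element with square `-1` -/
def jj (F : Type*) [Field F] (k : ℕ) : End F ((Fin k → F) × (Fin k → F)) :=
  (LinearMap.snd F _ _).prod (-LinearMap.fst F _ _)

omit [Fintype F] in
theorem jj_sq (k : ℕ) : jj F k ^ 2 = (-1 : F) • 1 := LinearMap.ext fun x => Prod.ext (by simp [jj, sq]) (by simp [jj, sq])

omit [Fintype F] in
theorem im_jj (k : ℕ) : Im (hypB (RingHom.id F) (-1) (Fin k)) (jj F k) := fun x y => by
  simp [jj, hypB_apply, add_comm]

theorem hp_of_sq_neg (h2 : (2 : F) ≠ 0) (hB : AF B) (hf : Im B f) (h : f ^ 2 = (-1 : F) • 1) :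
    HP B f := by
  obtain ⟨k, hk⟩ := hB.even
  refine HP.tr ⟨_, _, LinearMap.isCompl_range_inl_inr, iso_hyp_inl, iso_hyp_inr, Or.inr ⟨?_, ?_⟩⟩
    (tr_four h2 (af_hyp k).ef hB.ef (im_jj k) hf (jj_sq k) h (by simp [hk])) <;>
  refine map_eq_of_le (inj_of_pow two_ne_zero (by simp) (jj_sq k)) ?_ (by
    rw [LinearMap.finrank_range_of_inj LinearMap.inl_injective,
      LinearMap.finrank_range_of_inj LinearMap.inr_injective]) <;>
  rintro _ ⟨_, ⟨x, rfl⟩, rfl⟩ <;> simp [jj]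

theorem AF.exists_sq_neg (hB : AF B) : ∃ f, Im B f ∧ f ^ 2 = (-1 : F) • 1 := by
  obtain ⟨k, hk⟩ := hB.even
  obtain ⟨e, he⟩ := (af_hyp k).iso hB (by simp [hk])
  obtain ⟨f, a1, a2⟩ := exists_tr e he (im_jj k)
  exact ⟨f, a1, Sim.pow_eq a2.sim (jj_sq k)⟩

omit [Fintype F] in
theorem sq_one_iff (h2 : (2 : F) ≠ 0) (hB : AF B) (hf : Im B f) (h : f ^ 2 = 1) :
    (∀ m, 2 * m ≤ finrank F V → TS B f m) ∧ ∀ m, Even m → m ≤ finrank F V → NDec B f m := by
  have a1 := hB.res (nds_Fx hB.ef hf (N := 2) h2 h)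
  have a2 := hB.res (nds_Mo hB.ef hf (N := 2) h2 h)
  have a3 := finrank_Fx_add f
  obtain ⟨a, ha⟩ := a1.even
  obtain ⟨b, hb⟩ := a2.even
  simp only [← (tr_Fx hB.ef hf (N := 2) h2 h).ts_iff, ← (tr_Fx hB.ef hf (N := 2) h2 h).ndec_iff,
    ts_prod_iff (fpf_Mo (N := 2) h2 h), ndec_prod_iff (fpf_Mo (N := 2) h2 h)]
  have h3 : (-1 : F) ≠ 0 := by simp
  simp only [res_Mo_sq h, ts_smul h3, ndec_smul h3,
    a1.ts_one_iff, a2.ts_one_iff, a1.ndec_one_iff, a2.ndec_one_iff]
  exact ⟨fun m hm => ⟨min m a, m - min m a, by omega, by omega, by omega⟩,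
    fun m ⟨k, hk⟩ hm => ⟨2 * min k a, 2 * (k - min k a), by omega, ⟨even_two_mul _, by omega⟩,
      even_two_mul _, by omega⟩⟩

/-! ### counting -/

theorem card_ts_dvd (hB : AF B) {d m : ℕ} (hd : finrank F V = 2 * d) (hm : m ≤ d) :
    Nat.card {W : Submodule F V // finrank F W = m ∧ Iso B W} ∣
      ∏ j ∈ Finset.range m, (Fintype.card F ^ (2 * (d - j)) - 1) := by
  have := card_frames (Iso B) (fun _ _ h h' u hu v hv => h' u (h hu) v (h hv))
    (fun u hu => by simp [(Submodule.mem_bot F).1 hu])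
    (fun j => Fintype.card F ^ j * (Fintype.card F ^ (2 * (d - j)) - 1)) m fun j hj W hW hT => by
      have h1 := finrank_perp_add hB.ef W
      rw [Nat.mul_sub, ← pow_add, mul_one, show j + 2 * (d - j) = finrank F (perp B W) by omega,
        ← hW, ← card_diff (Herm.iso_iff_le_perp.1 hT)]
      refine Nat.card_congr (Equiv.subtypeEquivRight fun v => and_congr_right fun _ =>
        ⟨fun h w hw => h w (Submodule.mem_sup_left hw) v
          (Submodule.mem_sup_right (Submodule.mem_span_singleton_self v)), fun h x hx y hy => ?_⟩)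
      obtain ⟨a, ha, _, ⟨b, rfl⟩, rfl⟩ := by simpa only [Submodule.mem_sup,
        Submodule.mem_span_singleton] using hx
      obtain ⟨a', ha', _, ⟨b', rfl⟩, rfl⟩ := by simpa only [Submodule.mem_sup,
        Submodule.mem_span_singleton] using hy
      simp [hT a ha a' ha', h a ha, hB.ef.zero_symm (h a' ha'), hB.alt v]
  rw [prod_pow_sub Fintype.card_pos _ _ le_rfl, Finset.prod_mul_distrib, mul_left_comm] at this
  exact Dvd.intro _ (Nat.eq_of_mul_eq_mul_left
    (Finset.prod_pos fun j _ => pow_pos Fintype.card_pos _) this)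

theorem AF.card_UG (hB : AF B) {d : ℕ} (hd : finrank F V = 2 * d) : Nat.card (UG B) =
    Fintype.card F ^ d ^ 2 * ∏ i ∈ Finset.range d, (Fintype.card F ^ (2 * (i + 1)) - 1) := by
  rw [← Nat.card_eq_fintype_card]
  exact Classical.SpWitt.card_SG hB.ef.nondeg hB.alt hd

theorem card_nd_sp (hB : AF B) {d m : ℕ} (hd : finrank F V = 2 * d) (hm : m ≤ d) :
    Nat.card {W : Submodule F V // finrank F W = 2 * m ∧ NDs B W} ∣ Fintype.card F ^ d ^ 2 *
      ∏ j ∈ Finset.range m, (Fintype.card F ^ (2 * (d - m + j + 1)) - 1) := by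
  obtain ⟨U, a1, a2, -⟩ := (hB.ndec_one_iff (2 * m)).2 ⟨even_two_mul m, by omega⟩
  have h1 := fun T : Submodule F V => finrank_perp_add hB.ef T
  have := card_nd_dvd hB.ef (fun W => finrank F W = 2 * m ∧ NDs B W) a2 ⟨a1, a2⟩
    (fun T hT => by
      obtain ⟨e, he⟩ := (hB.res a2).iso (hB.res hT.2) (a1.trans hT.1.symm)
      obtain ⟨e', he'⟩ := (hB.res (a2.perp hB.ef)).iso (hB.res (hT.2.perp hB.ef))
        (by have := h1 U; have := h1 T; omega)
      exact exists_ug_of_iso hB.ef a2 hT.2 e he e' he')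
    fun g T hT => ⟨(g.1.finrank_map_eq T).trans hT.1, hT.2.map _ g.2⟩
  rw [hB.card_UG hd, (hB.res (a2.perp hB.ef)).card_UG (d := d - m) (by have := h1 U; omega)] at this
  conv_rhs at this => rw [← Nat.sub_add_cancel hm, Finset.prod_range_add, Nat.sub_add_cancel hm,
    mul_left_comm]
  exact Nat.dvd_of_mul_dvd_mul_left (Finset.prod_pos fun j _ => Nat.sub_pos_of_lt
    (Nat.one_lt_pow (by omega) Fintype.one_lt_card)) (Dvd.dvd.trans ⟨Nat.card (UG (Herm.res B U)) *
      Fintype.card F ^ (d - m) ^ 2, by ring⟩ this)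

theorem card_hp_dvd (hB : AF B) {d : ℕ} (hd : finrank F V = 2 * d) : Nat.card {P // HPair B P} ∣
    Fintype.card F ^ d ^ 2 * ∏ j ∈ Finset.range d, (Fintype.card F ^ (j + 1) + 1) := by
  obtain ⟨P, hP⟩ := hB.exists_hpair
  have := hP.card_dvd hB.ef
  have h1 := (finrank_of_pair hB.ef hP.1 hP.2.1 hP.2.2).2
  rw [hB.card_UG hd, Classical.SpSum.card_linearEquiv (show finrank F P.1 = d by omega),
    Nat.card_eq_fintype_card (α := F),
    Fin.prod_univ_eq_prod_range (fun j => Fintype.card F ^ d - Fintype.card F ^ j),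
    prod_pow_sub Fintype.card_pos _ _ le_rfl] at this
  have h2 : ∏ j ∈ Finset.range d, (Fintype.card F ^ (d - j) - 1) =
      ∏ j ∈ Finset.range d, (Fintype.card F ^ (j + 1) - 1) := by
    rw [← Finset.prod_range_reflect]
    exact Finset.prod_congr rfl fun j hj => by
      rw [show d - (d - 1 - j) = j + 1 by have := Finset.mem_range.1 hj; omega]
  have h3 : ∏ j ∈ Finset.range d, (Fintype.card F ^ (2 * (j + 1)) - 1) =
      (∏ j ∈ Finset.range d, (Fintype.card F ^ (j + 1) + 1)) *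
        ∏ j ∈ Finset.range d, (Fintype.card F ^ (j + 1) - 1) := by
    rw [← Finset.prod_mul_distrib]
    exact Finset.prod_congr rfl fun j _ => by rw [mul_comm 2, pow_mul, ← Nat.sq_sub_sq, one_pow]
  rw [h2, h3, ← mul_assoc, ← mul_assoc] at this
  exact (Dvd.intro _ rfl).trans (Nat.dvd_of_mul_dvd_mul_right (Finset.prod_pos fun j _ =>
    Nat.sub_pos_of_lt (Nat.one_lt_pow (by omega) Fintype.one_lt_card)) this)

end Cfsg.Agent.Elu
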