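import Mathlib
import Cfsg.Agent.Elu.Sp2
import Cfsg.Agent.Spc.Orth
import Cfsg.Agent.Orth.Fix

/-!
Types of quadratic spaces; invariant subspaces of orthogonal elements.
-/

set_option autoImplicit false
set_option backward.isDefEq.respectTransparency false

namespace Cfsg.Agent.Elu

open Module Polynomial Conj Spc Orth QuadraticMap
open scoped _root_.Classical

variable {F V W V₀ : Type*} [Field F] [AddCommGroup V] [Module F V] [AddCommGroup W] [Module F W]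
  [AddCommGroup V₀] [Module F V₀] {Q : QuadraticForm F V} {Q' : QuadraticForm F W}
  {Q₀ : QuadraticForm F V₀} {f : End F V} {g : End F W}

/-- `f` preserves `Q` -/
def IQ (Q : QuadraticForm F V) (f : End F V) : Prop := ∀ x, Q (f x) = Q x

/-- an invariant totally singular `m`-space -/
def SQ (Q : QuadraticForm F V) (f : End F V) (m : ℕ) : Prop :=
  ∃ U : Submodule F V, finrank F U = m ∧ Sing Q U ∧ U.map f ≤ U

/-- an invariant subspace isometric to a given space -/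
def Emb (Q : QuadraticForm F V) (f : End F V) (Q₀ : QuadraticForm F V₀) : Prop :=
  ∃ U : Submodule F V, Nonempty ((Q.restrict U).IsometryEquiv Q₀) ∧ U.map f ≤ U

/-- isomorphic triples -/
def TrQ (Q : QuadraticForm F V) (f : End F V) (Q' : QuadraticForm F W) (g : End F W) : Prop :=
  ∃ e : Q.IsometryEquiv Q', ∀ v, e (f v) = g (e v)

/-- `f` lies in `Ω` -/
def Om (Q : QuadraticForm F V) (f : End F V) : Prop := ∃ g ∈ commutator (OG Q), subRep _ g = f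

theorem IQ.im (h : IQ Q f) : Im Q.polarBilin f := polar_inv h

theorem IQ.res (h : IQ Q f) {U : Submodule F V} (hU : U.map f ≤ U) :
    IQ (Q.restrict U) (res f hU) := fun x => h x

theorem IQ.prod (h : IQ Q f) (h' : IQ Q' g) : IQ (Q.prod Q') (f.prodMap g) := fun x => by
  simp [h x.1, h' x.2]

theorem iq_one : IQ Q 1 := fun _ => rfl

theorem IQ.neg (h : IQ Q f) : IQ Q ((-1 : F) • f) := fun x => by simp [h x]

theorem Om.iq (h : Om Q f) : IQ Q f := by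
  obtain ⟨g, -, rfl⟩ := h
  exact g.2

theorem TrQ.symm (h : TrQ Q f Q' g) : TrQ Q' g Q f := by
  obtain ⟨e, he⟩ := h
  refine ⟨e.symm, fun v => ?_⟩
  obtain ⟨y, rfl⟩ := e.toLinearEquiv.surjective v
  exact (congrArg e.symm (he y).symm).trans ((e.toLinearEquiv.symm_apply_apply _).trans
    (congrArg f (e.toLinearEquiv.symm_apply_apply _).symm))

theorem TrQ.sim (h : TrQ Q f Q' g) : Sim f g := ⟨h.choose.toLinearEquiv, h.choose_spec⟩

theorem TrQ.iq (h : TrQ Q f Q' g) (hf : IQ Q f) : IQ Q' g := fun x => by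
  obtain ⟨e, he⟩ := h
  obtain ⟨y, rfl⟩ := e.toLinearEquiv.surjective x
  exact (congrArg Q' (he y).symm).trans ((e.map_app _).trans ((hf y).trans (e.map_app _).symm))

theorem exists_trQ (e : Q.IsometryEquiv Q') (f : End F V) : ∃ g, TrQ Q f Q' g :=
  ⟨e.toLinearEquiv.conj f, e, fun v => by simp⟩

/-- isometry onto the image of a subspace -/
noncomputable def mapIso (j : V →ₗ[F] W) (hi : Function.Injective j) (hj : ∀ v, Q' (j v) = Q v)
    (U : Submodule F V) : (Q.restrict U).IsometryEquiv (Q'.restrict (U.map j)) :=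
  ⟨Submodule.equivMapOfInjective j hi U, fun v => hj v⟩

/-- isometry with the whole space -/
def topIso (Q : QuadraticForm F V) : (Q.restrict ⊤).IsometryEquiv Q :=
  ⟨Submodule.topEquiv, fun _ => rfl⟩

/-- a product of subspaces -/
noncomputable def prodIso (Q : QuadraticForm F V) (Q' : QuadraticForm F W) (U : Submodule F V)
    (U' : Submodule F W) :
    ((Q.restrict U).prod (Q'.restrict U')).IsometryEquiv ((Q.prod Q').restrict (U.prod U')) :=
  ⟨{ toFun := fun x => ⟨(x.1, x.2), x.1.2, x.2.2⟩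
     invFun := fun x => (⟨x.1.1, x.2.1⟩, ⟨x.1.2, x.2.2⟩)
     map_add' := fun _ _ => rfl
     map_smul' := fun _ _ => rfl
     left_inv := fun _ => rfl
     right_inv := fun _ => rfl }, fun _ => rfl⟩

theorem SQ.map {m : ℕ} (h : SQ Q f m) (j : V →ₗ[F] W) (hi : Function.Injective j)
    (h1 : ∀ v, j (f v) = g (j v)) (h2 : ∀ v, Q' (j v) = Q v) : SQ Q' g m := by
  obtain ⟨U, a1, a2, a3⟩ := h
  exact ⟨U.map j, (finrank_map_inj hi U).trans a1, a2.map j h2, map_inv_of_intertwine j h1 a3⟩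

theorem Emb.map (h : Emb Q f Q₀) (j : V →ₗ[F] W) (hi : Function.Injective j)
    (h1 : ∀ v, j (f v) = g (j v)) (h2 : ∀ v, Q' (j v) = Q v) : Emb Q' g Q₀ := by
  obtain ⟨U, ⟨a1⟩, a3⟩ := h
  exact ⟨U.map j, ⟨(mapIso j hi h2 U).symm.trans a1⟩, map_inv_of_intertwine j h1 a3⟩

theorem SQ.tr {m : ℕ} (h : SQ Q f m) (h' : TrQ Q f Q' g) : SQ Q' g m :=
  h.map h'.choose.toLinearEquiv h'.choose.toLinearEquiv.injective h'.choose_spec h'.choose.map_app

theorem Emb.tr (h : Emb Q f Q₀) (h' : TrQ Q f Q' g) : Emb Q' g Q₀ :=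
  h.map h'.choose.toLinearEquiv h'.choose.toLinearEquiv.injective h'.choose_spec h'.choose.map_app

theorem TrQ.sq_iff (h : TrQ Q f Q' g) (m : ℕ) : SQ Q f m ↔ SQ Q' g m :=
  ⟨fun a => a.tr h, fun a => a.tr h.symm⟩

theorem TrQ.emb_iff (h : TrQ Q f Q' g) : Emb Q f Q₀ ↔ Emb Q' g Q₀ :=
  ⟨fun a => a.tr h, fun a => a.tr h.symm⟩

theorem sq_smul {m : ℕ} {c : F} (hc : c ≠ 0) : SQ Q (c • f) m ↔ SQ Q f m := by
  simp only [SQ, map_smul_eq hc]

theorem emb_smul {c : F} (hc : c ≠ 0) : Emb Q (c • f) Q₀ ↔ Emb Q f Q₀ := by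
  simp only [Emb, map_smul_eq hc]

theorem Emb.congr (h : Emb Q f Q₀) (e : Q₀.IsometryEquiv Q') : Emb Q f Q' := by
  obtain ⟨U, ⟨a1⟩, a3⟩ := h
  exact ⟨U, ⟨a1.trans e⟩, a3⟩

theorem emb_self (Q : QuadraticForm F V) (f : End F V) : Emb Q f Q := ⟨⊤, ⟨topIso Q⟩, le_top⟩

theorem emb_inl (f : End F V) (g : End F W) : Emb (Q.prod Q') (f.prodMap g) Q :=
  (emb_self Q f).map (LinearMap.inl F V W) LinearMap.inl_injective (by simp) (by simp)

theorem sing_prod {U : Submodule F V} {U' : Submodule F W} :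
    Sing (Q.prod Q') (U.prod U') ↔ Sing Q U ∧ Sing Q' U' :=
  ⟨fun h => ⟨fun u hu => by simpa using h (u, 0) ⟨hu, zero_mem _⟩,
    fun u hu => by simpa using h (0, u) ⟨zero_mem _, hu⟩⟩,
    fun h x hx => by simp [h.1 _ hx.1, h.2 _ hx.2]⟩

theorem nds_iff_nd {U : Submodule F V} : NDs Q.polarBilin U ↔ ND (Q.restrict U) :=
  ⟨fun h x hx => by_contra fun h0 => by
    obtain ⟨v, hv, h1⟩ := h x x.2 fun e => h0 (Subtype.ext e)
    exact h1 (hx ⟨v, hv⟩), fun h u hu h0 => by_contra fun hc => h0 (congrArg Subtype.val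
      (h ⟨u, hu⟩ fun y => by_contra fun e => hc ⟨y, y.2, e⟩))⟩

theorem perp_polar (U : Submodule F V) : Herm.perp Q.polarBilin U = perp Q U := rfl

theorem isPlus_res (Q : QuadraticForm F V) (W : Submodule F V) :
    IsPlus (Q.restrict W) ↔ ∃ U ≤ W, Sing Q U ∧ 2 * finrank F U = finrank F W := by
  refine ⟨fun ⟨U, h1, h2⟩ => ⟨U.map W.subtype, Submodule.map_subtype_le _ _,
    h1.map _ fun _ => rfl, by rwa [Submodule.finrank_map_subtype_eq]⟩, fun ⟨U, h0, h1, h2⟩ =>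
      ⟨U.comap W.subtype, fun w hw => h1 _ hw, ?_⟩⟩
  rwa [(Submodule.comapSubtypeEquivOfLe h0).finrank_eq]

theorem isPlus_zero (h : finrank F V = 0) : IsPlus Q := ⟨⊥, sing_bot, by simp [h]⟩

theorem IsPlus.even' (h : IsPlus Q) : Even (finrank F V) := by
  obtain ⟨U, -, h⟩ := h
  exact h ▸ even_two_mul _

theorem trQ_res {U U' : Submodule F V} (hc : IsCompl U U') (ho : U' ≤ perp Q U)
    (h : U.map f ≤ U) (h' : U'.map f ≤ U') :
    TrQ ((Q.restrict U).prod (Q.restrict U')) ((res f h).prodMap (res f h')) Q f :=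
  ⟨⟨Submodule.prodEquivOfIsCompl U U' hc, fun x => by
    change Q (x.1 + x.2) = Q x.1 + Q x.2
    rw [q_add, mem_perp.1 (ho x.2.2) _ x.1.2, add_zero]⟩, fun v => by
    change (f v.1 : V) + f v.2 = f (v.1 + v.2)
    rw [map_add]⟩

variable [FiniteDimensional F V] [FiniteDimensional F W] [FiniteDimensional F V₀]

theorem trQ_Fx (hf : IQ Q f) {N : ℕ} (hN : (N : F) ≠ 0) (h : f ^ N = 1) :
    TrQ ((Q.restrict (Fx f)).prod (Q.restrict (Mo f)))
      ((1 : End F (Fx f)).prodMap (res f (Mo_inv f))) Q f :=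
  res_Fx f ▸ trQ_res (isCompl_Fx hN h) (Mo_le_perp hf.im) (Fx_inv f) (Mo_inv f)

theorem nd_Fx (hQ : ND Q) (hf : IQ Q f) {N : ℕ} (hN : (N : F) ≠ 0) (h : f ^ N = 1) :
    ND (Q.restrict (Fx f)) := nds_iff_nd.1 (nds_Fx (ef_polar hQ) hf.im hN h)

theorem nd_Mo (hQ : ND Q) (hf : IQ Q f) {N : ℕ} (hN : (N : F) ≠ 0) (h : f ^ N = 1) :
    ND (Q.restrict (Mo f)) := nds_iff_nd.1 (nds_Mo (ef_polar hQ) hf.im hN h)

theorem IQ.perp_inv (hQ : ND Q) (hf : IQ Q f) {U : Submodule F V} (h : U.map f ≤ U) :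
    (perp Q U).map f ≤ perp Q U := Elu.perp_inv (ef_polar hQ) hf.im h

theorem trQ_perp (hQ : ND Q) (hf : IQ Q f) {U : Submodule F V} (hU : ND (Q.restrict U))
    (h : U.map f ≤ U) : TrQ ((Q.restrict U).prod (Q.restrict (perp Q U)))
      ((res f h).prodMap (res f (hf.perp_inv hQ h))) Q f :=
  trQ_res (hQ.isCompl_perp ((nd_restrict_iff U).1 hU)) le_rfl _ _

theorem sq_prod_iff (hg : ∀ y, g y = y → y = 0) (m : ℕ) :
    SQ (Q.prod Q') ((1 : End F V).prodMap g) m ↔ ∃ a b, m = a + b ∧ SQ Q 1 a ∧ SQ Q' g b := by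
  constructor
  · rintro ⟨U, rfl, a1, a2⟩
    obtain ⟨U₁, U₂, rfl, a3⟩ := eq_prod_of_inv hg a2
    exact ⟨_, _, finrank_sprod _ _, ⟨U₁, rfl, (sing_prod.1 a1).1, one_inv _⟩,
      U₂, rfl, (sing_prod.1 a1).2, a3⟩
  · rintro ⟨_, _, rfl, ⟨U₁, rfl, a1, a2⟩, U₂, rfl, a3, a4⟩
    exact ⟨_, finrank_sprod _ _, sing_prod.2 ⟨a1, a3⟩, prod_inv a2 a4⟩

theorem emb_prod_iff (hg : ∀ y, g y = y → y = 0) :
    Emb (Q.prod Q') ((1 : End F V).prodMap g) Q₀ ↔ ∃ (U : Submodule F V) (U' : Submodule F W),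
      U'.map g ≤ U' ∧ Nonempty (((Q.restrict U).prod (Q'.restrict U')).IsometryEquiv Q₀) := by
  constructor
  · rintro ⟨U, ⟨a1⟩, a2⟩
    obtain ⟨U₁, U₂, rfl, a3⟩ := eq_prod_of_inv hg a2
    exact ⟨U₁, U₂, a3, ⟨(prodIso ..).trans a1⟩⟩
  · rintro ⟨U₁, U₂, a1, ⟨a2⟩⟩
    exact ⟨_, ⟨(prodIso ..).symm.trans a2⟩, prod_inv (one_inv _) a1⟩

theorem sq_iff_ts (hg : IQ Q' g) (h : ∀ y, g y = y → y = 0) (m : ℕ) :
    SQ Q' g m ↔ TS Q'.polarBilin g m := by
  refine exists_congr fun U => and_congr_right fun _ => and_congr_left fun hU =>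
    ⟨fun a u hu v hv => a.polar hu hv, fun a u hu => ?_⟩
  obtain ⟨w, hw⟩ := surj_sub_one (g := res g hU) (fun x hx => Subtype.ext (h _
    (congrArg Subtype.val hx))) ⟨u, hu⟩
  have h1 : u = g w - w := (congrArg Subtype.val hw).symm
  rw [h1, q_sub_self hg, show polar Q' w w = 0 from a _ w.2 _ w.2,
    show polar Q' (g w) w = 0 from a _ (inv_iff.1 hU _ w.2) _ w.2, sub_zero]

theorem plus_of_prod (h₁ : ND Q) (h₂ : ND Q') (p₁ : IsPlus Q) (p : IsPlus (Q.prod Q')) :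
    IsPlus Q' := by
  obtain ⟨U, hU, dU⟩ := p₁
  obtain ⟨X, hX, dX⟩ := p
  obtain ⟨W, -, hW, hm⟩ := exists_maximal_sing (sing_bot (Q := Q'))
  have hp := h₁.perp_eq_self hU dU
  have h1 : Sing (Q.prod Q') (U.prod W) := fun w hw => by simp [hU _ hw.1, hW _ hw.2]
  have h2 := (nd_prod h₁ h₂).finrank_le_of_maximal hX h1 fun Y hY hs => le_antisymm (fun y hy => by
    have h3 : y.1 ∈ U := hp ▸ Orth.mem_perp.2 fun u hu => by
      simpa [polar_prod] using hs.polar (hY (show (u, 0) ∈ U.prod W from ⟨hu, W.zero_mem⟩)) hy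
    have h4 : Q' y.2 = 0 := by simpa [hU _ h3] using hs y hy
    refine ⟨h3, hm _ le_sup_left (hW.sup (sing_span_singleton h4) ?_) ▸
      Submodule.mem_sup_right (Submodule.mem_span_singleton_self _)⟩
    rw [Submodule.span_singleton_le_iff_mem, Orth.mem_perp]
    intro w hw
    simpa [polar_prod] using hs.polar (hY (show (0, w) ∈ U.prod W from ⟨U.zero_mem, hw⟩)) hy) hY
  rw [finrank_submodule_prod] at h2
  rw [finrank_prod] at dX
  exact ⟨W, hW, le_antisymm (h₂.two_mul_finrank_le hW) (by omega)⟩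

theorem plus_prod_neg (Q : QuadraticForm F V) : IsPlus (Q.prod ((-1 : F) • Q)) :=
  ⟨LinearMap.range (LinearMap.id.prod LinearMap.id), by rintro _ ⟨v, rfl⟩; simp, by
    rw [LinearMap.finrank_range_of_inj fun a b e => congrArg Prod.fst e, finrank_prod, two_mul]⟩

omit [FiniteDimensional F V] in
theorem dim_of_not_plus (h : ¬ IsPlus Q) (he : Even (finrank F V)) :
    ∃ m, finrank F V = 2 * m + 2 := by
  obtain ⟨k, hk⟩ := he
  have : k ≠ 0 := by rintro rfl; exact h (isPlus_zero hk)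
  exact ⟨k - 1, by omega⟩

variable [Finite F]

theorem plus_prod_iff (h₁ : ND Q) (h₂ : ND Q') (e₁ : Even (finrank F V))
    (e₂ : Even (finrank F W)) : IsPlus (Q.prod Q') ↔ (IsPlus Q ↔ IsPlus Q') := by
  by_cases p₁ : IsPlus Q
  · exact ⟨fun p => iff_of_true p₁ (plus_of_prod h₁ h₂ p₁ p), fun p => isPlus_prod p₁ (p.1 p₁)⟩
  by_cases p₂ : IsPlus Q'
  · exact iff_of_false (fun p => p₁ (plus_of_prod h₂ h₁ p₂
      (p.of_iso (IsometryEquiv.prodComm _ _)))) (by tauto)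
  refine iff_of_true ?_ (by tauto)
  obtain ⟨a, ha⟩ := dim_of_not_plus p₁ e₁
  obtain ⟨b, hb⟩ := dim_of_not_plus p₂ e₂
  obtain ⟨ζ, hζ⟩ := exists_aniso (F := F)
  have hn : (-1 : F) ≠ 0 := by simp
  have h3 : ND ((plusQ b F).prod ((-1 : F) • binQ 1 ζ)) := nd_prod (nd_plusQ b) (nd_smul hζ.nd hn)
  obtain ⟨f₁⟩ := h₁.iso_minusQ p₁ ha hζ
  obtain ⟨f₂⟩ := h3.iso_of_isPlus_iff h₂ (by simp [hb]; omega) (by simp; exact ⟨b + 1, by omega⟩)
    (iff_of_false (fun p => not_isPlus_minusQ 0 hζ (((isPlus_smul_iff hn).1 (plus_of_prod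
      (nd_plusQ b) (nd_smul hζ.nd hn) (isPlus_plusQ b) p)).of_iso (minusZero _ _))) p₂)
  exact (isPlus_prod (isPlus_prod (isPlus_plusQ a) (isPlus_plusQ b)) (plus_prod_neg _)).of_iso
    ((IsometryEquiv.prodProdProdComm _ _ _ _).trans (((minusIso a 1 ζ).trans f₁).prod f₂))

theorem plus_iso_iff (h₁ : ND Q) (h₂ : ND Q') (e : (Q.prod Q').IsometryEquiv Q₀)
    (e₁ : Even (finrank F V)) (e₂ : Even (finrank F W)) :
    IsPlus Q₀ ↔ (IsPlus Q ↔ IsPlus Q') :=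
  (isPlus_iff_of_iso e).symm.trans (plus_prod_iff h₁ h₂ e₁ e₂)

theorem sq_one_iff' (hQ : ND Q) (a : ℕ) :
    SQ Q 1 a ↔ 2 * a ≤ finrank F V ∧ (2 * a = finrank F V → IsPlus Q) := by
  constructor
  · rintro ⟨U, rfl, a1, -⟩
    exact ⟨hQ.two_mul_finrank_le a1, fun h => ⟨U, a1, h⟩⟩
  rintro ⟨h1, h2⟩
  by_cases h : 2 * a + 2 ≤ finrank F V
  · obtain ⟨U, a1, a2⟩ := hQ.exists_sing_finrank h
    exact ⟨U, a2, a1, one_inv _⟩
  by_cases h' : 2 * a = finrank F V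
  · obtain ⟨U, a1, a2⟩ := h2 h'
    exact ⟨U, by omega, a1, one_inv _⟩
  obtain ⟨c, -, ⟨e⟩⟩ := hQ.iso_odd (m := a) (by omega)
  refine SQ.map (Q := plusQ a F) (f := 1) ⟨_, finrank_stdX a, sing_stdX a, one_inv _⟩
    (e.toLinearEquiv.toLinearMap ∘ₗ LinearMap.inl F _ _)
    (e.toLinearEquiv.injective.comp LinearMap.inl_injective) (fun _ => rfl) fun v => ?_
  simpa using e.map_app (v, 0)

theorem exists_form_even {k : ℕ} (hk : Even k) (τ : Prop) (h : k = 0 → τ) :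
    ∃ Q : QuadraticForm F (Fin k → F), ND Q ∧ (IsPlus Q ↔ τ) := by
  have key : ∀ {ι : Type} [Fintype ι] (Q : QuadraticForm F (ι → F)), Fintype.card ι = k → ND Q →
      (IsPlus Q ↔ τ) → ∃ Q : QuadraticForm F (Fin k → F), ND Q ∧ (IsPlus Q ↔ τ) := by
    intro ι _ Q h1 h2 h3
    have e : (ι → F) ≃ₗ[F] (Fin k → F) := LinearEquiv.ofFinrankEq _ _ (by simp [h1])
    have e' := isometryEquivOfCompLinearEquiv Q e.symm
    exact ⟨_, h2.of_iso e', (isPlus_iff_of_iso e').symm.trans h3⟩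
  obtain ⟨j, rfl⟩ := hk
  by_cases hτ : τ
  · exact key (plusQ j F) (by simp) (nd_plusQ j) (iff_of_true (isPlus_plusQ j) hτ)
  obtain ⟨ζ, hζ⟩ := exists_aniso (F := F)
  obtain ⟨j, rfl⟩ := Nat.exists_eq_succ_of_ne_zero (show j ≠ 0 by rintro rfl; exact hτ (h rfl))
  exact key (minusQ j F 1 ζ) (by simp; omega) (nd_minusQ j (aniso_disc_ne_zero hζ))
    (iff_of_false (not_isPlus_minusQ j hζ) hτ)

omit [Finite F] [FiniteDimensional F V] [FiniteDimensional F W] in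
theorem det_gram_prod {ι κ : Type*} [Fintype ι] [DecidableEq ι] [Fintype κ] [DecidableEq κ]
    (b : Basis ι F V) (c : Basis κ F W) :
    (gram (Q.prod Q') (b.prod c)).det = (gram Q b).det * (gram Q' c).det := by
  rw [← Matrix.det_fromBlocks_zero₂₁ _ 0]
  congr 1
  ext (i | i) (j | j) <;> simp [gram, polar_prod]

theorem two_ne_of_odd (hQ : ND Q) (h : Odd (finrank F V)) : (2 : F) ≠ 0 := fun h2 =>
  Nat.not_even_iff_odd.2 h (hQ.even_finrank_of_char_two h2)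

/-- orthogonal complements exist -/
theorem exists_cpl (hQ : ND Q) (hQ' : ND Q') {k : ℕ} (hk : finrank F W + k = finrank F V)
    (h : k = 0 → Even (finrank F V) ∧ (IsPlus Q' ↔ IsPlus Q)) :
    ∃ Q₁ : QuadraticForm F (Fin k → F), ND Q₁ ∧ Nonempty ((Q'.prod Q₁).IsometryEquiv Q) := by
  have hd : finrank F (W × (Fin k → F)) = finrank F V := by simp [← hk]
  by_cases he : Even (finrank F V) ∧ Even (finrank F W)
  · have h1 : Even k := (Nat.even_add.1 (hk ▸ he.1)).1 he.2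
    obtain ⟨Q₁, a1, a2⟩ := exists_form_even (F := F) h1 (IsPlus Q' ↔ IsPlus Q) fun e => (h e).2
    refine ⟨Q₁, a1, (nd_prod hQ' a1).iso_of_isPlus_iff hQ hd (hd ▸ he.1) ?_⟩
    rw [plus_prod_iff hQ' a1 he.2 (by simpa using h1), a2]
    tauto
  have h2 : (2 : F) ≠ 0 := fun h2 =>
    he ⟨hQ.even_finrank_of_char_two h2, hQ'.even_finrank_of_char_two h2⟩
  obtain ⟨k, rfl⟩ := Nat.exists_eq_succ_of_ne_zero (show k ≠ 0 by
    rintro rfl; exact he ⟨(h rfl).1, (show finrank F W = _ from hk) ▸ (h rfl).1⟩)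
  set a := (gram Q' (finBasis F W)).det
  set b := (gram Q (finBasis F V)).det
  have ha : a ≠ 0 := hQ'.det_gram_ne_zero _
  have hb : b ≠ 0 := hQ.det_gram_ne_zero _
  have h3 : ND (weightedSumSquares F (Fin.cons (2 ^ (k + 1) * a * b) 1 : Fin (k + 1) → F)) :=
    nd_wss h2 (Fin.cases (by simp [h2, ha, hb]) (by simp))
  refine ⟨_, h3, ((nd_prod hQ' h3).iso_iff_disc hQ h2 hd
    ((finBasis F W).prod (Pi.basisFun F _)) (finBasis F V)).2 ⟨2 ^ (k + 1) * a * b, ?_⟩⟩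
  rw [det_gram_prod, det_gram_wss, Fin.prod_univ_succ]
  simp [a, b]; ring

theorem emb_one (hQ : ND Q) (h₀ : ND Q₀) (hle : finrank F V₀ ≤ finrank F V)
    (h : finrank F V₀ = finrank F V → Even (finrank F V) ∧ (IsPlus Q₀ ↔ IsPlus Q)) :
    Emb Q 1 Q₀ := by
  obtain ⟨Q₁, -, ⟨e⟩⟩ := exists_cpl hQ h₀ (Nat.add_sub_cancel' hle) fun e => h (by omega)
  exact (emb_inl 1 1).tr ⟨e, fun _ => rfl⟩

theorem exists_nd_sub (hQ : ND Q) (h2 : (2 : F) ≠ 0) {a : ℕ} (ha : a ≤ finrank F V) :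
    ∃ U : Submodule F V, finrank F U = a ∧ ND (Q.restrict U) := by
  rcases ha.eq_or_lt with rfl | ha
  · exact ⟨⊤, finrank_top F V, hQ.of_iso (topIso Q).symm⟩
  have h3 : ND (weightedSumSquares F (1 : Fin a → F)) := nd_wss h2 (by simp)
  obtain ⟨U, ⟨e⟩, -⟩ := emb_one hQ h3 (by simpa using ha.le) (by simp; omega)
  exact ⟨U, by simpa using iso_finrank e, h3.of_iso e.symm⟩

/-- gluing a free part in the fixed space -/
theorem exists_glue (hQ : ND Q) (hQ' : ND Q') (h₀ : ND Q₀) {a : ℕ}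
    (hk : finrank F W + a = finrank F V₀) (ha : a ≤ finrank F V)
    (h1 : a = 0 → Even (finrank F V₀) ∧ (IsPlus Q' ↔ IsPlus Q₀))
    (h2 : a = finrank F V → Even a ∧ Even (finrank F W) ∧ (IsPlus Q ↔ (IsPlus Q' ↔ IsPlus Q₀))) :
    ∃ U : Submodule F V, Nonempty (((Q.restrict U).prod Q').IsometryEquiv Q₀) := by
  obtain ⟨Q₁, a1, ⟨e⟩⟩ := exists_cpl h₀ hQ' hk h1
  obtain ⟨U, ⟨e'⟩, -⟩ := emb_one hQ a1 (by simpa using ha) fun h => by
    obtain ⟨b1, b2, b3⟩ := h2 (by simpa using h)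
    have := plus_iso_iff hQ' a1 e b2 (by simpa using b1)
    exact ⟨h ▸ by simpa using b1, by tauto⟩
  exact ⟨U, ⟨((e'.prod (QuadraticMap.IsometryEquiv.refl _)).trans (IsometryEquiv.prodComm _ _)).trans e⟩⟩

theorem iso_iff_type (h₀ : ND Q₀) (he : Even (finrank F V₀)) (U : Submodule F V) :
    Nonempty ((Q.restrict U).IsometryEquiv Q₀) ↔ finrank F U = finrank F V₀ ∧
      ND (Q.restrict U) ∧ (IsPlus (Q.restrict U) ↔ IsPlus Q₀) :=
  ⟨fun ⟨e⟩ => ⟨iso_finrank e, h₀.of_iso e.symm, isPlus_iff_of_iso e⟩,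
    fun ⟨a1, a2, a3⟩ => a2.iso_of_isPlus_iff h₀ a1 (a1 ▸ he) a3⟩

omit [Finite F] in
theorem Emb.perp (hQ : ND Q) (hf : IQ Q f) (h₀ : ND Q₀) (hQ' : ND Q')
    (e : (Q₀.prod Q').IsometryEquiv Q) (h : Emb Q f Q₀) : Emb Q f Q' := by
  obtain ⟨U, ⟨a1⟩, a2⟩ := h
  have b1 := (nd_restrict_iff U).1 (h₀.of_iso a1.symm)
  exact ⟨_, witt_cancel h₀ (hQ.nd_perp b1) hQ' (((a1.symm.prod (QuadraticMap.IsometryEquiv.refl _)).trans
    (splitIso (hQ.isCompl_perp b1))).trans e.symm), hf.perp_inv hQ a2⟩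

end Cfsg.Agent.Elu
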