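import Mathlib
import Cfsg.Agent.Elu.Or

/-!
Shapes of orthogonal elements of prime order coprime to the characteristic.
-/

set_option autoImplicit false
set_option backward.isDefEq.respectTransparency false

namespace Cfsg.Agent.Elu

open Module Polynomial Conj Spc Orth QuadraticMap
open scoped _root_.Classical

/-- the type of a fixed point free part -/
def rho (i j : ℕ) : Prop := Odd i ∨ Even j

theorem dvd_iff_rho {i j k : ℕ} (hi : 0 < i) (h : 2 * k = cc i * j) : i ∣ k ↔ rho i j := by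
  unfold cc at h
  unfold rho
  split_ifs at h with he
  · rw [or_iff_right (Nat.not_odd_iff_even.2 he), even_iff_two_dvd]
    exact ⟨fun ⟨x, hx⟩ => ⟨x, Nat.eq_of_mul_eq_mul_left hi (by rw [← h, hx]; ring)⟩,
      fun ⟨x, hx⟩ => ⟨x, by rw [hx] at h; nlinarith⟩⟩
  · exact iff_of_true ⟨j, by nlinarith⟩ (Or.inl (Nat.not_even_iff_odd.1 he))

theorem iff_cancel (a b : Prop) : a ↔ ((a ↔ b) ↔ b) := by tauto

universe u
variable {F : Type u} {V W V₀ : Type*} [Field F] [AddCommGroup V] [Module F V] [AddCommGroup W]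
  [Module F W] [AddCommGroup V₀] [Module F V₀] {Q : QuadraticForm F V} {Q' : QuadraticForm F W}
  {Q₀ : QuadraticForm F V₀} {f : End F V} {g : End F W} {r : ℕ}

theorem Om.pow (h : Om Q f) (k : ℕ) : Om Q (f ^ k) := by
  obtain ⟨g, a, rfl⟩ := h
  exact ⟨_, pow_mem a k, map_pow _ _ _⟩

theorem om_iff (g : OG Q) : Om Q (subRep _ g) ↔ g ∈ commutator (OG Q) :=
  ⟨fun ⟨_, a, b⟩ => subRep_injective _ b ▸ a, fun h => ⟨g, h, rfl⟩⟩

theorem TrQ.om (h : TrQ Q f Q' g) (hf : Om Q f) : Om Q' g := by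
  obtain ⟨e, he⟩ := h
  obtain ⟨x, a, rfl⟩ := hf
  refine ⟨ogCongr e x, map_mem_commutator (ogCongr e).toMonoidHom a, LinearMap.ext fun v => ?_⟩
  obtain ⟨y, rfl⟩ := e.toLinearEquiv.surjective v
  exact (ogCongr_apply_apply e x y).trans (he y)

theorem forall_Om_iff {ι : Type} [Fintype ι] [DecidableEq ι] (Q : QuadraticForm F (ι → F))
    (P : End F (ι → F) → Prop) :
    (∀ x : GL ι F, x ∈ Geo.omegaGL ⇑Q →
      (∃ c : F, ((x ^ r : GL ι F) : Matrix ι ι F) = c • (1 : Matrix ι ι F)) →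
      (∀ c : F, (x : Matrix ι ι F) ≠ c • (1 : Matrix ι ι F)) →
      P (Matrix.toLin' (x : Matrix ι ι F))) ↔
      ∀ f (c : F), Om Q f → f ^ r = c • 1 → (∀ a : F, f ≠ a • 1) → P f := by
  constructor
  · rintro h _ c ⟨g, h1, rfl⟩ h2 h3
    obtain ⟨g, rfl⟩ := (toOG Q).surjective g
    exact h g ⟨g, (mem_Omega_iff g).2 h1, rfl⟩ ⟨c, (toLin'_eq_smul_iff g.1.1 r c).1 h2⟩
      fun a e => h3 a ((pow_one _).symm.trans ((toLin'_eq_smul_iff g.1.1 1 a).2 (by simpa using e)))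
  · rintro h _ ⟨g, h1, rfl⟩ ⟨c, hc⟩ h3
    exact h _ c ⟨toOG Q g, (mem_Omega_iff g).1 h1, rfl⟩ ((toLin'_eq_smul_iff _ r c).2 hc)
      fun a e => h3 a (by simpa using (toLin'_eq_smul_iff g.1.1 1 a).1 (by simpa using e))

variable [Fintype F] [FiniteDimensional F V] [FiniteDimensional F W] [FiniteDimensional F V₀]

theorem not_om_neg (hQ : ND Q) (h : Odd (finrank F V)) : ¬ Om Q ((-1 : F) • 1) := fun h' =>
  negOne_notMem_odd (two_ne_of_odd hQ h) hQ h ((om_iff _).1 (by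
    convert h' using 1; ext; simp [subRep_apply]))

theorem forall_Om_ord {ι : Type} [Fintype ι] [DecidableEq ι] {Q : QuadraticForm F (ι → F)}
    (hQ : ND Q) (hn : Odd (finrank F (ι → F))) (hr : r.Prime) (P : End F (ι → F) → Prop) :
    (∀ x : GL ι F, x ∈ Geo.omegaGL ⇑Q → orderOf x = r → P (Matrix.toLin' (x : Matrix ι ι F))) ↔
      ∀ f (c : F), Om Q f → f ^ r = c • 1 → (∀ a : F, f ≠ a • 1) → P f := by
  haveI := Fact.mk hr
  haveI : Nontrivial (ι → F) := Module.nontrivial_of_finrank_pos (R := F) hn.pos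
  rw [← forall_Om_iff]
  refine forall_congr' fun x => forall_congr' fun hx => ?_
  have h1 : Om Q (Matrix.toLin' x.1) := by
    obtain ⟨g, h1, rfl⟩ := hx
    exact ⟨toOG Q g, (mem_Omega_iff g).1 h1, rfl⟩
  have h2 : ∀ k (c : F), (x ^ k).1 = c • 1 → x ^ k = 1 := fun k c hc => by
    have h3 := (toLin'_eq_smul_iff _ k c).2 hc
    rcases h1.iq.im.pm (ef_polar hQ) h3 with rfl | rfl
    · exact Units.ext (by simpa using hc)
    · exact absurd (h3 ▸ h1.pow k) (not_om_neg hQ hn)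
  refine ⟨fun h ⟨c, hc⟩ h3 => h (orderOf_eq_prime (h2 r c hc) ?_), fun h h3 =>
    h ⟨1, by rw [← h3, pow_orderOf_eq_one]; simp⟩ fun c hc => ?_⟩
  · rintro rfl
    exact h3 1 (by simp)
  · have := h2 1 c (by simpa using hc)
    rw [pow_one] at this
    rw [this, orderOf_one] at h3
    exact hr.one_lt.ne h3

theorem om_of_odd (hQ : ND Q) (hg : Good F V) (hf : IQ Q f) {N : ℕ} (hN : Odd N)
    (h : f ^ N = 1) : Om Q f := by
  obtain ⟨g, rfl⟩ := exists_og hQ hf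
  have hg' : g ^ N = 1 := subRep_injective _ (by rw [map_pow, h, map_one])
  obtain ⟨k, rfl⟩ := hN
  have : g = g ^ (k + 1) * g ^ (k + 1) := by
    rw [← pow_add, show k + 1 + (k + 1) = 2 * k + 1 + 1 by ring, pow_succ, hg', one_mul]
  exact ⟨g, this ▸ hQ.sq_mem_commutator hg _, rfl⟩

theorem forall_om_odd [Nontrivial V] (hQ : ND Q) (hg : Good F V) (hr : Odd r)
    (P : End F V → Prop) (hP : ∀ f, P f → P ((-1 : F) • f)) :
    (∀ f (c : F), Om Q f → f ^ r = c • 1 → (∀ a : F, f ≠ a • 1) → P f) ↔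
      ∀ f, IQ Q f → f ^ r = 1 → f ≠ 1 → P f := by
  refine ⟨fun h f h1 h2 h3 => h f 1 (om_of_odd hQ hg h1 hr h2) (by simpa using h2) ?_,
    fun h f c h1 h2 h3 => ?_⟩
  · rintro a rfl
    rcases Im.pm (ef_polar hQ) h1.im (r := 1) (pow_one _) with rfl | rfl
    · simp at h3
    · rw [_root_.smul_pow, hr.neg_one_pow, one_pow] at h2
      exact h3 h2
  · rcases h1.iq.im.pm (ef_polar hQ) h2 with rfl | rfl
    · exact h f h1.iq (by simpa using h2) (by simpa using h3 1)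
    · simpa using hP _ (h ((-1 : F) • f) h1.iq.neg
        (by rw [_root_.smul_pow, h2, hr.neg_one_pow]; simp) fun e => h3 (-1) (by rw [← e]; simp))

theorem plus_fpf (hr : r.Prime) (h2 : r ≠ 2) (h0 : (r : F) ≠ 0) (hQ : ND Q) (hf : IQ Q f)
    (h1 : f ^ r = 1) (h : ∀ x, f x = x → x = 0) {i j : ℕ}
    (hi : i = orderOf (Fintype.card F : ZMod r)) (hd : finrank F V = cc i * j) :
    IsPlus Q ↔ rho i j := by
  haveI := Fact.mk hr
  obtain ⟨k, hk⟩ := ((even_cc i).mul_right j).two_dvd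
  rw [isPlus_iff_of_fpf h0 h2 hQ (hd.trans hk) h1 hf h, ← orderOf_dvd_iff_pow_eq_one, ← hi,
    dvd_iff_rho (hi ▸ ord_pos h0 hr) hk.symm]

/-- shape of an orthogonal element -/
def OS (Q : QuadraticForm F V) (f : End F V) (i e s w : ℕ) : Prop :=
  finrank F V = e + cc i * s ∧ finrank F (Fx f) = e ∧ (e = 0 → (IsPlus Q ↔ rho i s)) ∧
    (∀ m, SQ Q f m ↔ ∃ a j, (2 * a ≤ e ∧ (2 * a = e → (IsPlus Q ↔ rho i s))) ∧ j ≤ w ∧
      m = a + i * j) ∧
    ∀ (V₀ : Type u) [AddCommGroup V₀] [Module F V₀] [FiniteDimensional F V₀]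
      (Q₀ : QuadraticForm F V₀), ND Q₀ → Even (finrank F V₀) ∨ Even (finrank F V) →
      (Emb Q f Q₀ ↔ ∃ a j, a ≤ e ∧ j ≤ s ∧ finrank F V₀ = a + cc i * j ∧
        (a = 0 → (IsPlus Q₀ ↔ rho i j)) ∧
        (a = e → ((IsPlus Q ↔ rho i s) ↔ (IsPlus Q₀ ↔ rho i j))))

theorem os_prod (hr : r.Prime) (h2 : r ≠ 2) (h0 : (r : F) ≠ 0) (hQ : ND Q) (hQ' : ND Q')
    (hg : IQ Q' g) (h1 : g ^ r = 1) (hf : ∀ y, g y = y → y = 0) {i s w : ℕ}
    (hi : i = orderOf (Fintype.card F : ZMod r)) (h : Shp Q'.polarBilin g i (cc i) s w) :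
    OS (Q.prod Q') ((1 : End F V).prodMap g) i (finrank F V) s w := by
  have ec := fun j => (even_cc i).mul_right j
  have k1 : Even (finrank F V) → (IsPlus Q ↔ (IsPlus (Q.prod Q') ↔ rho i s)) := fun he => by
    rw [plus_prod_iff hQ hQ' he (h.1 ▸ ec s), plus_fpf hr h2 h0 hQ' hg h1 hf hi h.1]
    exact iff_cancel _ _
  have k2 : ∀ (U : Submodule F W) (hU : U.map g ≤ U) j, ND (Q'.restrict U) →
      finrank F U = cc i * j → (IsPlus (Q'.restrict U) ↔ rho i j) := fun U hU j a b =>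
    plus_fpf hr h2 h0 a (hg.res hU) (res_pow_one hU h1)
      (fun x hx => Subtype.ext (hf _ (congrArg Subtype.val hx))) hi b
  refine ⟨by rw [finrank_prod, h.1], finrank_Fx_prod hf,
    fun e => (k1 (by simp [e])).1 (isPlus_zero e), fun m => ?_, fun V₀ _ _ _ Q₀ h₀ hp => ?_⟩
  · simp only [sq_prod_iff hf, sq_one_iff' hQ, sq_iff_ts hg hf, h.2.1]
    exact ⟨fun ⟨a, _, e, a1, j, a2, e'⟩ => ⟨a, j, ⟨a1.1, fun x => (k1 ⟨a, by omega⟩).1 (a1.2 x)⟩,
      a2, e' ▸ e⟩, fun ⟨a, j, a1, a2, e⟩ =>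
        ⟨a, _, e, ⟨a1.1, fun x => (k1 ⟨a, by omega⟩).2 (a1.2 x)⟩, j, a2, rfl⟩⟩
  have k3 : ∀ a j, finrank F V₀ = a + cc i * j → a = finrank F V → Even a := fun a j x y => by
    rw [finrank_prod, h.1, x, ← y, Nat.even_add, Nat.even_add] at hp
    exact hp.elim (·.2 (ec _)) (·.2 (ec _))
  rw [emb_prod_iff hf]
  constructor
  · rintro ⟨U, U', a1, ⟨e⟩⟩
    have b1 := h₀.of_iso e.symm
    obtain ⟨j, b2, b3⟩ := (h.2.2 _).1 ⟨U', rfl, nds_iff_nd.2 b1.prod_right, a1⟩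
    have b4 := iso_finrank e
    rw [finrank_prod, b3] at b4
    have b5 := fun he => plus_iso_iff b1.prod_left b1.prod_right e he (b3 ▸ ec j)
    rw [k2 U' a1 j b1.prod_right b3] at b5
    refine ⟨_, j, U.finrank_le, b2, b4.symm, fun x => ?_, fun x => ?_⟩
    · have := isPlus_zero (Q := Q.restrict U) x
      rw [b5 (by simp [x])]
      exact (iff_cancel _ _).1 this
    · have b6 := k3 _ j b4.symm x
      obtain rfl := Submodule.eq_top_of_finrank_eq x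
      rw [b5 b6, ← k1 (x ▸ b6), isPlus_iff_of_iso (topIso Q)]
      exact iff_cancel _ _
  · rintro ⟨a, j, a1, a2, a3, a4, a5⟩
    obtain ⟨U', b1, b2, b3⟩ := (h.2.2 _).2 ⟨j, a2, rfl⟩
    have b4 := k2 U' b3 j (nds_iff_nd.1 b2) b1
    obtain ⟨U, hU⟩ := exists_glue (a := a) hQ (nds_iff_nd.1 b2) h₀ (by omega) a1
      (fun x => ⟨by simpa [a3, x] using ec j, b4.trans (a4 x).symm⟩) fun x =>
        ⟨k3 a j a3 x, b1 ▸ ec j, by rw [k1 (x ▸ k3 a j a3 x), a5 x, b4]; exact iff_comm⟩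
    exact ⟨U, U', b3, hU⟩

omit [Fintype F] [FiniteDimensional F V] [FiniteDimensional F W] in
theorem OS.tr {i e s w : ℕ} (h : OS Q f i e s w) (h' : TrQ Q f Q' g) : OS Q' g i e s w := by
  have a := isPlus_iff_of_iso h'.choose
  have b := iso_finrank h'.choose
  refine ⟨b ▸ h.1, (Sim.finrank_Fx h'.sim).symm.trans h.2.1,
    fun x => a.symm.trans (h.2.2.1 x), fun m => ?_,
    fun V₀ _ _ _ Q₀ h₀ hp => ?_⟩
  · rw [← h'.sq_iff, ← a, h.2.2.2.1]
  · rw [← h'.emb_iff, ← a, h.2.2.2.2 V₀ Q₀ h₀ (b ▸ hp)]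

theorem os_of (hr : r.Prime) (h2 : r ≠ 2) (h0 : (r : F) ≠ 0) (hQ : ND Q) {i : ℕ}
    (hi : i = orderOf (Fintype.card F : ZMod r)) (a1 : IQ Q f) (a2 : f ^ r = 1) :
    ∃ e s w, Adm ((r - 1) / i) i (cc i) s w ∧ OS Q f i e s w := by
  obtain ⟨s, w, b1, b2⟩ := shp_fpf hr h2 h0 (ef_polar (nd_Mo hQ a1 h0 a2))
    (a1.res (Mo_inv f)).im (res_pow_one _ a2) (fpf_Mo h0 a2) hi
  exact ⟨_, s, w, b1, (os_prod hr h2 h0 (nd_Fx hQ a1 h0 a2) (nd_Mo hQ a1 h0 a2)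
    (a1.res (Mo_inv f)) (res_pow_one _ a2) (fpf_Mo h0 a2) hi b2).tr (trQ_Fx a1 h0 a2)⟩

theorem exists_os (hr : r.Prime) (h2 : r ≠ 2) (h0 : (r : F) ≠ 0) (hQ : ND Q) {i : ℕ}
    (hi : i = orderOf (Fintype.card F : ZMod r)) {e s w : ℕ} (a2 : e + cc i * s = finrank F V)
    (a4 : e = 0 → (IsPlus Q ↔ rho i s)) (a3 : Adm ((r - 1) / i) i (cc i) s w) :
    ∃ f, IQ Q f ∧ f ^ r = 1 ∧ OS Q f i e s w := by
  obtain ⟨k, g, b1, b2, -, ⟨Q₂, b3, b4⟩, b5⟩ := exists_shp_fpf hr h2 h0 hi a3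
  have b6 := b5 _ _ (ef_polar b3) (IQ.im b4)
  obtain ⟨Q₁, c0, ⟨φ⟩⟩ := exists_cpl (k := e) hQ b3 (by rw [b6.1, add_comm, a2]) fun x =>
    ⟨by simpa [← a2, x] using (even_cc i).mul_right s,
      (plus_fpf hr h2 h0 b3 b4 b1 b2 hi b6.1).trans (a4 x).symm⟩
  obtain ⟨f, c2⟩ := exists_trQ ((IsometryEquiv.prodComm _ _).trans φ)
    ((1 : End F (Fin e → F)).prodMap g)
  refine ⟨f, c2.iq (iq_one.prod b4), ?_, by
    simpa using (os_prod hr h2 h0 c0 b3 b4 b1 b2 hi b6).tr c2⟩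
  simpa using Sim.pow_eq c2.sim (c := 1) (by rw [prodMap_pow', b1, one_pow, one_smul]; rfl)

theorem forall_os (hr : r.Prime) (h2 : r ≠ 2) (h0 : (r : F) ≠ 0) (hQ : ND Q) {i : ℕ}
    (hi : i = orderOf (Fintype.card F : ZMod r)) (P : End F V → Prop) (R : ℕ → ℕ → ℕ → Prop)
    (h : ∀ f e s w, OS Q f i e s w → (P f ↔ R e s w)) :
    (∀ f, IQ Q f → f ^ r = 1 → f ≠ 1 → P f) ↔ ∀ e s w, 1 ≤ s → e + cc i * s = finrank F V →
      (e = 0 → (IsPlus Q ↔ rho i s)) → Adm ((r - 1) / i) i (cc i) s w → R e s w := by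
  have hc := cc_pos (hi ▸ ord_pos h0 hr : 0 < i)
  constructor
  · intro H e s w a1 a2 a4 a3
    obtain ⟨f, c1, c4, c3⟩ := exists_os hr h2 h0 hQ hi a2 a4 a3
    refine (h f _ s w c3).1 (H f c1 c4 fun e' => ?_)
    have := c3.2.1.symm.trans (eq_one_iff_Fx.1 e')
    nlinarith
  · intro H f a1 a2 a3
    obtain ⟨e, s, w, b1, b3⟩ := os_of hr h2 h0 hQ hi a1 a2
    refine (h f _ s w b3).2 (H _ s w (Nat.pos_of_ne_zero ?_) b3.1.symm b3.2.2.1 b1)
    rintro rfl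
    exact a3 (eq_one_iff_Fx.2 (b3.2.1.trans b3.1.symm))

end Cfsg.Agent.Elu
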