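import Mathlib
import Cfsg.Agent.Elu.Or2

/-!
Orthogonal elements of projective order two in odd characteristic.
-/

set_option autoImplicit false
set_option backward.isDefEq.respectTransparency false

namespace Cfsg.Agent.Elu

open Module Polynomial Conj Spc Orth QuadraticMap
open scoped _root_.Classical

universe u
variable {F : Type u} {V W V₀ : Type*} [Field F] [AddCommGroup V] [Module F V] [AddCommGroup W]
  [Module F W] [AddCommGroup V₀] [Module F V₀] {Q : QuadraticForm F V} {Q' : QuadraticForm F W}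
  {Q₀ : QuadraticForm F V₀} {f : End F V} {g : End F W} {r : ℕ}
  [Fintype F] [FiniteDimensional F V] [FiniteDimensional F W] [FiniteDimensional F V₀]

/-- the type of a `2k`-space of square discriminant -/
def r2 (q k : ℕ) : Prop := Even k ∨ q % 4 = 1

theorem sq_neg_pow (h2 : (2 : F) ≠ 0) (k : ℕ) :
    IsSquare ((-1 : F) ^ k) ↔ r2 (Fintype.card F) k := by
  have := Nat.odd_iff.1 (odd_card_of_two_ne_zero h2)
  rcases Nat.even_or_odd k with h | h
  · exact iff_of_true (by simp [h.neg_one_pow]) (Or.inl h)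
  · rw [h.neg_one_pow, FiniteField.isSquare_neg_one_iff, r2,
      or_iff_right (Nat.not_even_iff_odd.2 h)]
    omega

theorem negOne_iff (h2 : (2 : F) ≠ 0) (hQ : ND Q) : negOne Q ∈ commutator (OG Q) ↔
    ∃ k, finrank F V = 2 * k ∧ (IsPlus Q ↔ r2 (Fintype.card F) k) := by
  have key : ∀ k, finrank F V = 2 * k → (IsSquare (gram Q (finBasis F V)).det ↔
      (IsPlus Q ↔ r2 (Fintype.card F) k)) := fun k hk => by
    rw [hQ.isPlus_iff_disc h2 hk (finBasis F V), 
      Orth.isSquare_mul_iff (hQ.det_gram_ne_zero _) (pow_ne_zero _ (by simp)), sq_neg_pow h2]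
    exact iff_cancel _ _
  rw [hQ.negOne_mem_iff h2 (finBasis F V)]
  exact ⟨fun ⟨h, h'⟩ => h.two_dvd.imp fun k hk => ⟨hk, (key k hk).1 h'⟩,
    fun ⟨k, h, h'⟩ => ⟨h ▸ even_two_mul k, (key k h).2 h'⟩⟩

theorem om_prod_neg (h2 : (2 : F) ≠ 0) (hQ : ND Q) (hQ' : ND Q') :
    Om (Q.prod Q') ((1 : End F V).prodMap ((-1 : F) • 1)) ↔
      ∃ k, finrank F W = 2 * k ∧ (IsPlus Q' ↔ r2 (Fintype.card F) k) := by
  have h := om_iff (sumHom (QuadraticMap.IsometryEquiv.refl (Q.prod Q')) (1, negOne Q'))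
  rw [(nd_prod hQ hQ').mem_commutator_iff (good_of_two_ne_zero h2), rk_sumHom, rk_one, zero_add,
    sqSpin_sumHom_right _ (nd_prod hQ hQ') hQ' (good_of_two_ne_zero h2),
    ← hQ'.mem_commutator_iff (good_of_two_ne_zero h2), negOne_iff h2 hQ'] at h
  rw [← h]
  refine iff_of_eq (congrArg _ (LinearMap.ext fun x => Prod.ext rfl ?_))
  exact neg_one_smul F x.2

omit [Fintype F] [FiniteDimensional F W] in
theorem fpf_neg (h2 : (2 : F) ≠ 0) (y : W) (h : ((-1 : F) • 1 : End F W) y = y) : y = 0 := by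
  refine (smul_eq_zero.1 (?_ : (2 : F) • y = 0)).resolve_left h2
  rw [two_smul]
  nth_rw 1 [← h]
  simp

omit [Fintype F] in
theorem trQ_inv (h2 : (2 : F) ≠ 0) (hf : IQ Q f) (h : f ^ 2 = 1) :
    TrQ ((Q.restrict (Fx f)).prod (Q.restrict (Mo f)))
      ((1 : End F (Fx f)).prodMap ((-1 : F) • 1)) Q f :=
  res_Mo_sq h ▸ trQ_Fx (N := 2) hf h2 h

theorem sq_prod_neg (h2 : (2 : F) ≠ 0) (hQ : ND Q) (hQ' : ND Q') {k : ℕ} (hk : finrank F W = 2 * k)
    (hp : IsPlus Q' ↔ r2 (Fintype.card F) k) (m : ℕ) :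
    SQ (Q.prod Q') ((1 : End F V).prodMap ((-1 : F) • 1)) m ↔ ∃ a b, m = a + b ∧
      (2 * a ≤ finrank F V ∧ (2 * a = finrank F V →
        (IsPlus (Q.prod Q') ↔ r2 (Fintype.card F) k))) ∧
      b ≤ k ∧ (b = k → r2 (Fintype.card F) k) := by
  simp only [sq_prod_iff (fpf_neg h2), sq_smul (show (-1 : F) ≠ 0 by simp), sq_one_iff' hQ,
    sq_one_iff' hQ', hk, hp, Nat.mul_le_mul_left_iff two_pos, mul_right_inj' two_ne_zero]
  refine exists_congr fun a => exists_congr fun b => and_congr_right fun _ => and_congr_left fun _ =>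
    and_congr_right fun _ => imp_congr_right fun x => ?_
  rw [plus_prod_iff hQ hQ' ⟨a, by omega⟩ (hk ▸ even_two_mul k), hp]
  exact iff_cancel _ _

omit [Fintype F] in
theorem dims_of_inv (h : f ^ 2 = 1) (h' : ∀ a : F, f ≠ a • 1) :
    1 ≤ finrank F (Fx f) ∧ 1 ≤ finrank F (Mo f) := by
  have a := finrank_Fx_add f
  refine ⟨Nat.pos_of_ne_zero fun e => h' (-1) (LinearMap.ext fun x => ?_),
    Nat.pos_of_ne_zero fun e => h' 1 (by simpa using eq_one_iff_Fx.2 (by omega))⟩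
  have : Mo f = ⊤ := Submodule.eq_top_of_finrank_eq (by omega)
  exact congrArg Subtype.val (LinearMap.congr_fun (res_Mo_sq h) ⟨x, this ▸ trivial⟩)

theorem forall_inv_sq (h2 : (2 : F) ≠ 0) (hQ : ND Q) (m : ℕ) :
    (∀ f, Om Q f → f ^ 2 = 1 → (∀ a : F, f ≠ a • 1) → SQ Q f m) ↔
      ∀ e k, 1 ≤ e → 1 ≤ k → e + 2 * k = finrank F V → ∃ a b, m = a + b ∧
        (2 * a ≤ e ∧ (2 * a = e → (IsPlus Q ↔ r2 (Fintype.card F) k))) ∧
        b ≤ k ∧ (b = k → r2 (Fintype.card F) k) := by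
  constructor
  · intro H e k a1 a2 a3
    obtain ⟨Q₂, b1, b2⟩ := exists_form_even (F := F) (even_two_mul k) (r2 (Fintype.card F) k)
      (by omega)
    obtain ⟨Q₁, b3, ⟨φ⟩⟩ := exists_cpl (k := e) hQ b1 (by simpa [add_comm] using a3) (by omega)
    have φ' := (IsometryEquiv.prodComm _ _).trans φ
    obtain ⟨f, c⟩ := exists_trQ φ' ((1 : End F (Fin e → F)).prodMap ((-1 : F) • 1))
    have := H f (c.om ((om_prod_neg h2 b3 b1).2 ⟨k, by simp, b2⟩)) (by
      simpa using Sim.pow_eq c.sim (N := 2) (c := 1) (by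
        rw [prodMap_pow', _root_.smul_pow]; simp)) (Sim.ne_smul c.sim fun a ha => by
      have d1 := congrFun (congrArg Prod.fst (LinearMap.congr_fun ha (1, 1))) ⟨0, a1⟩
      have d2 := congrFun (congrArg Prod.snd (LinearMap.congr_fun ha (1, 1))) ⟨0, by omega⟩
      simp at d1 d2
      exact h2 (by linear_combination d1 - d2))
    rw [← c.sq_iff, sq_prod_neg h2 b3 b1 (by simp) b2, isPlus_iff_of_iso φ'] at this
    simpa using this
  · intro H f a1 a2 a3
    have c := trQ_inv h2 a1.iq a2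
    have b1 := nd_Fx (N := 2) hQ a1.iq h2 a2
    have b2 := nd_Mo (N := 2) hQ a1.iq h2 a2
    obtain ⟨k, b3, b4⟩ := (om_prod_neg h2 b1 b2).1 (c.symm.om a1)
    have b5 := dims_of_inv a2 a3
    rw [← c.sq_iff, sq_prod_neg h2 b1 b2 b3 b4, isPlus_iff_of_iso c.choose]
    exact H _ k b5.1 (by omega) (b3 ▸ finrank_Fx_add f)

theorem emb_inv (h2 : (2 : F) ≠ 0) (hQ : ND Q) (h₀ : ND Q₀) (a1 : Om Q f) (a2 : f ^ 2 = 1)
    (a3 : ∀ a : F, f ≠ a • 1) (h1 : 0 < finrank F V₀) (h3 : finrank F V₀ < finrank F V) :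
    Emb Q f Q₀ := by
  have c := trQ_inv h2 a1.iq a2
  have b1 := nd_Fx (N := 2) hQ a1.iq h2 a2
  have b2 := nd_Mo (N := 2) hQ a1.iq h2 a2
  obtain ⟨k, b3, -⟩ := (om_prod_neg h2 b1 b2).1 (c.symm.om a1)
  have b5 := dims_of_inv a2 a3
  have b6 := finrank_Fx_add f
  obtain ⟨U, d1, d2⟩ := exists_nd_sub b1 h2 (a := finrank F V₀ - min (finrank F V₀) (2 * k - 1))
    (by omega)
  obtain ⟨U', ⟨e⟩⟩ := exists_glue (a := min (finrank F V₀) (2 * k - 1)) b2 d2 h₀ (by omega)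
    (by omega) (by omega) (by omega)
  exact ((emb_prod_iff (fpf_neg h2)).2 ⟨U, U', (map_smul_eq (by simp) _).le.trans (one_inv _),
    ⟨(IsometryEquiv.prodComm _ _).trans e⟩⟩).tr c

omit [Fintype F] [FiniteDimensional F V] in
theorem sq_apply (h : f ^ 2 = (-1 : F) • 1) (x : V) : f (f x) = -x := by
  simpa [pow_two] using LinearMap.congr_fun h x

omit [Fintype F] [FiniteDimensional F V] in
theorem fpf_four (h2 : (2 : F) ≠ 0) (h : f ^ 2 = (-1 : F) • 1) (x : V) (hx : f x = x) : x = 0 :=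
  fpf_neg h2 x (by rw [← h, pow_two, End.mul_apply, hx, hx])

theorem four_type (h2 : (2 : F) ≠ 0) (d : ℕ) : ∀ {V : Type*} [AddCommGroup V] [Module F V]
    [FiniteDimensional F V] {Q : QuadraticForm F V} (g : OG Q), ND Q → finrank F V = 2 * d →
    (∀ x, g.1 (g.1 x) = -x) →
      (IsPlus Q ↔ r2 (Fintype.card F) d) ∧ (SqSpin g ↔ IsSquare ((2 : F) ^ d)) := by
  induction d with
  | zero =>
    intro V _ _ _ Q g _ hd _
    haveI := finrank_zero_iff.1 hd
    obtain rfl : g = 1 := OG.ext fun _ => Subsingleton.elim _ _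
    exact ⟨iff_of_true (isPlus_zero hd) (Or.inl Even.zero), iff_of_true sqSpin_one (by simp)⟩
  | succ d ih =>
    intro V _ _ _ Q g hQ hd hg
    haveI : Nontrivial V := Module.nontrivial_of_finrank_pos (R := F) (by omega)
    obtain ⟨v, hv⟩ := hQ.exists_nonsingular
    have a1 : polar Q v (g.1 v) = 0 := by
      have := OG.map_polar g v (g.1 v)
      rw [hg, polar_neg_right, polar_comm] at this
      exact (mul_eq_zero.1 (by linear_combination -this)).resolve_left h2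
    have a0 : ND (weightedSumSquares F (fun _ : Fin 2 => Q v)) := nd_wss h2 fun _ => hv
    let j : (Fin 2 → F) →ₗ[F] V := Fintype.linearCombination F ![v, g.1 v]
    have hj0 : ∀ x, j x = x 0 • v + x 1 • g.1 v := fun x => by
      simp [j, Fintype.linearCombination_apply]
    have hj : ∀ x, Q (j x) = weightedSumSquares F (fun _ : Fin 2 => Q v) x := fun x => by
      simp [hj0, q_add, q_smul, p_smul_left, p_smul_right, a1]; ring
    have e := hQ.embedIso a0 j hj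
    have a2 := (nd_prod a0 ((hQ.of_iso e.symm).prod_right))
    have a3 := iso_finrank (hQ.embedIso a0 j hj)
    obtain ⟨⟨a, b⟩, hab⟩ := mem_range_sumHom (hQ.embedIso a0 j hj) a0 a2.prod_right g fun x =>
      ⟨![-x 1, x 0], by simp [hj0, hg, add_comm]⟩
    have a4 : ∀ x y, j (a.1 x) + (b.1 y : V) = g.1 (j x + y) := fun x y => by
      rw [← hab]; exact (sumHom_apply (hQ.embedIso a0 j hj) (a, b) x y).symm
    have a5 : ∀ y, (b.1 y : V) = g.1 y := fun y => by simpa using a4 0 y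
    obtain ⟨b1, b2⟩ := ih b a2.prod_right (by simp at a3; omega) fun x => Subtype.ext (by
      rw [a5, a5, hg]; rfl)
    have a6 : Q (g.1 v - v) = 2 * Q v := by rw [q_sub, polar_comm, a1, g.2]; ring
    have a7 : sumHom (hQ.embedIso a0 j hj) (a, 1) = refl Q v * refl Q (g.1 v - v) := by
      refine sum_ext (hQ.embedIso a0 j hj) fun x y => ?_
      have c1 : polar Q v y = 0 := y.2 _ ⟨![1, 0], by simp [hj0]⟩
      have c2 : polar Q (g.1 v) y = 0 := y.2 _ ⟨![0, 1], by simp [hj0]⟩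
      have c3 : (refl Q (g.1 v - v)).1 v = g.1 v := refl_sub_apply (g.2 v).symm (by
        rw [polar_sub_right, a1, p_self]; simpa using ⟨h2, hv⟩)
      have c4 : (refl Q (g.1 v - v)).1 (g.1 v) = v := by
        nth_rw 2 [← c3]; rw [← OG.mul_apply, refl_mul_self, OG.one_apply]
      have c5 : j (a.1 x) = g.1 (j x) := by simpa using a4 x 0
      rw [sumHom_apply, hQ.embedIso_apply, hQ.embedIso_apply, c5, OG.mul_apply, hj0]
      simp only [map_add, map_smul, c3, c4, hg, refl_apply_of_orth a1, refl_apply_self hv,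
        refl_apply_of_orth (show polar Q (g.1 v - v) y = 0 by rw [polar_sub_left, c1, c2, sub_zero]),
        refl_apply_of_orth c1, OG.one_apply]
    have hG : ∀ {V : Type _} [AddCommGroup V] [Module F V], Good F V := good_of_two_ne_zero h2
    constructor
    · rw [plus_iso_iff a0 a2.prod_right e (by simp) (by simp at a3; exact ⟨d, by omega⟩), b1,
        a0.isPlus_iff_disc h2 (m := 1) (by simp) (Pi.basisFun F _), det_gram_wss,
        show (2 : F) ^ Fintype.card (Fin 2) * ∏ _i : Fin 2, Q v = (2 * Q v) ^ 2 by simp; ring,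
        isSquare_sq_mul_iff (by simp [h2, hv]), sq_neg_pow h2]
      simp only [r2, Nat.even_add_one, Nat.not_even_one, false_or]
      by_cases Even d <;> simp [*]
    · rw [← hab, sumHom_eq_mul, hQ.sqSpin_mul hG, sqSpin_sumHom_right _ hQ a2.prod_right
        (good_of_two_ne_zero h2), b2, a7, hQ.sqSpin_mul hG, hQ.sqSpin_refl hv,
        hQ.sqSpin_refl (by simp [a6, h2, hv]), a6, Orth.isSquare_mul_iff h2 hv, pow_succ,
        Orth.isSquare_mul_iff (pow_ne_zero _ h2) h2]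
      by_cases IsSquare (Q v) <;> by_cases IsSquare (2 : F) <;> simp [*]

theorem four_plus (h2 : (2 : F) ≠ 0) (hQ : ND Q) (hf : IQ Q f) (h : f ^ 2 = (-1 : F) • 1) {d : ℕ}
    (hd : finrank F V = 2 * d) : (IsPlus Q ↔ r2 (Fintype.card F) d) ∧
      (Om Q f ↔ Even d ∨ Fintype.card F % 8 = 1 ∨ Fintype.card F % 8 = 7) := by
  obtain ⟨g, rfl⟩ := exists_og hQ hf
  obtain ⟨a1, a2⟩ := four_type h2 d g hQ hd (sq_apply h)
  have a3 := rk_add_finrank_fix g
  rw [show Orth.fix g = ⊥ from eq_bot_iff.2 fun x hx => fpf_four h2 h x (mem_fix.1 hx),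
    finrank_bot, add_zero, hd] at a3
  refine ⟨a1, ?_⟩
  rw [om_iff, hQ.mem_commutator_iff (good_of_two_ne_zero h2), a3, a2, and_iff_right (even_two_mul d)]
  have := Nat.odd_iff.1 (odd_card_of_two_ne_zero h2)
  obtain ⟨k, rfl | rfl⟩ := Nat.even_or_odd' d
  · exact iff_of_true ⟨2 ^ k, by ring⟩ (Or.inl (even_two_mul k))
  · rw [pow_succ, pow_mul', isSquare_sq_mul_iff (by simp [h2]), FiniteField.isSquare_two_iff,
      Nat.even_iff]
    omega

theorem exists_four (h2 : (2 : F) ≠ 0) (hQ : ND Q) {d : ℕ} (hd : finrank F V = 2 * d)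
    (h : IsPlus Q ↔ r2 (Fintype.card F) d) : ∃ f, IQ Q f ∧ f ^ 2 = (-1 : F) • 1 := by
  have a0 : ND (weightedSumSquares F (1 : Fin d → F)) := nd_wss h2 (by simp)
  have a1 : IQ ((weightedSumSquares F (1 : Fin d → F)).prod (weightedSumSquares F (1 : Fin d → F)))
      (jj F d) := fun x => by simp [jj, add_comm]
  have a2 : finrank F ((Fin d → F) × (Fin d → F)) = 2 * d := by simp [two_mul]
  obtain ⟨e⟩ := (nd_prod a0 a0).iso_of_isPlus_iff hQ (a2.trans hd.symm) (a2 ▸ even_two_mul d)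
    ((four_plus h2 (nd_prod a0 a0) a1 (jj_sq d) a2).1.trans h.symm)
  obtain ⟨f, c⟩ := exists_trQ e (jj F d)
  exact ⟨f, c.iq a1, Sim.pow_eq c.sim (jj_sq d)⟩

/-- `Ω` has an element with square `-1` -/
def E4 (Q : QuadraticForm F V) : Prop := ∃ d, finrank F V = 2 * d ∧
  (IsPlus Q ↔ r2 (Fintype.card F) d) ∧ (Even d ∨ Fintype.card F % 8 = 1 ∨ Fintype.card F % 8 = 7)

theorem forall_two [Nontrivial V] (h2 : (2 : F) ≠ 0) (hQ : ND Q) (P : End F V → Prop) (R : Prop)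
    (h : ∀ f, IQ Q f → f ^ 2 = (-1 : F) • 1 → (P f ↔ R)) :
    (∀ f (c : F), Om Q f → f ^ 2 = c • 1 → (∀ a : F, f ≠ a • 1) → P f) ↔
      (∀ f, Om Q f → f ^ 2 = 1 → (∀ a : F, f ≠ a • 1) → P f) ∧ (E4 Q → R) := by
  refine ⟨fun H => ⟨fun f a1 a2 => H f 1 a1 (by simpa using a2), fun ⟨d, a1, a2, a3⟩ => ?_⟩,
    fun H f c a1 a2 a3 => ?_⟩
  · obtain ⟨f, b1, b2⟩ := exists_four h2 hQ a1 a2
    refine (h f b1 b2).1 (H f _ ((four_plus h2 hQ b1 b2 a1).2.2 a3) b2 ?_)
    rintro a rfl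
    have a4 := Im.smul_one (ef_polar hQ) b1.im
    rw [_root_.smul_pow, one_pow] at b2
    have := smul_left_injective F (one_ne_zero (α := Module.End F _)) b2
    simp only [RingHom.id_apply] at a4
    exact h2 (by linear_combination this - a4)
  · rcases a1.iq.im.pm (ef_polar hQ) a2 with rfl | rfl
    · exact H.1 f a1 (by simpa using a2) a3
    · obtain ⟨d, b1, -⟩ := shp_four h2 (ef_polar hQ) a1.iq.im a2
      have b2 := four_plus h2 hQ a1.iq a2 b1
      exact (h f a1.iq a2).2 (H.2 ⟨d, b1, b2.1, b2.2.1 a1⟩)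

theorem forall_sq_two [Nontrivial V] (h2 : (2 : F) ≠ 0) (hQ : ND Q) {m : ℕ}
    (hm : 2 * m ≤ finrank F V) :
    (∀ f (c : F), Om Q f → f ^ 2 = c • 1 → (∀ a : F, f ≠ a • 1) → SQ Q f m) ↔
      (∀ e k, 1 ≤ e → 1 ≤ k → e + 2 * k = finrank F V → ∃ a b, m = a + b ∧
        (2 * a ≤ e ∧ (2 * a = e → (IsPlus Q ↔ r2 (Fintype.card F) k))) ∧
        b ≤ k ∧ (b = k → r2 (Fintype.card F) k)) ∧ (E4 Q → r2 (Fintype.card F) m) := by
  rw [forall_two h2 hQ _ (r2 (Fintype.card F) m), forall_inv_sq h2 hQ]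
  intro f a1 a2
  obtain ⟨d, b1, -, b2⟩ := shp_four h2 (ef_polar hQ) a1.im a2
  rw [sq_iff_ts a1 (fpf_four h2 a2), b2, and_iff_right (by omega), r2]

theorem forall_emb_two (h2 : (2 : F) ≠ 0) (hQ : ND Q) (h₀ : ND Q₀) (h1 : 0 < finrank F V₀)
    (h3 : finrank F V₀ < finrank F V) :
    (∀ f (c : F), Om Q f → f ^ 2 = c • 1 → (∀ a : F, f ≠ a • 1) → Emb Q f Q₀) ↔
      (E4 Q → ∃ k, finrank F V₀ = 2 * k ∧ (IsPlus Q₀ ↔ r2 (Fintype.card F) k)) := by
  haveI : Nontrivial V := Module.nontrivial_of_finrank_pos (R := F) (by omega)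
  rw [forall_two h2 hQ, and_iff_right fun f a1 a2 a3 => emb_inv h2 hQ h₀ a1 a2 a3 h1 h3]
  intro f a1 a2
  constructor
  · rintro ⟨U, ⟨e⟩, b1⟩
    have b2 := h₀.of_iso e.symm
    obtain ⟨k, b3, -⟩ := shp_four h2 (ef_polar b2) (a1.res b1).im (res_pow_eq b1 a2)
    exact ⟨k, (iso_finrank e).symm.trans b3, (isPlus_iff_of_iso e).symm.trans
      (four_plus h2 b2 (a1.res b1) (res_pow_eq b1 a2) b3).1⟩
  · rintro ⟨k, b1, b2⟩
    obtain ⟨d, b3, b4, -⟩ := shp_four h2 (ef_polar hQ) a1.im a2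
    obtain ⟨U, c1, c2, c3⟩ := (b4 (2 * k)).2 ⟨even_two_mul k, by omega⟩
    exact ⟨U, (iso_iff_type h₀ (b1 ▸ even_two_mul k) U).2 ⟨c1.trans b1.symm, nds_iff_nd.1 c2,
      (four_plus h2 (nds_iff_nd.1 c2) (a1.res c3) (res_pow_eq c3 a2) c1).1.trans b2.symm⟩, c3⟩

end Cfsg.Agent.Elu
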