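import Mathlib
import Cfsg.Agent.Elu.Or3

/-!
Counting subspaces of quadratic spaces.
-/

set_option autoImplicit false
set_option backward.isDefEq.respectTransparency false

namespace Cfsg.Agent.Elu

open Module Polynomial Conj Spc Orth QuadraticMap
open scoped _root_.Classical Pointwise

/-- the type factor in the order of an orthogonal group -/
noncomputable def oT (q n : ℕ) (ε : Prop) : ℤ :=
  if Even n then (q : ℤ) ^ (n / 2) - (if ε then 1 else -1) else 1

/-- the symplectic factor -/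
def oP (q a : ℕ) : ℤ := ∏ j ∈ Finset.range a, ((q : ℤ) ^ (2 * (j + 1)) - 1)

/-- the exponent of `q` -/
def oA (n : ℕ) : ℕ := n / 2 * ((n - 1) / 2)

theorem oP_ne {q : ℕ} (hq : 1 < q) (a : ℕ) : oP q a ≠ 0 :=
  Finset.prod_ne_zero_iff.2 fun j _ => sub_ne_zero.2 (by
    exact_mod_cast (Nat.one_lt_pow (by omega) hq).ne')

/-- divisibility of the number of embeddings -/
def HH (q r n p : ℕ) (ε ε' : Prop) : Prop :=
  (r : ℤ) ∣ oT q n ε ∨ (r : ℤ) ∣ oT q p ε' ∨ ∃ j, p < 2 * j ∧ 2 * j < n ∧ (r : ℤ) ∣ q ^ (2 * j) - 1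

theorem hh_of_dvd {q r n p : ℕ} {ε ε' : Prop} (hr : r.Prime)
    (h : (r : ℤ) ∣ oT q n ε * oT q p ε' *
      ∏ j ∈ Finset.Ico (p / 2) ((n - 1) / 2), ((q : ℤ) ^ (2 * (j + 1)) - 1)) : HH q r n p ε ε' := by
  have hr' := Nat.prime_iff_prime_int.1 hr
  rcases hr'.dvd_or_dvd h with h | h
  · exact (hr'.dvd_or_dvd h).imp_right Or.inl
  · obtain ⟨j, hj, h⟩ := (Prime.dvd_finset_prod_iff hr' _).1 h
    rw [Finset.mem_Ico] at hj
    exact Or.inr (Or.inr ⟨j + 1, by omega, by omega, h⟩)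

theorem oT_cast {q r n : ℕ} {ε : Prop} (hr : r.Prime) (h : (r : ℤ) ∣ oT q n ε) :
    ∃ k, n = 2 * k ∧ (q : ZMod r) ^ k = if ε then 1 else -1 := by
  unfold oT at h
  by_cases he : Even n
  · obtain ⟨k, rfl⟩ := he.two_dvd
    rw [if_pos he, ← ZMod.intCast_zmod_eq_zero_iff_dvd] at h
    refine ⟨k, rfl, ?_⟩
    split_ifs at h ⊢ <;> simpa [sub_eq_zero, add_eq_zero_iff_eq_neg] using h
  · rw [if_neg he] at h
    exact absurd (by exact_mod_cast h) hr.not_dvd_one

theorem oT_hit {q r n i : ℕ} {ε : Prop} (hr : r.Prime) (h2 : 2 < r)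
    (hi : i = orderOf (q : ZMod r)) (hp : 0 < i) (h : (r : ℤ) ∣ oT q n ε) :
    ∃ s, n = cc i * s ∧ (ε ↔ rho i s) := by
  obtain ⟨k, rfl, hk⟩ := oT_cast hr h
  obtain ⟨s, hs⟩ : cc i ∣ 2 * k := cc_dvd (hi ▸ orderOf_dvd_of_pow_eq_one (by
    rw [pow_mul', hk]; split_ifs <;> simp))
  refine ⟨s, hs, ?_⟩
  rw [← dvd_iff_rho hp hs, hi, orderOf_dvd_iff_pow_eq_one, hk]
  split_ifs with h
  · simpa using h
  · simpa [h] using neg_one_ne_one h2

theorem HH.arith {q r n p i : ℕ} {ε ε' : Prop} (hr : r.Prime) (h2 : 2 < r)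
    (hi : i = orderOf (q : ZMod r)) (hp : 0 < i) (h : HH q r n p ε ε') :
    (∃ s, n = cc i * s ∧ (ε ↔ rho i s)) ∨ (∃ s, p = cc i * s ∧ (ε' ↔ rho i s)) ∨
      ∃ s, p < cc i * s ∧ cc i * s < n := by
  refine h.imp (oT_hit hr h2 hi hp) (Or.imp (oT_hit hr h2 hi hp) ?_)
  rintro ⟨j, a1, a2, a3⟩
  obtain ⟨s, hs⟩ : cc i ∣ 2 * j := cc_dvd (hi ▸ orderOf_dvd_of_pow_eq_one (by
    rw [← ZMod.intCast_zmod_eq_zero_iff_dvd] at a3
    simpa [sub_eq_zero] using a3))
  exact ⟨s, hs ▸ a1, hs ▸ a2⟩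

theorem HH.ne_zero {q r n p : ℕ} {ε ε' : Prop} (hr : r.Prime) (hp : 0 < p) (hn : 0 < n)
    (h : HH q r n p ε ε') : (q : ZMod r) ≠ 0 := by
  haveI := Fact.mk hr
  intro h0
  have key : ∀ {n : ℕ} {ε : Prop}, 0 < n → ¬ (r : ℤ) ∣ oT q n ε := fun hn h => by
    obtain ⟨k, rfl, hk⟩ := oT_cast hr h
    rw [h0, zero_pow (by omega)] at hk
    split_ifs at hk <;> simp at hk
  rcases h with h | h | ⟨j, a1, -, h⟩
  · exact key hn h
  · exact key hp h
  · rw [← ZMod.intCast_zmod_eq_zero_iff_dvd] at h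
    simp [h0, show j ≠ 0 by omega] at h

variable {F V W V₀ : Type*} [Field F] [AddCommGroup V] [Module F V] [AddCommGroup W]
  [Module F W] [AddCommGroup V₀] [Module F V₀] {Q : QuadraticForm F V} {Q' : QuadraticForm F W}
  {Q₀ : QuadraticForm F V₀} {r : ℕ}
  [Fintype F] [FiniteDimensional F V] [FiniteDimensional F W] [FiniteDimensional F V₀]

theorem card_OG_T (hQ : ND Q) (hn : 0 < finrank F V) : (Nat.card (OG Q) : ℤ) =
    2 * Fintype.card F ^ oA (finrank F V) * oT (Fintype.card F) (finrank F V) (IsPlus Q) *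
      oP (Fintype.card F) ((finrank F V - 1) / 2) := by
  rw [← Nat.card_eq_fintype_card, oT, oA, oP]
  obtain ⟨d, hd | hd⟩ := Nat.even_or_odd' (finrank F V)
  · obtain ⟨d, rfl⟩ := Nat.exists_eq_succ_of_ne_zero (show d ≠ 0 by omega)
    rw [hd, if_pos (even_two_mul _), show 2 * (d + 1) / 2 = d + 1 by omega,
      show (2 * (d + 1) - 1) / 2 = d by omega]
    split_ifs with h
    · rw [← card_OG_iso (hQ.iso_plusQ h hd).some, card_OG_plusQ_int]
    · obtain ⟨ζ, hζ⟩ := exists_aniso (F := F)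
      rw [← card_OG_iso (hQ.iso_minusQ h hd hζ).some, card_OG_minusQ_int _ hζ, sub_neg_eq_add]
  · obtain ⟨c, hc, ⟨e⟩⟩ := hQ.iso_odd hd
    rw [← card_OG_iso e, card_OG_plus_prod_unQ_int (two_ne_of_odd hQ ⟨d, hd⟩) _ hc, hd,
      if_neg (by simp), show (2 * d + 1) / 2 = d by omega, show (2 * d + 1 - 1) / 2 = d by omega,
      mul_one, pow_two]

theorem card_OG_U (hQ : ND Q) :
    (Nat.card (OG Q) : ℤ) * oT (Fintype.card F) (finrank F V) (¬ IsPlus Q) =
      2 * Fintype.card F ^ oA (finrank F V) * oP (Fintype.card F) (finrank F V / 2) := by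
  rcases Nat.eq_zero_or_pos (finrank F V) with h | h
  · haveI := finrank_zero_iff.1 h
    rw [card_OG_subsingleton]
    simp [h, oT, oA, oP, isPlus_zero h]
  rw [card_OG_T hQ h]
  obtain ⟨d, hd | hd⟩ := Nat.even_or_odd' (finrank F V)
  · obtain ⟨d, rfl⟩ := Nat.exists_eq_succ_of_ne_zero (show d ≠ 0 by omega)
    simp only [hd, oT, oP, if_pos (even_two_mul _), show 2 * (d + 1) / 2 = d + 1 by omega,
      show (2 * (d + 1) - 1) / 2 = d by omega, Finset.prod_range_succ]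
    by_cases hp : IsPlus Q <;> simp only [hp, if_true, if_false, not_true, not_false_iff] <;> ring
  · simp [hd, oT, show (2 * d + 1) / 2 = d by omega]

theorem dvd_of_card (hQ : ND Q) (hQ' : ND Q') (h : finrank F W < finrank F V) {X : ℕ}
    (hX : X * Nat.card (OG Q') ∣ Nat.card (OG Q)) :
    (X : ℤ) * Fintype.card F ^ oA (finrank F W) ∣ Fintype.card F ^ oA (finrank F V) *
      (oT (Fintype.card F) (finrank F V) (IsPlus Q) * oT (Fintype.card F) (finrank F W) (¬ IsPlus Q') *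
        ∏ j ∈ Finset.Ico (finrank F W / 2) ((finrank F V - 1) / 2),
          ((Fintype.card F : ℤ) ^ (2 * (j + 1)) - 1)) := by
  have h1 := mul_dvd_mul_right (Int.natCast_dvd_natCast.2 hX)
    (oT (Fintype.card F) (finrank F W) (¬ IsPlus Q'))
  rw [Nat.cast_mul, mul_assoc, card_OG_U hQ', card_OG_T hQ (by omega), oP, oP,
    ← Finset.prod_range_mul_prod_Ico _ (show finrank F W / 2 ≤ (finrank F V - 1) / 2 by omega)] at h1
  refine (mul_dvd_mul_iff_left (mul_ne_zero two_ne_zero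
    (oP_ne (Fintype.one_lt_card (α := F)) (finrank F W / 2)))).1 ?_
  rw [oP]
  convert h1 using 1 <;> ring

theorem card_emb_dvd (hQ : ND Q) (e : (Q₀.prod Q').IsometryEquiv Q) (h₀ : ND Q₀) :
    Nat.card {U : Submodule F V // Nonempty ((Q.restrict U).IsometryEquiv Q₀)} *
      Nat.card (OG Q') ∣ Nat.card (OG Q) := by
  let j : V₀ →ₗ[F] V := e.toLinearEquiv.toLinearMap ∘ₗ LinearMap.inl F _ _
  have hj : ∀ v, Q (j v) = Q₀ v := fun v => (e.map_app (v, 0)).trans (by simp)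
  have hi := injective_of_isom h₀ j hj
  refine card_mul_dvd (x := Submodule.map j ⊤) _ ⟨(mapIso j hi hj ⊤).symm.trans (topIso Q₀)⟩ ?_ ?_
    ((sumHom e).comp (MonoidHom.inr _ _))
    ((sumHom_injective e).comp fun _ _ h => congrArg Prod.snd h) fun k => ?_
  · rintro U ⟨φ⟩
    have ψ := ((mapIso j hi hj ⊤).symm.trans (topIso Q₀)).trans φ.symm
    obtain ⟨g, hg⟩ := witt hQ _ (U.subtype ∘ₗ ψ.toLinearEquiv.toLinearMap)
      (U.injective_subtype.comp ψ.toLinearEquiv.injective) ψ.map_app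
    refine ⟨g, Submodule.eq_of_le_of_finrank_eq ?_ ((finrank_map_og g _).trans (iso_finrank ψ))⟩
    rintro _ ⟨x, hx, rfl⟩
    exact (hg ⟨x, hx⟩).symm ▸ (ψ ⟨x, hx⟩).2
  · rintro g U ⟨φ⟩
    exact ⟨(mapIso g.1.toLinearMap g.1.injective g.2 U).symm.trans φ⟩
  · refine Submodule.eq_of_le_of_finrank_eq ?_ (finrank_map_og (sumHom e (1, k)) _)
    rintro _ ⟨_, ⟨x, -, rfl⟩, rfl⟩
    refine ⟨x, trivial, Eq.symm ((sumHom_apply e (1, k) x 0).trans ?_)⟩
    rw [map_zero]; rfl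

theorem hh_emb {p : ℕ} [Fact p.Prime] [CharP F p] [hr : Fact r.Prime] (hp : r ≠ p) (hQ : ND Q)
    (h₀ : ND Q₀) (hQ' : ND Q') (e : (Q₀.prod Q').IsometryEquiv Q) (h0 : 0 < finrank F V₀)
    (h : r ∣ Nat.card {U : Submodule F V // Nonempty ((Q.restrict U).IsometryEquiv Q₀)}) :
    HH (Fintype.card F) r (finrank F V) (finrank F W) (IsPlus Q) (¬ IsPlus Q') := by
  have h1 := iso_finrank e
  rw [finrank_prod] at h1
  refine hh_of_dvd hr.out (((Nat.prime_iff_prime_int.1 hr.out).dvd_or_dvd ((dvd_mul_right _ _).trans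
    (dvd_of_card hQ hQ' (by omega) ((mul_dvd_mul_right h _).trans
      (card_emb_dvd hQ e h₀))))).resolve_left fun h => not_dvd_pow_card hp _ (by exact_mod_cast h))

theorem card_sing_mul (hQ : ND Q) {m : ℕ} (e : ((plusQ m F).prod Q').IsometryEquiv Q)
    (hQ' : ND Q') : Nat.card {U : Submodule F V // finrank F U = m ∧ Sing Q U} *
      (∏ j ∈ Finset.range m, (Fintype.card F ^ m - Fintype.card F ^ j)) *
        Fintype.card F ^ (m * (m - 1) / 2 + m * finrank F W) * Nat.card (OG Q') =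
      Nat.card (OG Q) := by
  haveI : Finite V := Module.finite_of_finite F
  have hf := (hypFrame_plusQ (F := F) m).map (Q' := Q)
    (e.toLinearEquiv.toLinearMap ∘ₗ LinearMap.inl F _ _) fun v => by simpa using e.map_app (v, 0)
  set s := _ ∘ _ with hs
  have a1 := hf.linearIndependent.comp _ Sum.inl_injective
  have h1 := card_mul_stab (G := OG Q) (fun s : Fin m → V => LinearIndependent F s ∧
      Sing Q (Submodule.span F (Set.range s))) (x := s) ⟨a1, hf.sing_left⟩ (fun t ht => by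
    have b : ∀ i, t i ∈ Submodule.span F (Set.range t) := fun i => Submodule.subset_span ⟨i, rfl⟩
    obtain ⟨g, hg⟩ := witt_family hQ s t a1 ht.1 (fun i => (ht.2 _ (b i)).trans (hf.qe i).symm)
      fun i j => (ht.2.polar (b i) (b j)).trans (hf.ee i j).symm
    exact ⟨g, funext hg⟩) fun g t ht => ⟨ht.1.map' g.1.toLinearMap g.1.ker, by
      have := ht.2.map_og g
      rwa [Submodule.map_span, ← Set.range_comp] at this⟩
  rw [show MulAction.stabilizer (OG Q) s = fixIn (OG Q) (Submodule.span F (Set.range s)) from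
    Subgroup.ext fun g => ⟨fun h w hw => LinearMap.eqOn_span' (f := g.1.toLinearMap)
      (g := LinearMap.id) (by rintro _ ⟨i, rfl⟩; exact congrFun h i) hw,
      fun h => funext fun i => h _ (Submodule.subset_span ⟨i, rfl⟩)⟩,
    card_fix_sing hQ' e hf.sing_left hf.finrank_span_left, Nat.card_eq_fintype_card (α := F)] at h1
  rw [← h1, mul_assoc]
  congr 1
  symm
  refine card_of_fib (fun s => ⟨Submodule.span F (Set.range s.1),
    by rw [finrank_span_eq_card s.2.1, Fintype.card_fin], s.2.2⟩) _ fun W => ?_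
  rw [← card_frames_span W.1 W.2.1]
  exact Nat.card_congr
    { toFun := fun s => ⟨s.1.1, s.1.2.1, congrArg Subtype.val s.2⟩
      invFun := fun s => ⟨⟨s.1, s.2.1, by rw [s.2.2]; exact W.2.2⟩, Subtype.ext s.2.2⟩
      left_inv := fun _ => rfl
      right_inv := fun _ => rfl }

theorem oA_add {m p : ℕ} (hp : 0 < p) :
    oA (2 * m + p) = m * (m - 1) / 2 + (m * (m - 1) / 2 + m * p) + oA p := by
  have h1 := Nat.two_mul_div_two_of_even (Nat.even_mul_pred_self m)
  obtain ⟨p, rfl⟩ : ∃ k, p = k + 1 := Nat.exists_eq_succ_of_ne_zero hp.ne'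
  have h2 : (p + 1) / 2 + p / 2 = p := by omega
  rw [oA, oA, show (2 * m + (p + 1)) / 2 = m + (p + 1) / 2 by omega,
    show (2 * m + (p + 1) - 1) / 2 = m + p / 2 by omega, Nat.add_sub_cancel, ← add_assoc, ← two_mul,
    h1]
  rcases m with _ | m
  · simp
  · rw [Nat.add_sub_cancel]
    nlinarith

theorem hh_sing (hr : r.Prime) (hQ : ND Q) {m : ℕ} (hm : 1 ≤ m) (hn : 2 * m < finrank F V)
    (h : r ∣ Nat.card {U : Submodule F V // finrank F U = m ∧ Sing Q U}) :
    HH (Fintype.card F) r (finrank F V) (finrank F V - 2 * m) (IsPlus Q) (¬ IsPlus Q) := by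
  obtain ⟨p, hp⟩ := Nat.exists_eq_add_of_le hn.le
  obtain ⟨Q', a1, ⟨e⟩⟩ := exists_cpl (k := p) hQ (nd_plusQ m) (by rw [finrank_plus, hp]) (by omega)
  have h1 := card_sing_mul hQ e a1
  rw [prod_pow_sub Fintype.card_pos _ _ le_rfl, Finset.prod_pow_eq_pow_sum, Finset.sum_range_id] at h1
  have h2 := dvd_of_card hQ a1 (by simp; omega) (X := r * (Fintype.card F ^ (m * (m - 1) / 2) *
    Fintype.card F ^ (m * (m - 1) / 2 + m * p))) (by
      rw [← h1, finrank_fin_fun]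
      obtain ⟨c, hc⟩ := h
      exact ⟨c * ∏ j ∈ Finset.range m, (Fintype.card F ^ (m - j) - 1), by rw [hc]; ring⟩)
  rw [finrank_fin_fun, hp, oA_add (by omega), ← hp, ← pow_add, pow_add _ _ (oA p)] at h2
  push_cast at h2
  rw [mul_assoc, mul_comm, mul_dvd_mul_iff_left (by simp)] at h2
  have h3 := hh_of_dvd hr h2
  rw [show finrank F V - 2 * m = p by omega]
  refine h3.imp_right (Or.imp_left fun x => ?_)
  by_cases he : Even p
  · rwa [plus_iso_iff (nd_plusQ m) a1 e (by simp) (by simpa using he),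
      iff_true_intro (isPlus_plusQ m), true_iff]
  · simpa [oT, he] using x

end Cfsg.Agent.Elu
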