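import Mathlib
import Cfsg.Agent.Elu.Or4

/-!
Arithmetic for invariant subspaces of orthogonal elements.
-/

set_option autoImplicit false

namespace Cfsg.Agent.Elu

theorem rho_even {i : ℕ} (h : Even i) (s : ℕ) : rho i s ↔ s % 2 = 0 := by
  rw [rho, or_iff_right (Nat.not_odd_iff_even.2 h), Nat.even_iff]

theorem rho_odd {i : ℕ} (h : Odd i) (s : ℕ) : rho i s ↔ True := iff_true_intro (Or.inl h)

theorem dig_lt {c x y a b : ℕ} (hx : x < c) (h : a < b) : x + c * a < y + c * b := by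
  have := Nat.mul_le_mul_left c (show a + 1 ≤ b from h)
  rw [mul_add] at this
  omega

theorem dig_le {c x y a b : ℕ} (hx : x < c) (hy : y < c) :
    x + c * a ≤ y + c * b ↔ a < b ∨ (a = b ∧ x ≤ y) := by
  rcases lt_trichotomy a b with h | rfl | h
  · exact iff_of_true (dig_lt hx h).le (Or.inl h)
  · simp
  · exact iff_of_false (not_le.2 (dig_lt hy h)) (by omega)

theorem dig_eq {c x y a b : ℕ} (hx : x < c) (hy : y < c) :
    x + c * a = y + c * b ↔ a = b ∧ x = y := by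
  rw [le_antisymm_iff, dig_le hx hy, dig_le hy hx]
  omega

theorem dig_zero {c x a : ℕ} (hc : 0 < c) : x + c * a = 0 ↔ a = 0 ∧ x = 0 := by
  simp [hc.ne', and_comm]

theorem exists_dig {c e s K N : ℕ} (hK : K < c) (h : e + c * s = K + c * N) :
    ∃ u, N = s + u ∧ e = K + c * u := by
  have h1 : s ≤ N := by
    by_contra h1
    have := dig_lt (y := e) hK (not_le.1 h1)
    omega
  obtain ⟨u, rfl⟩ := Nat.exists_eq_add_of_le h1
  exact ⟨u, rfl, by rw [mul_add] at h; omega⟩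

theorem prop_flip {P τ O A B : Prop} (h : ¬ (τ ↔ O ∨ ¬ B)) (h' : ¬ (P ↔ O ∨ ¬ A)) :
    (P ↔ O ∨ A) ↔ (τ ↔ O ∨ B) := by tauto

theorem arith_nd {c K N L M i : ℕ} {P τ : Prop} (hK : K < c) (hL : L < c) (h0 : 0 < L + c * M)
    (h1 : L + c * M < K + c * N) :
    (∀ e s, 1 ≤ s → e + c * s = K + c * N → (e = 0 → (P ↔ rho i s)) → ∃ a j, a ≤ e ∧ j ≤ s ∧
      L + c * M = a + c * j ∧ (a = 0 → (τ ↔ rho i j)) ∧
        (a = e → ((P ↔ rho i s) ↔ (τ ↔ rho i j)))) ↔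
      (1 ≤ N → (K = 0 → (P ↔ rho i N)) → L ≤ K ∧ (L = 0 → (τ ↔ rho i M)) ∧
        (L = K → ((P ↔ rho i N) ↔ (τ ↔ rho i M)))) := by
  have hc : 0 < c := by omega
  have h2 := (dig_le hL hK).1 h1.le
  have h3 := mt (dig_eq hL hK).2 h1.ne
  have h4 := mt (dig_zero hc).2 h0.ne'
  constructor
  · intro H a1 a2
    obtain ⟨a, j, b1, -, b2, b3, b4⟩ := H K N a1 rfl a2
    obtain ⟨rfl, rfl⟩ := (dig_eq hL (b1.trans_lt hK)).1 b2
    exact ⟨b1, b3, b4⟩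
  intro H e s a1 a2 a3
  obtain ⟨u, rfl, rfl⟩ := exists_dig hK a2
  have key : ∀ j ≤ s, j ≤ M → (M - j < u ∨ (M - j = u ∧ L ≤ K)) →
      (M - j = 0 ∧ L = 0 → (τ ↔ rho i j)) →
      (M - j = u ∧ L = K → ((P ↔ rho i s) ↔ (τ ↔ rho i j))) → ∃ a j, a ≤ K + c * u ∧ j ≤ s ∧
      L + c * M = a + c * j ∧ (a = 0 → (τ ↔ rho i j)) ∧
        (a = K + c * u → ((P ↔ rho i s) ↔ (τ ↔ rho i j))) := fun j b1 b2 b3 b4 b5 =>
    ⟨L + c * (M - j), j, (dig_le hL hK).2 b3, b1, by rw [add_assoc, ← mul_add, Nat.sub_add_cancel b2],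
      fun h => b4 ((dig_zero hc).1 h), fun h => b5 ((dig_eq hL hK).1 h)⟩
  rcases Nat.eq_zero_or_pos u with rfl | hu
  · obtain ⟨b1, b2, b3⟩ := H a1 fun h => a3 (by simp [h])
    exact key M (by omega) le_rfl (by omega) (fun h => b2 h.2) fun h => b3 h.2
  by_cases h5 : s < M
  · exact key s le_rfl h5.le (by omega) (by omega) (by omega)
  by_cases h6 : L = 0 → (τ ↔ rho i M)
  · exact key M (by omega) le_rfl (by omega) (fun h => h6 h.2) (by omega)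
  have h7 : ¬ (K = 0 → (P ↔ rho i (s + u))) := fun h => h6 (H (by omega) h).2.1
  rw [Classical.not_imp] at h6 h7
  obtain ⟨M, rfl⟩ : ∃ k, M = k + 1 := Nat.exists_eq_succ_of_ne_zero (by omega)
  refine key M (by omega) (by omega) (by omega) (by omega) fun h => ?_
  obtain rfl : u = 1 := by omega
  have h8 := h6.2
  have h9 := h7.2
  simp only [rho, Nat.even_add_one] at h8 h9 ⊢
  exact prop_flip h8 h9

theorem arith_hh {c K N L M i : ℕ} {P σ : Prop} (hK : K < c) (hL : L < c)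
    (h1 : L + c * M < K + c * N) (h : (∃ s, K + c * N = c * s ∧ (P ↔ rho i s)) ∨
      (∃ s, K + c * N - (L + c * M) = c * s ∧ (σ ↔ rho i s)) ∨
      ∃ s, K + c * N - (L + c * M) < c * s ∧ c * s < K + c * N) :
    1 ≤ N ∧ ((K = 0 ∧ (P ↔ rho i N)) ∨ (L = K ∧ (σ ↔ rho i (N - M))) ∨
      ((1 ≤ M ∨ K < L) ∧ (K = 0 → 2 ≤ M ∨ (M = 1 ∧ 0 < L)))) := by
  have hc : 0 < c := by omega
  rcases h with ⟨s, a1, a2⟩ | ⟨s, a1, a2⟩ | ⟨s, a1, a2⟩
  · obtain ⟨rfl, rfl⟩ := (dig_eq hK hc).1 (a1.trans (zero_add _).symm)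
    exact ⟨Nat.pos_of_ne_zero (by rintro rfl; omega), Or.inl ⟨rfl, a2⟩⟩
  · obtain ⟨rfl, rfl⟩ := (dig_eq hK hL (a := N) (b := M + s)).1 (by rw [mul_add]; omega)
    exact ⟨Nat.pos_of_ne_zero fun h => by simp [show s = 0 by omega] at h1,
      Or.inr (Or.inl ⟨rfl, by simpa using a2⟩)⟩
  · have a3 := (dig_le hc hK (a := s) (b := N)).1 (by omega)
    have a4 := (dig_le hK hL (a := N) (b := M + s)).1 (by rw [mul_add]; omega)
    have a5 := mt (dig_eq hK hL (a := N) (b := M + s)).2 (by rw [mul_add]; omega)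
    have a6 : s ≠ 0 := by rintro rfl; omega
    have a7 := mt (dig_eq hc hK (a := s) (b := N)).2 (by omega)
    have a8 := (dig_le hc hL (a := N) (b := M + s)).1
    have a9 := mt (dig_eq hc hL (a := N) (b := M + s)).2
    exact ⟨by omega, Or.inr (Or.inr (by omega))⟩

theorem arith_ts_odd {i K N l M : ℕ} {P : Prop} (hK : K < 2 * i) (hl : l < i)
    (h1 : 2 * l + 2 * i * M < K + 2 * i * N) :
    (∀ e s, 1 ≤ s → e + 2 * i * s = K + 2 * i * N → (e = 0 → P) → ∃ a j,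
      (2 * a ≤ e ∧ (2 * a = e → P)) ∧ j ≤ s ∧ l + i * M = a + i * j) ↔
      (1 ≤ N → (K = 0 → P) → 2 * l ≤ K ∧ (2 * l = K → P)) := by
  have hL : 2 * l < 2 * i := by omega
  have h2 := (dig_le hL hK).1 h1.le
  have h3 := mt (dig_eq hL hK).2 h1.ne
  constructor
  · intro H a1 a2
    obtain ⟨a, j, b1, -, b2⟩ := H K N a1 rfl a2
    obtain ⟨rfl, rfl⟩ := (dig_eq hl (by omega)).1 b2
    exact b1
  intro H e s a1 a2 a3
  obtain ⟨u, rfl, rfl⟩ := exists_dig hK a2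
  have h4 : u = 0 → 2 * l ≤ K ∧ (2 * l = K → P) := fun h => H (by omega) fun x => a3 (by simp [h, x])
  refine ⟨l + i * (M - s), min M s, ?_, min_le_right _ _, by
    rw [add_assoc, ← mul_add, Nat.sub_add_min_cancel]⟩
  rw [mul_add, ← mul_assoc, dig_le hL hK, dig_eq hL hK]
  exact ⟨by omega, fun h => (h4 (by omega)).2 h.2⟩

theorem ts_core {i t K N l M L δ ε : ℕ} (hε : ε ≤ 1) (ht : 1 ≤ t)
    (hD : (δ = 0 ∧ 2 * l = L) ∨ (δ = 1 ∧ 2 * l = L + i)) (hL : L < i) (hK : K < i)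
    (h4 : M = 0 → 0 < l) (h2 : 2 * M + δ < N ∨ (2 * M + δ = N ∧ L < K))
    (h : (K = 0 ∧ N % 2 = ε) ∨ (L = K ∧ (N + δ) % 2 ≠ ε) ∨
      ((1 ≤ 2 * M + δ ∨ K < L) ∧ (K = 0 → 2 ≤ 2 * M + δ ∨ (2 * M + δ = 1 ∧ 0 < L)))) (hN : 1 ≤ N) :
    (∀ s u w v, 1 ≤ s → N = s + u → (u = 0 ∧ K = 0 → s % 2 = ε) → 2 * w ≤ s →
      s ≤ 2 * w + t → v = M - w → ((δ + 2 * v < u ∨ (δ + 2 * v = u ∧ L ≤ K)) ∧
        (δ + 2 * v = u ∧ L = K → s % 2 = ε))) ↔
      (1 ≤ M ∧ t + 2 * M ≤ N ∧ ((2 * l ≤ i ∧ K = 0 ∧ N % 2 ≠ ε ∧ t + 2 * M < N) ∨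
        (2 * l ≤ K ∧ N % 2 = ε) ∨ (2 * l < K ∧ N % 2 ≠ ε))) := by
  constructor
  · intro H
    by_cases c : K = 0 → N % 2 = ε
    · obtain ⟨c1, c2⟩ := H N 0 ((N - t + 1) / 2) _ hN rfl (fun x => c x.2)
        (by clear * - ht hN; omega) (by clear * -; omega) rfl
      have c3 : δ = 0 ∧ L ≤ K ∧ M - (N - t + 1) / 2 = 0 := by clear * - c1; omega
      obtain ⟨rfl, c3, c6⟩ := c3
      have c7 : L = K → N % 2 = ε := fun x => c2 ⟨by omega, x⟩
      have c8 : 2 * M ≤ N - t + 1 := by clear * - c6; omega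
      clear c1 c2 c6
      have c4 : 1 ≤ M := by omega
      have c5 : t + 2 * M ≤ N := by
        by_contra c5
        have c9 : t + 2 * M = N + 1 := by clear * - c4 c5 c8; omega
        have := (H (N - 1) 1 (M - 1) 1 (by clear * - c9 c4 ht h2 c3 c7 h hD; omega) (by omega)
          (by omega) (by clear * - c9 c4 ht; omega) (by clear * - c9 c4 ht; omega) (by omega)).1
        omega
      exact ⟨c4, c5, by omega⟩
    · obtain ⟨rfl, c2⟩ := Classical.not_imp.1 c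
      have c3 : 2 ≤ 2 * M + δ ∨ (2 * M + δ = 1 ∧ 0 < L) := by omega
      have c4 := (H (N - 1) 1 ((N - t) / 2) _ (by clear * - c3 h2; omega) (by omega) (by omega)
        (by clear * - ht hN; omega) (by clear * -; omega) rfl).1
      have c5 : M - (N - t) / 2 = 0 ∧ (δ = 0 ∨ (δ = 1 ∧ L = 0)) := by clear * - c4; omega
      have c6 : 1 ≤ M := by clear * - c5 c3; omega
      have c7 : t + 2 * M ≤ N := by have := c5.1; clear * - this c6; omega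
      refine ⟨c6, c7, Or.inl ⟨by have := c5.2; clear * - this hD hL; omega, rfl, c2, ?_⟩⟩
      by_contra c8
      have := H (N - 2) 2 (M - 1) 1 (by clear * - c6 c7 ht; omega) (by clear * - c6 c7; omega)
        (by omega) (by clear * - c6 c7; omega) (by clear * - c6 c8; omega) (by omega)
      clear * - this c2 c6 c7
      omega
  · rintro ⟨b1, b2, H⟩ s u w v a1 a2 a3 a4 a5 a6
    clear h h2 h4
    have : v = 0 ∨ 2 * v ≤ u ∧ (t + 2 * M < N → 2 * v < u) ∧ (2 * v = u → 2 * w + t = s) := by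
      clear H hD a3; omega
    clear a6 a5 a4
    rcases H with H | H | H <;> omega

theorem arith_ts_even {i t K N l M L D : ℕ} {P : Prop} (hK : K < i) (hl : l < i) (hL : L < i)
    (ht : 1 ≤ t) (hD : (D = 2 * M ∧ 2 * l = L) ∨ (D = 2 * M + 1 ∧ 2 * l = L + i))
    (h0 : 0 < l + i * M) (h1 : L + i * D < K + i * N) (hN : 1 ≤ N)
    (h : (K = 0 ∧ (P ↔ N % 2 = 0)) ∨ (L = K ∧ (¬ P ↔ (N - D) % 2 = 0)) ∨
      ((1 ≤ D ∨ K < L) ∧ (K = 0 → 2 ≤ D ∨ (D = 1 ∧ 0 < L)))) :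
    (∀ e s w, 1 ≤ s → e + i * s = K + i * N → (e = 0 → (P ↔ s % 2 = 0)) →
      (∃ o ≤ t, s = 2 * w + o) → ∃ a j,
        (2 * a ≤ e ∧ (2 * a = e → (P ↔ s % 2 = 0))) ∧ j ≤ w ∧ l + i * M = a + i * j) ↔
      (1 ≤ M ∧ t + 2 * M ≤ N ∧ ((2 * l ≤ i ∧ K = 0 ∧ ¬ (P ↔ N % 2 = 0) ∧ t + 2 * M < N) ∨
        (2 * l ≤ K ∧ (P ↔ N % 2 = 0)) ∨ (2 * l < K ∧ ¬ (P ↔ N % 2 = 0)))) := by
  have hc : 0 < i := by omega
  have h2 := (dig_le hL hK).1 h1.le
  have h3 := mt (dig_eq hL hK).2 h1.ne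
  have h4 := mt (dig_zero hc).2 h0.ne'
  have h5 : ∀ v, 2 * (l + i * v) = L + i * (D - 2 * M + 2 * v) := fun v => by
    rcases hD with ⟨x, y⟩ | ⟨x, y⟩
    · rw [x, Nat.sub_self, ← y]; ring
    · rw [x, Nat.add_sub_cancel_left, mul_add, y]; ring
  obtain ⟨ε, e1, e2⟩ : ∃ ε ≤ 1, ∀ s, (P ↔ s % 2 = 0) ↔ s % 2 = ε := by
    by_cases hP : P
    · exact ⟨0, by omega, by simp [hP]⟩
    · exact ⟨1, le_rfl, by simp [hP]⟩
  obtain ⟨δ, rfl⟩ : ∃ δ, D = 2 * M + δ := ⟨D - 2 * M, by omega⟩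
  simp only [not_iff.symm, e2, Nat.add_sub_cancel_left] at h h5 ⊢
  rw [← ts_core e1 ht (by omega) hL hK (by omega) (δ := δ) (by omega) (by omega) hN]
  constructor
  · rintro H s u w _ a1 rfl a2 a3 a4 rfl
    obtain ⟨a, j, b1, b2, b3⟩ := H (K + i * u) s w a1 (by ring)
      (fun h => a2 ((dig_zero hc).1 h)) ⟨s - 2 * w, by omega, by omega⟩
    obtain ⟨v, rfl, rfl⟩ := exists_dig hl b3.symm
    rw [h5, dig_le hL hK, dig_eq hL hK] at b1
    clear h h2 h3 h4 hD a2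
    exact ⟨by omega, fun h => b1.2 (by omega)⟩
  · rintro H e s w a1 a2 a3 ⟨o, a4, a5⟩
    obtain ⟨u, b1, rfl⟩ := exists_dig hK a2
    refine ⟨l + i * (M - w), min M w, ?_, min_le_right _ _, by
      rw [add_assoc, ← mul_add, Nat.sub_add_min_cancel]⟩
    rw [h5, dig_le hL hK, dig_eq hL hK]
    exact H s u w _ a1 b1 (fun h => a3 ((dig_zero hc).2 h)) (by omega) (by omega) rfl

end Cfsg.Agent.Elu
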