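import Mathlib
import Cfsg.Agent.Elu.OrA

/-!
Elements of odd prime order coprime to the characteristic in `Ω`: closed forms.
-/

set_option autoImplicit false
set_option backward.isDefEq.respectTransparency false

namespace Cfsg.Agent.Elu

open Module Polynomial Conj Spc Orth QuadraticMap
open scoped _root_.Classical

theorem dig_facts {c m n : ℕ} (hc : 0 < c) (he : Even c) (h0 : 0 < m) (h : m < n) :
    (m / c < n / c ∨ (m / c = n / c ∧ m % c < n % c)) ∧ (c ≤ m ↔ 1 ≤ m / c) ∧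
      (m / c = 0 → 0 < m % c) ∧ m % c % 2 = m % 2 ∧ n % c % 2 = n % 2 ∧
      (m % c = n % c → (n + m - 2 * (n % c)) / c = n / c + m / c) := by
  have h1 := Nat.mod_add_div m c
  have h2 := Nat.mod_add_div n c
  have h3 := (dig_le (Nat.mod_lt m hc) (Nat.mod_lt n hc)).1 (h1.trans_le (h.le.trans h2.ge))
  have h4 := mt (dig_eq (Nat.mod_lt m hc) (Nat.mod_lt n hc)).2 (h1.trans_ne (h.ne.trans_eq h2.symm))
  refine ⟨by omega, by rw [Nat.le_div_iff_mul_le hc, one_mul], fun x => by simp [x] at h1; omega,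
    Nat.mod_mod_of_dvd _ he.two_dvd, Nat.mod_mod_of_dvd _ he.two_dvd, fun x => ?_⟩
  rw [show n + m - 2 * (n % c) = c * (n / c + m / c) by rw [mul_add]; omega,
    Nat.mul_div_cancel_left _ hc]

theorem arith_hh' {c n m i : ℕ} {P σ : Prop} (hc : 0 < c) (h1 : m < n)
    (h : (∃ s, n = c * s ∧ (P ↔ rho i s)) ∨ (∃ s, n - m = c * s ∧ (σ ↔ rho i s)) ∨
      ∃ s, n - m < c * s ∧ c * s < n) :
    1 ≤ n / c ∧ ((n % c = 0 ∧ (P ↔ rho i (n / c))) ∨ (m % c = n % c ∧ (σ ↔ rho i (n / c - m / c))) ∨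
      ((1 ≤ m / c ∨ n % c < m % c) ∧ (n % c = 0 → 2 ≤ m / c ∨ (m / c = 1 ∧ 0 < m % c)))) :=
  arith_hh (Nat.mod_lt _ hc) (Nat.mod_lt _ hc) (by rwa [Nat.mod_add_div, Nat.mod_add_div])
    (by rwa [Nat.mod_add_div, Nat.mod_add_div])

universe u
variable {F : Type u} {V W : Type*} {V₀ : Type u} [Field F] [AddCommGroup V] [Module F V]
  [AddCommGroup W] [Module F W] [AddCommGroup V₀] [Module F V₀] {Q : QuadraticForm F V}
  {Q' : QuadraticForm F W} {Q₀ : QuadraticForm F V₀} {f : End F V} {g : End F W} {r : ℕ}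
  [Fintype F] [FiniteDimensional F V] [FiniteDimensional F W] [FiniteDimensional F V₀]

theorem forall_emb_odd {p : ℕ} [Fact p.Prime] [CharP F p] [hr : Fact r.Prime] (hp : r ≠ p)
    (h2 : r ≠ 2) (hQ : ND Q) (h₀ : ND Q₀) {n m i c : ℕ} (hn : finrank F V = n)
    (hm : finrank F V₀ = m) (h5 : 5 ≤ n) (h0 : 0 < m) (h1 : m < n) (he : Even m ∨ Even n)
    (hi : i = orderOf (Fintype.card F : ZMod r)) (hc : c = cc i)
    (h : r ∣ Nat.card {U : Submodule F V // Nonempty ((Q.restrict U).IsometryEquiv Q₀)}) :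
    ((n % c = 0 ∧ (IsPlus Q ↔ rho i (n / c))) ∨
      (m % c = n % c ∧ (¬ (IsPlus Q₀ ↔ IsPlus Q) ↔ rho i (n / c - m / c))) ∨
      ((1 ≤ m / c ∨ n % c < m % c) ∧ (n % c = 0 → 2 ≤ m / c ∨ (m / c = 1 ∧ 0 < m % c)))) ∧
    ((∀ f (a : F), Om Q f → f ^ r = a • 1 → (∀ a : F, f ≠ a • 1) → Emb Q f Q₀) ↔
      ((n % c = 0 → (IsPlus Q ↔ rho i (n / c))) → m % c ≤ n % c ∧
        (m % c = 0 → (IsPlus Q₀ ↔ rho i (m / c))) ∧
        (m % c = n % c → ((IsPlus Q ↔ rho i (n / c)) ↔ (IsPlus Q₀ ↔ rho i (m / c)))))) := by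
  subst hn hm hc
  have r0 : (r : F) ≠ 0 := natCast_ne_zero_of_ne hr.out hp
  have hi0 : 0 < i := hi ▸ ord_pos r0 hr.out
  have hc := cc_pos hi0
  haveI : Nontrivial V := Module.nontrivial_of_finrank_pos (R := F) (by omega)
  have e1 := Nat.mod_add_div (finrank F V) (cc i)
  have e2 := Nat.mod_add_div (finrank F V₀) (cc i)
  obtain ⟨k, hk⟩ := Nat.exists_eq_add_of_le h1.le
  obtain ⟨Q₁, a1, ⟨e⟩⟩ := exists_cpl hQ h₀ hk.symm (by omega)
  have a2 : HH (Fintype.card F) r (finrank F V) (finrank F V - finrank F V₀) (IsPlus Q)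
      (¬ (IsPlus Q₀ ↔ IsPlus Q)) := by
    have h3 := hh_emb hp hQ h₀ a1 e h0 h
    rw [finrank_fin_fun] at h3
    rw [show finrank F V - finrank F V₀ = k by omega]
    refine h3.imp_right (Or.imp_left fun x => ?_)
    by_cases hk' : Even k
    · have : Even (finrank F V₀) := he.elim id fun y => (Nat.even_add.1 (hk ▸ y)).2 hk'
      rwa [plus_iso_iff h₀ a1 e this (by simpa using hk'), ← iff_assoc, iff_self, true_iff]
    · simpa [oT, hk'] using x
  obtain ⟨a3, a4⟩ := arith_hh' hc h1 (a2.arith hr.out (by have := hr.out.two_le; omega) hi hi0)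
  have a5 := arith_nd (P := IsPlus Q) (τ := IsPlus Q₀) (i := i) (Nat.mod_lt _ hc) (Nat.mod_lt _ hc)
    (h0.trans_eq e2.symm) (e2.trans_lt (h1.trans_eq e1.symm))
  rw [e1, e2, forall_prop_of_true a3] at a5
  refine ⟨a4, ?_⟩
  rw [forall_om_odd hQ (good_of_five_le h5) (hr.out.odd_of_ne_two h2) (fun f => Emb Q f Q₀)
    fun f => (emb_smul (by simp)).2, forall_os hr.out h2 r0 hQ hi _ _
      fun f e s w h => h.2.2.2.2 V₀ Q₀ h₀ he, ← a5]
  refine ⟨fun H e s b1 b2 b3 => ?_, fun H e s w b1 b2 b3 _ => H e s b1 b2 b3⟩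
  obtain ⟨w, hw⟩ := exists_adm (i := i) (hi ▸ one_le_t hr.out r0) s
  exact H e s w b1 b2 b3 hw

theorem ne_char_of_sing {p : ℕ} [Fact p.Prime] [CharP F p] (hr : r.Prime) (hQ : ND Q) {m : ℕ}
    (hm : 1 ≤ m) (hn : 2 * m < finrank F V)
    (h : r ∣ Nat.card {U : Submodule F V // finrank F U = m ∧ Sing Q U}) : r ≠ p := by
  rintro rfl
  exact (hh_sing hr hQ hm hn h).ne_zero hr (by omega) (by omega) card_zmod_char

theorem forall_sq_odd (hr : r.Prime) (r0 : (r : F) ≠ 0) (h2 : r ≠ 2) (hQ : ND Q) {n m i c : ℕ}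
    (hn : finrank F V = n) (h5 : 5 ≤ n) (h0 : 1 ≤ m) (h1 : 2 * m < n)
    (hi : i = orderOf (Fintype.card F : ZMod r)) (hc : c = cc i)
    (h : r ∣ Nat.card {U : Submodule F V // finrank F U = m ∧ Sing Q U}) :
    (∀ f (a : F), Om Q f → f ^ r = a • 1 → (∀ a : F, f ≠ a • 1) → SQ Q f m) ↔ i ≤ m ∧
      ((Odd i ∧ ((n % c = 0 ∧ ¬ IsPlus Q) ∨ 2 * (m % i) < n % c ∨
        (2 * (m % i) = n % c ∧ IsPlus Q))) ∨
      (Even i ∧ (r - 1) / i + 2 * (m / i) ≤ n / i ∧ ((2 * (m % i) ≤ i ∧ n % c = 0 ∧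
        ¬ (IsPlus Q ↔ n / i % 2 = 0) ∧ (r - 1) / i + 2 * (m / i) < n / i) ∨
        (2 * (m % i) ≤ n % c ∧ (IsPlus Q ↔ n / i % 2 = 0)) ∨
        (2 * (m % i) < n % c ∧ ¬ (IsPlus Q ↔ n / i % 2 = 0))))) := by
  subst hn
  have hi0 : 0 < i := hi ▸ ord_pos r0 hr
  have hc0 : 0 < c := hc ▸ cc_pos hi0
  haveI : Nontrivial V := Module.nontrivial_of_finrank_pos (R := F) (by omega)
  have e1 := Nat.mod_add_div (finrank F V) c
  have e2 := Nat.mod_add_div (2 * m) c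
  have e3 := Nat.mod_add_div m i
  have e4 : i ≤ m ↔ 1 ≤ m / i := by rw [Nat.le_div_iff_mul_le hi0, one_mul]
  obtain ⟨a3, a4⟩ := arith_hh' hc0 h1 (hc ▸ (hh_sing hr hQ h0 h1 h).arith hr
    (by have := hr.two_le; omega) hi hi0)
  rw [forall_om_odd hQ (good_of_five_le h5) (hr.odd_of_ne_two h2) (fun f => SQ Q f m)
    fun f => (sq_smul (by simp)).2, forall_os hr h2 r0 hQ hi _ _ fun f e s w h => h.2.2.2.1 m, e4]
  rcases Nat.even_or_odd i with he | he
  · simp only [adm_even hi0 he]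
    obtain rfl : c = i := by simp [hc, cc, he]
    simp only [← hc, rho_even he, he, Nat.not_odd_iff_even.2 he, false_and, false_or,
      true_and] at a4 ⊢
    have hl := Nat.mod_lt m hc0
    rw [← arith_ts_even (Nat.mod_lt _ hc0) hl (Nat.mod_lt (2 * m) hc0)
      (hi ▸ one_le_t hr r0) ?_ (by rwa [e3]) (by rwa [e1, e2]) a3 a4, e1, e3]
    by_cases x : 2 * (m % c) < c
    · exact Or.inl ((dig_eq (Nat.mod_lt _ hc0) x).1 (by rw [e2]; linarith)
        |>.imp_right Eq.symm)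
    · have := (dig_eq (Nat.mod_lt (2 * m) hc0) (y := 2 * (m % c) - c) (a := 2 * m / c)
        (b := 2 * (m / c) + 1) (by omega)).1 (by rw [e2, mul_add, mul_left_comm]; omega)
      exact Or.inr ⟨this.1, by omega⟩
  · simp only [adm_odd he]
    obtain rfl : c = 2 * i := by simp [hc, cc, Nat.not_even_iff_odd.2 he]
    simp only [← hc, rho_odd he, he, Nat.not_even_iff_odd.2 he, false_and, or_false, true_and,
      iff_true, Nat.mul_mod_mul_left, Nat.mul_div_mul_left _ _ two_pos] at a4 e2 ⊢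
    have := arith_ts_odd (P := IsPlus Q) (Nat.mod_lt _ hc0) (Nat.mod_lt m hi0)
      (e2.trans_lt (h1.trans_eq e1.symm))
    rw [e1, e3, forall_prop_of_true a3] at this
    refine Iff.trans ⟨fun H e s b1 b2 b3 => H e s s b1 b2 b3 rfl,
      fun H e s w b1 b2 b3 b4 => b4 ▸ H e s b1 b2 b3⟩ (this.trans ?_)
    have : m / i = 0 → 0 < m % i := fun x => by simp [x] at e3; omega
    clear e1 e2 e3 e4
    generalize m / i = M at *
    by_cases hP : IsPlus Q <;> simp only [hP, not_true, not_false_iff, and_true, and_false,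
      false_or, or_false, imp_true_iff, forall_const, imp_false] at a4 ⊢ <;> omega

omit [Fintype F] [FiniteDimensional F V] in
theorem ndOn_iff {ι : Type} [Fintype ι] [DecidableEq ι] (Q : QuadraticForm F (ι → F))
    (U : Submodule F (ι → F)) : Geo.IsNondegenerateOn (polar ⇑Q) U ↔ ND (Q.restrict U) := by
  rw [← nds_iff_nd]
  exact forall₂_congr fun w _ => imp_congr_right fun _ => ⟨fun h => h.2, fun ⟨x, a, b⟩ =>
    ⟨⟨x, a, fun e => b ((polar_comm _ _ _).trans e)⟩, x, a, b⟩⟩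

omit [Fintype F] [FiniteDimensional F V] in
theorem plusOn_iff {ι : Type} [Fintype ι] [DecidableEq ι] (Q : QuadraticForm F (ι → F))
    (U : Submodule F (ι → F)) : Geo.IsPlusTypeOn ⇑Q U ↔ IsPlus (Q.restrict U) :=
  (isPlus_res Q U).symm

theorem exists_model {m : ℕ} (he : Even m) (h0 : 0 < m) (τ : Prop) (Q : QuadraticForm F V) :
    ∃ Q₀ : QuadraticForm F (Fin m → F), ND Q₀ ∧ (IsPlus Q₀ ↔ τ) ∧ ∀ U : Submodule F V,
      (finrank F U = m ∧ ND (Q.restrict U) ∧ (IsPlus (Q.restrict U) ↔ τ)) ↔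
        Nonempty ((Q.restrict U).IsometryEquiv Q₀) := by
  obtain ⟨Q₀, a1, a2⟩ := exists_form_even (F := F) he τ (by omega)
  exact ⟨Q₀, a1, a2, fun U => by rw [iso_iff_type a1 (by simpa using he), a2, finrank_fin_fun]⟩

omit [Fintype F] [FiniteDimensional F V] in
theorem isom_iff {ι : Type} [Fintype ι] [DecidableEq ι] (Q : QuadraticForm F (ι → F))
    {U₀ : Submodule F (ι → F)} {m : ℕ} (h : finrank F U₀ = m ∧ ND (Q.restrict U₀))
    (U : Submodule F (ι → F)) : (finrank F U = m ∧ ND (Q.restrict U) ∧ Geo.AreIsometricFor ⇑Q U U₀) ↔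
      Nonempty ((Q.restrict U).IsometryEquiv (Q.restrict U₀)) :=
  ⟨fun ⟨_, _, e, he⟩ => ⟨{ e with map_app' := he }⟩, fun ⟨e⟩ =>
    ⟨(iso_finrank e).trans h.1, h.2.of_iso e.symm, e.toLinearEquiv, e.map_app⟩⟩

end Cfsg.Agent.Elu
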