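import Mathlib
import Cfsg.Agent.Elu.Or5

/-!
Involutions of orthogonal groups in characteristic two; non-singular points.
-/

set_option autoImplicit false
set_option backward.isDefEq.respectTransparency false

namespace Cfsg.Agent.Elu

open Module Polynomial Conj Spc Orth QuadraticMap
open scoped _root_.Classical

universe u
variable {F : Type u} {V W V₀ : Type*} [Field F] [AddCommGroup V] [Module F V]
  [AddCommGroup W] [Module F W] [AddCommGroup V₀] [Module F V₀] {Q : QuadraticForm F V}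
  {Q' : QuadraticForm F W} {Q₀ : QuadraticForm F V₀} {f : End F V} {g : End F W} {r : ℕ}

theorem TrQ.trans {k : End F V₀} (h : TrQ Q f Q' g) (h' : TrQ Q' g Q₀ k) : TrQ Q f Q₀ k := by
  obtain ⟨e, he⟩ := h
  obtain ⟨e', he'⟩ := h'
  exact ⟨e.trans e', fun v => (congrArg e' (he v)).trans (he' _)⟩

theorem TrQ.prod {V' W' : Type*} [AddCommGroup V'] [Module F V'] [AddCommGroup W'] [Module F W']
    {P : QuadraticForm F V'} {P' : QuadraticForm F W'} {f' : End F V'} {g' : End F W'}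
    (h : TrQ Q f Q' g) (h' : TrQ P f' P' g') :
    TrQ (Q.prod P) (f.prodMap f') (Q'.prod P') (g.prodMap g') := by
  obtain ⟨e, he⟩ := h
  obtain ⟨e', he'⟩ := h'
  exact ⟨e.prod e', fun v => Prod.ext (he v.1) (he' v.2)⟩

theorem trQ_sumHom (e : (Q₀.prod Q').IsometryEquiv Q) (a : OG Q₀) (b : OG Q') :
    TrQ (Q₀.prod Q') ((subRep _ a).prodMap (subRep _ b)) Q (subRep _ (sumHom e (a, b))) :=
  ⟨e, fun v => (sumHom_apply e (a, b) v.1 v.2).symm⟩

theorem trQ_conj {t s : OG Q} (h : IsConj t s) : TrQ Q (subRep _ t) Q (subRep _ s) := by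
  obtain ⟨g, rfl⟩ := isConj_iff.1 h
  exact ⟨⟨g.1, g.2⟩, fun v => by
    change g.1 (t.1 v) = g.1 (t.1 ((g⁻¹).1 (g.1 v)))
    rw [OG.inv_apply_self]⟩

theorem sing_mov_sum (e : (Q₀.prod Q').IsometryEquiv Q) (a : OG Q₀) (b : OG Q') :
    Sing Q (mov (sumHom e (a, b))) ↔ Sing Q₀ (mov a) ∧ Sing Q' (mov b) := by
  rw [mov_sumHom, ← sing_prod]
  exact ⟨fun h x hx => (e.map_app x).symm.trans (h _ ⟨x, hx, rfl⟩), fun h => h.map _ e.map_app⟩

theorem sq_subRep {t : OG Q} : subRep _ t ^ 2 = 1 ↔ t * t = 1 := by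
  rw [← map_pow, ← map_one (subRep (OG Q)), (subRep_injective _).eq_iff, pow_two]

variable [FiniteDimensional F V] [FiniteDimensional F W] [FiniteDimensional F V₀]

theorem Emb.split (hQ : ND Q) (hf : IQ Q f) (h₀ : ND Q₀) (hQ' : ND Q')
    (e : (Q₀.prod Q').IsometryEquiv Q) (h : Emb Q f Q₀) :
    ∃ g g', IQ Q₀ g ∧ IQ Q' g' ∧ TrQ (Q₀.prod Q') (g.prodMap g') Q f := by
  obtain ⟨U, ⟨a1⟩, a2⟩ := h
  have b0 := h₀.of_iso a1.symm
  have b1 := (nd_restrict_iff U).1 b0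
  obtain ⟨ψ⟩ := witt_cancel h₀ (hQ.nd_perp b1) hQ' (((a1.symm.prod
    (QuadraticMap.IsometryEquiv.refl _)).trans (splitIso (hQ.isCompl_perp b1))).trans e.symm)
  obtain ⟨g, c1⟩ := exists_trQ a1 (res f a2)
  obtain ⟨g', c2⟩ := exists_trQ ψ (res f (hf.perp_inv hQ a2))
  exact ⟨g, g', c1.iq (hf.res _), c2.iq (hf.res _), (c1.prod c2).symm.trans (trQ_perp hQ hf b0 a2)⟩

theorem rk_eq_zero {t : OG Q} (h : rk t = 0) : t = 1 :=
  OG.ext fun x => sub_eq_zero.1 ((Submodule.mem_bot F).1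
    (Submodule.finrank_eq_zero.1 h ▸ sub_mem_mov t x))

variable [Fintype F]

theorem forall_inv_two [Nontrivial V] (h2 : (2 : F) = 0) (hQ : ND Q) (hg : Good F V)
    (P : End F V → Prop) :
    (∀ f (c : F), Om Q f → f ^ 2 = c • 1 → (∀ a : F, f ≠ a • 1) → P f) ↔
      ∀ t : OG Q, t * t = 1 → Even (rk t) → rk t ≠ 0 → P (subRep _ t) := by
  have key : ∀ {f : End F V} {c : F} {k : ℕ}, IQ Q f → f ^ k = c • 1 → f ^ k = 1 := fun h1 h3 => by
    rcases h1.im.pm (ef_polar hQ) h3 with rfl | rfl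
    · simpa using h3
    · rwa [show (-1 : F) = 1 by linear_combination -h2, one_smul] at h3
  constructor
  · intro H t a1 a2 a3
    refine H _ 1 ((om_iff t).2 ((hQ.mem_commutator_iff_char_two hg h2 t).2 a2))
      (by simpa using sq_subRep.2 a1) fun a e => a3 ?_
    obtain rfl : t = 1 := subRep_injective _ ((pow_one _).symm.trans
      ((key (k := 1) t.2 ((pow_one _).trans e)).trans (map_one _).symm))
    exact rk_one
  · rintro H _ c ⟨t, a1, rfl⟩ a2 a3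
    exact H t (sq_subRep.1 (key t.2 a2)) (hQ.even_rk_of_mem a1) fun e => a3 1 (by
      simp [rk_eq_zero e])

theorem exists_inv_rk (h2 : (2 : F) = 0) (hQ : ND Q) {b : ℕ} (hb : 2 * b ≤ finrank F V) :
    ∃ s : OG Q, s * s = 1 ∧ rk s = b ∧ (0 < b → ¬ Sing Q (mov s)) := by
  rcases b with _ | b
  · exact ⟨1, mul_one _, rk_one, fun h => absurd h (lt_irrefl _)⟩
  · obtain ⟨U, a1, rfl⟩ := hQ.exists_sing_finrank (k := b) (by omega)
    obtain ⟨s, b1, b2, b3⟩ := hQ.exists_invol_rk h2 a1 (by omega)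
    exact ⟨s, b1, b2, fun _ => b3⟩

theorem forall_emb_char_two (h2 : (2 : F) = 0) (hQ : ND Q) (h₀ : ND Q₀) (hQ' : ND Q')
    (e : (Q₀.prod Q').IsometryEquiv Q) (h5 : 5 ≤ finrank F V) (h0 : 0 < finrank F V₀) :
    (∀ f (c : F), Om Q f → f ^ 2 = c • 1 → (∀ a : F, f ≠ a • 1) → Emb Q f Q₀) ↔
      ∀ k, Even k → k ≠ 0 → SQ Q 1 k → ∃ a b, Even a ∧ Even b ∧ a + b = k ∧ SQ Q₀ 1 a ∧ SQ Q' 1 b := by
  haveI : Nontrivial V := Module.nontrivial_of_finrank_pos (R := F) (by omega)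
  rw [forall_inv_two h2 hQ (good_of_five_le h5)]
  constructor
  · rintro H _ a1 a2 ⟨S, rfl, a3, -⟩
    obtain ⟨t, b1, rfl⟩ := hQ.exists_invol_sing h2 a3 a1
    obtain ⟨g, g', c1, c2, e', c3⟩ := (H t b1 a1 a2).split hQ t.2 h₀ hQ' e
    obtain ⟨a, rfl⟩ := exists_og h₀ c1
    obtain ⟨b, rfl⟩ := exists_og hQ' c2
    obtain rfl : sumHom e' (a, b) = t :=
      sum_ext e' fun x y => (sumHom_apply e' (a, b) x y).trans (c3 (x, y))
    rw [← map_mul, ← map_one (sumHom e'), (sumHom_injective e').eq_iff] at b1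
    have c4 := (sing_mov_sum e' a b).1 a3
    exact ⟨_, _, h₀.even_rk_of_sing h2 (congrArg Prod.fst b1) c4.1,
      hQ'.even_rk_of_sing h2 (congrArg Prod.snd b1) c4.2, (rk_sumHom e' a b).symm,
      ⟨_, rfl, c4.1, one_inv _⟩, _, rfl, c4.2, one_inv _⟩
  intro H t a1 a2 a3
  suffices ∃ a b, a * a = 1 ∧ b * b = 1 ∧ rk a + rk b = rk t ∧
      (Sing Q₀ (mov a) ∧ Sing Q' (mov b) ↔ Sing Q (mov t)) by
    obtain ⟨a, b, b1, b2, b3, b4⟩ := this
    exact ((emb_inl _ _).tr (trQ_sumHom e a b)).tr (trQ_conj ((hQ.isConj_iff_char_two h2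
      (by rw [← map_mul, Prod.mk_mul_mk, b1, b2]; exact map_one _) a1).2
      ⟨(rk_sumHom e a b).trans b3, (sing_mov_sum e a b).trans b4⟩))
  by_cases h : Sing Q (mov t)
  · obtain ⟨_, _, b1, b2, b3, ⟨S, rfl, b4, -⟩, T, rfl, b5, -⟩ := H _ a2 a3 ⟨_, rfl, h, one_inv _⟩
    obtain ⟨a, c1, rfl⟩ := h₀.exists_invol_sing h2 b4 b1
    obtain ⟨b, c2, rfl⟩ := hQ'.exists_invol_sing h2 b5 b2
    exact ⟨a, b, c1, c2, b3, iff_of_true ⟨b4, b5⟩ h⟩
  · obtain ⟨x, hx⟩ := h₀.even_finrank_of_char_two h2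
    obtain ⟨y, hy⟩ := hQ'.even_finrank_of_char_two h2
    have b1 := hQ.two_mul_rk_le h2 a1
    rw [finrank_sum e] at b1
    obtain ⟨a, c1, c2, c3⟩ := exists_inv_rk h2 h₀ (b := min (rk t) x) (by omega)
    obtain ⟨b, c4, c5, -⟩ := exists_inv_rk h2 hQ' (b := rk t - min (rk t) x) (by omega)
    exact ⟨a, b, c1, c4, by omega, iff_of_false (fun z => c3 (by omega) z.1) h⟩

theorem forall_emb_char_two' (h2 : (2 : F) = 0) (hQ : ND Q) (h₀ : ND Q₀) {d x : ℕ}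
    (hd : finrank F V = 2 * d) (hx : finrank F V₀ = 2 * x) (h3 : 3 ≤ d) (h0 : 0 < x) (h1 : x < d) :
    (∀ f (c : F), Om Q f → f ^ 2 = c • 1 → (∀ a : F, f ≠ a • 1) → Emb Q f Q₀) ↔
      ∀ k, k % 2 = 0 → k ≠ 0 → k ≤ d → (k = d → IsPlus Q) → ∃ a b, a % 2 = 0 ∧ b % 2 = 0 ∧
        a + b = k ∧ (a ≤ x ∧ (a = x → IsPlus Q₀)) ∧ b + x ≤ d ∧
          (b + x = d → (IsPlus Q₀ ↔ IsPlus Q)) := by
  obtain ⟨Q₁, a1, ⟨e⟩⟩ := exists_cpl (k := 2 * (d - x)) hQ h₀ (by omega) (by omega)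
  have a2 := plus_iso_iff h₀ a1 e (hx ▸ even_two_mul x) (by simp)
  rw [forall_emb_char_two h2 hQ h₀ a1 e (by omega) (by omega)]
  simp only [sq_one_iff' hQ, sq_one_iff' h₀, sq_one_iff' a1, hd, hx, finrank_fin_fun, and_imp,
    Nat.mul_le_mul_left_iff two_pos, mul_right_inj' two_ne_zero, Nat.even_iff, a2, ← iff_assoc,
    iff_self, true_iff, Nat.le_sub_iff_add_le h1.le, show ∀ b, b = d - x ↔ b + x = d by omega]

/-- an invariant non-singular point -/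
def NP (Q : QuadraticForm F V) (f : End F V) : Prop :=
  ∃ U : Submodule F V, (finrank F U = 1 ∧ ∃ v ∈ U, Q v ≠ 0) ∧ U.map f ≤ U

omit [Fintype F] in
theorem np_iff (h2 : (2 : F) = 0) (hf : IQ Q f) : NP Q f ↔ ∃ v, Q v ≠ 0 ∧ f v = v := by
  constructor
  · rintro ⟨U, ⟨a1, v, a2, a3⟩, a4⟩
    obtain ⟨c, hc⟩ := (finrank_eq_one_iff_of_nonzero' (⟨v, a2⟩ : U) fun e =>
      ne_zero_of_Q_ne_zero a3 (congrArg Subtype.val e)).1 a1 ⟨f v, inv_iff.1 a4 v a2⟩
    have h1 : c • v = f v := congrArg Subtype.val hc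
    have h3 := hf v
    rw [← h1, q_smul] at h3
    obtain rfl : c = 1 := sq_inj_two h2 (by simpa using (mul_eq_right₀ a3).1 h3)
    exact ⟨v, a3, by simpa using h1.symm⟩
  · rintro ⟨v, a1, a2⟩
    exact ⟨_, ⟨finrank_span_singleton (ne_zero_of_Q_ne_zero a1), v,
      Submodule.mem_span_singleton_self v, a1⟩, by simp [Submodule.map_span, a2]⟩

theorem forall_np_two (h2 : (2 : F) = 0) (hQ : ND Q) {d : ℕ} (hd : finrank F V = 2 * d)
    (h3 : 3 ≤ d) : (∀ f (c : F), Om Q f → f ^ 2 = c • 1 → (∀ a : F, f ≠ a • 1) → NP Q f) ↔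
      ¬ (IsPlus Q ∧ Even d) := by
  haveI : Nontrivial V := Module.nontrivial_of_finrank_pos (R := F) (by omega)
  rw [forall_inv_two h2 hQ (good_of_five_le (by omega))]
  constructor
  · rintro H ⟨⟨S, a1, a2⟩, a3⟩
    have a4 : finrank F S = d := by omega
    obtain ⟨t, b1, rfl⟩ := hQ.exists_invol_sing h2 a1 (a4 ▸ a3)
    obtain ⟨v, c1, c2⟩ := (np_iff h2 t.2).1 (H t b1 (a4 ▸ a3 :) (by rw [rk]; omega))
    exact c1 (a1 v (hQ.perp_eq_self a1 a2 ▸ hQ.perp_mov t ▸ mem_fix.2 c2))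
  · intro H t a1 a2 _
    refine (np_iff h2 t.2).2 ?_
    suffices ∃ v ∈ perp Q (mov t), Q v ≠ 0 from this.imp fun v h =>
      ⟨h.2, mem_fix.1 (hQ.perp_mov t ▸ h.1)⟩
    by_cases h : Sing Q (mov t)
    · exact hQ.exists_nonsingular_perp (lt_of_le_of_ne (hQ.two_mul_rk_le h2 a1) fun e =>
        H ⟨⟨_, h, e⟩, by rwa [show d = rk t by rw [rk]; omega]⟩)
    · simp only [Sing, not_forall] at h
      obtain ⟨v, hv, hv'⟩ := h
      exact ⟨v, mov_le_perp h2 a1 hv, hv'⟩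

theorem card_np (hQ : ND Q) {d : ℕ} (hd : finrank F V = 2 * d + 2) :
    (Nat.card {U : Submodule F V // finrank F U = 1 ∧ ∃ v ∈ U, Q v ≠ 0} : ℤ) =
      Fintype.card F ^ d * oT (Fintype.card F) (finrank F V) (IsPlus Q) := by
  haveI : Finite V := Module.finite_of_finite F
  have h1 := card_frames (fun U : Submodule F V => ∀ v ∈ U, v ≠ 0 → Q v ≠ 0)
    (fun _ _ h h' v hv => h' v (h hv)) (fun v hv h => absurd hv h)
    (fun _ => Nat.card {v // ¬ Q v = 0}) 1 fun j hj U hU _ => by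
      obtain rfl : U = ⊥ := Submodule.finrank_eq_zero.1 (by omega)
      refine Nat.card_congr (Equiv.subtypeEquivRight fun v => ⟨fun h => h.2 v (by simp) h.1,
        fun h => ⟨ne_zero_of_Q_ne_zero h, fun w hw h0 => ?_⟩⟩)
      obtain ⟨c, rfl⟩ := Submodule.mem_span_singleton.1 (by simpa using hw)
      rw [q_smul]
      exact mul_ne_zero (pow_ne_zero _ (left_ne_zero_of_smul h0)) h
  have h2 : Nat.card {U : Submodule F V // finrank F U = 1 ∧ ∃ v ∈ U, Q v ≠ 0} =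
      Nat.card {U : Submodule F V // finrank F U = 1 ∧ ∀ v ∈ U, v ≠ 0 → Q v ≠ 0} := by
    refine Nat.card_congr (Equiv.subtypeEquivRight fun U => and_congr_right fun hU =>
      ⟨fun ⟨v, a1, a2⟩ w hw h0 => ?_, fun h => ?_⟩)
    · obtain ⟨c, hc⟩ := (finrank_eq_one_iff_of_nonzero' (⟨v, a1⟩ : U) fun e =>
        ne_zero_of_Q_ne_zero a2 (congrArg Subtype.val e)).1 hU ⟨w, hw⟩
      obtain rfl : c • v = w := congrArg Subtype.val hc
      rw [q_smul]
      exact mul_ne_zero (pow_ne_zero _ (left_ne_zero_of_smul h0)) a2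
    · obtain ⟨v, a1, a2⟩ := U.exists_mem_ne_zero_of_ne_bot (by rintro rfl; simp at hU)
      exact ⟨v, a1, h v a1 a2⟩
  have h3 : nv Q 0 + Nat.card {v // ¬ Q v = 0} = Fintype.card F ^ (2 * d + 2) := by
    rw [nv, ← Nat.card_sum, Nat.card_congr (Equiv.sumCompl _), ← hd,
      Module.natCard_eq_pow_finrank (K := F), Nat.card_eq_fintype_card]
  have h4 : 1 < Fintype.card F := Fintype.one_lt_card
  simp only [Finset.prod_range_one, pow_one, pow_zero] at h1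
  rw [← h1, ← h2] at h3
  generalize Nat.card {U : Submodule F V // finrank F U = 1 ∧ ∃ v ∈ U, Q v ≠ 0} = X at h3 ⊢
  zify [h4.le] at h3
  refine mul_right_cancel₀ (b := (Fintype.card F : ℤ) - 1) (by omega) ?_
  rw [oT, hd, if_pos ⟨d + 1, by ring⟩, show (2 * d + 2) / 2 = d + 1 by omega]
  split_ifs with h
  · rw [← nv_iso (hQ.iso_plusQ h (m := d + 1) hd).some, nv_plusQ, Nat.card_eq_fintype_card] at h3
    linear_combination h3
  · obtain ⟨ζ, hζ⟩ := exists_aniso (F := F)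
    rw [← nv_iso (hQ.iso_minusQ h hd hζ).some, nv_minusQ _ hζ, Nat.card_eq_fintype_card] at h3
    linear_combination h3

theorem exists_fpf_of_hit (hr : r.Prime) (h2 : r ≠ 2) (h0 : (r : F) ≠ 0) (hQ : ND Q)
    (h : (r : ℤ) ∣ oT (Fintype.card F) (finrank F V) (IsPlus Q)) :
    ∃ f, IQ Q f ∧ f ^ r = 1 ∧ ∀ v, f v = v → v = 0 := by
  obtain ⟨s, a1, a2⟩ := oT_hit hr (by have := hr.two_le; omega) rfl (ord_pos h0 hr) h
  obtain ⟨w, hw⟩ := exists_adm (one_le_t hr h0) s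
  obtain ⟨f, b1, b2, b3⟩ := exists_os hr h2 h0 hQ rfl (e := 0) (by omega) (fun _ => a2) hw
  exact ⟨f, b1, b2, fun v hv =>
    (Submodule.mem_bot F).1 (Submodule.finrank_eq_zero.1 b3.2.1 ▸ mem_Fx.2 hv)⟩

theorem forall_np {p : ℕ} [Fact p.Prime] [CharP F p] (hp : p = 2) [hr : Fact r.Prime] (hQ : ND Q)
    {d : ℕ} (hd : finrank F V = 2 * d) (h3 : 3 ≤ d)
    (h : r ∣ Nat.card {U : Submodule F V // finrank F U = 1 ∧ ∃ v ∈ U, Q v ≠ 0}) :
    (∀ f (c : F), Om Q f → f ^ r = c • 1 → (∀ a : F, f ≠ a • 1) → NP Q f) ↔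
      r = 2 ∧ ¬ (IsPlus Q ∧ Even d) := by
  subst hp
  have h2 : (2 : F) = 0 := two_eq_zero_of_charP
  by_cases h1 : r = 2
  · subst h1
    simpa using forall_np_two h2 hQ hd h3
  refine iff_of_false (fun H => ?_) fun x => h1 x.1
  haveI : Nontrivial V := Module.nontrivial_of_finrank_pos (R := F) (by omega)
  have h4 := Int.natCast_dvd_natCast.2 h
  rw [card_np hQ (d := d - 1) (by omega)] at h4
  obtain ⟨f, a1, a2, a3⟩ := exists_fpf_of_hit hr.out h1 (natCast_ne_zero_of_ne hr.out h1) hQ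
    (((Nat.prime_iff_prime_int.1 hr.out).dvd_or_dvd h4).resolve_left fun h =>
      not_dvd_pow_card h1 _ (by exact_mod_cast h))
  obtain ⟨v, b1, b2⟩ := (np_iff h2 a1).1 ((forall_om_odd hQ (good_of_five_le (by omega))
    (hr.out.odd_of_ne_two h1) _ fun f hf => by
      rwa [show (-1 : F) = 1 by linear_combination -h2, one_smul]).1 H f a1 a2 (by
        rintro rfl
        obtain ⟨v, hv⟩ := exists_ne (0 : V)
        exact hv (a3 v rfl)))
  exact ne_zero_of_Q_ne_zero b1 (a3 v b2)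

end Cfsg.Agent.Elu
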