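import Mathlib
import Cfsg.Agent.Elu.Or6

/-!
Unipotent elements of orthogonal groups in odd characteristic.
-/

set_option autoImplicit false
set_option backward.isDefEq.respectTransparency false

namespace Cfsg.Agent.Elu

open Module Polynomial Conj Spc Orth QuadraticMap
open scoped _root_.Classical

theorem sum_le_three {ν : Multiset ℕ} (h : ∀ a ∈ ν, 0 < a ∧ a ≤ 3) :
    ν.sum = ν.count 1 + 2 * ν.count 2 + 3 * ν.count 3 ∧
      ν.card = ν.count 1 + ν.count 2 + ν.count 3 := by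
  induction ν using Multiset.induction_on with
  | empty => simp
  | cons a s ih =>
    have h1 := h a (Multiset.mem_cons_self _ _)
    have h2 := ih fun b hb => h b (Multiset.mem_cons_of_mem hb)
    obtain rfl | rfl | rfl : a = 1 ∨ a = 2 ∨ a = 3 := by omega
    all_goals simp [h2]; omega

/-- the partition `1^x 2^y 3^z` -/
def p3 (x y z : ℕ) : Multiset ℕ :=
  Multiset.replicate x 1 + Multiset.replicate y 2 + Multiset.replicate z 3

theorem mem_p3 {x y z a : ℕ} : a ∈ p3 x y z ↔ (x ≠ 0 ∧ a = 1) ∨ (y ≠ 0 ∧ a = 2) ∨ (z ≠ 0 ∧ a = 3) := by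
  simp [p3, Multiset.mem_replicate, or_assoc]

theorem count_p3 (x y z a : ℕ) : (p3 x y z).count a =
    (if a = 1 then x else 0) + (if a = 2 then y else 0) + if a = 3 then z else 0 := by
  simp [p3, Multiset.count_replicate, eq_comm]

theorem sum_p3 (x y z : ℕ) : (p3 x y z).sum = x + 2 * y + 3 * z := by simp [p3, mul_comm]

theorem lift_parts {μ : Multiset ℕ} {m a : ℕ} (hm : Even m) (ha : Even a) (h0 : 0 < a)
    (h : ∀ b ∈ μ, Even b) {ν : Multiset ℕ} (h1 : ν ≤ (a + 1) ::ₘ (a - 1) ::ₘ μ) (h2 : ν.sum = m)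
    (h3 : ∀ e, Even e → Even (ν.count e)) :
    ∃ ν ≤ a ::ₘ a ::ₘ μ, ν.sum = m ∧ ∀ e, Even e → Even (ν.count e) := by
  have o1 : ¬ Even (a + 1) := by rwa [Nat.even_add_one, not_not]
  have o2 : ¬ Even (a - 1) := by rw [Nat.even_iff] at ha ⊢; omega
  have b1 := Multiset.filter_le_filter Even h1
  have b2 := Multiset.filter_le_filter (fun b => ¬ Even b) h1
  rw [Multiset.filter_cons_of_neg _ o1, Multiset.filter_cons_of_neg _ o2,
    Multiset.filter_eq_self.2 h] at b1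
  rw [Multiset.filter_cons_of_pos (p := fun b => ¬ Even b) _ o1,
    Multiset.filter_cons_of_pos (p := fun b => ¬ Even b) _ o2,
    Multiset.filter_eq_nil.2 fun b hb => not_not.2 (h b hb)] at b2
  have b3 := congrArg Multiset.sum (Multiset.filter_add_not Even ν)
  rw [Multiset.sum_add, h2] at b3
  have b4 : 2 ∣ (ν.filter Even).sum :=
    Multiset.dvd_sum fun b hb => (Multiset.of_mem_filter hb).two_dvd
  have b5 : ∀ e, Even e → Even ((ν.filter Even).count e) := fun e he => by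
    rw [Multiset.count_filter_of_pos he]; exact h3 e he
  rw [Nat.even_iff] at hm ha
  rw [← Multiset.mem_powerset] at b2
  simp only [Multiset.powerset_cons, Multiset.powerset_zero, Multiset.map_add, Multiset.map_singleton,
    Multiset.mem_add, Multiset.mem_singleton] at b2
  rcases b2 with (x | x) | x | x <;> rw [x] at b3 <;> simp only [Multiset.sum_cons,
    Multiset.sum_zero] at b3
  · exact ⟨_, b1.trans ((Multiset.le_cons_self _ _).trans (Multiset.le_cons_self _ _)), b3, b5⟩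
  · omega
  · omega
  · refine ⟨_, Multiset.cons_le_cons _ (Multiset.cons_le_cons _ b1), by
      simp only [Multiset.sum_cons]; omega, fun e he => ?_⟩
    have := b5 e he
    rw [Multiset.count_cons, Multiset.count_cons, add_assoc, Nat.even_add]
    exact iff_of_true this ⟨_, rfl⟩

universe u
variable {F : Type u} {V W V₀ : Type*} [Field F] [AddCommGroup V] [Module F V]
  [AddCommGroup W] [Module F W] [AddCommGroup V₀] [Module F V₀] {Q : QuadraticForm F V}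
  {Q' : QuadraticForm F W} {Q₀ : QuadraticForm F V₀} {f : End F V} {g : End F W} {r : ℕ}
  [FiniteDimensional F V] [FiniteDimensional F W] [FiniteDimensional F V₀]

theorem real_quad (h2 : (2 : F) ≠ 0) {s : Multiset ℕ} (h : Real F 1 False s) :
    ∃ (V : Type u) (_ : AddCommGroup V) (_ : Module F V) (_ : FiniteDimensional F V)
      (Q : QuadraticForm F V) (f : End F V), ND Q ∧ IQ Q f ∧ IsNilpotent (f - 1) ∧ jt (f - 1) = s := by
  obtain ⟨V, _, _, _, B, N, a1, -, a2, a3, a4⟩ := h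
  refine ⟨V, _, _, inferInstance, B.toQuadraticMap, N + 1, fun x hx => a1.nd x fun y => ?_,
    fun x => uIso_iff.1 (by simpa using a2) x x, by simpa using a3, by simpa using a4⟩
  have := hx y
  rw [LinearMap.BilinMap.polar_toQuadraticMap, a1.symm x y] at this
  exact (mul_eq_zero.1 (by simpa [two_mul] using this)).resolve_left h2

theorem Sim.jt_eq (h : Sim f g) (hf : IsNilpotent (f - 1)) :
    IsNilpotent (g - 1) ∧ jt (g - 1) = jt (f - 1) :=
  have a := h.sub_one.symm.isNilpotent hf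
  ⟨a, ((sim_iff_jt hf a).1 h.sub_one).symm⟩

theorem jt_prod (hf : IsNilpotent (f - 1)) (hg : IsNilpotent (g - 1)) :
    IsNilpotent ((f.prodMap g : End F (V × W)) - 1) ∧
      jt ((f.prodMap g : End F (V × W)) - 1) = jt (f - 1) + jt (g - 1) := by
  rw [prodMap_sub_one]
  exact ⟨isNilpotent_prodMap hf hg, jt_prodMap hf hg⟩

omit [FiniteDimensional F V] [FiniteDimensional F W] in
theorem nil_of_prod (h : IsNilpotent ((f.prodMap g : End F (V × W)) - 1)) :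
    IsNilpotent (f - 1) ∧ IsNilpotent (g - 1) := by
  obtain ⟨k, hk⟩ := h
  rw [prodMap_sub_one, prodMap_pow'] at hk
  exact ⟨⟨k, LinearMap.ext fun x => congrArg Prod.fst (LinearMap.congr_fun hk (x, 0))⟩,
    k, LinearMap.ext fun x => congrArg Prod.snd (LinearMap.congr_fun hk (0, x))⟩

theorem jt_even (h2 : (2 : F) ≠ 0) (hQ : ND Q) (hf : IQ Q f) (hN : IsNilpotent (f - 1)) (e : ℕ)
    (he : Even e) : Even ((jt (f - 1)).count e) := by
  rcases Nat.eq_zero_or_pos e with rfl | h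
  · rw [Multiset.count_eq_zero_of_notMem fun h => (jt_pos hN 0 h).false]
    exact Even.zero
  · exact even_count_of_symm h2 (ef_polar hQ) (uIso_iff.2 hf.im) hN he h

theorem sing_Mo (h2 : (2 : F) ≠ 0) (hf : IQ Q f) (hN : IsNilpotent (f - 1))
    (h : ∀ a ∈ jt (f - 1), a ≤ 2) :
    Sing Q (Mo f) ∧ finrank F (Mo f) + (jt (f - 1)).card = finrank F V := by
  refine ⟨fun x hx => ?_, by rw [card_jt hN, add_comm]; exact finrank_Fx_add f⟩
  have h1 : x ∈ Fx f := by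
    obtain ⟨y, rfl⟩ := hx
    simpa [pow_two] using LinearMap.congr_fun ((pow_eq_zero_iff_jt hN 2).2 h) y
  exact (mul_eq_zero.1 ((p_self Q x).symm.trans (Mo_le_perp hf.im hx x h1))).resolve_left h2

theorem plus_of_two (h2 : (2 : F) ≠ 0) (hf : IQ Q f) (hN : IsNilpotent (f - 1))
    (h : ∀ a ∈ jt (f - 1), a = 2) : IsPlus Q := by
  obtain ⟨a1, a2⟩ := sing_Mo h2 hf hN fun a ha => (h a ha).le
  have a3 := sum_jt hN
  rw [Multiset.eq_replicate_card.2 h, Multiset.sum_replicate, smul_eq_mul] at a3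
  exact ⟨_, a1, by omega⟩

theorem q_fix_zero (h2 : (2 : F) ≠ 0) (hQ : ND Q) (hf : IQ Q f) (hN : IsNilpotent (f - 1))
    (h : 1 ∉ jt (f - 1)) {w : V} (hw : f w = w) : Q w = 0 := by
  by_contra h0
  have a1 : (Submodule.span F {w}).map f ≤ Submodule.span F {w} := by simp [Submodule.map_span, hw]
  have a2 := jt_res hN (hQ.isCompl_perp (span_inf_perp_of_nonsingular h2 h0)) a1 (hf.perp_inv hQ a1)
  have a3 := sum_jt (res_nil a1 hN)
  rw [finrank_span_singleton (ne_zero_of_Q_ne_zero h0)] at a3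
  obtain ⟨a, ha⟩ := Multiset.exists_mem_of_ne_zero (s := jt (res f a1 - 1)) (by
    intro e; simp [e] at a3)
  have a4 := jt_pos (res_nil a1 hN) a ha
  have a5 := Multiset.single_le_sum (fun _ _ => Nat.zero_le _) a ha
  exact h (a2 ▸ Multiset.mem_add.2 (Or.inl ((show a = 1 by omega) ▸ ha)))

variable [Fintype F]

theorem exists_sim_odd (hQ : ND Q) (hQ' : ND Q') (hd : finrank F W = finrank F V)
    (ho : Odd (finrank F V)) (hg : IQ Q' g) : ∃ f, IQ Q f ∧ Sim g f := by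
  obtain ⟨m, hm⟩ := ho
  obtain ⟨c, hc, ⟨e⟩⟩ := hQ.iso_smul_oddQ hm
  obtain ⟨c', hc', ⟨e'⟩⟩ := hQ'.iso_smul_oddQ (hd.trans hm)
  obtain ⟨k, a1⟩ := exists_trQ e'.symm g
  obtain ⟨f, a2⟩ := exists_trQ e k
  refine ⟨f, a2.iq fun x => ?_, a1.sim.trans a2.sim⟩
  have := mul_left_cancel₀ hc' (a1.iq hg x)
  simp [this]

theorem exists_unip_O (h2 : (2 : F) ≠ 0) (hQ : ND Q) {μ : Multiset ℕ} (h0 : ∀ a ∈ μ, 0 < a)
    (he : ∀ e, Even e → Even (μ.count e)) (hs : μ.sum = finrank F V) {a : ℕ} (ha : a ∈ μ)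
    (ho : Odd a) : ∃ f, IQ Q f ∧ IsNilpotent (f - 1) ∧ jt (f - 1) = μ := by
  obtain ⟨μ, rfl⟩ := Multiset.exists_cons_of_mem ha
  obtain ⟨V₁, _, _, _, Q₁, f₁, a1, a2, a3, a4⟩ := real_quad h2 (real_odd h2 ho)
  obtain ⟨V₂, _, _, _, Q₂, f₂, b1, b2, b3, b4⟩ := real_quad h2 (real_symm h2 μ
    (fun b hb => h0 b (Multiset.mem_cons_of_mem hb)) fun e h => by
      have := he e h
      rwa [Multiset.count_cons_of_ne (by rintro rfl; exact Nat.not_even_iff_odd.2 ho h)] at this)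
  obtain ⟨Q₃, c1, ⟨e⟩⟩ := exists_cpl (k := a) hQ b1 (by
    rw [← sum_jt b3, b4, ← hs, Multiset.sum_cons, add_comm]) fun h => absurd ho (by simp [h])
  obtain ⟨f₃, c2, c3⟩ := exists_sim_odd c1 a1 (by simp [← sum_jt a3, a4]) (by simpa using ho) a2
  obtain ⟨f, c4⟩ := exists_trQ e (f₂.prodMap f₃)
  have d1 := Sim.jt_eq c3 a3
  have d2 := jt_prod b3 d1.1
  have d3 := Sim.jt_eq c4.sim d2.1
  exact ⟨f, c4.iq (b2.prod c2), d3.1, by
    rw [d3.2, d2.2, d1.2, a4, b4, add_comm, Multiset.singleton_add]⟩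

variable {p : ℕ} [hp : Fact p.Prime] [CharP F p]

theorem emb_of_unip (h2 : (2 : F) ≠ 0) (hQ : ND Q)
    (H : ∀ f (c : F), Om Q f → f ^ p = c • 1 → (∀ a : F, f ≠ a • 1) → Emb Q f Q₀)
    (a1 : IQ Q f) (a2 : IsNilpotent (f - 1)) (a3 : ∀ a ∈ jt (f - 1), a ≤ p) {b : ℕ}
    (hb : b ∈ jt (f - 1)) (hb' : b ≠ 1) : Emb Q f Q₀ := by
  have b1 : f ^ p = 1 := by
    rw [← sub_eq_zero, ← sub_one_pow_char]; exact (pow_eq_zero_iff_jt a2 p).2 a3
  refine H f 1 (om_of_odd hQ (good_of_two_ne_zero h2) a1 (hp.out.odd_of_ne_two (by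
    rintro rfl; exact h2 (CharP.cast_eq_zero F 2))) b1) (by simpa using b1) ?_
  rintro a rfl
  rw [eq_one_of_unip_smul a2, sub_self, jt_zero] at hb
  exact hb' (Multiset.eq_of_mem_replicate hb)

omit [Fintype F] hp in
theorem Emb.jt (hQ : ND Q) (hf : IQ Q f) (h₀ : ND Q₀) (hQ' : ND Q')
    (e : (Q₀.prod Q').IsometryEquiv Q) (h : Emb Q f Q₀) (hN : IsNilpotent (f - 1)) :
    ∃ g g', IQ Q₀ g ∧ IQ Q' g' ∧ TrQ (Q₀.prod Q') (g.prodMap g') Q f ∧ IsNilpotent (g - 1) ∧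
      IsNilpotent (g' - 1) ∧ jt (f - 1) = jt (g - 1) + jt (g' - 1) := by
  obtain ⟨g, g', a1, a2, a3⟩ := h.split hQ hf h₀ hQ' e
  have a4 := Sim.jt_eq a3.sim.symm hN
  have a5 := nil_of_prod a4.1
  exact ⟨g, g', a1, a2, a3, a5.1, a5.2, a4.2.symm.trans (jt_prod a5.1 a5.2).2⟩

theorem three_le (h2 : (2 : F) ≠ 0) : 3 ≤ p := by
  have := hp.out.two_le
  have : p ≠ 2 := by rintro rfl; exact h2 (CharP.cast_eq_zero F 2)
  omega

theorem emb_test (h2 : (2 : F) ≠ 0) (hQ : ND Q) (h₀ : ND Q₀)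
    (hle : finrank F V₀ < finrank F V)
    (H : ∀ f (c : F), Om Q f → f ^ p = c • 1 → (∀ a : F, f ≠ a • 1) → Emb Q f Q₀)
    (x y z : ℕ) (h1 : y % 2 = 0) (h3 : 0 < x + z) (h4 : 0 < y + z)
    (h5 : x + 2 * y + 3 * z = finrank F V) : ∃ x₁ y₁ z₁, x₁ ≤ x ∧ z₁ ≤ z ∧ y₁ % 2 = 0 ∧
      finrank F V₀ = x₁ + 2 * y₁ + 3 * z₁ ∧ (x₁ = 0 → z₁ = 0 → IsPlus Q₀) ∧
        (x₁ = x → z₁ = z → finrank F V₀ % 2 = 0 → (IsPlus Q₀ ↔ IsPlus Q)) := by
  have h6 := three_le (p := p) h2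
  obtain ⟨a, a1, a2⟩ : ∃ a ∈ p3 x y z, Odd a := by
    by_cases h : x = 0
    · exact ⟨3, mem_p3.2 (by omega), by decide⟩
    · exact ⟨1, mem_p3.2 (by omega), odd_one⟩
  obtain ⟨b, a3, a4⟩ : ∃ b ∈ p3 x y z, b ≠ 1 := by
    by_cases h : y = 0
    · exact ⟨3, mem_p3.2 (by omega), by decide⟩
    · exact ⟨2, mem_p3.2 (by omega), by decide⟩
  obtain ⟨f, b1, b2, b3⟩ := exists_unip_O h2 hQ (fun a ha => by rw [mem_p3] at ha; omega)
    (fun e he => by rw [count_p3, Nat.even_iff] at *; split_ifs <;> omega)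
    ((sum_p3 x y z).trans h5) a1 a2
  obtain ⟨k, hk⟩ := Nat.exists_eq_add_of_le hle.le
  obtain ⟨Q₁, c0, ⟨e⟩⟩ := exists_cpl hQ h₀ hk.symm (by omega)
  obtain ⟨g, g', c1, c2, -, c3, c4, c5⟩ := (emb_of_unip h2 hQ H b1 b2
    (fun a ha => by rw [b3, mem_p3] at ha; omega) (b3 ▸ a3) a4).jt hQ b1 h₀ c0 e b2
  rw [b3] at c5
  have d1 := fun a => congrArg (Multiset.count a) c5
  simp only [count_p3, Multiset.count_add] at d1
  have d2 := d1 1
  have d3 := d1 3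
  simp only [if_true, OfNat.one_ne_ofNat, OfNat.ofNat_ne_one, if_false, Nat.reduceEqDiff] at d2 d3
  have d4 : ∀ a ∈ jt (g - 1) + jt (g' - 1), a = 1 ∨ a = 2 ∨ a = 3 := fun a ha => by
    rw [← c5, mem_p3] at ha; omega
  have d5 : ∀ {ν : Multiset ℕ}, (∀ a ∈ ν, a = 1 ∨ a = 2 ∨ a = 3) → ν.count 1 = 0 → ν.count 3 = 0 →
      ∀ a ∈ ν, a = 2 := fun h h1 h3 a ha => by
    rw [Multiset.count_eq_zero] at h1 h3
    rcases h a ha with rfl | rfl | rfl
    exacts [absurd ha h1, rfl, absurd ha h3]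
  refine ⟨(jt (g - 1)).count 1, (jt (g - 1)).count 2, (jt (g - 1)).count 3, by omega, by omega,
    Nat.even_iff.1 (jt_even h2 h₀ c1 c3 2 even_two), (sum_jt c3).symm.trans (sum_le_three fun a ha =>
      by have := d4 a (Multiset.mem_add.2 (Or.inl ha)); omega).1, fun u v => plus_of_two h2 c1 c3
        (d5 (fun a ha => d4 a (Multiset.mem_add.2 (Or.inl ha))) u v), fun u v w => ?_⟩
  have := plus_of_two h2 c2 c4 (d5 (fun a ha => d4 a (Multiset.mem_add.2 (Or.inr ha)))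
    (by omega) (by omega))
  rw [plus_iso_iff h₀ c0 e (Nat.even_iff.2 w) (IsPlus.even' this), iff_true_intro this, iff_true]

theorem emb_parts (h2 : (2 : F) ≠ 0) (hQ : ND Q) (h₀ : ND Q₀) (hle : finrank F V₀ < finrank F V)
    (hm : Even (finrank F V₀))
    (H : ∀ f (c : F), Om Q f → f ^ p = c • 1 → (∀ a : F, f ≠ a • 1) → Emb Q f Q₀)
    (μ : Multiset ℕ) (h0 : ∀ e ∈ μ, 0 < e ∧ e ≤ p) (he : ∀ e, Even e → Even (μ.count e))
    (hs : μ.sum = finrank F V) :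
    ∃ ν ≤ μ, ν.sum = finrank F V₀ ∧ ∀ e, Even e → Even (ν.count e) := by
  have key : ∀ μ : Multiset ℕ, (∀ e ∈ μ, 0 < e ∧ e ≤ p) → (∀ e, Even e → Even (μ.count e)) →
      μ.sum = finrank F V → (∃ a ∈ μ, Odd a) →
      ∃ ν ≤ μ, ν.sum = finrank F V₀ ∧ ∀ e, Even e → Even (ν.count e) := by
    rintro μ h0 he hs ⟨a, a1, a2⟩
    by_cases h : ∀ b ∈ μ, b = 1
    · rw [Multiset.eq_replicate_card.2 h] at hs ⊢
      refine ⟨Multiset.replicate (finrank F V₀) 1, (Multiset.replicate_le_replicate _).2 ?_, by simp, fun e he => ?_⟩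
      · simpa using hle.le.trans hs.ge
      · rw [Multiset.count_replicate, if_neg (by rintro rfl; simp at he)]
        exact Even.zero
    push Not at h
    obtain ⟨b, a3, a4⟩ := h
    obtain ⟨f, b1, b2, rfl⟩ := exists_unip_O h2 hQ (fun a ha => (h0 a ha).1) he hs a1 a2
    obtain ⟨k, hk⟩ := Nat.exists_eq_add_of_le hle.le
    obtain ⟨Q₁, c0, ⟨e⟩⟩ := exists_cpl hQ h₀ hk.symm (by omega)
    obtain ⟨g, g', c1, -, -, c3, -, c5⟩ := (emb_of_unip h2 hQ H b1 b2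
      (fun a ha => (h0 a ha).2) a3 a4).jt hQ b1 h₀ c0 e b2
    exact ⟨_, c5 ▸ Multiset.le_add_right _ _, sum_jt c3, jt_even h2 h₀ c1 c3⟩
  by_cases h : ∃ a ∈ μ, Odd a
  · exact key μ h0 he hs h
  simp only [not_exists, not_and, Nat.not_odd_iff_even] at h
  obtain ⟨a, ha⟩ := Multiset.exists_mem_of_ne_zero (s := μ) (by rintro rfl; simp at hs; omega)
  obtain ⟨μ, rfl⟩ := Multiset.exists_cons_of_mem ha
  have a1 := he a (h a ha)
  obtain ⟨μ, rfl⟩ := Multiset.exists_cons_of_mem (s := μ) (a := a) (by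
    by_contra x
    simp [Multiset.count_eq_zero.2 x] at a1)
  have a2 := h0 a ha
  have a3 := Nat.even_iff.1 (h a ha)
  have a4 := Nat.odd_iff.1 (hp.out.odd_of_ne_two (by have := three_le (p := p) h2; omega))
  obtain ⟨ν, b1, b2, b3⟩ := key ((a + 1) ::ₘ (a - 1) ::ₘ μ) (fun e x => by
    rcases Multiset.mem_cons.1 x with rfl | x
    · omega
    rcases Multiset.mem_cons.1 x with rfl | x
    · omega
    exact h0 e (by simp [x])) (fun e x => by
      have := he e x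
      rw [Nat.even_iff] at x
      rw [Multiset.count_cons_of_ne (by omega), Multiset.count_cons_of_ne (by omega)]
      rw [Multiset.count_cons, Multiset.count_cons, add_assoc, Nat.even_add] at this
      exact this.2 ⟨_, rfl⟩) (by simp only [Multiset.sum_cons] at hs ⊢; omega)
    ⟨a + 1, by simp, Nat.odd_iff.2 (by omega)⟩
  exact lift_parts hm (h a ha) a2.1 (fun b hb => h b (by simp [hb])) b1 b2 b3

theorem not_emb_one (h2 : (2 : F) ≠ 0) (hQ : ND Q) (h₀ : ND Q₀) (hn : finrank F V % 4 = 0)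
    (hm : finrank F V₀ % 4 = 1) (hle : finrank F V₀ < finrank F V) :
    ¬ ∀ f (c : F), Om Q f → f ^ p = c • 1 → (∀ a : F, f ≠ a • 1) → Emb Q f Q₀ := by
  intro H
  have h6 := three_le (p := p) h2
  obtain ⟨c, hc, ⟨φ⟩⟩ := h₀.iso_odd (m := finrank F V₀ / 2) (by omega)
  obtain ⟨ζ, hζ⟩ := exists_not_isSquare h2
  have hζ0 : ζ ≠ 0 := by rintro rfl; simp at hζ
  have a0 := nd_unQ h2 (mul_ne_zero hζ0 hc)
  obtain ⟨j, hj⟩ : ∃ j, finrank F V = 4 * j + 4 := ⟨finrank F V / 4 - 1, by omega⟩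
  obtain ⟨Q₁, a1, ⟨ψ⟩⟩ := exists_cpl (k := 4 * j + 3) hQ a0 (by simp; omega) (by omega)
  obtain ⟨f₁, a2, a3, a4⟩ := exists_unip_O h2 a1 (μ := p3 0 (2 * j) 1)
    (fun a ha => by rw [mem_p3] at ha; omega)
    (fun e he => by rw [count_p3, Nat.even_iff] at *; split_ifs <;> omega)
    (by rw [sum_p3]; simp; ring) (a := 3) (mem_p3.2 (by omega)) (by decide)
  obtain ⟨f, a5⟩ := exists_trQ ψ ((1 : End F F).prodMap f₁)
  have a6 := jt_prod (f := (1 : End F F)) (by simp) a3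
  have a7 := Sim.jt_eq a5.sim a6.1
  have a8 : jt (f - 1) = p3 1 (2 * j) 1 := by
    rw [a7.2, a6.2, a4, sub_self, jt_zero]; simp [p3, add_assoc]
  have a9 := a5.iq (iq_one.prod a2)
  obtain ⟨k, hk⟩ := Nat.exists_eq_add_of_le hle.le
  obtain ⟨Q₂, c0, ⟨e⟩⟩ := exists_cpl hQ h₀ hk.symm (by omega)
  obtain ⟨g, g', c1, -, ⟨e', c2⟩, c3, -, c5⟩ := (emb_of_unip h2 hQ H a9 a7.1
    (fun a ha => by rw [a8, mem_p3] at ha; omega) (b := 3) (a8 ▸ mem_p3.2 (by omega))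
    (by decide)).jt hQ a9 h₀ c0 e a7.1
  have d0 : ∀ a ∈ jt (g - 1), a ∈ p3 1 (2 * j) 1 := fun a ha =>
    a8 ▸ c5 ▸ Multiset.mem_add.2 (Or.inl ha)
  obtain ⟨d1, d2⟩ := sum_le_three (ν := jt (g - 1)) fun a ha => by
    have := mem_p3.1 (d0 a ha); omega
  have d3 := fun a => Multiset.count_le_of_le a (a8 ▸ c5 ▸ Multiset.le_add_right _ _ :
    jt (g - 1) ≤ p3 1 (2 * j) 1)
  have d4 : _ ≤ 1 := (d3 1).trans_eq (by simp [count_p3])
  have d5 : _ ≤ 1 := (d3 3).trans_eq (by simp [count_p3])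
  have d6 := Nat.even_iff.1 (jt_even h2 h₀ c1 c3 2 even_two)
  rw [sum_jt c3] at d1
  obtain ⟨d7, d8⟩ := sing_Mo h2 c1 c3 fun a ha => by
    have := mem_p3.1 (d0 a ha)
    have : a ≠ 3 := by rintro rfl; have := Multiset.one_le_count_iff_mem.2 ha; omega
    omega
  let i := φ.toLinearEquiv.toLinearMap ∘ₗ LinearMap.inl F _ F
  obtain ⟨γ, hγ⟩ := h₀.exists_map_eq ((sing_stdX _).map i fun v => (φ.map_app (v, 0)).trans (by simp))
    d7 (by
      rw [finrank_map_inj (e := i) (φ.toLinearEquiv.injective.comp LinearMap.inl_injective), finrank_stdX]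
      omega)
  obtain ⟨t, rfl⟩ := exists_og h₀ c1
  have e1 : t.1 (γ.1 (φ (0, 1))) = γ.1 (φ (0, 1)) := mem_fix.1 (h₀.perp_mov t ▸ by
    change _ ∈ perp Q₀ (Mo (subRep _ t))
    rw [← hγ]
    rintro _ ⟨_, ⟨x, -, rfl⟩, rfl⟩
    exact (OG.map_polar γ _ _).trans ((sum_polar φ x 0 0 1).trans (by simp)))
  obtain ⟨ψ, a5⟩ := a5
  obtain ⟨w, hw⟩ := ψ.toLinearEquiv.surjective (e' (γ.1 (φ (0, 1)), 0))
  have e2 : ((1 : End F F).prodMap f₁) w = w := ψ.toLinearEquiv.injective ((a5 w).trans (by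
    change f (ψ.toLinearEquiv w) = _
    rw [hw, ← c2]
    exact congrArg e' (Prod.ext e1 (map_zero g'))))
  have e3 : Q₁ w.2 = 0 := q_fix_zero h2 a1 a2 a3 (by rw [a4, mem_p3]; omega) (congrArg Prod.snd e2)
  have e4 : ζ * c * w.1 ^ 2 = c := by
    have := (ψ.map_app w).symm.trans ((congrArg Q hw).trans ((sum_Q e' _ _).trans (by
      rw [γ.2, sum_Q])))
    simpa [e3, unQ_apply] using this
  have e5 : w.1 ≠ 0 := fun h => hc (by simpa [h] using e4.symm)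
  exact hζ ⟨w.1⁻¹, by field_simp; exact mul_left_cancel₀ hc (by linear_combination e4)⟩

theorem not_emb_odd (h2 : (2 : F) ≠ 0) (hQ : ND Q) (h₀ : ND Q₀) (hn : Even (finrank F V))
    (h6 : 6 ≤ finrank F V) (hm : Odd (finrank F V₀)) (hle : finrank F V₀ < finrank F V) :
    ¬ ∀ f (c : F), Om Q f → f ^ p = c • 1 → (∀ a : F, f ≠ a • 1) → Emb Q f Q₀ := by
  intro H
  rw [Nat.even_iff] at hn
  rw [Nat.odd_iff] at hm
  by_cases h4 : finrank F V % 4 = 0
  · by_cases h1 : finrank F V₀ % 4 = 1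
    · exact not_emb_one h2 hQ h₀ h4 h1 hle H
    obtain ⟨k, hk⟩ := Nat.exists_eq_add_of_le hle.le
    obtain ⟨Q₁, c0, ⟨e⟩⟩ := exists_cpl hQ h₀ hk.symm (by omega)
    exact not_emb_one h2 hQ c0 h4 (by simp; omega) (by simp; omega) fun f c a1 a2 a3 =>
      (H f c a1 a2 a3).perp hQ a1.iq h₀ c0 e
  obtain ⟨_, _, _, a⟩ := emb_test h2 hQ h₀ hle H 2 (finrank F V / 2 - 1) 0 (by omega) (by omega)
    (by omega) (by omega)
  obtain ⟨_, _, _, b⟩ := emb_test h2 hQ h₀ hle H 0 (finrank F V / 2 - 3) 2 (by omega) (by omega)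
    (by omega) (by omega)
  omega

end Cfsg.Agent.Elu
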