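import Mathlib
import Cfsg.Agent.Elu.Or7

/-!
Reductions from the matrix statements to the embedding problem.
-/

set_option autoImplicit false
set_option backward.isDefEq.respectTransparency false

namespace Cfsg.Agent.Elu

open Module Polynomial Conj Spc Orth QuadraticMap
open scoped _root_.Classical

variable {F V₀ : Type*} [Field F] [Fintype F] [AddCommGroup V₀] [Module F V₀]
  {Q₀ : QuadraticForm F V₀} {ι : Type} [Fintype ι] [DecidableEq ι] {r m : ℕ}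

theorem model_plus (Q : QuadraticForm F (ι → F)) (he : Even m) (h0 : 0 < m) :
    ∃ Q₀ : QuadraticForm F (Fin m → F), ND Q₀ ∧ IsPlus Q₀ ∧ ∀ U : Submodule F (ι → F),
      (finrank F U = m ∧ Geo.IsNondegenerateOn (polar ⇑Q) U ∧ Geo.IsPlusTypeOn ⇑Q U) ↔
        Nonempty ((Q.restrict U).IsometryEquiv Q₀) := by
  obtain ⟨Q₀, a, b, c⟩ := exists_model he h0 True Q
  exact ⟨Q₀, a, b.2 trivial, fun U => by rw [← c, ndOn_iff, plusOn_iff, iff_true]⟩

theorem model_minus (Q : QuadraticForm F (ι → F)) (he : Even m) (h0 : 0 < m) :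
    ∃ Q₀ : QuadraticForm F (Fin m → F), ND Q₀ ∧ ¬ IsPlus Q₀ ∧ ∀ U : Submodule F (ι → F),
      (finrank F U = m ∧ Geo.IsNondegenerateOn (polar ⇑Q) U ∧ ¬ Geo.IsPlusTypeOn ⇑Q U) ↔
        Nonempty ((Q.restrict U).IsometryEquiv Q₀) := by
  obtain ⟨Q₀, a, b, c⟩ := exists_model he h0 False Q
  exact ⟨Q₀, a, b.1, fun U => by rw [← c, ndOn_iff, plusOn_iff, iff_false]⟩

theorem model_isom (Q : QuadraticForm F (ι → F)) {U₀ : Submodule F (ι → F)}
    (h : finrank F U₀ = m ∧ Geo.IsNondegenerateOn (polar ⇑Q) U₀) :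
    ND (Q.restrict U₀) ∧ ∀ U : Submodule F (ι → F),
      (finrank F U = m ∧ Geo.IsNondegenerateOn (polar ⇑Q) U ∧ Geo.AreIsometricFor ⇑Q U U₀) ↔
        Nonempty ((Q.restrict U).IsometryEquiv (Q.restrict U₀)) := by
  rw [ndOn_iff] at h
  exact ⟨h.2, fun U => by rw [← isom_iff Q h, ndOn_iff]⟩

omit [Fintype F] [Fintype ι] [DecidableEq ι] in
theorem dvd_red {Q : QuadraticForm F (ι → F)} {P : Submodule F (ι → F) → Prop}
    (hU : ∀ U, P U ↔ Nonempty ((Q.restrict U).IsometryEquiv Q₀)) (h : r ∣ Nat.card {U // P U}) :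
    r ∣ Nat.card {U : Submodule F (ι → F) // Nonempty ((Q.restrict U).IsometryEquiv Q₀)} :=
  h.trans (Nat.card_congr (Equiv.subtypeEquivRight hU)).dvd

theorem emb_red {Q : QuadraticForm F (ι → F)} {P : Submodule F (ι → F) → Prop}
    (hU : ∀ U, P U ↔ Nonempty ((Q.restrict U).IsometryEquiv Q₀)) :
    (∀ x : GL ι F, x ∈ Geo.omegaGL ⇑Q →
      (∃ c : F, ((x ^ r : GL ι F) : Matrix ι ι F) = c • (1 : Matrix ι ι F)) →
      (∀ c : F, (x : Matrix ι ι F) ≠ c • (1 : Matrix ι ι F)) →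
      ∃ W, P W ∧ W.map (Matrix.toLin' (x : Matrix ι ι F)) ≤ W) ↔
      ∀ f (c : F), Om Q f → f ^ r = c • 1 → (∀ a : F, f ≠ a • 1) → Emb Q f Q₀ := by
  simp only [hU]
  exact forall_Om_iff Q fun f => Emb Q f Q₀

theorem emb_red' {Q : QuadraticForm F (ι → F)} {P : Submodule F (ι → F) → Prop} (hQ : ND Q)
    (hn : Odd (finrank F (ι → F))) (hr : r.Prime)
    (hU : ∀ U, P U ↔ Nonempty ((Q.restrict U).IsometryEquiv Q₀)) :
    (∀ x : GL ι F, x ∈ Geo.omegaGL ⇑Q → orderOf x = r →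
      ∃ W, P W ∧ W.map (Matrix.toLin' (x : Matrix ι ι F)) ≤ W) ↔
      ∀ f (c : F), Om Q f → f ^ r = c • 1 → (∀ a : F, f ≠ a • 1) → Emb Q f Q₀ := by
  simp only [hU]
  exact forall_Om_ord hQ hn hr fun f => Emb Q f Q₀

theorem cc_facts {p : ℕ} [Fact p.Prime] [CharP F p] [hr : Fact r.Prime] (hp : r ≠ p) {i c n : ℕ}
    (hi : i = orderOf (Fintype.card F : ZMod r)) (hc : c = cc i) (h0 : 0 < m) (h : m < n) :
    ((m / c < n / c ∨ (m / c = n / c ∧ m % c < n % c)) ∧ (c ≤ m ↔ 1 ≤ m / c) ∧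
      (m / c = 0 → 0 < m % c) ∧ m % c % 2 = m % 2 ∧ n % c % 2 = n % 2 ∧
      (m % c = n % c → (n + m - 2 * (n % c)) / c = n / c + m / c)) ∧
    ((i % 2 = 0 ∧ i = c ∧ ∀ s, rho i s ↔ s % 2 = 0) ∨ (i % 2 = 1 ∧ ∀ s, rho i s ↔ True)) := by
  have hi0 : 0 < i := hi ▸ ord_pos (natCast_ne_zero_of_ne hr.out hp) hr.out
  refine ⟨dig_facts (hc ▸ cc_pos hi0) (by rw [hc, cc]; split_ifs with x; exacts [x, even_two_mul i]) h0 h, ?_⟩
  rcases Nat.even_or_odd i with x | x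
  · exact Or.inl ⟨Nat.even_iff.1 x, by rw [hc, cc, if_pos x], rho_even x⟩
  · exact Or.inr ⟨Nat.odd_iff.1 x, rho_odd x⟩

end Cfsg.Agent.Elu
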