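import Mathlib
import Cfsg.Agent.Elu.Or8

/-!
The orthogonal group inside the symplectic group in characteristic two.
-/

set_option autoImplicit false
set_option backward.isDefEq.respectTransparency false

namespace Cfsg.Agent.Elu

open Module Polynomial Conj Spc Orth QuadraticMap Classical.SpWitt
open scoped _root_.Classical

universe u
variable {F : Type u} {V : Type*} [Field F] [Fintype F] [AddCommGroup V] [Module F V]
  [FiniteDimensional F V] {Q : QuadraticForm F V} {r d : ℕ}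

theorem forall_osp_two (h2 : (2 : F) = 0) (hQ : ND Q) (hd : finrank F V = 2 * d) (h0 : 0 < d) :
    (∀ t : SG Q.polarBilin, t ^ 2 = 1 → t ≠ 1 → ∃ s : OG Q, IsConj t (ogToSG Q s)) ↔
      IsPlus Q ∨ Odd d := by
  have hA := polarBilin_isAlt h2 Q
  have key : ∀ (t : SG Q.polarBilin) (s : OG Q), t * t = 1 → s * s = 1 → (IsConj t (ogToSG Q s) ↔
      finrank F (LinearMap.range (mv t.1)) = rk s ∧
        ((∀ v, polar Q v (t.1 v) = 0) ↔ Sing Q (mov s))) := fun t s a1 a2 => by
    rw [Orth.sp_isConj_iff h2 hQ.nondeg hA a1 (by rw [← map_mul, a2, map_one]), sing_mov_iff h2]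
    rfl
  simp only [pow_two]
  constructor
  · intro H
    by_contra h
    rw [not_or, Nat.not_odd_iff_even] at h
    obtain ⟨t, a1, a2, a3⟩ := sp_exists_invol h2 hQ.nondeg hA hd le_rfl True (fun _ => h.2) (by simp)
    obtain ⟨s, hs⟩ := H t a1 fun e => by
      have := finrank_mv_eq_zero.2 (congrArg Subtype.val e); omega
    have a4 : s * s = 1 := ogToSG_injective (by
      obtain ⟨c, hc⟩ := isConj_iff.1 hs
      rw [map_mul, ← hc, map_one, conj_mul, a1, mul_one, mul_inv_cancel])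
    obtain ⟨b1, b2⟩ := (key t s a1 a4).1 hs
    exact h.1 ⟨_, b2.1 (a3.2 trivial), by rw [hd, ← a2, b1]; rfl⟩
  · intro H t a1 a2
    have a3 := two_mul_finrank_le_of_iso hQ.symND (iso_mv h2 t.2 (invol_of_mul_self a1))
    by_cases h : ∀ v, polar Q v (t.1 v) = 0
    · have a4 := ((sa_mv t.2 (invol_of_mul_self a1)).symND_wall hQ.symND).even_of_alt
        ((isAlt_wall_mv hA t.2 (invol_of_mul_self a1)).2 h)
      obtain ⟨U, b1, b2, -⟩ := (sq_one_iff' hQ _).2 ⟨a3, fun e => H.resolve_right fun x => by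
        rw [Nat.odd_iff] at x; rw [Nat.even_iff] at a4; omega⟩
      obtain ⟨s, b3, rfl⟩ := hQ.exists_invol_sing h2 b2 (b1 ▸ a4)
      exact ⟨s, (key t s a1 b3).2 ⟨b1.symm, iff_of_true h b2⟩⟩
    · obtain ⟨s, b1, b2, b3⟩ := exists_inv_rk h2 hQ a3
      exact ⟨s, (key t s a1 b1).2 ⟨b2.symm, iff_of_false h (b3 (Nat.pos_of_ne_zero fun e =>
        a2 (Subtype.ext (finrank_mv_eq_zero.1 e))))⟩⟩

theorem forall_osp [CharP F 2] [hr : Fact r.Prime] (hQ : ND Q) (hd : finrank F V = 2 * d)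
    (h0 : 0 < d) (h : r ∣ (ogToSG Q).range.index) :
    (∀ t : SG Q.polarBilin, t ^ r = 1 → t ≠ 1 → ∃ s : OG Q, IsConj t (ogToSG Q s)) ↔
      r = 2 ∧ (IsPlus Q ∨ Odd d) := by
  have h2 : (2 : F) = 0 := two_eq_zero_of_charP
  by_cases h1 : r = 2
  · subst h1
    simpa using forall_osp_two h2 hQ hd h0
  refine iff_of_false (fun H => ?_) fun x => h1 x.1
  have r0 : (r : F) ≠ 0 := natCast_ne_zero_of_ne hr.out h1
  have hA := polarBilin_isAlt h2 Q
  have hq : 1 < Fintype.card F := Fintype.one_lt_card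
  have a1 := (ogToSG Q).range.index_mul_card
  rw [card_SG hQ.nondeg hA hd, ← Nat.card_congr (MonoidHom.ofInjective ogToSG_injective).toEquiv,
    Nat.card_eq_fintype_card (α := F)] at a1
  have a2 := card_OG_U hQ
  have a3 : (((ogToSG Q).range.index : ℤ)) * Nat.card (OG Q) =
      Fintype.card F ^ (d ^ 2) * oP (Fintype.card F) d := by
    rw [← Nat.cast_mul, a1, oP]
    push_cast
    exact congrArg _ (Finset.prod_congr rfl fun j _ => by
      rw [Nat.cast_sub (Nat.one_le_pow _ _ (by omega))]; simp)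
  rw [hd, Nat.mul_div_cancel_left _ two_pos] at a2
  have a4 : (r : ℤ) ∣ Fintype.card F ^ (d ^ 2) * oT (Fintype.card F) (2 * d) (¬ IsPlus Q) :=
    (Int.natCast_dvd_natCast.2 h).trans ⟨2 * Fintype.card F ^ oA (2 * d),
      mul_right_cancel₀ (oP_ne hq d) (by
        linear_combination ((ogToSG Q).range.index : ℤ) * a2 -
          oT (Fintype.card F) (2 * d) (¬ IsPlus Q) * a3)⟩
  replace a4 := ((Nat.prime_iff_prime_int.1 hr.out).dvd_or_dvd a4).resolve_left fun h =>
    not_dvd_pow_card h1 _ (by exact_mod_cast h)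
  obtain ⟨j, a5, -⟩ := oT_hit hr.out (by have := hr.out.two_le; omega) rfl (ord_pos r0 hr.out) a4
  obtain ⟨Q', b1, b2⟩ := exists_form_even (F := F) (even_two_mul d) (¬ IsPlus Q) (by omega)
  obtain ⟨f, b3, b4, b5⟩ := exists_fpf_of_hit hr.out h1 r0 b1 (by
    rwa [finrank_fin_fun, show IsPlus Q' = ¬ IsPlus Q from propext b2])
  obtain ⟨e, he⟩ := AF.iso ⟨ef_of_alt b1.nondeg (polarBilin_isAlt h2 Q'), polarBilin_isAlt h2 Q'⟩
    ⟨ef_of_alt hQ.nondeg hA, hA⟩ (by simp [hd])
  obtain ⟨t, rfl⟩ := exists_og b1 b3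
  let t' : SG Q.polarBilin := ⟨e.symm.trans (t.1.trans e), fun u v => by
    simp only [LinearEquiv.trans_apply, he]
    exact (OG.map_polar t _ _).trans ((he _ _).symm.trans (by simp))⟩
  have c1 : Sim (subRep _ t) (subRep _ t') := ⟨e, fun v => by simp [t', subRep_apply]⟩
  have c2 : ∀ v, t'.1 v = v → v = 0 := fun v hv => by
    have := b5 (e.symm v) (e.injective (by simpa [t', subRep_apply] using hv))
    simpa using this
  have c3 : t' ^ r = 1 := SG.ext fun x => by
    have := Sim.pow_eq c1 (c := 1) (b4.trans (one_smul _ _).symm)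
    rw [← map_pow, one_smul] at this
    exact LinearMap.congr_fun this x
  haveI : Nontrivial V := Module.nontrivial_of_finrank_pos (R := F) (by omega)
  obtain ⟨s, hs⟩ := H t' c3 fun e => by
    obtain ⟨v, hv⟩ := exists_ne (0 : V)
    exact hv (c2 v (by rw [e]; rfl))
  obtain ⟨c, hc⟩ := isConj_iff.1 hs
  have c4 : s ^ r = 1 := ogToSG_injective (by
    rw [map_pow, ← hc, conj_pow, c3, mul_one, mul_inv_cancel, map_one])
  have c5 := plus_fpf hr.out h1 r0 hQ (f := subRep _ s) s.2 (by rw [← map_pow, c4, map_one])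
    (fun x hx => by
      have h3 : (ogToSG Q s).1 x = x := hx
      rw [← hc] at h3
      have := c2 (c.1⁻¹ x) (c.1.injective (h3.trans (by simp)))
      simpa using this) rfl (hd.trans a5)
  have c6 := plus_fpf hr.out h1 r0 b1 b3 b4 b5 rfl ((finrank_fin_fun F).trans a5)
  exact iff_not_self (c5.trans (c6.symm.trans b2))

end Cfsg.Agent.Elu
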