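import Mathlib
import Cfsg.Agent.Elu.Sp2

/-!
Invariant subspaces of unitary elements.
-/

set_option autoImplicit false
set_option backward.isDefEq.respectTransparency false

namespace Cfsg.Agent.Elu

open Module Polynomial Conj Spc
open Herm (perp Iso mem_perp b_smul_left b_add_left UG HF frob inv_frob frob_apply normOne)
open scoped _root_.Classical

theorem TrS.trans {F : Type*} [Field F] {V W U : Type*} [AddCommGroup V] [Module F V]
    [AddCommGroup W] [Module F W] [AddCommGroup U] [Module F U] {σ : F →+* F}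
    {B : V →ₛₗ[σ] V →ₗ[F] F} {B' : W →ₛₗ[σ] W →ₗ[F] F} {B'' : U →ₛₗ[σ] U →ₗ[F] F} {f : End F V}
    {g : End F W} {k : End F U} (h : TrS B f B' g) (h' : TrS B' g B'' k) : TrS B f B'' k := by
  obtain ⟨e, a1, a2⟩ := h
  obtain ⟨e', b1, b2⟩ := h'
  exact ⟨e.trans e', fun v => by simp [a1, b1], fun x y => by simp [a2, b2]⟩

theorem exists_nonpow_gen {G : Type*} [CommGroup G] [IsCyclic G] [Finite G] {r k : ℕ}
    (hr : r.Prime) (hN : r ∣ Nat.card G) (hk : k ≠ 0) {e : G} (he : e ^ 2 = 1) (he' : r = 2 → e ≠ 1) :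
    (∃ u : G, (¬ ∃ w, w ^ r = u) ∧ (e ^ (r + 1) * u) ^ k = 1) ↔
      ¬ (padicValNat r (k * r) ≤ padicValNat r (Nat.card G) ∧ (r = 2 → 4 ∣ Nat.card G)) := by
  haveI := Fact.mk hr
  have key := exists_nonpow_iff hr hN hk
  rw [padicValNat.mul hk hr.ne_zero, padicValNat_self, Nat.succ_le_iff, ← not_le, ← key]
  rcases hr.eq_two_or_odd' with rfl | ho
  · have h1 := exists_pow_eq_iff e 2
    rw [Nat.gcd_eq_right hN] at h1
    have h3 : e ^ (2 + 1) = e := by rw [pow_succ, he, one_mul]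
    rw [h3]
    by_cases h4 : 4 ∣ Nat.card G
    · obtain ⟨t, ht⟩ := h4
      obtain ⟨j, hj⟩ := h1.2 (by rw [ht, show 4 * t / 2 = 2 * t by omega, pow_mul, he, one_pow])
      have : ∀ c : G, (∃ w, w ^ 2 = e * c) → ∃ w, w ^ 2 = c := fun c ⟨w, hw⟩ =>
        ⟨j * w, by rw [mul_pow, hw, hj, ← mul_assoc, ← sq, he, one_mul]⟩
      have h5 : ∀ c : G, e * (e * c) = c := fun c => by rw [← mul_assoc, ← sq, he, one_mul]
      rw [and_iff_left fun _ => ⟨t, ht⟩, not_not]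
      exact ⟨fun ⟨c, h1, h2⟩ => ⟨e * c, fun h => h1 (this _ h), h2⟩,
        fun ⟨c, h1, h2⟩ => ⟨e * c, fun h => h1 (this _ h), by rwa [h5]⟩⟩
    · refine iff_of_true ⟨e, fun h => he' rfl ?_, by rw [← sq, he, one_pow]⟩ fun h => h4 (h.2 rfl)
      obtain ⟨t, ht⟩ := hN
      have := h1.1 h
      rwa [show Nat.card G / 2 = 2 * (t / 2) + 1 by omega, pow_succ, pow_mul, he, one_pow,
        one_mul] at this
  · obtain ⟨t, rfl⟩ := ho
    rw [show 2 * t + 1 + 1 = 2 * (t + 1) by ring, pow_mul, he]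
    simp

theorem exists_pow_neg_iff {G : Type*} [CommGroup G] [IsCyclic G] [Finite G] {n : ℕ} (hn : n ≠ 0)
    {e : G} (he : orderOf e = 2) :
    (∃ w : G, w ^ n = e) ↔ ¬ padicValNat 2 (Nat.card G) ≤ padicValNat 2 n := by
  have hN0 : Nat.card G ≠ 0 := Nat.card_pos.ne'
  rw [exists_pow_eq_iff, ← orderOf_dvd_iff_pow_eq_one, he, ← padicValNat_dvd_iff_le hn]
  obtain ⟨g, a, b, h1, h2, h3, h4⟩ := Nat.exists_coprime' (Nat.gcd_pos_of_pos_right (Nat.card G)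
    hn.bot_lt)
  generalize Nat.card G = N at *
  subst h3 h4
  rw [Nat.gcd_mul_right, h2.gcd_eq_one, one_mul, Nat.mul_div_cancel _ h1,
    padicValNat_dvd_iff_le hn, padicValNat.mul (left_ne_zero_of_mul hN0) h1.ne',
    padicValNat.mul (left_ne_zero_of_mul hn) h1.ne', add_le_add_iff_right, not_le]
  refine ⟨fun h => ?_, fun h => dvd_of_one_le_padicValNat (by omega)⟩
  rw [padicValNat.eq_zero_of_not_dvd (n := b) fun h' =>
    Nat.prime_two.ne_one (Nat.eq_one_of_dvd_coprimes h2 h h')]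
  exact one_le_padicValNat_of_dvd (left_ne_zero_of_mul hN0) h

theorem orderOf_neg {r : ℕ} (hr : 2 < r) (hc : ∀ x : ZMod r, x ^ 2 = 1 → x = 1 ∨ x = -1)
    {u : ZMod r} {i : ℕ} (hi : i = orderOf u) :
    orderOf (-u) = if i % 4 = 0 then i else if i % 4 = 2 then i / 2 else 2 * i := by
  have h1 := neg_one_ne_one hr
  have h2 : ∀ v : ZMod r, Even (orderOf v) → orderOf (-v) ∣ orderOf v := fun v h => by
    rw [orderOf_dvd_iff_pow_eq_one, h.neg_pow, pow_orderOf_eq_one]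
  have h3 := orderOf_neg_of_odd h1 (u := -u)
  rw [neg_neg, ← hi, Nat.odd_iff] at h3
  split_ifs with h h'
  · refine Nat.dvd_antisymm (hi ▸ h2 u (by rw [← hi, Nat.even_iff]; omega)) ?_
    simpa [hi] using h2 (-u) (by rw [Nat.even_iff]; omega)
  · have h4 : u ^ (i / 2) = -1 := (hc _ (by
      rw [← pow_mul, Nat.div_mul_cancel (by omega), hi, pow_orderOf_eq_one])).resolve_left
      (pow_ne_one_of_lt_orderOf (by omega) (by omega))
    have h5 : Odd (i / 2) := by rw [Nat.odd_iff]; omega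
    have := h3 (Nat.odd_iff.1 (h5.of_dvd_nat (orderOf_dvd_of_pow_eq_one (by
      rw [h5.neg_pow, h4, neg_neg]))))
    omega
  · rw [orderOf_neg_of_odd h1 (by rw [← hi, Nat.odd_iff]; omega), hi]

theorem px_root {L : Type*} [Field L] {r : ℕ} (hr : r.Prime) {a : ℤ} (h1 : (a : ZMod r) = 1)
    {z c : L} (hz : z ^ r = c) (hc0 : c ≠ 0) (hc : pw a c = c) (hm : pw a z ≠ z) :
    PX (pw a) z r := by
  have hz0 : z ≠ 0 := ne_zero_pow hr.ne_zero (hz ▸ hc0)
  have hη : IsPrimitiveRoot (z ^ a / z) r := isPrim_of_prime hr (by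
    rw [div_pow, ← zpow_natCast (z ^ a), ← zpow_mul, mul_comm, zpow_mul, zpow_natCast, hz]
    exact div_eq_one_iff_eq hc0 |>.2 hc) fun e => hm (by rwa [div_eq_one_iff_eq hz0] at e)
  have hηq : (z ^ a / z) ^ a = z ^ a / z :=
    (px_pw hη hr.ne_zero a 1).2 (by rw [h1]; simp)
  have key : ∀ j, (pw a)^[j] z = z * (z ^ a / z) ^ j := by
    intro j
    induction j with
    | zero => simp
    | succ j ih =>
      rw [Function.iterate_succ_apply', ih, pw, mul_zpow, ← zpow_natCast, ← zpow_mul, mul_comm _ a,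
        zpow_mul, hηq, zpow_natCast, pow_succ]
      field_simp
  intro j
  rw [key, mul_eq_left₀ hz0, hη.pow_eq_one_iff_dvd]

theorem orb_eq_roots {L : Type*} [Field L] {r : ℕ} (hr : 0 < r) {a : ℤ} {z c : L} (hz : z ^ r = c)
    (hc : pw a c = c) (hp : PX (pw a) z r) : orb (pw a) z r = nthRoots r c := by
  apply Multiset.eq_of_le_of_card_le
  · rw [Multiset.le_iff_subset hp.nodup]
    intro w hw
    obtain ⟨i, -, rfl⟩ := mem_orb.1 hw
    rw [mem_nthRoots hr, pw_iterate, ← zpow_natCast, ← zpow_mul, mul_comm, zpow_mul, zpow_natCast,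
      hz, ← pw_iterate]
    exact Function.iterate_fixed hc i
  · simpa using card_nthRoots r c

theorem SX.nsmul_roots {L : Type*} [Field L] {r : ℕ} (hr : 0 < r) {a : ℤ}
    (ha : Function.Injective (pw a : L → L)) {c : L} (hc : pw a c = c) {M : Multiset L}
    (hM : SX (pw a) M) (h : ∀ z ∈ M, z ^ r = c ∧ PX (pw a) z r) : ∃ k : ℕ, M = k • nthRoots r c :=
  hM.induction ha hr (fun z => z ^ r = c ∧ PX (pw a) z r) (fun M => ∃ k : ℕ, M = k • nthRoots r c)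
    ⟨0, by simp⟩ (fun z N hz ⟨k, hk⟩ => ⟨k + 1, by
      rw [orb_eq_roots hr hz.1 hc hz.2, hk, succ_nsmul']⟩) fun z hz => ⟨h z hz, (h z hz).2⟩

universe u
variable {F : Type u} [Field F] [Fintype F] {q : ℕ} {hF : Nat.card F = q ^ 2}
  {V W : Type*} [AddCommGroup V] [Module F V] [AddCommGroup W] [Module F W]
  {B : V →ₛₗ[frob hF] V →ₗ[F] F} {B' : W →ₛₗ[frob hF] W →ₗ[F] F} {f : End F V} {g : End F W}
  {r : ℕ}

theorem hf_of_ef (h : EF B 1) : HF B := ⟨inv_frob hF, fun x y => by rw [h.symm x y, one_mul], h.nd⟩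

theorem ef_of_hf (h : HF B) : EF B 1 :=
  ⟨h.invol, Or.inl rfl, fun x y => by rw [one_mul, h.symm], h.nd⟩

variable (hF) in
theorem ef_sB (n : ℕ) : EF (Herm.sB hF n) 1 := ef_of_hf (Herm.hf_sB hF n)

variable (hF) in
include hF in
theorem card_sq : Fintype.card F = q ^ 2 := by rw [← Nat.card_eq_fintype_card, hF]

variable (hF) in
theorem forall_SU_iff {n : ℕ} (P : End F (Fin n → F) → Prop) :
    (∀ x : Matrix.SpecialLinearGroup (Fin n) F, x ∈ Cfsg.SU n F q →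
      (∃ c : F, ((x ^ r : Matrix.SpecialLinearGroup (Fin n) F) : Matrix (Fin n) (Fin n) F) =
        c • (1 : Matrix (Fin n) (Fin n) F)) →
      (∀ c : F, (x : Matrix (Fin n) (Fin n) F) ≠ c • (1 : Matrix (Fin n) (Fin n) F)) →
      P (Matrix.toLin' (x : Matrix (Fin n) (Fin n) F))) ↔
      ∀ f c, El r f c → Im (Herm.sB hF n) f → P f := by
  rw [← forall_SL_iff (fun f => Im (Herm.sB hF n) f → P f)]
  refine forall_congr' fun x => ?_
  rw [show x ∈ Cfsg.SU n F q ↔ Im (Herm.sB hF n) (Matrix.toLin' x.1) from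
    Herm.mem_GU hF (Matrix.SpecialLinearGroup.toGL x)]
  tauto

variable (hF) in
theorem iso_iff_herm {n : ℕ} (U : Submodule F (Fin n → F)) :
    (∀ u ∈ U, ∀ v ∈ U, Cfsg.hermForm n F q u v = 0) ↔ Iso (Herm.sB hF n) U := by
  simp only [Herm.hermForm_eq hF]
  exact ⟨fun h u hu v hv => h v hv u hu, fun h u hu v hv => h v hv u hu⟩

variable (hF) in
theorem nds_iff_herm {n : ℕ} (U : Submodule F (Fin n → F)) :
    (∀ u ∈ U, u ≠ 0 → ∃ v ∈ U, Cfsg.hermForm n F q u v ≠ 0) ↔ NDs (Herm.sB hF n) U := by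
  simp only [Herm.hermForm_eq hF, NDs, ne_eq, (Herm.hf_sB hF n).zero_iff (y := _)]

variable [FiniteDimensional F V] [FiniteDimensional F W]

theorem exists_gu (hB : EF B 1) (hf : Im B f) {n : ℕ} (hn : finrank F V = n) :
    ∃ A : Cfsg.GU n F q, TrS B f (Herm.sB hF n) (guRep n F q A) := by
  obtain ⟨e, he⟩ := (hf_of_ef hB).exists_iso (Herm.hf_sB hF n) (by simp [hn])
  obtain ⟨g, h1, h2⟩ := exists_tr e he hf
  obtain ⟨A, rfl⟩ := (Matrix.toLin' (R := F)).surjective g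
  exact ⟨Herm.mkGU hF A (((inv_frob hF).isom_iff A).1 h1), h2⟩

theorem tri_U (hB : EF B 1) (hB' : EF B' 1) (hf : Im B f) (hg : Im B' g) (h : Sim f g) :
    TrS B f B' g := by
  obtain ⟨A, a1⟩ := exists_gu hB hf rfl
  obtain ⟨A', a2⟩ := exists_gu hB' hg h.choose.finrank_eq.symm
  obtain ⟨c, hc⟩ := isConj_iff.1 ((gu_isConj_iff (card_sq hF) A A').2
    (a1.sim.symm.trans (h.trans a2.sim)))
  refine a1.trans (TrS.trans ⟨(Herm.toUG hF _ c).1, fun v => ?_, (Herm.toUG hF _ c).2⟩ a2.symm)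
  change guRep _ F q c (guRep _ F q A v) = guRep _ F q A' (guRep _ F q c v)
  rw [← End.mul_apply, ← End.mul_apply, ← map_mul, ← map_mul, ← hc, inv_mul_cancel_right]

theorem exists_of_isU (hB : EF B 1) (hg : IsU (frob hF) g) (hd : finrank F W = finrank F V) :
    ∃ f, Im B f ∧ Sim g f := by
  obtain ⟨B', h1, h2⟩ := hg
  obtain ⟨e, he⟩ := h1.exists_iso (hf_of_ef hB) hd
  obtain ⟨f, a1, a2⟩ := exists_tr e he h2
  exact ⟨f, a1, a2.sim⟩

theorem ts_one_U (hB : EF B 1) (a : ℕ) : TS B 1 a ↔ 2 * a ≤ finrank F V :=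
  ⟨fun ⟨_, h1, h2, _⟩ => h1 ▸ two_mul_le_of_iso hB h2, fun h =>
    let ⟨U, h1, h2⟩ := (hf_of_ef hB).exists_iso_finrank h
    ⟨U, h2, h1, one_inv U⟩⟩

theorem ndec_one_U (hB : EF B 1) (a : ℕ) : NDec B 1 a ↔ a ≤ finrank F V := by
  refine ⟨fun ⟨U, h1, _⟩ => h1 ▸ U.finrank_le, fun ha => ?_⟩
  have h1 := (ndec_self (f := 1) (ef_sB hF a)).inl (B' := Herm.sB hF (finrank F V - a)) (g := 1)
  rw [Module.finrank_fin_fun] at h1
  obtain ⟨e, he⟩ := (hf_of_ef (ef_sum (ef_sB hF a) (ef_sB hF (finrank F V - a)))).exists_iso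
    (hf_of_ef hB) (by simp; omega)
  exact h1.tr ⟨e, fun _ => rfl, he⟩

theorem Im.det_norm (hB : EF B 1) (hf : Im B f) :
    frob hF (LinearMap.det f) * LinearMap.det f = 1 := IsU.det_norm ⟨B, hf_of_ef hB, hf⟩

theorem isU_unip (h : IsNilpotent (f - 1)) : IsU (frob hF) f := by
  obtain ⟨A, hA⟩ := (Matrix.toLin' (R := F)).surjective
    ((LinearEquiv.ofFinrankEq V (Fin (finrank F V) → F) (by simp)).conj f)
  have h0 : Sim f (Matrix.toLin' A) :=
    ⟨LinearEquiv.ofFinrankEq V _ (by simp), fun v => by rw [hA]; simp⟩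
  have h1 : IsNilpotent (A - 1) := by
    obtain ⟨k, hk⟩ := h
    exact ⟨k, Matrix.toLin'.injective (by
      rw [toLin'_pow', toLin'_sub_one, map_zero, ← (h0.sub_one.pow k).zero_iff, hk])⟩
  have hu : IsUnit A := (Matrix.isUnit_iff_isUnit_det _).2 (by
    rw [det_eq_one_of_unipotent h1]; exact isUnit_one)
  obtain ⟨g, hg⟩ := (S2588.result (card_sq hF) hu.unit).2 (by
    change IsConj A ((A.map (frob hF)).transpose)⁻¹
    have h2 : IsNilpotent ((A.map (frob hF)).transpose - 1) := by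
      obtain ⟨j, hj⟩ := h1
      refine ⟨j, ?_⟩
      have : (A.map (frob hF)).transpose - 1 = ((frob hF).mapMatrix (A - 1)).transpose := by
        rw [map_sub, map_one, Matrix.transpose_sub, Matrix.transpose_one]; rfl
      rw [this, ← Matrix.transpose_pow, ← map_pow, hj]; simp
    exact ((isConj_map_of_unipotent _ h1).trans (isConj_transpose _)).trans
      (isConj_inv_of_unipotent h2))
  rw [isConj_GL_iff_sim, IsUnit.unit_spec] at hg
  exact (isU_mat hF g).sim (h0.trans hg)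

theorem ndec_iff_jt_U (hB : EF B 1) (hf : Im B f) (hN : IsNilpotent (f - 1)) (m : ℕ) :
    NDec B f m ↔ ∃ ν ≤ jt (f - 1), ν.sum = m := by
  refine ⟨fun ⟨U, a0, a1, a2⟩ => (dec_iff_jt hN m).1
    ⟨U, _, a1.isCompl hB, a0, a2, perp_inv hB hf a2⟩, ?_⟩
  rintro ⟨ν, h, rfl⟩
  obtain ⟨ν', e⟩ := Multiset.le_iff_exists_add.1 h
  obtain ⟨g, k, a1, a2, -, -, a3⟩ := sim_of_jt_add hN e
  obtain ⟨B₁, b1, b2⟩ := isU_unip (hF := hF) a1
  obtain ⟨B₂, c1, c2⟩ := isU_unip (hF := hF) a2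
  have := (ndec_self (f := g) (ef_of_hf b1)).inl (B' := B₂) (g := k)
  rw [Module.finrank_fin_fun] at this
  exact this.tr (tri_U (ef_sum (ef_of_hf b1) (ef_of_hf c1)) hB (Im.prod b2 c2) hf a3.symm)

theorem forall_unip_U {p : ℕ} [hp : Fact p.Prime] [CharP F p] (hB : EF B 1) {m : ℕ}
    (hm : m ≤ finrank F V) : (∀ f c, El p f c → Im B f → NDec B f m) ↔
      ∀ μ : Multiset ℕ, (∀ a ∈ μ, 0 < a ∧ a ≤ p) → μ.sum = finrank F V → ∃ ν ≤ μ, ν.sum = m := by
  constructor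
  · intro h μ hμ hs
    obtain ⟨g, a1, a2⟩ := exists_unip F μ fun a ha => (hμ a ha).1
    obtain ⟨f, b1, b2⟩ := exists_of_isU hB (isU_unip a1) (by simpa using hs)
    have b3 : (f - 1) ^ p = 0 := (b2.sub_one.pow p).zero_iff.1
      ((pow_eq_zero_iff_jt a1 p).2 fun a ha => (hμ a (a2 ▸ ha)).2)
    have b4 : IsNilpotent (f - 1) := ⟨p, b3⟩
    rw [← a2, (sim_iff_jt a1 b4).1 b2.sub_one, ← ndec_iff_jt_U hB b1 b4]
    by_cases h5 : f = 1
    · rw [h5]; exact (ndec_one_U hB m).2 hm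
    refine h f 1 ⟨det_of_unip b4, ?_, fun a e => h5 ?_⟩ b1
    · rwa [sub_one_pow_char, sub_eq_zero, ← one_smul F (1 : End F _)] at b3
    · rw [e] at b4 ⊢; exact eq_one_of_unip_smul b4
  · intro h f c hf h1
    obtain ⟨w, g, hw, rfl, rfl, hg⟩ := exists_unip_of_pow hf.ne hf.2.1
    have hn : IsNilpotent (g - 1) := ⟨p, hg⟩
    haveI : Nontrivial V := by
      by_contra h
      rw [not_nontrivial_iff_subsingleton] at h
      exact hf.2.2 0 (Subsingleton.elim _ _)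
    have h2 := Im.smul_one hB (hf.2.1 ▸ h1.pow p)
    have h3 : frob hF w⁻¹ * w⁻¹ = 1 := by
      rw [map_inv₀, ← mul_inv, inv_eq_one]
      exact frobenius_inj F p (by rw [frobenius_def, mul_pow, ← map_pow, h2, map_one])
    have h4 := h1.smul h3
    rw [inv_smul_smul₀ hw] at h4
    exact (ndec_smul hw).2 ((ndec_iff_jt_U hB h4 hn m).2 (h _ (fun a ha => ⟨jt_pos hn a ha,
      (pow_eq_zero_iff_jt hn p).1 hg a ha⟩) (sum_jt hn)))

/-! ### semisimple elements -/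

variable (L : Type*) [Field L] [IsAlgClosed L] [Algebra F L]

omit [IsAlgClosed L] in
variable (hF) in
theorem exists_psi : ∃ ψ : L →+* L, (∀ a, ψ (algebraMap F L a) = algebraMap F L (frob hF a)) ∧
    (pw (-q) : L → L) = fun z => (ψ z)⁻¹ := by
  obtain ⟨ψ, hψ⟩ := exists_pow_hom L (card_sq hF)
  exact ⟨ψ, fun a => by rw [hψ, frob_apply, map_pow], funext fun z => by simp [pw, hψ]⟩

omit [IsAlgClosed L] in
variable (hF) in
include hF in
theorem inj_chi : Function.Injective (pw (-q) : L → L) := by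
  obtain ⟨ψ, -, h⟩ := exists_psi hF L
  rw [h]; exact inv_injective.comp ψ.injective

omit [IsAlgClosed L] [Algebra F L] in
variable (hF) in
include hF in
theorem chi_chi : (pw (-q) : L → L) ∘ pw (-q) = pw (Fintype.card F) := by
  rw [pw_comp, card_sq hF]; congr 1; push_cast; ring

omit [IsAlgClosed L] in
theorem chi_alg {c : F} (h : frob hF c * c = 1) : pw (-q) (algebraMap F L c) = algebraMap F L c := by
  obtain ⟨ψ, h1, h2⟩ := exists_psi hF L
  rw [h2]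
  exact inv_eq_of_mul_eq_one_right (by rw [h1, ← map_mul, h, map_one])

variable (hF) in
theorem exists_of_chi {z : L} (h0 : z ≠ 0) (h : pw (-q) z = z) :
    ∃ c : F, frob hF c * c = 1 ∧ algebraMap F L c = z := by
  obtain ⟨c, rfl⟩ := mem_range_of_pow_card L (F := F) (z := z) (by
    rw [← congrFun (pw_card (F := F) L) z, ← chi_chi hF, Function.comp, h, h])
  obtain ⟨ψ, h1, h2⟩ := exists_psi hF L
  refine ⟨c, (algebraMap F L).injective ?_, rfl⟩
  rw [h2] at h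
  rw [map_mul, ← h1, map_one, ← mul_inv_cancel₀ ((map_ne_zero ψ).2 h0)]
  exact congrArg _ h.symm

theorem sx_U (hB : EF B 1) (hf : Im B f) : SX (pw (-q)) (ev L f) := by
  obtain ⟨ψ, h1, h2⟩ := exists_psi hF L
  exact h2 ▸ sx_ev L h1 hB hf

theorem exists_U_ev (hB : EF B 1) {N : ℕ} (hN : (N : F) ≠ 0) {M : Multiset L}
    (hc : M.card = finrank F V) (h1 : SX (pw (-q)) M) (h2 : ∀ z ∈ M, z ^ N = 1) :
    ∃ f, Im B f ∧ f ^ N = 1 ∧ ev L f = M := by
  obtain ⟨g, a1, a2, a3⟩ := exists_isU_ev hF L hN M rfl h1 h2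
  obtain ⟨f, b1, b2⟩ := exists_of_isU hB a1 (by simpa using hc)
  exact ⟨f, b1, (b2.pow N).one_iff.1 a2, (b2.ev L).symm.trans a3⟩

theorem rig_U {ψ : L →+* L} (hψ : ∀ a, ψ (algebraMap F L a) = algebraMap F L (frob hF a))
    (hχ : (pw (-q) : L → L) = fun z => (ψ z)⁻¹) (hB : EF B 1) (hf : Im B f) {N : ℕ}
    (hN : (N : F) ≠ 0) (h1 : f ^ N = 1) : Rig L ψ B f :=
  rig_of L hψ hB hf hN h1 (fun M hM _ a2 =>
    let ⟨g, h⟩ := exists_U_ev L (ef_sB hF M.card) hN (by simp) (hχ ▸ a2) fun _ hz =>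
      pow_eq_one_of_mem_ev L h1 (Multiset.mem_of_le hM hz)
    ⟨_, g, ef_sB hF _, h⟩) fun _ _ _ _ _ _ a1 a2 a3 => tri_U a1 hB a2 hf a3

theorem ndec_iff_U (hB : EF B 1) (hf : Im B f) {N : ℕ} (hN : (N : F) ≠ 0) (h1 : f ^ N = 1) (m : ℕ) :
    NDec B f m ↔ ∃ M ≤ ev L f, SX (pw (-q)) M ∧ M.card = m := by
  obtain ⟨ψ, a1, a2⟩ := exists_psi hF L
  rw [(rig_U L a1 a2 hB hf hN h1).ndec_iff L a1 hB hf, ← a2]
  refine exists_congr fun M => and_congr_right fun _ => and_iff_right_of_imp fun h => ?_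
  have := h.1.comp h.1
  rwa [chi_chi hF, pw_card] at this

theorem ts_iff_U (hB : EF B 1) (hf : Im B f) {N : ℕ} (hN : (N : F) ≠ 0) (h1 : f ^ N = 1) (m : ℕ) :
    TS B f m ↔ ∃ M, SX (pw (Fintype.card F)) M ∧ M + M.map (pw (-q)) ≤ ev L f ∧ M.card = m := by
  obtain ⟨ψ, a1, a2⟩ := exists_psi hF L
  rw [(rig_U L a1 a2 hB hf hN h1).ts_iff L a1 hB hf (squarefree_X_pow_sub_one hN)
    (aeval_of_pow h1), a2, pw_card]
  rfl

variable (hF) in
include hF in
theorem ordU_pos (hr : r.Prime) (h0 : (r : F) ≠ 0) : 0 < orderOf (-q : ZMod r) := by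
  haveI := Fact.mk hr
  have := card_ne_zero_zmod h0
  rw [card_sq hF, Nat.cast_pow] at this
  exact orderOf_pos_iff.2 (isOfFinOrder_iff_isUnit.2 (neg_ne_zero.2 (ne_zero_pow two_ne_zero this)).isUnit)

variable (hF) in
include hF in
theorem cfg_U (hr : r.Prime) (h0 : (r : F) ≠ 0) {b c : ℕ} (hc : c = orderOf (-q : ZMod r))
    (hb : (Odd c ∧ b = c) ∨ c = 2 * b) : ∃ a, Cfg L r (Fintype.card F) (-q) a b c := by
  have h1 := hc ▸ ordU_pos hF hr h0
  have h2 : ((Fintype.card F : ℤ) : ZMod r) = (-q) ^ 2 := by rw [card_sq hF]; push_cast; ring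
  have h3 : orderOf ((Fintype.card F : ℤ) : ZMod r) = c / c.gcd 2 := by
    rw [h2, orderOf_pow' _ two_ne_zero, hc]
  rcases hb with ⟨⟨k, hk⟩, rfl⟩ | hb
  · rw [(Nat.coprime_two_right.2 ⟨k, hk⟩).gcd_eq_one, Nat.div_one] at h3
    refine ⟨_, hr.ne_zero, inj_pw_card L, inj_pw_card L, h3.symm, h3.symm, h1,
      Or.inl ⟨rfl, k + 1, ?_⟩⟩
    rw [h2, ← pow_mul, show 2 * (k + 1) = b + 1 by omega, pow_succ, hc, pow_orderOf_eq_one]
    simp
  · rw [hb, Nat.gcd_eq_right (Dvd.intro _ rfl), Nat.mul_div_cancel_left _ two_pos] at h3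
    exact ⟨-q, hr.ne_zero, inj_pw_card L, inj_chi hF L, h3.symm, by simpa using hc, by omega,
      Or.inr ⟨hb, ⟨1, by rw [h2]; push_cast; ring⟩, ⟨0, by simp⟩, 1, by simp⟩⟩

/-- shape of a unitary element -/
def UnS (B : V →ₛₗ[frob hF] V →ₗ[F] F) (f : End F V) (b c e s w : ℕ) : Prop :=
  finrank F V = e + c * s ∧ finrank F (Fx f) = e ∧
    (∀ m, TS B f m ↔ ∃ a j, 2 * a ≤ e ∧ j ≤ w ∧ m = a + b * j) ∧
    ∀ m, NDec B f m ↔ ∃ a j, a ≤ e ∧ j ≤ s ∧ m = a + c * j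

theorem uns_prod (hB : EF B 1) (hg : ∀ y, g y = y → y = 0) {b c s w : ℕ} (h : Shp B' g b c s w) :
    UnS (sumB B B') ((1 : End F V).prodMap g) b c (finrank F V) s w := by
  refine ⟨by rw [finrank_prod, h.1], finrank_Fx_prod hg, fun m => ?_, fun m => ?_⟩
  · simp only [ts_prod_iff hg, ts_one_U hB, h.2.1]
    exact ⟨fun ⟨a, _, e, a1, j, a2, e'⟩ => ⟨a, j, a1, a2, e' ▸ e⟩,
      fun ⟨a, j, a1, a2, e⟩ => ⟨a, _, e, a1, j, a2, rfl⟩⟩
  · simp only [ndec_prod_iff hg, ndec_one_U hB, h.2.2]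
    exact ⟨fun ⟨a, _, e, a1, j, a2, e'⟩ => ⟨a, j, a1, a2, e' ▸ e⟩,
      fun ⟨a, j, a1, a2, e⟩ => ⟨a, _, e, a1, j, a2, rfl⟩⟩

omit [FiniteDimensional F V] [FiniteDimensional F W] in
theorem UnS.tr {b c e s w : ℕ} (h : UnS B f b c e s w) (h' : TrS B f B' g) : UnS B' g b c e s w :=
  ⟨h'.choose.finrank_eq.symm.trans h.1, (Sim.finrank_Fx h'.sim).symm.trans h.2.1,
    fun m => (h'.ts_iff m).symm.trans (h.2.2.1 m), fun m => (h'.ndec_iff m).symm.trans (h.2.2.2 m)⟩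

theorem forall_uns (hr : r.Prime) (h0 : (r : F) ≠ 0) (hB : EF B 1) {b c : ℕ}
    (hc : c = orderOf (-q : ZMod r)) (hb : (Odd c ∧ b = c) ∨ c = 2 * b) (P : End F V → Prop)
    (R : ℕ → ℕ → ℕ → Prop) (h : ∀ f e s w, UnS B f b c e s w → (P f ↔ R e s w)) :
    (∀ f, Im B f → f ^ r = 1 → f ≠ 1 → P f) ↔ ∀ e s w, 1 ≤ s → e + c * s = finrank F V →
      Adm ((r - 1) / b) b c s w → R e s w := by
  let L := AlgebraicClosure F
  obtain ⟨a, ha⟩ := cfg_U hF L hr h0 hc hb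
  obtain ⟨ψ, e1, e2⟩ := exists_psi hF L
  rw [← Nat.totient_prime hr]
  constructor
  · intro H e s w a1 a2 a3
    obtain ⟨ζ, hζ⟩ := exists_prim L h0
    obtain ⟨M, b1, b2, b3⟩ := ha.exists_ms hζ a3
    obtain ⟨g, b4, b5, b6⟩ := exists_U_ev L (ef_sB hF M.card) h0 (by simp)
      ((ha.sx_iff fun z hz => (b2 z hz).pow_eq_one).2 b1).2 fun z hz => (b2 z hz).pow_eq_one
    have b7 := (rig_U L e1 e2 (ef_sB hF _) b4 h0 b5).shp L e1 (ef_sB hF _) b4 h0 b5 e2 (b6 ▸ b3)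
    have b8 : ∀ x, g x = x → x = 0 := fun x hx => by
      by_contra h1
      exact (b2 _ (b6 ▸ mem_ev_of_apply L (a := (1 : F)) h1 (by simpa using hx))).ne_one hr.one_lt
        (map_one _)
    obtain ⟨φ, hφ⟩ := (hf_of_ef (ef_sum (ef_sB hF e) (ef_sB hF M.card))).exists_iso (hf_of_ef hB)
      (by rw [finrank_prod, b7.1, ← a2]; simp)
    obtain ⟨f, c1, c2⟩ := exists_tr φ hφ (Im.prod (f := 1) (fun _ _ => rfl) b4)
    have c3 := (uns_prod (ef_sB hF e) b8 b7).tr c2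
    have c4 : f ^ r = 1 := by
      simpa using Sim.pow_eq c2.sim (c := 1) (by rw [prodMap_pow', b5, one_pow, one_smul]; rfl)
    rw [Module.finrank_fin_fun] at c3
    refine (h f _ s w c3).1 (H f c1 c4 fun e' => ?_)
    have := c3.2.1.symm.trans (eq_one_iff_Fx.1 e')
    nlinarith [ha.cpos]
  · intro H f a1 a2 a3
    have b1 := ef_res hB (nds_Mo hB a1 h0 a2)
    have b2 := a1.res (Mo_inv f)
    have b3 := res_pow_one (Mo_inv f) a2
    have b4 := Cfg.prim_of_fp (L := L) hr b3 (fpf_Mo h0 a2)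
    obtain ⟨s, w, b5, b6⟩ := ha.exists_adm ((ha.sx_iff fun z hz => (b4 z hz).pow_eq_one).1
      ⟨pw_card (F := F) L ▸ st_ev L _, sx_U L b1 b2⟩) b4
    have b7 := (uns_prod (ef_res hB (nds_Fx hB a1 h0 a2)) (fpf_Mo h0 a2)
      ((rig_U L e1 e2 b1 b2 h0 b3).shp L e1 b1 b2 h0 b3 e2 b6)).tr (tr_Fx hB a1 h0 a2)
    refine (h f _ s w b7).2 (H _ s w (Nat.pos_of_ne_zero ?_) b7.1.symm b5)
    rintro rfl
    exact a3 (eq_one_iff_Fx.2 b7.1.symm)

end Cfsg.Agent.Elu
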