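import Mathlib
import Cfsg.Agent.Elu.Un

/-!
Unitary elements of prime order dividing `q + 1`; elements of rank one; counting.
-/

set_option autoImplicit false
set_option backward.isDefEq.respectTransparency false

namespace Cfsg.Agent.Elu

open Module Polynomial Conj Spc
open Herm (perp Iso mem_perp b_smul_left b_add_left UG HF frob inv_frob frob_apply normOne ordU)
open scoped _root_.Classical

theorem relIndex_dvd {G K X : Type*} [Group G] [Group K] [MulAction K X] (S H : Subgroup G)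
    (φ : S →* K) (P : X → Prop) {x : X} (hx : P x) (h1 : ∀ y, P y → ∃ g : S, φ g • x = y)
    (h2 : ∀ (g : K) y, P y → P (g • y)) (h3 : ∀ g : S, φ g • x = x → g.1 ∈ H) :
    H.relIndex S ∣ Nat.card {y // P y} := by
  letI := MulAction.compHom X φ
  refine (Subgroup.index_dvd_of_le (H := MulAction.stabilizer S x) (K := H.subgroupOf S) h3).trans (dvd_of_eq ?_)
  rw [MulAction.index_stabilizer, ← Nat.card_coe_set_eq]
  exact Nat.card_congr (Equiv.subtypeEquivRight fun y => ⟨by rintro ⟨g, rfl⟩; exact h2 _ _ hx, h1 y⟩)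

section gen
variable {F : Type*} [Field F] {V W : Type*} [AddCommGroup V] [Module F V] [AddCommGroup W]
  [Module F W] {σ : F →+* F} {B : V →ₛₗ[σ] V →ₗ[F] F} {B' : W →ₛₗ[σ] W →ₗ[F] F} {ε : F}
  {f : End F V} {g : End F W}

/-- a pair of complementary isotropic subspaces, fixed or swapped -/
def HQ (B : V →ₛₗ[σ] V →ₗ[F] F) (f : End F V) : Prop :=
  ∃ U W : Submodule F V, IsCompl U W ∧ Iso B U ∧ Iso B W ∧
    ((U.map f = U ∧ W.map f = W) ∨ (U.map f = W ∧ W.map f = U))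

theorem HQ.tr (h : HQ B f) (h' : TrS B f B' g) : HQ B' g := by
  obtain ⟨U, W, a1, a2, a3, a4⟩ := h
  obtain ⟨e, b1, b2⟩ := h'
  refine ⟨U.map e.toLinearMap, W.map e.toLinearMap, (Submodule.orderIsoMapComap e).isCompl a1,
    iso_map a2 _ b2, iso_map a3 _ b2, ?_⟩
  simp only [map_map_of_intertwine e.toLinearMap b1]
  exact a4.imp (fun h => by rw [h.1, h.2]; exact ⟨rfl, rfl⟩) fun h => by
    rw [h.1, h.2]; exact ⟨rfl, rfl⟩

theorem hq_smul {c : F} (hc : c ≠ 0) : HQ B (c • f) ↔ HQ B f := by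
  simp only [HQ, map_smul_eq hc]

theorem fix_of_rank_one {v : V} {c : F} (hf : ∀ x, f x = x + (c * B v x) • v) {U : Submodule F V}
    (hU : Iso B U) (h : U.map f ≤ U) {u : V} (hu : u ∈ U) : f u = u := by
  by_contra h0
  have h1 := U.sub_mem (inv_iff.1 h u hu) hu
  rw [hf, add_sub_cancel_left] at h1
  rw [hf, add_eq_left, smul_eq_zero, not_or] at h0
  exact h0.1 (by rw [hU v ((U.smul_mem_iff h0.1).1 h1) u hu, mul_zero])

variable [FiniteDimensional F V]

theorem exists_ker_mem (φ : V →ₗ[F] F) {U : Submodule F V} (h : 1 < finrank F U) :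
    ∃ u ∈ U, u ≠ 0 ∧ φ u = 0 := by
  obtain ⟨u, h1, h2⟩ := (Submodule.ne_bot_iff _).1
    (LinearMap.ker_ne_bot_of_finrank_lt (f := φ.domRestrict U) (by simpa using h))
  exact ⟨u, u.2, fun e => h2 (Subtype.ext e), h1⟩

theorem ne_smul_rank_one {v : V} {c : F} (hf : ∀ x, f x = x + (c * B v x) • v) (h1 : f ≠ 1)
    (hn : 1 < finrank F V) (a : F) : f ≠ a • 1 := by
  rintro rfl
  obtain ⟨u, -, a1, a2⟩ := exists_ker_mem (B v) (U := ⊤) (by simpa using hn)
  have := hf u
  rw [a2, mul_zero, zero_smul, add_zero] at this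
  exact h1 (by rw [smul_left_injective F a1 (this.trans (one_smul F u).symm), one_smul])

theorem not_hq_rank_one (hB : EF B ε) {v : V} {c : F} (hf : ∀ x, f x = x + (c * B v x) • v)
    (h1 : f ≠ 1) (hn : 2 < finrank F V) : ¬ HQ B f := by
  rintro ⟨U, W, a1, a2, a3, a4 | a4⟩
  · refine h1 (LinearMap.ext fun x => ?_)
    obtain ⟨a, b, rfl, -⟩ := Submodule.existsUnique_add_of_isCompl a1 x
    rw [map_add, fix_of_rank_one hf a2 a4.1.le a.2, fix_of_rank_one hf a3 a4.2.le b.2]; rfl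
  · obtain ⟨u, b1, b2, b3⟩ := exists_ker_mem (B v) (U := U) (by
      have := finrank_of_pair hB a1 a2 a3; omega)
    exact b2 (Submodule.disjoint_def.1 a1.disjoint u b1 (a4.1 ▸ ⟨u, b1, by simp [hf, b3]⟩))

theorem not_ts_refl (hB : EF B ε) {v : V} {c : F} (hf : ∀ x, f x = x + (c * B v x) • v)
    (hc : c ≠ 0) (hv : B v v ≠ 0) {m : ℕ} (hm : 2 * m = finrank F V) : ¬ TS B f m := by
  rintro ⟨U, a1, a2, a3⟩
  have h1 := finrank_perp_add hB U
  have h2 : v ∈ U := by
    rw [Submodule.eq_of_le_of_finrank_eq (Herm.iso_iff_le_perp.1 a2) (by omega)]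
    intro u hu
    have := fix_of_rank_one hf a2 a3 hu
    rw [hf, add_eq_left, smul_eq_zero, mul_eq_zero] at this
    exact hB.zero_symm ((this.resolve_right (Herm.ne_zero_of_b hv)).resolve_left hc)
  exact hv (a2 v h2 v h2)

theorem HQ.ts (hB : EF B ε) (h : HQ B f) {r d : ℕ} (hr : Odd r) {c : F} (hc : c ≠ 0)
    (hf : f ^ r = c • 1) (hd : finrank F V = 2 * d) : TS B f d := by
  obtain ⟨U, W, a1, a2, a3, a4⟩ := h
  refine ⟨U, by have := finrank_of_pair hB a1 a2 a3; omega, a2, a4.elim (fun h => h.1.le) fun h => ?_⟩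
  have : (f * f) ^ (r / 2 + 1) = c • f := by
    rw [← sq, ← pow_mul, show 2 * (r / 2 + 1) = r + 1 by have := Nat.odd_iff.1 hr; omega, pow_succ,
      hf, smul_one_mul]
  rw [← map_smul_eq hc, ← this, ← aeval_X_pow (R := F)]
  exact inv_iff.2 fun x hx => aeval_mem_of_inv (by
    rw [End.mul_eq_comp, Submodule.map_comp, h.1, h.2]) _ hx

theorem exists_rank_one (hB : HF B) {v : V} {c : F} (h : c + σ c + c * σ c * B v v = 0) :
    ∃ f : End F V, Im B f ∧ LinearMap.det f = 1 + c * B v v ∧ ∀ x, f x = x + (c * B v x) • v :=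
  ⟨(hB.qr v c).1, (hB.qr v c).2, by rw [← Herm.detU_apply, hB.detU_qr h], hB.qr_apply h⟩

omit [FiniteDimensional F V] in
theorem exists_norm_iff (P : F → Prop) :
    (∃ c, σ c * c = 1 ∧ P c) ↔ ∃ u : normOne σ, P u.1.1 :=
  ⟨fun ⟨c, h1, h2⟩ => ⟨⟨Units.mk0 c (right_ne_zero_of_mul_eq_one h1), h1⟩, h2⟩,
    fun ⟨u, h⟩ => ⟨_, u.2, h⟩⟩

theorem HPair.trans_SU [Nontrivial V] (hB : HF B) (hB' : EF B ε)
    {P Q : Submodule F V × Submodule F V} (h : HPair B P) (h' : HPair B Q) :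
    ∃ g ∈ Herm.SUG B, g • P = Q := by
  obtain ⟨g, hg⟩ := h.trans hB' h'
  obtain ⟨a, a1, a2⟩ := hB.toInv.hilbert90 ((normOne σ).inv_mem (hB.detU_mem g))
  have h1 := finrank_of_pair hB' h.1 h.2.1 h.2.2
  obtain ⟨e, b1, b2⟩ := (Submodule.ne_bot_iff P.1).1 fun e => by
    have := finrank_pos (R := F) (M := V)
    rw [e, finrank_bot] at h1; omega
  obtain ⟨y, hy⟩ := hB.exists_b_eq b2 1
  obtain ⟨x, y, rfl, -⟩ := Submodule.existsUnique_add_of_isCompl h.1 y
  rw [map_add, h.2.1 e b1 _ x.2, zero_add] at hy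
  obtain ⟨k, c1, c2⟩ := hB.exists_diag (h.2.1 e b1 e b1) (h.2.2 _ y.2 _ y.2) hy a1
  refine ⟨g * k, Herm.mem_SUG.2 ?_, ?_⟩
  · rw [map_mul, Units.val_mul, c1, (mul_inv_eq_iff_eq_mul₀ ((_root_.map_ne_zero σ).2 a1)).2 a2]
    simp
  · rw [mul_smul, ← hg]
    congr 1
    refine Prod.ext (map_eq_of_le k.1.injective (inv_iff.2 fun z hz => ?_) rfl)
      (map_eq_of_le k.1.injective (inv_iff.2 fun z hz => ?_) rfl)
    · simpa [c2, h.2.1 e b1 z hz] using P.1.add_mem hz (P.1.smul_mem _ b1)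
    · simpa [c2, h.2.2 _ y.2 z hz] using P.2.add_mem hz (P.2.smul_mem _ y.2)

end gen

/-- the condition under which all elements of order `r` lift to diagonalisable ones -/
def CndU (r n q : ℕ) : Prop :=
  padicValNat r n ≤ padicValNat r (q + 1) ∧ (r = 2 → Even n → q % 4 = 3)

universe u
variable {F : Type u} [Field F] [Fintype F] {q : ℕ} {hF : Nat.card F = q ^ 2}
  {V W : Type*} [AddCommGroup V] [Module F V] [AddCommGroup W] [Module F W]
  {B : V →ₛₗ[frob hF] V →ₗ[F] F} {B' : W →ₛₗ[frob hF] W →ₗ[F] F} {f : End F V} {g : End F W}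
  {r : ℕ} {c : F}

theorem norm_iff : frob hF c * c = 1 ↔ c ^ (q + 1) = 1 := by rw [frob_apply, pow_succ]

variable (hF) in
include hF in
theorem cast_q : (q : F) = 0 := pow_eq_zero_iff two_ne_zero |>.1 (by
  rw [← Nat.cast_pow, ← card_sq hF, FiniteField.cast_card_eq_zero])

theorem ord_eq_one_iff : orderOf (-q : ZMod r) = 1 ↔ r ∣ q + 1 := by
  rw [orderOf_eq_one_iff, ← ZMod.natCast_eq_zero_iff, neg_eq_iff_add_eq_zero]; simp

variable (hF) in
theorem exists_nonpow_U (hr : r.Prime) (h0 : (r : F) ≠ 0) (hd : r ∣ q + 1) {k : ℕ} (hk : k ≠ 0) :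
    (∃ c, frob hF c * c = 1 ∧ (¬ ∃ w, frob hF w * w = 1 ∧ w ^ r = c) ∧
      ((-1) ^ (r + 1) * c) ^ k = 1) ↔ ¬ CndU r (k * r) q := by
  have h1 := (inv_frob hF).card_normOne hF
  have := exists_nonpow_gen (G := normOne (frob hF)) hr (h1 ▸ hd) hk
    (e := ⟨-1, by simp [Herm.mem_normOne]⟩) (by ext; simp) (by
      rintro rfl e
      exact h0 (by have := congrArg (·.1.1) e; simp at this; push_cast; linear_combination -this))
  rw [h1] at this
  simp only [exists_norm_iff]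
  convert this using 2
  · simp [Subtype.ext_iff, Units.ext_iff]
  · refine and_congr_right fun _ => forall_congr' fun e => ?_
    subst e
    simp only [even_two, Even.mul_left, forall_const]
    omega

variable (hF) in
theorem exists_pow_neg_U (h0 : (2 : F) ≠ 0) {n : ℕ} (hn : n ≠ 0) :
    (∃ w, frob hF w * w = 1 ∧ w ^ n = -1) ↔ ¬ padicValNat 2 (q + 1) ≤ padicValNat 2 n := by
  rw [← (inv_frob hF).card_normOne hF, ← exists_pow_neg_iff hn
    (e := ⟨-1, by simp [Herm.mem_normOne]⟩) (orderOf_eq_prime (by ext; simp) fun e =>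
      h0 (by have := congrArg (·.1.1) e; simp at this; linear_combination -this)), exists_norm_iff]
  simp [Subtype.ext_iff, Units.ext_iff]

variable [FiniteDimensional F V] [FiniteDimensional F W]

omit [Fintype F] in
theorem El.nontrivial (h : El r f c) : Nontrivial V := by
  by_contra h'
  rw [not_nontrivial_iff_subsingleton] at h'
  exact h.2.2 0 (Subsingleton.elim _ _)

theorem El.norm (h : El r f c) (hB : EF B 1) (hf : Im B f) : frob hF c * c = 1 :=
  haveI := h.nontrivial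
  Im.smul_one hB (h.2.1 ▸ hf.pow r)

theorem El.pow_U (h : El r f c) (hB : EF B 1) (hf : Im B f) : f ^ (r * (q + 1)) = 1 := by
  rw [pow_mul, h.2.1, _root_.smul_pow, norm_iff.1 (h.norm hB hf), one_pow, one_smul]

variable (hF) in
include hF in
theorem cast_mul_ne (h0 : (r : F) ≠ 0) : ((r * (q + 1) : ℕ) : F) ≠ 0 := by simp [cast_q hF, h0]

theorem forall_ne_U [Nontrivial V] (hr : r.Prime) (hd : ¬ r ∣ q + 1) (hB : EF B 1)
    (P : End F V → Prop) (hP : ∀ f (a : F), a ≠ 0 → P f → P (a • f)) :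
    (∀ f c, El r f c → Im B f → P f) ↔ ∀ f, Im B f → f ^ r = 1 → f ≠ 1 → P f := by
  have h1 := (Nat.Prime.coprime_iff_not_dvd hr).2 hd
  have h2 : ∀ a : F, frob hF a * a = 1 → a ^ r = 1 → a = 1 := fun a a1 a2 => by
    simpa [h1.gcd_eq_one] using pow_gcd_eq_one.2 ⟨a2, norm_iff.1 a1⟩
  refine ⟨fun H f a1 a2 a3 => H f 1 ⟨h2 _ (a1.det_norm hB) (by rw [← map_pow, a2, map_one]),
    by simpa using a2, ?_⟩ a1, fun H f c a1 a2 => ?_⟩
  · rintro a rfl
    rw [_root_.smul_pow, one_pow] at a2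
    exact a3 (by rw [h2 a (Im.smul_one hB a1) (smul_left_injective F (one_ne_zero (α := End F V))
      (a2.trans (one_smul _ _).symm)), one_smul])
  · obtain ⟨u, hu⟩ := (exists_norm_iff (· = c)).1 ⟨c, a1.norm hB a2, rfl⟩
    obtain ⟨w, hw⟩ := (powCoprime (G := normOne (frob hF)) (n := r) (by
      rw [(inv_frob hF).card_normOne hF]; exact h1.symm)).surjective u
    have h3 : (w.1 : F) ^ r = c := by rw [← hu, ← hw]; simp
    have h4 := w.1.ne_zero
    rw [← smul_inv_smul₀ h4 f]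
    refine hP _ _ h4 (H _ (a2.smul (by rw [map_inv₀, ← mul_inv, inv_eq_one]; exact w.2)) ?_ fun e => a1.2.2 w.1 (by
      rw [← e, smul_inv_smul₀ h4]))
    rw [_root_.smul_pow, a1.2.1, smul_smul, ← h3, ← mul_pow, inv_mul_cancel₀ h4, one_pow, one_smul]

variable (L : Type*) [Field L] [IsAlgClosed L] [Algebra F L]

omit [IsAlgClosed L] in
theorem chi_of_pow (hr : r ≠ 0) (hd : r ∣ q + 1) {w : F} (hw : frob hF w * w = 1) {z : L}
    (hz : z ^ r = algebraMap F L (w ^ r)) : pw (-q) z = z := by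
  have h0 : algebraMap F L w ≠ 0 := (_root_.map_ne_zero _).2 (right_ne_zero_of_mul_eq_one hw)
  have h1 := zpow_congr (z := z / algebraMap F L w) (by
    rw [div_pow, hz, map_pow, div_self (pow_ne_zero _ h0)]) hr (a := -q) (a' := 1) (by
      simpa using orderOf_eq_one_iff.1 (ord_eq_one_iff.2 hd))
  rw [div_zpow, zpow_one, show algebraMap F L w ^ (-q : ℤ) = _ from chi_alg L hw,
    div_left_inj' h0] at h1
  exact h1

theorem px_of_nonpow (hr : r.Prime) (hd : r ∣ q + 1) (hc : frob hF c * c = 1)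
    (h : ¬ ∃ w, frob hF w * w = 1 ∧ w ^ r = c) {z : L} (hz : z ^ r = algebraMap F L c) :
    PX (pw (-q)) z r := by
  have h0 : algebraMap F L c ≠ 0 := (_root_.map_ne_zero _).2 (right_ne_zero_of_mul_eq_one hc)
  refine px_root hr (by simpa using orderOf_eq_one_iff.1 (ord_eq_one_iff.2 hd)) hz h0
    (chi_alg L hc) fun e => ?_
  obtain ⟨w, a1, rfl⟩ := exists_of_chi hF L (ne_zero_pow hr.ne_zero (hz ▸ h0)) e
  exact h ⟨w, a1, (algebraMap F L).injective (by rw [map_pow, hz])⟩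

theorem El.ev_nonpow (h : El r f c) (hB : EF B 1) (hf : Im B f) (hr : r.Prime) (hd : r ∣ q + 1)
    (h' : ¬ ∃ w, frob hF w * w = 1 ∧ w ^ r = c) :
    ∃ k : ℕ, ev L f = k • nthRoots r (algebraMap F L c) ∧ finrank F V = k * r := by
  obtain ⟨k, hk⟩ := (sx_U L hB hf).nsmul_roots hr.pos (inj_chi hF L) (chi_alg L (h.norm hB hf))
    fun z hz => ⟨pow_eq_of_mem_ev' L h.2.1 hz,
      px_of_nonpow L hr hd (h.norm hB hf) h' (pow_eq_of_mem_ev' L h.2.1 hz)⟩
  exact ⟨k, hk, by rw [← card_ev L f, hk, Multiset.card_nsmul, card_nthRoots']⟩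

theorem El.not_cnd (h : El r f c) (hB : EF B 1) (hf : Im B f) (hr : r.Prime) (h0 : (r : F) ≠ 0)
    (hd : r ∣ q + 1) (h' : ¬ ∃ w, frob hF w * w = 1 ∧ w ^ r = c) : ¬ CndU r (finrank F V) q := by
  let L := AlgebraicClosure F
  obtain ⟨k, a1, a2⟩ := h.ev_nonpow L hB hf hr hd h'
  have h2 := prod_ev_eq_det L f
  rw [a1, Multiset.prod_nsmul, prod_nthRoots L hr.pos, h.1] at h2
  haveI := h.nontrivial
  rw [a2, ← exists_nonpow_U hF hr h0 hd (by
    rintro rfl; have := finrank_pos (R := F) (M := V); omega)]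
  exact ⟨c, h.norm hB hf, h', (algebraMap F L).injective (by simpa using h2)⟩

theorem exists_of_not_cndU [Nontrivial V] (hB : EF B 1) (hr : r.Prime) (h0 : (r : F) ≠ 0)
    (hd : r ∣ q + 1) (h : ¬ CndU r (finrank F V) q) :
    ∃ f c, El r f c ∧ Im B f ∧ ¬ ∃ w, frob hF w * w = 1 ∧ w ^ r = c := by
  let L := AlgebraicClosure F
  obtain ⟨k, hk⟩ : r ∣ finrank F V := by
    by_contra hd
    exact h ⟨by rw [padicValNat.eq_zero_of_not_dvd hd]; exact Nat.zero_le _,
      fun e he => absurd (e ▸ he.two_dvd) hd⟩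
  have hk0 : k ≠ 0 := by rintro rfl; exact finrank_pos.ne' hk
  rw [hk, mul_comm] at h
  obtain ⟨c, a1, a2, a3⟩ := (exists_nonpow_U hF hr h0 hd hk0).2 h
  have a4 : ∀ z ∈ k • nthRoots r (algebraMap F L c), z ^ r = algebraMap F L c := fun z hz =>
    (mem_nthRoots hr.pos).1 (Multiset.mem_of_mem_nsmul hz)
  obtain ⟨z, hz⟩ := IsAlgClosed.exists_pow_nat_eq (algebraMap F L c) hr.pos
  have a5 := px_of_nonpow L hr hd a1 a2 hz
  obtain ⟨f, b1, b2, b3⟩ := exists_U_ev L hB (cast_mul_ne hF h0)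
    (M := k • nthRoots r (algebraMap F L c))
    (by rw [Multiset.card_nsmul, card_nthRoots', hk, mul_comm])
    ((orb_eq_roots hr.pos hz (chi_alg L a1) a5 ▸ a5.sx).nsmul k) fun z hz => by
      rw [pow_mul, a4 z hz, ← map_pow, norm_iff.1 a1, map_one]
  have b4 := (ss_pow_eq_iff L (squarefree_X_pow_sub_one (cast_mul_ne hF h0)) (aeval_of_pow b2) r
    c).2 (b3 ▸ a4)
  refine ⟨f, c, ⟨(algebraMap F L).injective ?_, b4, ?_⟩, b1, a2⟩
  · rw [← prod_ev_eq_det, b3, Multiset.prod_nsmul, prod_nthRoots L hr.pos, ← a3]; simp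
  · rintro a rfl
    rw [_root_.smul_pow, one_pow] at b4
    exact a2 ⟨a, Im.smul_one hB b1, smul_left_injective F (one_ne_zero (α := End F V)) b4⟩

theorem forall_nd_one [Nontrivial V] (hB : EF B 1) (hr : r.Prime) (h0 : (r : F) ≠ 0)
    (hd : r ∣ q + 1) {m : ℕ} (hm : m ≤ finrank F V) :
    (∀ f c, El r f c → Im B f → NDec B f m) ↔ r ∣ m ∨ CndU r (finrank F V) q := by
  let L := AlgebraicClosure F
  have key : ∀ f c, El r f c → Im B f → (¬ ∃ w, frob hF w * w = 1 ∧ w ^ r = c) →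
      (NDec B f m ↔ r ∣ m) := fun f c a1 a2 a3 => by
    obtain ⟨k, -, b2⟩ := a1.ev_nonpow L hB a2 hr hd a3
    rw [ndec_iff_U L hB a2 (cast_mul_ne hF h0) (a1.pow_U hB a2), sub_iff_of_per (inj_chi hF L)
      (sx_U L hB a2) hr.pos (fun z hz => px_of_nonpow L hr hd (a1.norm hB a2) a3
        (pow_eq_of_mem_ev' L a1.2.1 hz)) (s := k) (by rw [card_ev, b2, mul_comm])]
    exact ⟨fun ⟨j, _, e⟩ => ⟨j, e⟩, fun ⟨j, e⟩ => ⟨j, by nlinarith [hr.pos], e⟩⟩
  refine ⟨fun H => or_iff_not_imp_right.2 fun h => ?_, fun H f c a1 a2 => ?_⟩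
  · obtain ⟨f, c, a1, a2, a3⟩ := exists_of_not_cndU hB hr h0 hd h
    exact (key f c a1 a2 a3).1 (H f c a1 a2)
  · by_cases h : ∃ w, frob hF w * w = 1 ∧ w ^ r = c
    · obtain ⟨w, b1, rfl⟩ := h
      obtain ⟨M, c1, c2⟩ := exists_le_card (ev L f) (hm.trans (card_ev L f).ge)
      exact (ndec_iff_U L hB a2 (cast_mul_ne hF h0) (a1.pow_U hB a2) m).2 ⟨M, c1, SX.of_fix
        fun z hz => chi_of_pow L hr.ne_zero hd b1
          (pow_eq_of_mem_ev' L a1.2.1 (Multiset.mem_of_le c1 hz)), c2⟩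
    · exact (key f c a1 a2 h).2 (H.resolve_right (a1.not_cnd hB a2 hr h0 hd h))

theorem ts_of_fix (hB : EF B 1) (hf : Im B f) {N : ℕ} (hN : (N : F) ≠ 0) (h1 : f ^ N = 1)
    (h : ∀ z ∈ ev L f, pw (-q) z = z) (m : ℕ) : TS B f m ↔ m ≤ (half (ev L f)).card := by
  have h2 : ∀ M ≤ ev L f, SX (pw (-q)) M := fun M hM => SX.of_fix fun z hz =>
    h z (Multiset.mem_of_le hM hz)
  rw [ts_iff_U L hB hf hN h1]
  refine ⟨fun ⟨M, _, a2, a3⟩ => ?_, fun hm => ?_⟩
  · rw [h2 M ((Multiset.le_add_right _ _).trans a2), ← le_half_iff] at a2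
    exact a3 ▸ Multiset.card_le_card a2
  · obtain ⟨M, a1, a2⟩ := exists_le_card _ hm
    have a3 := h2 M (a1.trans (half_le _))
    exact ⟨M, chi_chi hF L ▸ a3.comp a3, by rwa [a3, ← le_half_iff], a2⟩

omit [Fintype F] in
theorem exists_half_roots (hr : 0 < r) (h : f ^ r = c • 1) : ∃ D ≤ nthRoots r (algebraMap F L c),
    ev L f = half (ev L f) + half (ev L f) + D := by
  obtain ⟨D, a1, a2⟩ := exists_half_add (ev L f)
  exact ⟨D, (Multiset.le_iff_subset a1).2 fun z hz => (mem_nthRoots hr).2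
    (pow_eq_of_mem_ev' L h (a2 ▸ Multiset.mem_add.2 (Or.inr hz))), a2⟩

theorem forall_ts_one (hB : EF B 1) (hr : r.Prime) (h2 : r ≠ 2) (h0 : (r : F) ≠ 0)
    (hd : r ∣ q + 1) {m : ℕ} (hm0 : 1 ≤ m) (hm : 2 * m ≤ finrank F V) :
    (∀ f c, El r f c → Im B f → TS B f m) ↔
      r - 1 + 2 * m ≤ finrank F V ∧ (r ∣ m ∨ CndU r (finrank F V) q) := by
  let L := AlgebraicClosure F
  haveI : Nontrivial V := Module.nontrivial_of_finrank_pos (R := F) (by omega)
  have ho := hr.odd_of_ne_two h2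
  have h3 := Nat.odd_iff.1 ho
  have h4 := hr.two_le
  have key : ∀ f c, El r f c → Im B f → (¬ ∃ w, frob hF w * w = 1 ∧ w ^ r = c) →
      (TS B f m ↔ r ∣ m) := fun f c a1 a2 a3 => by
    obtain ⟨k, b1, b2⟩ := a1.ev_nonpow L hB a2 hr hd a3
    rw [ts_iff_U L hB a2 (cast_mul_ne hF h0) (a1.pow_U hB a2)]
    refine ⟨fun ⟨M, c1, c2, c3⟩ => ?_, fun ⟨j, e⟩ => ?_⟩
    · obtain ⟨j, e, -⟩ := c1.per (inj_pw_card L) hr.pos fun z hz i => by
        rw [← chi_chi hF, ← Function.iterate_one (pw (-q : ℤ)), ← Function.iterate_add,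
          ← Function.iterate_mul, px_of_nonpow L hr hd (a1.norm hB a2) a3 (pow_eq_of_mem_ev' L
            a1.2.1 (Multiset.mem_of_le c2 (Multiset.mem_add.2 (Or.inl hz))))]
        exact (Nat.coprime_two_right.2 ho).dvd_mul_left
      exact ⟨j, c3 ▸ e⟩
    · obtain ⟨z, hz⟩ := IsAlgClosed.exists_pow_nat_eq (algebraMap F L c) hr.pos
      have c1 := px_of_nonpow L hr hd (a1.norm hB a2) a3 hz
      have c2 := (orb_eq_roots hr.pos hz (chi_alg L (a1.norm hB a2)) c1 ▸ c1.sx).nsmul j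
      refine ⟨_, chi_chi hF L ▸ c2.comp c2, ?_, by
        rw [Multiset.card_nsmul, card_nthRoots', e, mul_comm]⟩
      rw [c2, b1, ← add_nsmul]
      exact nsmul_le_nsmul_left zero_le (by nlinarith)
  refine ⟨fun H => ⟨?_, or_iff_not_imp_right.2 fun h => ?_⟩, fun H f c a1 a2 => ?_⟩
  · by_contra h
    obtain ⟨ζ, hζ⟩ := exists_prim L h0
    have a1 : ∀ z ∈ (primitiveRoots r L).val, IsPrimitiveRoot z r := fun z hz =>
      (mem_primitiveRoots hr.pos).1 hz
    have a2 : Function.Injective (pw (-1) : L → L) := pw_neg_one L ▸ inv_injective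
    obtain ⟨D, b1, b2, b3⟩ := exists_nodup_orbits a2 two_pos (R := (primitiveRoots r L).val)
      (Multiset.eq_of_le_of_card_le ((Multiset.le_iff_subset ((primitiveRoots r L).nodup.map
        a2)).2 fun z hz => by
          obtain ⟨w, hw, rfl⟩ := Multiset.mem_map.1 hz
          exact (mem_primitiveRoots hr.pos).2 (by simpa [pw] using (a1 w hw).inv)) (by simp))
      (fun z hz => by
        have := px_pw (a1 z hz) hr.ne_zero (-1)
        rwa [show orderOf ((-1 : ℤ) : ZMod r) = 2 from orderOf_eq_prime (by simp)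
          (by simpa using neg_one_ne_one (r := r) (by omega))] at this)
      (o := (finrank F V - 2 * m) / 2 + 1) (by
        rw [Finset.card_val, hζ.card_primitiveRoots, Nat.totient_prime hr]; omega)
    have b4 : ∀ z ∈ D, IsPrimitiveRoot z r := fun z hz => a1 z (Multiset.mem_of_le b1 hz)
    have b5 : ∀ z ∈ D + Multiset.replicate (finrank F V - D.card) 1, z ^ r = 1 := fun z hz =>
      (Multiset.mem_add.1 hz).elim (fun h => (b4 z h).pow_eq_one) fun h => by
        rw [Multiset.eq_of_mem_replicate h, one_pow]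
    have b6 : ∀ z ∈ D + Multiset.replicate (finrank F V - D.card) 1, pw (-q) z = z := fun z hz =>
      chi_of_pow L hr.ne_zero hd (w := 1) (hF := hF) (by simp) (by simpa using b5 z hz)
    obtain ⟨f, c1, c2, c3⟩ := exists_U_ev L hB h0 (by simp; omega) (SX.of_fix b6) b5
    have c4 : D.prod = 1 := by
      have d1 : D.prod ^ r = 1 := by
        rw [← Multiset.map_id' D, ← Multiset.prod_map_pow,
          Multiset.map_congr rfl fun z hz => (b4 z hz).pow_eq_one]
        simp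
      have d2 : D.prod⁻¹ = D.prod := by
        rw [← Multiset.prod_map_inv']; rw [pw_neg_one] at b2; exact congrArg _ b2
      have d3 : D.prod ^ 2 = 1 := by
        rw [sq, ← mul_inv_cancel₀ (ne_zero_pow hr.ne_zero (d1 ▸ one_ne_zero)), d2]
      simpa [(Nat.coprime_two_right.2 ho).gcd_eq_one] using pow_gcd_eq_one.2 ⟨d1, d3⟩
    have c5 := (ts_of_fix L hB c1 h0 c2 (c3 ▸ b6) m).1 (H f 1 ⟨(algebraMap F L).injective (by
      rw [← prod_ev_eq_det, c3]; simp [c4]), by simpa using c2, ?_⟩ c1)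
    · have d1 : half (ev L f) ≤ Multiset.replicate (m - 1) 1 := Multiset.le_iff_count.2 fun z => by
        have := Multiset.nodup_iff_count_le_one.1
          (Multiset.nodup_of_le b1 (primitiveRoots r L).nodup) z
        rw [count_half, c3, Multiset.count_add, Multiset.count_replicate, Multiset.count_replicate]
        split_ifs with e
        · rw [← e, Multiset.count_eq_zero_of_notMem fun h => (b4 1 h).ne_one hr.one_lt rfl]
          omega
        · omega
      have := Multiset.card_le_card d1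
      rw [Multiset.card_replicate] at this
      omega
    · rintro a rfl
      have d1 := Multiset.nodup_of_le b1 (primitiveRoots r L).nodup
      rw [← Algebra.algebraMap_eq_smul_one, ev_scalar] at c3
      obtain ⟨j, -, rfl⟩ := Multiset.le_replicate_iff.1 (c3 ▸ Multiset.le_add_right D _)
      rw [Multiset.nodup_iff_count_le_one] at d1
      have := d1 (algebraMap F L a)
      simp at this b3
      omega
  · obtain ⟨f, c, a1, a2, a3⟩ := exists_of_not_cndU hB hr h0 hd h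
    exact (key f c a1 a2 a3).1 (H f c a1 a2)
  · by_cases h : ∃ w, frob hF w * w = 1 ∧ w ^ r = c
    · obtain ⟨w, b1, rfl⟩ := h
      obtain ⟨D, c1, c2⟩ := exists_half_roots L hr.pos a1.2.1
      have c3 := Multiset.card_le_card c1
      have c4 := congrArg Multiset.card c2
      rw [card_nthRoots'] at c3
      rw [Multiset.card_add, Multiset.card_add, card_ev] at c4
      exact (ts_of_fix L hB a2 (cast_mul_ne hF h0) (a1.pow_U hB a2) (fun z hz =>
        chi_of_pow L hr.ne_zero hd b1 (pow_eq_of_mem_ev' L a1.2.1 hz)) m).2 (by omega)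
    · exact (key f c a1 a2 h).2 (H.2.resolve_right (a1.not_cnd hB a2 hr h0 hd h))

theorem El.smul_refl {v : V} {a w : F} (hf : ∀ x, f x = x + (a * B v x) • v) (ha : a * B v v = -2)
    (h0 : (2 : F) ≠ 0) (hd : LinearMap.det f = -1) (hw : w ^ finrank F V = -1)
    (hn : 1 < finrank F V) : El 2 (w • f) (w ^ 2) ∧ f ≠ 1 := by
  have h1 : f ≠ 1 := fun e => h0 (by rw [e, map_one] at hd; linear_combination hd)
  have h2 : w ≠ 0 := ne_zero_pow (n := finrank F V) (by omega) (by rw [hw]; simp)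
  refine ⟨⟨by simp [hd, hw], ?_, fun b e => ne_smul_rank_one hf h1 hn (w⁻¹ * b) (by
    rw [mul_smul, ← e, inv_smul_smul₀ h2])⟩, h1⟩
  rw [_root_.smul_pow]
  congr 1
  refine LinearMap.ext fun x => ?_
  rw [sq, End.mul_apply, hf, hf x, map_add, map_smul, add_assoc, ← add_smul, smul_eq_mul,
    show a * B v x + a * (B v x + a * B v x * B v v) = 0 by linear_combination a * B v x * ha]
  simp

theorem exists_refl_U (hB : EF B 1) (h0 : (2 : F) ≠ 0) (hn : 2 < finrank F V)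
    (h : ¬ padicValNat 2 (q + 1) ≤ padicValNat 2 (finrank F V)) :
    ∃ f c, El 2 f c ∧ Im B f ∧ ¬ HQ B f ∧ ∀ m, 2 * m = finrank F V → ¬ TS B f m := by
  haveI : Nontrivial V := Module.nontrivial_of_finrank_pos (R := F) (by omega)
  obtain ⟨w, a1, a2⟩ := (exists_pow_neg_U hF h0 (by omega)).2 h
  obtain ⟨v, hv⟩ := (hf_of_ef hB).exists_norm_eq (c := 1) (map_one _)
  obtain ⟨f, b1, b2, b3⟩ := exists_rank_one (hf_of_ef hB) (v := v) (c := -2) (by
    rw [hv, map_neg, map_ofNat]; norm_num)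
  obtain ⟨c1, c2⟩ := El.smul_refl b3 (by simp [hv]) h0 (by rw [b2, hv]; norm_num) a2 (by omega)
  have h2 := right_ne_zero_of_mul_eq_one a1
  exact ⟨_, _, c1, b1.smul a1, mt (hq_smul h2).1 (not_hq_rank_one hB b3 c2 hn), fun m hm =>
    mt (ts_smul h2).1 (not_ts_refl hB b3 (neg_ne_zero.2 h0) (by simp [hv]) hm)⟩

theorem forall_ts_two (hB : EF B 1) (h0 : (2 : F) ≠ 0) (hn : 2 < finrank F V) {m : ℕ}
    (hm : 2 * m ≤ finrank F V) : (∀ f c, El 2 f c → Im B f → TS B f m) ↔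
      2 * m < finrank F V ∨ padicValNat 2 (q + 1) ≤ padicValNat 2 (finrank F V) := by
  let L := AlgebraicClosure F
  have hd : 2 ∣ q + 1 := by
    by_contra h
    obtain ⟨k, hk⟩ : 2 ∣ q := by omega
    have := congrArg (· ^ 2) hk
    have := FiniteField.odd_card_of_char_ne_two (F := F) fun e => h0 (by
      have := (ringChar.spec F 2).2 (e ▸ dvd_rfl); simpa using this)
    rw [card_sq hF, hk, mul_pow, show 2 ^ 2 = 2 * 2 from rfl, mul_assoc] at this
    omega
  refine ⟨fun H => or_iff_not_imp_right.2 fun h => ?_, fun H f c a1 a2 => ?_⟩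
  · obtain ⟨f, c, a1, a2, -, a3⟩ := exists_refl_U hB h0 hn h
    exact lt_of_le_of_ne hm fun e => a3 m e (H f c a1 a2)
  have h1 := cast_mul_ne hF (r := 2) h0
  by_cases h : ∃ w, frob hF w * w = 1 ∧ w ^ 2 = c
  · obtain ⟨w, b1, rfl⟩ := h
    obtain ⟨D, c1, c2⟩ := exists_half_roots L two_pos a1.2.1
    have c3 := Multiset.card_le_card c1
    have c4 := congrArg Multiset.card c2
    rw [card_nthRoots'] at c3
    rw [Multiset.card_add, Multiset.card_add, card_ev] at c4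
    refine (ts_of_fix L hB a2 h1 (a1.pow_U hB a2) (fun z hz =>
      chi_of_pow L two_ne_zero hd b1 (pow_eq_of_mem_ev' L a1.2.1 hz)) m).2 ?_
    by_contra h2
    refine (exists_pow_neg_U hF h0 (by omega)).1 ⟨w, b1, (algebraMap F L).injective ?_⟩
      (H.resolve_left (by omega))
    have c5 := prod_ev_eq_det L f
    rw [c2, Multiset.eq_of_le_of_card_le c1 (by rw [card_nthRoots']; omega), Multiset.prod_add,
      Multiset.prod_add, prod_nthRoots L two_pos, ← sq, ← Multiset.map_id' (half _),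
      ← Multiset.prod_map_pow, Multiset.map_congr rfl fun z hz => pow_eq_of_mem_ev' L a1.2.1
        (Multiset.mem_of_le (half_le _) hz), a1.1] at c5
    rw [c4, show D.card = 2 by omega]
    simp only [Multiset.map_const', Multiset.prod_replicate, map_pow, map_neg, map_one] at c5 ⊢
    linear_combination -c5
  · obtain ⟨k, b1, b2⟩ := a1.ev_nonpow L hB a2 Nat.prime_two hd h
    obtain ⟨z, hz⟩ := IsAlgClosed.exists_pow_nat_eq (algebraMap F L c) two_pos
    have c1 := px_of_nonpow L Nat.prime_two hd (a1.norm hB a2) h hz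
    rw [← orb_eq_roots two_pos hz (chi_alg L (a1.norm hB a2)) c1] at b1
    refine (ts_iff_U L hB a2 h1 (a1.pow_U hB a2) m).2 ⟨m • {z}, SX.nsmul (SX.of_fix fun w hw => ?_) m,
      ?_, by simp⟩
    · rw [Multiset.mem_singleton.1 hw, ← chi_chi hF]
      exact (c1 2).2 dvd_rfl
    · rw [Multiset.map_nsmul, ← nsmul_add, b1, show {z} + Multiset.map (pw (-q)) {z} =
        orb (pw (-q)) z 2 by simp [orb, Multiset.range_succ, ← Multiset.singleton_add, add_comm]]
      exact nsmul_le_nsmul_left zero_le (by omega)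

theorem hq_of_ts (hB : EF B 1) (hf : Im B f) {N : ℕ} (hN : (N : F) ≠ 0) (h1 : f ^ N = 1) {d : ℕ}
    (hd : finrank F V = 2 * d) (h : TS B f d) : HQ B f := by
  let L := AlgebraicClosure F
  obtain ⟨ψ, e1, e2⟩ := exists_psi hF L
  obtain ⟨M, a1, a2, rfl⟩ := (ts_iff_U L hB hf hN h1 d).1 h
  have h0 : N ≠ 0 := by rintro rfl; simp at hN
  obtain ⟨g, k, b1, b2, b3⟩ := exists_hyp L e1 hB.invol M (by rwa [pw_card] at a1) h0 (c := 1)
    (by simp) fun z hz => by simpa using (pow_eq_one_of_mem_ev L h1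
      (Multiset.mem_of_le a2 (Multiset.mem_add.2 (Or.inl hz))))
  have hs := squarefree_X_pow_sub_one hN
  have hi := inj_of_pow h0 one_ne_zero b1
  exact HQ.tr ⟨_, _, LinearMap.isCompl_range_inl_inr, iso_hyp_inl, iso_hyp_inr,
    Or.inl ⟨map_eq_of_le hi (inv_inl g k) rfl, map_eq_of_le hi (inv_inr g k) rfl⟩⟩
    (tri_U (ef_hypB hB.invol hB.eps _) hB (im_hypB hB.invol b3) hf (sim_of_ev L hs hs
      (aeval_of_pow (by simpa using b1)) (aeval_of_pow h1) (by
        rw [b2, ← e2]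
        exact Multiset.eq_of_le_of_card_le a2 (by simp [card_ev, hd, two_mul]))))

theorem exists_tv_U {p : ℕ} [hp : Fact p.Prime] [CharP F p] (hB : EF B 1) (hn : 2 < finrank F V) :
    ∃ f, El p f 1 ∧ Im B f ∧ ¬ HQ B f := by
  obtain ⟨v, a1, a2⟩ := (hf_of_ef hB).exists_isotropic (by omega)
  obtain ⟨c, a3, a4⟩ := (inv_frob hF).exists_skew
  obtain ⟨f, b1, b2, b3⟩ := exists_rank_one (hf_of_ef hB) (v := v) (c := c) (by simp [a2, a4])
  have h1 : f ≠ 1 := fun e => a1 (hB.nd v fun y => by simpa [e, a1, a3] using b3 y)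
  have h2 : ∀ (k : ℕ) x, (f ^ k) x = x + (k * c * B v x) • v := fun k x => by
    induction k with
    | zero => simp
    | succ k ih => rw [pow_succ', End.mul_apply, ih, b3]; simp [a2, add_assoc, ← add_smul, add_mul]
  exact ⟨f, ⟨by simp [b2, a2], LinearMap.ext fun x => by simp [h2],
    ne_smul_rank_one b3 h1 (by omega)⟩, b1, not_hq_rank_one hB b3 h1 hn⟩

theorem not_lt_of_dvd' {c j m n : ℕ} (hj : c ∣ j) (h1 : n - m < j) (h2 : j ≤ n) :
    ¬ (m ≤ n % c) := fun h => by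
  have a3 := Nat.mod_add_div n c
  have a4 := Nat.mod_lt n (Nat.pos_of_dvd_of_pos hj (by omega))
  rw [show j = c * (n / c) + (j - c * (n / c)) by omega, Nat.dvd_add_right (Dvd.intro _ rfl)] at hj
  have := Nat.le_of_dvd (by omega) hj
  omega

variable (hF) in
include hF in
theorem one_le_tU (hr : r.Prime) (h0 : (r : F) ≠ 0) {b c : ℕ} (hc : c = orderOf (-q : ZMod r))
    (hb : (Odd c ∧ b = c) ∨ c = 2 * b) : 0 < b ∧ b ∣ r - 1 := by
  obtain ⟨a, ha⟩ := cfg_U hF (AlgebraicClosure F) hr h0 hc hb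
  haveI := Fact.mk hr
  exact ⟨ha.pos, by simpa [ha.hb] using ZMod.orderOf_dvd_card_sub_one (card_ne_zero_zmod h0)⟩

theorem forall_ts_ne [Nontrivial V] (hB : EF B 1) (hr : r.Prime) (h0 : (r : F) ≠ 0)
    (hd : ¬ r ∣ q + 1) {b c : ℕ} (hc : c = orderOf (-q : ZMod r))
    (hb : (Odd c ∧ b = c) ∨ c = 2 * b) {m j : ℕ} (hm : 2 * m ≤ finrank F V) (hj : c ∣ j)
    (h1 : finrank F V - 2 * m < j) (h2 : j ≤ finrank F V) :
    (∀ f c, El r f c → Im B f → TS B f m) ↔ b ≤ m ∧ 2 * (m % b) ≤ finrank F V % c ∧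
      (Odd c → (r - 1) / b + 2 * (m / b) ≤ finrank F V / b) := by
  rw [forall_ne_U hr hd hB (fun f => TS B f m) fun f a ha => (ts_smul ha).2,
    forall_uns hr h0 hB hc hb _ (fun e s w => ∃ a j, 2 * a ≤ e ∧ j ≤ w ∧ m = a + b * j)
      fun f e s w h => h.2.2.1 m]
  obtain ⟨hp, ht⟩ := one_le_tU hF hr h0 hc hb
  replace ht := Nat.div_pos (Nat.le_of_dvd (by have := hr.two_le; omega) ht) hp
  have h3 := not_lt_of_dvd' hj h1 h2
  have h4 := Nat.le_of_dvd (by omega) hj
  generalize finrank F V = n at *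
  clear hc
  rcases hb with ⟨h, rfl⟩ | rfl
  · simp only [Adm, true_and, h, show b ≠ 2 * b by omega, false_and, or_false, forall_const]
    rw [← arith_ts hp ht hm (by omega) (by omega)]
    exact ⟨fun H e w o a1 a2 a3 => H e _ w a2 a3 ⟨o, a1, rfl⟩,
      fun H e s w a1 a2 ⟨o, a3, a4⟩ => H e w o a3 (a4 ▸ a1) (a4 ▸ a2)⟩
  · have h5 := Nat.mod_mul (x := n) (a := 2) (b := b)
    simp only [Adm, true_and, show 2 * b ≠ b by omega, false_and, false_or,
      Nat.not_odd_iff_even.2 (even_two_mul b), false_imp_iff, and_true]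
    rw [show 2 * (m % b) ≤ n % (2 * b) ↔ m % b ≤ n / 2 % b by omega,
      ← arith_dec hp (by omega) (by omega)]
    refine ⟨fun H e s a1 a2 => ?_, fun H e s w a1 a2 a3 => ?_⟩
    · obtain ⟨a, j, b1, b2, b3⟩ := H (2 * e + n % 2) s s a1 (by rw [mul_assoc]; omega) rfl
      exact ⟨a, by omega, j, Nat.mul_le_mul_left _ b2, b3⟩
    · obtain ⟨a, b1, j, b2, b3⟩ := H (e / 2) s a1 (by rw [mul_assoc] at a2; omega)
      exact ⟨a, j, by omega, a3 ▸ Nat.le_of_mul_le_mul_left b2 hp, b3⟩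

theorem forall_nd_ne [Nontrivial V] (hB : EF B 1) (hr : r.Prime) (h0 : (r : F) ≠ 0)
    (hd : ¬ r ∣ q + 1) {c : ℕ} (hc : c = orderOf (-q : ZMod r))
    {m j : ℕ} (hm : m ≤ finrank F V) (hj : c ∣ j) (h1 : finrank F V - m < j) (h2 : j ≤ finrank F V) :
    (∀ f c, El r f c → Im B f → NDec B f m) ↔ c ≤ m ∧ m % c ≤ finrank F V % c := by
  obtain ⟨b, hb⟩ : ∃ b, (Odd c ∧ b = c) ∨ c = 2 * b := by
    rcases Nat.even_or_odd' c with ⟨b, h | h⟩
    · exact ⟨b, Or.inr h⟩
    · exact ⟨c, Or.inl ⟨⟨b, h⟩, rfl⟩⟩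
  rw [forall_ne_U hr hd hB (fun f => NDec B f m) fun f a ha => (ndec_smul ha).2,
    forall_uns hr h0 hB hc hb _ (fun e s w => ∃ a j, a ≤ e ∧ j ≤ s ∧ m = a + c * j)
      fun f e s w h => h.2.2.2 m]
  obtain ⟨hp, ht⟩ := one_le_tU hF hr h0 hc hb
  replace ht := Nat.div_pos (Nat.le_of_dvd (by have := hr.two_le; omega) ht) hp
  have h3 := not_lt_of_dvd' hj h1 h2
  have h4 : ∀ s, ∃ w, Adm ((r - 1) / b) b c s w := fun s => hb.elim
    (fun h => ⟨s / 2, Or.inl ⟨h.2.symm, s % 2, by omega, by omega⟩⟩) fun h => ⟨s, Or.inr ⟨h, rfl⟩⟩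
  rw [← arith_dec (by omega) hm (by omega)]
  refine ⟨fun H e s a1 a2 => ?_, fun H e s w a1 a2 _ => ?_⟩
  · obtain ⟨w, hw⟩ := h4 s
    obtain ⟨a, j, b1, b2, b3⟩ := H e s w a1 a2 hw
    exact ⟨a, b1, j, Nat.mul_le_mul_left _ b2, b3⟩
  · obtain ⟨a, b1, j, b2, b3⟩ := H e s a1 a2
    exact ⟨a, j, b1, Nat.le_of_mul_le_mul_left b2 (by omega), b3⟩

theorem two_dvd_succ (hF : Nat.card F = q ^ 2) (h0 : (2 : F) ≠ 0) : 2 ∣ q + 1 := by
  by_contra h
  obtain ⟨k, hk⟩ : 2 ∣ q := by omega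
  have := FiniteField.odd_card_of_char_ne_two (F := F) fun e => h0 (by
    have := (ringChar.spec F 2).2 (e ▸ dvd_rfl); simpa using this)
  rw [card_sq hF, hk, mul_pow, show 2 ^ 2 = 2 * 2 from rfl, mul_assoc] at this
  omega

/-! ### counting -/

/-- the factors of the order of the unitary group -/
def uu (q i : ℕ) : ℕ := if Even i then q ^ (i + 1) + 1 else q ^ (i + 1) - 1

theorem ordU_eq (q n : ℕ) : ordU q n = q ^ (∑ i ∈ Finset.range n, i) * ∏ i ∈ Finset.range n, uu q i := by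
  rw [Finset.sum_range_id]; rfl

theorem uu_pos (hq : 2 ≤ q) (i : ℕ) : 0 < uu q i := by
  have := Nat.one_lt_pow (n := i + 1) (by omega) hq
  unfold uu; split_ifs <;> omega

theorem dvd_uu (hq : 0 < q) {i : ℕ} : r ∣ uu q i ↔ orderOf (-q : ZMod r) ∣ i + 1 := by
  rw [orderOf_dvd_iff_pow_eq_one, ← ZMod.natCast_eq_zero_iff, uu]
  split_ifs with h
  · rw [h.add_one.neg_pow, neg_eq_iff_add_eq_zero]; simp [add_comm]
  · rw [(Nat.not_even_iff_odd.1 h).add_one.neg_pow, Nat.cast_sub (Nat.one_le_pow _ _ hq),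
      sub_eq_zero]; simp

theorem exists_of_dvd_uu (hr : r.Prime) (hq : 0 < q) {k : ℕ} (e : ℕ → ℕ)
    (h : r ∣ ∏ j ∈ Finset.range k, uu q (e j)) : ∃ j < k, orderOf (-q : ZMod r) ∣ e j + 1 := by
  obtain ⟨j, hj, h⟩ := (Prime.dvd_finset_prod_iff hr.prime _).1 h
  exact ⟨j, Finset.mem_range.1 hj, (dvd_uu hq).1 h⟩

theorem prod_uu_pos (hq : 2 ≤ q) (n : ℕ) : 0 < ∏ i ∈ Finset.range n, uu q i :=
  Finset.prod_pos fun i _ => uu_pos hq i

theorem card_ts_U (hB : EF B 1) {a m : ℕ} (hn : finrank F V = a + 2 * m) :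
    Nat.card {W : Submodule F V // finrank F W = m ∧ Iso B W} ∣
      ∏ j ∈ Finset.range (2 * m), uu q (a + j) := by
  have hq := Herm.two_le_of_card hF
  have := (hf_of_ef hB).card_iso_mul hF (k := m) (by omega)
  have h1 : ∑ i ∈ Finset.range (a + 2 * m), i = m * (2 * a + m) + 2 * ∑ i ∈ Finset.range m, i +
      ∑ i ∈ Finset.range a, i := by
    clear this hn
    induction m with
    | zero => simp
    | succ m ih => rw [Nat.mul_succ, ← add_assoc, Finset.sum_range_succ, Finset.sum_range_succ, ih,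
        Finset.sum_range_succ]; ring
  rw [hn, Nat.add_sub_cancel, Fin.prod_univ_eq_prod_range (fun j => (q ^ 2) ^ m - (q ^ 2) ^ j),
    prod_pow_sub (by positivity) _ _ le_rfl, Finset.prod_pow_eq_pow_sum, ordU_eq, ordU_eq, h1,
    Finset.prod_range_add, show 2 * (a + 2 * m) - 3 * m = 2 * a + m by omega] at this
  refine Dvd.intro (∏ j ∈ Finset.range m, ((q ^ 2) ^ (m - j) - 1)) (Nat.eq_of_mul_eq_mul_left
    (Nat.mul_pos (pow_pos (by omega : 0 < q) (m * (2 * a + m) + 2 * ∑ i ∈ Finset.range m, i +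
      ∑ i ∈ Finset.range a, i)) (prod_uu_pos hq a)) ?_)
  rw [mul_assoc _ _ (∏ j ∈ Finset.range (2 * m), uu q (a + j)), ← this]
  ring

theorem card_nd_U (hB : EF B 1) {a m : ℕ} (hn : finrank F V = a + m) :
    Nat.card {W : Submodule F V // finrank F W = m ∧ NDs B W} ∣
      q ^ (∑ i ∈ Finset.range (a + m), i) * ∏ j ∈ Finset.range m, uu q (a + j) := by
  have hq := Herm.two_le_of_card hF
  obtain ⟨U, a1, a2, -⟩ := (ndec_one_U hB m).2 (by omega)
  have h1 := fun T : Submodule F V => finrank_perp_add hB T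
  have := card_nd_dvd hB (fun W => finrank F W = m ∧ NDs B W) a2 ⟨a1, a2⟩
    (fun T hT => by
      obtain ⟨e, he⟩ := (hf_of_ef (ef_res hB a2)).exists_iso (hf_of_ef (ef_res hB hT.2))
        (a1.trans hT.1.symm)
      obtain ⟨e', he'⟩ := (hf_of_ef (ef_res hB (a2.perp hB))).exists_iso
        (hf_of_ef (ef_res hB (hT.2.perp hB))) (by have := h1 U; have := h1 T; omega)
      exact exists_ug_of_iso hB a2 hT.2 e he e' he')
    fun g T hT => ⟨(g.1.finrank_map_eq T).trans hT.1, hT.2.map _ g.2⟩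
  rw [(hf_of_ef hB).card_UG' hF, (hf_of_ef (ef_res hB (a2.perp hB))).card_UG' hF, hn,
    show finrank F (perp B U) = a by have := h1 U; omega, ordU_eq, ordU_eq, Finset.prod_range_add,
    mul_left_comm (q ^ _)] at this
  exact Nat.dvd_of_mul_dvd_mul_left (prod_uu_pos hq a) (Dvd.dvd.trans
    ⟨Nat.card (UG (Herm.res B U)) * q ^ ∑ i ∈ Finset.range a, i, by ring⟩ this)

theorem card_hp_U (hB : EF B 1) {P : Submodule F V × Submodule F V} (hP : HPair B P) {d : ℕ}
    (hd : finrank F V = 2 * d) : Nat.card {P // HPair B P} ∣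
      q ^ (∑ i ∈ Finset.range (2 * d), i) * ∏ j ∈ Finset.range d, uu q (2 * j) := by
  have hq := Herm.two_le_of_card hF
  have := hP.card_dvd hB
  have h1 := (finrank_of_pair hB hP.1 hP.2.1 hP.2.2).2
  rw [(hf_of_ef hB).card_UG' hF, Herm.card_linearEquiv (show finrank F P.1 = d by omega), hF,
    Fin.prod_univ_eq_prod_range (fun j => (q ^ 2) ^ d - (q ^ 2) ^ j),
    prod_pow_sub (by positivity) _ _ le_rfl, hd, ordU_eq] at this
  have h2 : ∏ j ∈ Finset.range d, ((q ^ 2) ^ (d - j) - 1) =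
      ∏ j ∈ Finset.range d, uu q (2 * j + 1) := by
    rw [← Finset.prod_range_reflect]
    exact Finset.prod_congr rfl fun j hj => by
      rw [show d - (d - 1 - j) = j + 1 by have := Finset.mem_range.1 hj; omega, uu,
        if_neg (by simp), ← pow_mul]; rfl
  have h3 : ∀ d, ∏ j ∈ Finset.range (2 * d), uu q j =
      (∏ j ∈ Finset.range d, uu q (2 * j)) * ∏ j ∈ Finset.range d, uu q (2 * j + 1) := fun d => by
    induction d with
    | zero => simp
    | succ d ih => simp only [Nat.mul_succ, Finset.prod_range_succ, ih]; ring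
  rw [h2, h3, ← mul_assoc, ← mul_assoc] at this
  exact (Dvd.intro _ rfl).trans (Nat.dvd_of_mul_dvd_mul_right (Finset.prod_pos fun j _ =>
    uu_pos hq _) this)

variable (hF) in
include hF in
theorem ordU_char {p : ℕ} [hp : Fact p.Prime] [CharP F p] : orderOf (-q : ZMod p) = 0 := by
  rw [(ZMod.natCast_eq_zero_iff q p).2 ((CharP.cast_eq_zero_iff F p q).1 (cast_q hF)),
    orderOf_eq_zero_iff']
  intro n hn
  simp [hn.ne']

variable (hF) in
include hF in
theorem not_dvd_pow_q {p : ℕ} [hp : Fact p.Prime] [CharP F p] [hr : Fact r.Prime] (h : r ≠ p)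
    (k : ℕ) : ¬ r ∣ q ^ k := fun e => not_dvd_pow_card (F := F) h 1 (by
  rw [card_sq hF, pow_one]; exact (hr.out.dvd_of_dvd_pow e).trans (dvd_pow_self q two_ne_zero))

end Cfsg.Agent.Elu
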