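import Mathlib
import Cfsg.Agent.Elu.Or9
import Cfsg.Agent.Elu.Un2
import Cfsg.Agent.Max2.USp

/-!
Semilinear maps over an extension field; elements of prime order of symplectic groups.
-/

set_option autoImplicit false
set_option backward.isDefEq.respectTransparency false

namespace Cfsg.Agent.Elu

open Module Polynomial Conj Spc Max2
open Herm (perp Iso mem_perp b_smul_left b_add_left UG HF)
open Classical.SpMat (sB sB_alt sB_nondeg)
open scoped _root_.Classical

theorem exists_not_dvd {g : ℕ → ℤ} (hg : ∀ j, g (j + 1) ≠ 0) {k a N r : ℕ} (hk : 0 < k)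
    (h1 : k * a ≤ N) (h2 : N < k * (a + 1)) (hr : r.Prime) {X A B : ℤ} (hX : (r : ℤ) ∣ X)
    (h : X * (A * ∏ j ∈ Finset.range a, g (k * (j + 1))) ∣ B * ∏ j ∈ Finset.range N, g (j + 1)) :
    (r : ℤ) ∣ B ∨ ∃ j, 1 ≤ j ∧ j ≤ N ∧ ¬ k ∣ j ∧ (r : ℤ) ∣ g j := by
  have a1 : ∀ j, k * (j + 1) - 1 + 1 = k * (j + 1) := fun j => Nat.sub_add_cancel (by nlinarith)
  have a2 : ((Finset.range a).image fun j => k * (j + 1) - 1) ⊆ Finset.range N := fun x hx => by
    obtain ⟨j, hj, rfl⟩ := Finset.mem_image.1 hx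
    have := Nat.mul_le_mul_left k (show j + 1 ≤ a from Finset.mem_range.1 hj)
    have := a1 j
    exact Finset.mem_range.2 (by omega)
  rw [← Finset.prod_sdiff a2, Finset.prod_image fun x _ y _ e => by
    have := (a1 x).symm.trans ((congrArg (· + 1) e).trans (a1 y))
    simpa [hk.ne'] using this] at h
  simp only [a1] at h
  rw [← mul_assoc, ← mul_assoc, mul_dvd_mul_iff_right (Finset.prod_ne_zero_iff.2 fun j _ =>
    a1 j ▸ hg _)] at h
  have hp := Nat.prime_iff_prime_int.1 hr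
  refine (hp.dvd_or_dvd ((hX.mul_right _).trans h)).imp_right fun h => ?_
  obtain ⟨j, b1, b2⟩ := (Prime.dvd_finset_prod_iff hp _).1 h
  rw [Finset.mem_sdiff, Finset.mem_range] at b1
  refine ⟨j + 1, by omega, by omega, ?_, b2⟩
  rintro ⟨t, ht⟩
  obtain ⟨t, rfl⟩ : ∃ s, t = s + 1 := ⟨t - 1, by rcases t with _ | t <;> simp at ht ⊢⟩
  exact b1.2 (Finset.mem_image.2 ⟨t, Finset.mem_range.2 (lt_of_mul_lt_mul_left (a := k)
    (by nlinarith) k.zero_le), by omega⟩)

theorem relIndex_mul_dvd {G G₀ : Type*} [Group G] [Group G₀] (H S : Subgroup G) (φ : G₀ →* S)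
    (hφ : Function.Injective φ) (h : ∀ g, (φ g).1 ∈ H) :
    H.relIndex S * Nat.card G₀ ∣ Nat.card S := by
  rw [← (H.subgroupOf S).index_mul_card, Nat.card_congr (MonoidHom.ofInjective hφ).toEquiv]
  exact Nat.mul_dvd_mul_left _ (Subgroup.card_dvd_of_le (by rintro _ ⟨g, rfl⟩; exact h g))

universe u
variable {F : Type u} {K V W : Type*} [Field F] [Field K] [Algebra F K] [AddCommGroup V]
  [Module F V] [Module K V] [IsScalarTower F K V] [AddCommGroup W] [Module F W] {f g : End F V}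
  {r : ℕ} {B : LinearMap.BilinForm F V} {B' : LinearMap.BilinForm F W}

variable (K) in
/-- semilinear over `K` -/
def Sm (f : End F V) : Prop := ∀ k : K, ∃ k' : K, ∀ v, f (k • v) = k' • f v

omit [Algebra F K] [IsScalarTower F K V] in
theorem Sm.mul (h : Sm K f) (h' : Sm K g) : Sm K (f * g) := fun k => by
  obtain ⟨a, ha⟩ := h' k
  obtain ⟨b, hb⟩ := h a
  exact ⟨b, fun v => by rw [End.mul_apply, ha, hb]; rfl⟩

theorem sm_res (g : End K V) : Sm K (g.restrictScalars F) := fun k => ⟨k, g.map_smul k⟩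

theorem Sm.smul (h : Sm K f) (c : F) : Sm K (c • f) := fun k =>
  (h k).imp fun a ha v => by simp [ha, smul_comm c a]

theorem res_pow (g : End K V) (n : ℕ) : g.restrictScalars F ^ n = (g ^ n).restrictScalars F := by
  induction n with
  | zero => rfl
  | succ n ih => rw [pow_succ, ih, pow_succ]; rfl

theorem Sm.lin_or [FiniteDimensional F V] (h : Sm K f) : (∃ g : End K V, g.restrictScalars F = f) ∨
    2 * finrank F (Fx f) ≤ finrank F V := by
  by_cases h1 : ∀ (k : K) v, f (k • v) = k • f v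
  · exact Or.inl ⟨⟨f.toAddHom, h1⟩, rfl⟩
  push Not at h1
  obtain ⟨k, v, h1⟩ := h1
  obtain ⟨a, ha⟩ := h k
  have h2 : a - k ≠ 0 := fun e => h1 (by rw [ha, sub_eq_zero.1 e])
  have h0 : k ≠ 0 := by rintro rfl; simp at h1
  let e : End F V := (k • (1 : End K V)).restrictScalars F
  have h3 := Submodule.finrank_sup_add_finrank_inf_eq (Fx f) ((Fx f).map e)
  rw [finrank_map_inj (e := e) (smul_right_injective V h0),
    show Fx f ⊓ (Fx f).map e = ⊥ from eq_bot_iff.2 ?_, finrank_bot] at h3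
  · exact Or.inr (by have := Submodule.finrank_le (Fx f ⊔ (Fx f).map e); omega)
  rintro _ ⟨h4, y, h5, rfl⟩
  have h6 : f (k • y) = k • y := mem_Fx.1 h4
  rw [ha, mem_Fx.1 h5, ← sub_eq_zero, ← sub_smul] at h6
  simp [(smul_eq_zero.1 h6).resolve_left h2]

theorem Sm.lin [Finite K] (h : Sm K f) {c : F} (hc : c ≠ 0) (hf : f ^ r = c • 1) (hr : 0 < r)
    (h1 : r.Coprime (finrank F K)) : ∃ g : End K V, g.restrictScalars F = f := by
  suffices ∀ (k : K) v, f (k • v) = k • f v from ⟨⟨f.toAddHom, this⟩, rfl⟩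
  rcases subsingleton_or_nontrivial V with _ | _
  · exact fun _ _ => Subsingleton.elim _ _
  obtain ⟨v, hv⟩ := exists_ne (0 : V)
  have h0 : f v ≠ 0 := fun e => by
    obtain ⟨r, rfl⟩ := Nat.exists_eq_succ_of_ne_zero hr.ne'
    have := LinearMap.congr_fun hf v
    rw [pow_succ, End.mul_apply, e, map_zero] at this
    exact smul_ne_zero hc hv this.symm
  choose s hs using h
  have u : ∀ {a b : K}, a • f v = b • f v → a = b := fun e => smul_left_injective K h0 e
  let σ : K →ₐ[F] K :=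
    { toFun := s
      map_one' := u (by rw [← hs, one_smul, one_smul])
      map_mul' := fun a b => u (by rw [← hs, mul_smul, hs, hs, mul_smul])
      map_zero' := u (by rw [← hs]; simp)
      map_add' := fun a b => u (by rw [← hs, add_smul, add_smul, map_add, hs, hs])
      commutes' := fun a => u (by rw [← hs]; simp) }
  let ρ : K ≃ₐ[F] K := AlgEquiv.ofBijective σ (Finite.injective_iff_bijective.1 σ.injective)
  have h2 : ∀ n k v, (f ^ n) (k • v) = (ρ ^ n) k • (f ^ n) v := fun n => by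
    induction n with
    | zero => simp
    | succ n ih => exact fun k v => by rw [pow_succ', pow_succ', End.mul_apply, ih, hs]; rfl
  have h3 : ρ ^ r = 1 := AlgEquiv.ext fun k => smul_left_injective K (smul_ne_zero hc hv) (by
    simpa [hf, smul_comm c] using (h2 r k v).symm)
  have h4 : ρ ^ finrank F K = 1 := by
    rw [← IsGalois.card_aut_eq_finrank, pow_card_eq_one']
  have h5 : ρ = 1 := by
    simpa [h1.gcd_eq_one] using (pow_gcd_eq_one.2 ⟨h3, h4⟩ : ρ ^ r.gcd (finrank F K) = 1)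
  exact fun k v => by simpa [h5] using h2 1 k v

theorem finrank_res (U : Submodule K V) {U' : Submodule F V} (h : ∀ v, v ∈ U' ↔ v ∈ U) :
    finrank F U' = finrank F K * finrank K U := by
  obtain rfl : U' = U.restrictScalars F := Submodule.ext h
  exact (finrank_mul_finrank F K U).symm

theorem finrank_Mo_res (g : End K V) :
    finrank F (Mo (g.restrictScalars F)) = finrank F K * finrank K (Mo g) :=
  finrank_res _ fun _ => Iff.rfl

theorem finrank_Fx_res (g : End K V) :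
    finrank F (Fx (g.restrictScalars F)) = finrank F K * finrank K (Fx g) :=
  finrank_res _ fun _ => Iff.rfl

theorem res_pow_eq_one {g : End K V} : g.restrictScalars F ^ r = 1 ↔ g ^ r = 1 := by
  rw [res_pow]
  exact ⟨fun h => LinearMap.ext fun x => LinearMap.congr_fun h x, fun h => by rw [h]; rfl⟩

section form
variable {σ : K →+* K} {h : V →ₛₗ[σ] V →ₗ[K] K} {τ : Dual F K}

theorem im_res_iff (hτ : τ ≠ 0) (H : ∀ x y, B x y = τ (h x y)) {g : End K V} :
    Im B (g.restrictScalars F) ↔ Im h g :=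
  ⟨fun a x y => eq_of_tr hτ fun k => by simpa [H] using a x (k • y),
    fun a x y => by rw [H, H]; exact congrArg τ (a x y)⟩

theorem exists_semi {ι : Type*} [Fintype ι] (b : Basis ι K V) (w : ι → V) (ρ : K →+* K)
    (hρ : ∀ a, ρ (algebraMap F K a) = algebraMap F K a) :
    ∃ g : End F V, (∀ (k : K) v, g (k • v) = ρ k • g v) ∧ ∀ i, g (b i) = w i :=
  ⟨{ toFun := fun v => ∑ i, ρ (b.repr v i) • w i
     map_add' := fun x y => by simp [add_smul, Finset.sum_add_distrib]
     map_smul' := fun c x => by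
       rw [← algebraMap_smul K c, map_smul]
       simp only [Finsupp.smul_apply, smul_eq_mul, map_mul, hρ, mul_smul, Finset.smul_sum]
       simp },
    fun k v => by simp [mul_smul, Finset.smul_sum], fun i => by
      simp [Finsupp.single_apply, apply_ite ρ]⟩

omit [Algebra F K] [IsScalarTower F K V] in
theorem semi_form {ι : Type*} [Fintype ι] (b : Basis ι K V) {ρ : K →+* K}
    (hg : ∀ (k : K) v, g (k • v) = ρ k • g v) (hρ : ∀ a, σ (ρ a) = ρ (σ a)) {μ : K}
    (hb : ∀ i j, h (g (b i)) (g (b j)) = μ * ρ (h (b i) (b j))) (x y : V) :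
    h (g x) (g y) = μ * ρ (h x y) := by
  rw [← b.sum_repr x, ← b.sum_repr y]
  simp only [map_sum, hg, LinearMap.sum_apply, b_smul_left, map_smul, smul_eq_mul, hb, hρ,
    map_mul, Finset.mul_sum]
  exact Finset.sum_congr rfl fun _ _ => Finset.sum_congr rfl fun _ _ => by ring

theorem semi_sq {ι : Type*} [Fintype ι] (b : Basis ι K V) {ρ : K →+* K}
    (hg : ∀ (k : K) v, g (k • v) = ρ k • g v) (hρ : ∀ a, ρ (ρ a) = a) {c : F}
    (hb : ∀ i, g (g (b i)) = c • b i) : g ^ 2 = c • 1 := LinearMap.ext fun x => by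
  rw [← b.sum_repr x]
  simp only [pow_two, End.mul_apply, map_sum, hg, hρ, hb, smul_comm c, LinearMap.smul_apply,
    End.one_apply]

theorem exists_twist [FiniteDimensional F K] (hτ : τ ≠ 0) {ρ : K →+* K}
    (h1 : ∀ a, ρ (algebraMap F K a) = algebraMap F K a) (h2 : ∀ a, ρ (ρ a) = a) :
    ∃ ν, ρ ν * ν = 1 ∧ ∀ y, τ (ν * ρ y) = τ y := by
  obtain ⟨φ, hφ⟩ := exists_dual_comp (V := K) hτ (τ ∘ₗ ⟨⟨ρ, map_add ρ⟩, fun c k => by
    simp [Algebra.smul_def, h1]⟩)
  have h3 : ∀ y, τ (ρ y) = τ (φ 1 * y) := fun y => (hφ y).trans (by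
    rw [mul_comm, ← smul_eq_mul, ← map_smul, smul_eq_mul, mul_one])
  have h4 : ∀ y, τ (φ 1 * ρ y) = τ y := fun y => by rw [← h3, h2]
  refine ⟨φ 1, eq_of_tr hτ fun k => ?_, h4⟩
  rw [mul_one, ← h4 k, ← h2 (φ 1 * ρ k), h3, map_mul ρ, h2]
  ring_nf

end form

/-- conjugate into `P` -/
def CS (P : End F V → Prop) (B : LinearMap.BilinForm F V) (f : End F V) : Prop :=
  ∃ g, P g ∧ TrS B g B f

theorem TrS.im {f : End F V} {g : End F W} (h : TrS B f B' g) (hg : Im B' g) : Im B f :=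
  fun x y => by obtain ⟨e, a, b⟩ := h; rw [← b, a, a, hg, b]

theorem TrS.prod {V' W' : Type*} [AddCommGroup V'] [Module F V'] [AddCommGroup W'] [Module F W']
    {C : LinearMap.BilinForm F V'} {C' : LinearMap.BilinForm F W'} {f : End F V} {g : End F W}
    {f' : End F V'} {g' : End F W'} (h : TrS B f B' g) (h' : TrS C f' C' g') :
    TrS (sumB B C) (f.prodMap f') (sumB B' C') (g.prodMap g') := by
  obtain ⟨e, a, b⟩ := h
  obtain ⟨e', a', b'⟩ := h'
  exact ⟨e.prodCongr e', fun v => Prod.ext (a _) (a' _), fun x y => by simp [b, b']⟩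

/-- the matrix symplectic group -/
noncomputable def spU (d : ℕ) (F : Type*) [Field F] : spGL d F ≃* UG (sB (Fin d) F) :=
  ((Orth.glEquiv _ F).subgroupMap _).trans (MulEquiv.subgroupCongr (Subgroup.ext fun g => by
    obtain ⟨g, rfl⟩ := (Orth.glEquiv _ F).surjective g
    exact (Subgroup.mem_map_iff_mem (f := (Orth.glEquiv _ F).toMonoidHom)
      (Orth.glEquiv _ F).injective).trans (Max.mem_spGL g)))

theorem forall_spGL_iff {d : ℕ} {H : Subgroup (GL (Fin d ⊕ Fin d) F)}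
    {P : End F (Fin d ⊕ Fin d → F) → Prop} (hH : ∀ g, g ∈ H ↔ P (Matrix.toLin' g.1)) :
    (∀ x ∈ spGL d F, (∃ z : F, (x ^ r).1 = z • (1 : Matrix _ _ F)) →
      (∀ z : F, x.1 ≠ z • (1 : Matrix _ _ F)) → ∃ g ∈ spGL d F, g⁻¹ * x * g ∈ H) ↔
      ∀ f (c : F), Im (sB (Fin d) F) f → f ^ r = c • 1 → (∀ a : F, f ≠ a • 1) →
        CS P (sB (Fin d) F) f := by
  have h1 : ∀ x : GL (Fin d ⊕ Fin d) F, (∃ g ∈ spGL d F, g⁻¹ * x * g ∈ H) ↔
      CS P (sB (Fin d) F) (Matrix.toLin' x.1) := fun x => by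
    refine ⟨fun ⟨g, a, b⟩ => ⟨_, (hH _).1 b, Orth.glEquiv _ F g, fun v => by
      simp [← Matrix.mul_assoc], (Max.mem_spGL g).1 a⟩, fun ⟨k, a, e, b, c⟩ => ?_⟩
    obtain ⟨g, rfl⟩ := (Orth.glEquiv _ F).surjective e
    refine ⟨g, (Max.mem_spGL g).2 c, (hH _).2 ?_⟩
    convert a
    refine LinearMap.ext fun v => (Orth.glEquiv _ F g).injective ?_
    rw [b]
    simp [← Matrix.mul_assoc]
  simp only [h1]
  constructor
  · intro h f c a1 a2 a3
    have hi := a1.inj (af_sB d).ef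
    obtain ⟨x, hx⟩ := (Orth.glEquiv _ F).surjective
      (LinearEquiv.ofBijective f ⟨hi, LinearMap.injective_iff_surjective.1 hi⟩)
    obtain rfl : Matrix.toLin' x.1 = f := congrArg LinearEquiv.toLinearMap hx
    exact h x ((Max.mem_spGL x).2 a1) ⟨c, by simpa using (toLin'_eq_smul_iff _ r c).1 a2⟩
      fun a e => a3 a (by simpa using (toLin'_eq_smul_iff x.1 1 a).2 (by simpa using e))
  · rintro h x a1 ⟨c, hc⟩ h3
    exact h _ c ((Max.mem_spGL x).1 a1) ((toLin'_eq_smul_iff _ r c).2 (by simpa using hc))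
      fun a e => h3 a (by simpa using (toLin'_eq_smul_iff x.1 1 a).1 (by simpa using e))

theorem relIndex_sp {d : ℕ} {H : Subgroup (GL (Fin d ⊕ Fin d) F)}
    {P : End F (Fin d ⊕ Fin d → F) → Prop} (hH : ∀ g, g ∈ H ↔ P (Matrix.toLin' g.1)) {G : Type*}
    [Group G] (φ : G →* UG (sB (Fin d) F)) (hφ : Function.Injective φ)
    (h : ∀ g, P (subRep _ (φ g))) :
    H.relIndex (spGL d F) * Nat.card G ∣ Nat.card (UG (sB (Fin d) F)) := by
  rw [← Nat.card_congr (spU d F).toEquiv]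
  refine relIndex_mul_dvd H _ ((spU d F).symm.toMonoidHom.comp φ)
    ((spU d F).symm.injective.comp hφ) fun g => (hH _).2 ?_
  have := h g
  rwa [← (spU d F).apply_symm_apply (φ g)] at this

variable [FiniteDimensional F V] [FiniteDimensional F W]

theorem exists_inv {σ : F →+* F} {B : V →ₛₗ[σ] V →ₗ[F] F} {ε : F} (h2 : (2 : F) ≠ 0) (hB : EF B ε)
    {U : Submodule F V} (hU : NDs B U) :
    ∃ f, Im B f ∧ f ^ 2 = 1 ∧ finrank F (Fx f) = finrank F U := by
  obtain ⟨e, -, he⟩ := tr_res hB (hU.isCompl hB) le_rfl (one_inv _) (one_inv _)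
  obtain ⟨f, a1, a2⟩ := exists_tr e he (Im.prod (f := 1) (g := (-1 : F) • 1) (fun _ _ => rfl)
    (Im.smul (fun _ _ => rfl) (by simp)))
  refine ⟨f, a1, ?_, (Sim.finrank_Fx a2.sim).symm.trans (finrank_Fx_prod fun y hy => ?_)⟩
  · simpa using Sim.pow_eq a2.sim (N := 2) (c := 1) (LinearMap.ext fun x => by simp [pow_two])
  · exact smul_right_injective _ h2 (by
      simp only [two_smul, smul_zero]; nth_rw 1 [← hy]; simp)

theorem tr_inv (h2 : (2 : F) ≠ 0) (hB : AF B) (hf : Im B f) (hg : Im B g) (h : f ^ 2 = 1)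
    (h' : g ^ 2 = 1) (e : finrank F (Fx f) = finrank F (Fx g)) : TrS B f B g := by
  have a := tr_Fx (N := 2) hB.ef hf h2 h
  have a' := tr_Fx (N := 2) hB.ef hg h2 h'
  rw [res_Mo_sq h] at a
  rw [res_Mo_sq h'] at a'
  have b := finrank_Fx_add f
  have b' := finrank_Fx_add g
  refine a.symm.trans (TrS.trans (TrS.prod ?_ ((hB.res (nds_Mo (N := 2) hB.ef hf h2 h)).tr_smul
    (hB.res (nds_Mo (N := 2) hB.ef hg h2 h')) (by omega) _)) a')
  simpa using (hB.res (nds_Fx (N := 2) hB.ef hf h2 h)).tr_smul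
    (hB.res (nds_Fx (N := 2) hB.ef hg h2 h')) e 1

theorem Sim.finrank_Mo {g : End F W} (h : Sim f g) : finrank F (Mo f) = finrank F (Mo g) := by
  have := finrank_Fx_add f
  have := finrank_Fx_add g
  have := Sim.finrank_Fx h
  have := h.choose.finrank_eq
  omega

theorem AF.exists_tv {p : ℕ} [Fact p.Prime] [CharP F p] (hB : AF B) [Nontrivial V] :
    ∃ f, Im B f ∧ f ^ p = 1 ∧ finrank F (Mo f) = 1 := by
  obtain ⟨v, hv⟩ := exists_ne (0 : V)
  obtain ⟨u, hu⟩ : ∃ u, B u v ≠ 0 := by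
    by_contra h; exact hv (hB.ef.nondeg.2 v (by simpa using h))
  refine ⟨1 + (B.flip v).smulRight v, fun x y => by simp [hB.alt v, hB.flip v]; ring, ?_, ?_⟩
  · have := sub_one_pow_char (p := p) (1 + (B.flip v).smulRight v)
    rw [add_sub_cancel_left, pow_eq_zero_of_le (Fact.out : p.Prime).two_le
      (LinearMap.ext fun x => by simp [pow_two, hB.alt v])] at this
    exact (sub_eq_zero.1 this.symm)
  · rw [Mo, add_sub_cancel_left, ← finrank_span_singleton (K := F) hv]
    rw [le_antisymm (b := F ∙ v) (by rintro _ ⟨x, rfl⟩; exact Submodule.smul_mem _ _ (by simp))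
      ((Submodule.span_singleton_le_iff_mem _ _).2 ⟨(B u v)⁻¹ • u, by simp [hu]⟩ :
        _ ≤ ((B.flip v).smulRight v).range)]

theorem ne_smul_of_dims (h1 : 0 < finrank F (Fx f)) (h2 : 0 < finrank F (Mo f)) (a : F) :
    f ≠ a • 1 := by
  rintro rfl
  obtain ⟨⟨v, h3⟩, hv⟩ := (finrank_pos_iff_exists_ne_zero (R := F)).1 h1
  have h4 : a • v = (1 : F) • v := (mem_Fx.1 h3).trans (one_smul _ _).symm
  obtain rfl := smul_left_injective F (fun e => hv (Subtype.ext e)) h4
  rw [Mo, one_smul, sub_self, LinearMap.range_zero, finrank_bot] at h2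
  exact h2.false

variable [Fintype F]

theorem AF.exists_Mo (hr : r.Prime) (h2 : r ≠ 2) (h0 : (r : F) ≠ 0) (hB : AF B)
    (h : cc (orderOf (Fintype.card F : ZMod r)) ≤ finrank F V) : ∃ f, Im B f ∧ f ^ r = 1 ∧
      finrank F (Mo f) = cc (orderOf (Fintype.card F : ZMod r)) := by
  by_contra x
  obtain ⟨e, he⟩ := Nat.exists_eq_add_of_le' h
  obtain ⟨w, hw⟩ := exists_adm (one_le_t hr h0) 1
  exact (forall_sps hr h2 h0 hB rfl (fun f => finrank F (Mo f) ≠ cc (orderOf (Fintype.card F : ZMod r)))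
    (fun _ s _ => s ≠ 1) fun f e s w _ _ a => by
      have := finrank_Fx_add f
      rw [a.2.1, a.1] at this
      rw [Nat.add_left_cancel this, ne_eq, mul_eq_left₀ (cc_pos (ord_pos h0 hr)).ne']).1
    (fun f a b _ c => x ⟨f, a, b, c⟩) e 1 w le_rfl (by omega) hw rfl

theorem AF.card_UG' (hB : AF B) {d : ℕ} (hd : finrank F V = 2 * d) :
    (Nat.card (UG B) : ℤ) = Fintype.card F ^ d ^ 2 * oP (Fintype.card F) d := by
  rw [hB.card_UG hd, oP]
  push_cast
  exact congrArg _ (Finset.prod_congr rfl fun j _ => by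
    rw [Nat.cast_sub (Nat.one_le_pow _ _ Fintype.card_pos)]; simp)

end Cfsg.Agent.Elu
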