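import Mathlib
import Cfsg.Agent.Elu.Ext

/-!
Field extension subgroups of symplectic groups.
-/

set_option autoImplicit false
set_option backward.isDefEq.respectTransparency false

namespace Cfsg.Agent.Elu

open Module Polynomial Conj Spc Max2
open Herm (perp Iso mem_perp b_smul_left b_smul_right b_add_left UG HF frob inv_frob frob_apply)
open scoped _root_.Classical

universe u
variable {F K : Type u} {V : Type*} [Field F] [Field K] [Algebra F K] [AddCommGroup V]
  [Module F V] [Module K V] [IsScalarTower F K V] {f g : End F V}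
  {r d : ℕ} {B : LinearMap.BilinForm F V} {τ : Dual F K}

theorem CS.neg (h : CS (Sm K) B f) : CS (Sm K) B ((-1 : F) • f) := by
  obtain ⟨g, a, e, b, c⟩ := h
  exact ⟨_, a.smul (-1), e, fun v => by simp [b], c⟩

theorem cast_ne_ext (h : (r : F) ≠ 0) : (r : K) ≠ 0 := by
  rw [← map_natCast (algebraMap F K)]
  exact (_root_.map_ne_zero _).2 h

/-- restriction of scalars -/
def resU {σ : K →+* K} {h : V →ₛₗ[σ] V →ₗ[K] K} (H : ∀ x y, B x y = τ (h x y)) : UG h →* UG B where
  toFun g := ⟨g.1.restrictScalars F, fun x y => by rw [H, H]; exact congrArg τ (g.2 x y)⟩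
  map_one' := rfl
  map_mul' _ _ := rfl

theorem resU_inj {σ : K →+* K} {h : V →ₛₗ[σ] V →ₗ[K] K} (H : ∀ x y, B x y = τ (h x y)) :
    Function.Injective (resU H) := fun _ _ e =>
  Subtype.ext (LinearEquiv.ext fun x => LinearEquiv.congr_fun (congrArg Subtype.val e) x)

theorem ne_one_of_Mo (h : 0 < finrank F (Mo f)) : f ≠ 1 := by
  rintro rfl
  rw [Mo, sub_self, LinearMap.range_zero, finrank_bot] at h
  exact h.false

theorem oP_pow (q k e : ℕ) :
    oP (q ^ k) e = ∏ j ∈ Finset.range e, ((q : ℤ) ^ (2 * (k * (j + 1))) - 1) :=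
  Finset.prod_congr rfl fun j _ => by rw [Nat.cast_pow, ← pow_mul, mul_left_comm]

variable [Fintype F] [Fintype K] [FiniteDimensional F V] [FiniteDimensional K V]

omit [FiniteDimensional K V] in
theorem CS.cases (hr : r.Prime) (hk : (finrank F K).Prime) (h : CS (Sm K) B f) (h1 : f ^ r = 1) :
    (∃ g : End K V, TrS B (g.restrictScalars F) B f ∧ g ^ r = 1 ∧
      finrank F (Mo f) = finrank F K * finrank K (Mo g)) ∨
      (r = finrank F K ∧ finrank F V ≤ 2 * finrank F (Mo f)) := by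
  obtain ⟨g, a, b⟩ := h
  have c := Sim.pow_eq b.sim.symm (c := 1) (h1.trans (one_smul _ _).symm)
  have e := Sim.finrank_Mo b.sim
  have key : (∃ g' : End K V, g'.restrictScalars F = g) → ∃ g : End K V,
      TrS B (g.restrictScalars F) B f ∧ g ^ r = 1 ∧
        finrank F (Mo f) = finrank F K * finrank K (Mo g) := by
    rintro ⟨g, rfl⟩
    exact ⟨g, b, res_pow_eq_one.1 (c.trans (one_smul _ _)), e ▸ finrank_Mo_res g⟩
  by_cases h2 : r = finrank F K
  · exact a.lin_or.imp key fun x => ⟨h2, by have := finrank_Fx_add g; omega⟩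
  · exact Or.inl (key (a.lin one_ne_zero c hr.pos ((Nat.coprime_primes hr hk).2 h2)))

theorem card_ext : Fintype.card K = Fintype.card F ^ finrank F K := Module.card_eq_pow_finrank

theorem card_quad (h : finrank F K = 2) : Nat.card K = Fintype.card F ^ 2 := by
  rw [← h, ← card_ext, Nat.card_eq_fintype_card]

theorem frob_alg (h : Nat.card K = Fintype.card F ^ 2) (a : F) :
    frob h (algebraMap F K a) = algebraMap F K a := by
  rw [frob_apply, ← map_pow, FiniteField.pow_card]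

theorem forall_sp_ext {β : LinearMap.BilinForm K V} (H : SpTr B β τ) {p : ℕ} [Fact p.Prime]
    [CharP F p] [hr : Fact r.Prime] (hk : (finrank F K).Prime) (hd : finrank F V = 2 * d)
    (h2 : 2 ≤ d) {X : ℕ} (hX : X * Nat.card (UG β) ∣ Nat.card (UG B)) (h : r ∣ X) :
    (∀ f (c : F), Im B f → f ^ r = c • 1 → (∀ a : F, f ≠ a • 1) → CS (Sm K) B f) ↔
      r = 2 ∧ d = 2 ∧ finrank F K = 2 ∧ Odd (Fintype.card F) := by
  have hB : AF B := ⟨ef_of_alt H.nd H.altB, H.altB⟩
  have hβ : AF β := ⟨ef_of_alt H.ndK H.alt, H.alt⟩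
  haveI : Nontrivial V := Module.nontrivial_of_finrank_pos (R := F) (by omega)
  obtain ⟨e, he⟩ := hβ.even.two_dvd
  have hn := finrank_mul_finrank F K V
  have h3 := hk.two_le
  rw [he, hd] at hn
  have key : ∀ f, Im B f → f ^ r = 1 → CS (Sm K) B f → (finrank F K ∣ finrank F (Mo f) ∧
      ((r : F) ≠ 0 → finrank F K * 2 ∣ finrank F (Mo f))) ∨
      (r = finrank F K ∧ 2 * d ≤ 2 * finrank F (Mo f)) := fun f a1 a2 a3 =>
    (a3.cases hr.out hk a2).imp (fun ⟨g, b1, b2, b3⟩ => ⟨b3 ▸ Dvd.intro _ rfl, fun r0 => b3 ▸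
      Nat.mul_dvd_mul_left _ (hβ.res (nds_Mo hβ.ef ((im_res_iff H.ne H.eq).1 (b1.im a1))
        (cast_ne_ext r0) b2)).even.two_dvd⟩) (hd ▸ id)
  by_cases hp : r = p
  · subst hp
    obtain ⟨f, a1, a2, a3⟩ := hB.exists_tv (p := r)
    refine iff_of_false (fun x => ?_) ?_
    · have := finrank_Fx_add f
      rcases key f a1 a2 (x f 1 a1 (by simpa) (ne_smul_of_dims (by omega) (by omega))) with y | y
      · have := Nat.le_of_dvd (by omega) y.1; omega
      · omega
    · rintro ⟨rfl, -, -, x⟩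
      exact Orth.two_ne_zero_of_odd x Orth.two_eq_zero_of_charP
  have r0 : (r : F) ≠ 0 := natCast_ne_zero_of_ne hr.out hp
  by_cases h4 : r = 2
  · subst h4
    refine ⟨fun x => ?_, ?_⟩
    · obtain ⟨U, a0, a1, -⟩ := (hB.ndec_one_iff (2 * (d - 1))).2 ⟨by simp, by omega⟩
      obtain ⟨f, a2, a3, a4⟩ := exists_inv r0 hB.ef a1
      have := finrank_Fx_add f
      rcases key f a2 a3 (x f 1 a2 (by simpa) (ne_smul_of_dims (by omega) (by omega))) with y | y
      · have := Nat.le_of_dvd (by omega) (y.2 r0); omega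
      · exact ⟨rfl, by omega, y.1.symm, Orth.odd_card_of_two_ne_zero r0⟩
    rintro ⟨-, rfl, h5, -⟩ f c a1 a2 a3
    have h6 : ∀ f, Im B f → f ^ 2 = 1 → (∀ a : F, f ≠ a • 1) → finrank F (Fx f) = 2 :=
      fun f a1 a2 a3 => by
        have := dims_of_inv a2 a3
        have := finrank_Fx_add f
        have := Nat.even_iff.1 (hB.res (nds_Fx (N := 2) hB.ef a1 r0 a2)).even
        omega
    rcases a1.pm hB.ef a2 with rfl | rfl
    · obtain ⟨m, b, b1, b2⟩ := Classical.SpSimple.exists_basis_J H.ndK H.alt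
      obtain rfl : m = 1 := by rw [h5] at hn; omega
      have hK := card_quad h5
      obtain ⟨ν, c1, c2⟩ := exists_twist H.ne (frob_alg hK) (inv_frob hK).invol
      obtain ⟨g, c3, c4⟩ := exists_semi b (Sum.elim (fun i => b (Sum.inl i))
        fun i => ν • b (Sum.inr i)) _ (frob_alg hK)
      have c5 : Im B g := fun x y => by
        rw [H.eq, H.eq, semi_form (σ := RingHom.id K) b c3 (fun _ => rfl) (μ := ν), c2]
        rintro (i | i) (j | j) <;> simp [c4, b2, Matrix.J, Subsingleton.elim i j]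
      have c6 := semi_sq b c3 (inv_frob hK).invol (c := 1) (by
        rintro (i | i) <;> simp [c4, c3, smul_smul, c1])
      rw [one_smul] at a2 c6
      refine ⟨g, fun k => ⟨_, c3 k⟩, tr_inv r0 hB c5 a1 c6 a2 ((h6 g c5 c6 fun a e => ?_).trans
        (h6 f a1 a2 a3).symm)⟩
      obtain ⟨k, hk⟩ := (inv_frob hK).ne
      have c7 := c3 k (b (Sum.inl 0))
      have c8 : a • b (Sum.inl 0) = b (Sum.inl 0) := by simpa [e] using c4 (Sum.inl 0)
      rw [e, LinearMap.smul_apply, LinearMap.smul_apply, End.one_apply, End.one_apply, smul_comm,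
        c8] at c7
      exact hk (smul_left_injective K (b.ne_zero _) c7).symm
    · obtain ⟨g, b1, b2⟩ := hβ.exists_sq_neg
      exact ⟨_, sm_res g, tr_four r0 hB.ef hB.ef ((im_res_iff H.ne H.eq).2 b1) a1
        (by rw [res_pow, b2]; ext; simp) a2 rfl⟩
  refine iff_of_false (fun x => ?_) fun x => h4 x.1
  rw [forall_odd_iff hB.ef (hr.out.odd_of_ne_two h4) (CS (Sm K) B) fun _ => CS.neg] at x
  have hq : 1 < Fintype.card F := Fintype.one_lt_card
  have a1 := Int.natCast_dvd_natCast.2 hX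
  rw [Nat.cast_mul, hB.card_UG' hd, hβ.card_UG' he, card_ext (F := F), oP_pow] at a1
  obtain a2 | ⟨j, a2, a3, a4, a5⟩ := exists_not_dvd
    (g := fun j => (Fintype.card F : ℤ) ^ (2 * j) - 1) (fun j => sub_ne_zero.2 (by
      exact_mod_cast (Nat.one_lt_pow (by omega) hq).ne')) hk.pos (a := e) (N := d) (by nlinarith)
      (by nlinarith) hr.out (Int.natCast_dvd_natCast.2 h) a1
  · exact not_dvd_pow_card hp _ (by exact_mod_cast a2)
  have a6 : cc (orderOf (Fintype.card F : ZMod r)) ∣ 2 * j := cc_dvd (by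
    rw [orderOf_dvd_iff_pow_eq_one, ← sub_eq_zero]
    simpa using (ZMod.intCast_zmod_eq_zero_iff_dvd _ r).2 a5)
  have a7 := Nat.le_of_dvd (by omega) a6
  have a8 := cc_pos (ord_pos r0 hr.out)
  obtain ⟨f, b1, b2, b3⟩ := hB.exists_Mo hr.out h4 r0 (by omega)
  rcases key f b1 b2 (x f b1 b2 (ne_one_of_Mo (by omega))) with y | y
  · exact a4 (Nat.dvd_of_mul_dvd_mul_right two_pos (mul_comm 2 j ▸ (b3 ▸ y.2 r0).trans a6))
  · have := cc_le hr.out h4 r0
    have : e ≠ 0 := by rintro rfl; omega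
    have : finrank F K * 1 ≤ finrank F K * e := Nat.mul_le_mul_left _ (by omega)
    rw [mul_left_comm] at hn
    omega

theorem forall_sp_uni {σ : K →+* K} {h : V →ₛₗ[σ] V →ₗ[K] K} (H : UTr B h τ)
    (hs : ∀ k, τ (σ k) = -1 * τ k) (h0 : (2 : F) ≠ 0) {p : ℕ} [Fact p.Prime]
    [CharP F p] [hr : Fact r.Prime] (hk : finrank F K = 2) (hd : finrank F V = 2 * d)
    (h2 : 0 < d) {X : ℕ} (hX : X * Nat.card (UG h) ∣ Nat.card (UG B)) (h1 : r ∣ X) :
    (∀ f (c : F), Im B f → f ^ r = c • 1 → (∀ a : F, f ≠ a • 1) → CS (Sm K) B f) ↔ r = 2 := by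
  have hB : AF B := ⟨ef_of_alt H.nd (H.alt hs h0), H.alt hs h0⟩
  have hK := card_quad hk
  obtain rfl : σ = frob hK := RingHom.ext (H.hf.toInv.apply_pow hK)
  have hh := ef_of_hf H.hf
  haveI : Nontrivial V := Module.nontrivial_of_finrank_pos (R := F) (by omega)
  have hn := finrank_mul_finrank F K V
  rw [hk, hd] at hn
  by_cases h4 : r = 2
  · subst h4
    refine iff_of_true (fun f c a1 a2 a3 => ?_) rfl
    rcases a1.pm hB.ef a2 with rfl | rfl
    · rw [one_smul] at a2
      obtain ⟨j, hj⟩ := (hB.res (nds_Fx (N := 2) hB.ef a1 h0 a2)).even.two_dvd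
      have := finrank_Fx_add f
      obtain ⟨U, b1, b2, -⟩ := (ndec_one_U hh j).2 (by omega)
      obtain ⟨g, b3, b4, b5⟩ := exists_inv (cast_ne_ext (r := 2) h0) hh b2
      exact ⟨_, sm_res g, tr_inv h0 hB ((im_res_iff H.ne H.eq).2 b3) a1 (res_pow_eq_one.2 b4) a2
        (by rw [finrank_Fx_res, b5, b1, hk, hj])⟩
    · obtain ⟨b, b1⟩ := H.hf.exists_orthonormal rfl
      obtain ⟨ν, b2⟩ := H.hf.toInv.exists_norm (μ := -1) (by simp)
      obtain ⟨g, c3, c4⟩ := exists_semi b (fun i => ν • b i) _ (frob_alg hK)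
      refine ⟨g, fun k => ⟨_, c3 k⟩, tr_four h0 hB.ef hB.ef (fun x y => ?_) a1
        (semi_sq b c3 H.hf.invol fun i => by simp [c3, c4, smul_smul, b2]) a2 rfl⟩
      rw [H.eq, H.eq, semi_form b c3 (fun _ => rfl) (μ := -1), neg_one_mul, map_neg, hs]
      · simp
      · intro i j
        rw [c4, c4, b_smul_left, b_smul_right, b1, ← mul_assoc, b2]
        split_ifs <;> simp
  refine iff_of_false (fun x => ?_) h4
  rw [forall_odd_iff hB.ef (hr.out.odd_of_ne_two h4) (CS (Sm K) B) fun _ => CS.neg] at x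
  have key : ∀ f, Im B f → f ^ r = 1 → 0 < finrank F (Mo f) → ∃ g : End K V, Im h g ∧ g ^ r = 1 ∧
      finrank F (Mo f) = 2 * finrank K (Mo g) := fun f a1 a2 a3 => by
    obtain ⟨g, b1, b2, b3⟩ := ((x f a1 a2 (ne_one_of_Mo a3)).cases hr.out
      (hk ▸ Nat.prime_two) a2).resolve_right fun y => h4 (y.1.trans hk)
    exact ⟨g, (im_res_iff H.ne H.eq).1 (b1.im a1), b2, hk ▸ b3⟩
  by_cases hp : r = p
  · subst hp
    obtain ⟨f, a1, a2, a3⟩ := hB.exists_tv (p := r)
    obtain ⟨g, -, -, b⟩ := key f a1 a2 (by omega)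
    omega
  have r0 : (r : F) ≠ 0 := natCast_ne_zero_of_ne hr.out hp
  have hq : 1 < Fintype.card F := Fintype.one_lt_card
  have h3 : 2 < r := by have := hr.out.two_le; omega
  rw [hB.card_UG hd, H.hf.card_UG' hK, ordU_eq, show finrank K V = d by omega,
    Finset.prod_congr (f := fun j => Fintype.card F ^ (2 * (j + 1)) - 1) rfl
      (g := fun j => (if Even j then Fintype.card F ^ (j + 1) - 1 else
      Fintype.card F ^ (j + 1) + 1) * uu (Fintype.card F) j) fun j _ => by
        rw [uu, mul_comm 2, pow_mul, ← one_pow 2, Nat.sq_sub_sq, one_pow]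
        split_ifs
        exacts [mul_comm _ _, rfl], Finset.prod_mul_distrib, ← mul_assoc, ← mul_assoc] at hX
  obtain ⟨j, a1, a2⟩ := (Prime.dvd_finset_prod_iff hr.out.prime _).1 ((hr.out.dvd_mul.1
    ((h1.mul_right _).trans (Nat.dvd_of_mul_dvd_mul_right (prod_uu_pos hq d) hX))).resolve_left
      (not_dvd_pow_card hp _))
  have a3 : (-(Fintype.card F : ZMod r)) ^ (j + 1) = -1 := by
    split_ifs at a2 with y
    · rw [y.add_one.neg_pow, (orderOf_dvd_iff_pow_eq_one.1
        ((dvd_pow_sub_one_iff Fintype.card_pos).1 a2))]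
    · rw [(Nat.not_even_iff_odd.1 y).add_one.neg_pow, eq_neg_iff_add_eq_zero]
      simpa using (ZMod.natCast_eq_zero_iff _ r).2 a2
  have a4 : orderOf (-(Fintype.card F : ZMod r)) ∣ 2 * (j + 1) := by
    rw [orderOf_dvd_iff_pow_eq_one, mul_comm, pow_mul, a3]; simp
  have a5 : Even (orderOf (-(Fintype.card F : ZMod r))) := by
    by_contra y
    have := orderOf_dvd_iff_pow_eq_one.1 (((Nat.not_even_iff_odd.1 y).coprime_two_right).dvd_of_dvd_mul_left a4)
    exact neg_one_ne_one h3 (a3.symm.trans this)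
  have a6 : cc (orderOf (Fintype.card F : ZMod r)) = orderOf (-(Fintype.card F : ZMod r)) := by
    rw [orderOf_neg h3 (fun x hx => by simpa using hx) rfl, cc] at *
    simp only [Nat.even_iff] at *
    split_ifs at * <;> omega
  have a7 := Nat.le_of_dvd (by omega) a4
  have a8 := cc_pos (ord_pos r0 hr.out)
  rw [Finset.mem_range] at a1
  obtain ⟨f, b1, b2, b3⟩ := hB.exists_Mo hr.out h4 r0 (by omega)
  obtain ⟨g, c1, c2, c3⟩ := key f b1 b2 (by omega)
  have := Nat.le_of_dvd (by omega) ((forall_uns hr.out (cast_ne_ext r0) hh rfl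
    (Or.inr (Nat.two_mul_div_two_of_even a5).symm)
    (fun g => orderOf (-(Fintype.card F : ZMod r)) ∣ finrank K (Mo g)) (fun _ _ _ => True)
    fun g e s w a => iff_true_intro ⟨s, by have := finrank_Fx_add g; have := a.1; have := a.2.1; omega⟩).2
    (fun _ _ _ _ _ _ => trivial) g c1 c2 (ne_one_of_Mo (by omega)))
  omega

end Cfsg.Agent.Elu
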