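import Mathlib
import Cfsg.Agent.Elu.Ext2
import Cfsg.Agent.Max2.OExt3

/-!
Quadratic extension subgroups of orthogonal groups in odd characteristic.
-/

set_option autoImplicit false
set_option backward.isDefEq.respectTransparency false

namespace Cfsg.Agent.Elu

open Module Polynomial Conj Spc Max2 Orth QuadraticMap
open scoped _root_.Classical

universe u
variable {F K : Type u} {V : Type*} [Field F] [Field K] [Algebra F K] [AddCommGroup V]
  [Module F V] [Module K V] [IsScalarTower F K V] {f g : End F V} {r d : ℕ}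
  {Q : QuadraticForm F V} {P : QuadraticForm K V} {τ : Dual F K}

/-- conjugate under `Ω` into a set -/
def CO (S : End F V → Prop) (Q : QuadraticForm F V) (f : End F V) : Prop :=
  ∃ ω ∈ commutator (OG Q), S (subRep _ ω⁻¹ * f * subRep _ ω)

theorem forall_omegaGL_iff {ι : Type} [Fintype ι] [DecidableEq ι] {Q : QuadraticForm F (ι → F)}
    {H : Subgroup (GL ι F)} {S : End F (ι → F) → Prop} (hH : ∀ g, g ∈ H ↔ S (Matrix.toLin' g.1)) :
    (∀ x ∈ Geo.omegaGL ⇑Q, (∃ z : F, (x ^ r).1 = z • (1 : Matrix _ _ F)) →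
      (∀ z : F, x.1 ≠ z • (1 : Matrix _ _ F)) → ∃ g ∈ Geo.omegaGL ⇑Q, g⁻¹ * x * g ∈ H) ↔
      ∀ f (c : F), Om Q f → f ^ r = c • 1 → (∀ a : F, f ≠ a • 1) → CO S Q f := by
  have h1 : ∀ (x : GL ι F) (g : Cfsg.isometryGroup F ⇑Q), (g.1⁻¹ * x * g.1 ∈ H ↔
      S (subRep _ (toOG Q g)⁻¹ * Matrix.toLin' x.1 * subRep _ (toOG Q g))) := fun x g => by
    rw [hH, ← map_inv, Units.val_mul, Units.val_mul, Matrix.toLin'_mul, Matrix.toLin'_mul]
    rfl
  rw [← forall_Om_iff]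
  refine forall_congr' fun x => forall_congr' fun _ => forall_congr' fun _ =>
    forall_congr' fun _ => ⟨?_, ?_⟩
  · rintro ⟨_, ⟨g, a, rfl⟩, b⟩
    exact ⟨_, (mem_Omega_iff g).1 a, (h1 x g).1 b⟩
  · rintro ⟨g, a, b⟩
    obtain ⟨g, rfl⟩ := (toOG Q).surjective g
    exact ⟨_, ⟨g, (mem_Omega_iff g).2 a, rfl⟩, (h1 x g).2 b⟩

theorem relIndex_om {ι : Type} [Fintype ι] [DecidableEq ι] {Q : QuadraticForm F (ι → F)}
    {H : Subgroup (GL ι F)} {S : End F (ι → F) → Prop} (hH : ∀ g, g ∈ H ↔ S (Matrix.toLin' g.1))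
    {G : Type*} [Group G] (φ : G →* OG Q) (hφ : Function.Injective φ) (h : ∀ g, S (subRep _ (φ g))) :
    H.relIndex (Geo.omegaGL ⇑Q) * Nat.card (commutator G) ∣ Nat.card (commutator (OG Q)) := by
  have e : Nat.card (Geo.omegaGL ⇑Q) = Nat.card (commutator (OG Q)) := by
    rw [Geo.omegaGL, Subgroup.card_map_of_injective (Subgroup.subtype_injective _)]
    exact Nat.card_congr ((toOG Q).toEquiv.subtypeEquiv mem_Omega_iff)
  rw [← e]
  refine relIndex_mul_dvd H _ ((((Cfsg.isometryGroup F ⇑Q).subtype.comp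
    ((toOG Q).symm.toMonoidHom.comp φ)).comp (commutator G).subtype).codRestrict _ fun g =>
      ⟨_, (mem_Omega_iff _).2 (by simpa using map_mem_commutator φ g.2), rfl⟩)
    (fun a b e => by
      have := congrArg Subtype.val e
      exact Subtype.ext (hφ ((toOG Q).symm.injective (Subtype.ext this))))
    fun g => (hH _).2 ?_
  have := h g
  rwa [← (toOG Q).apply_symm_apply (φ g)] at this

theorem sm_sub (H : OTr Q P τ) (g : OG P) : Sm K (subRep _ (H.res g)) := sm_res g.1.toLinearMap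

theorem rk_res (H : OTr Q P τ) (hk : finrank F K = 2) (g : OG P) : rk (H.res g) = 2 * rk g :=
  hk ▸ finrank_Mo_res (F := F) (subRep _ g)

theorem res_inj (H : OTr Q P τ) : Function.Injective H.res := fun _ _ e =>
  OG.ext fun x => congrArg (fun g : OG Q => g.1 x) e

variable [Fintype F] [Fintype K] [FiniteDimensional F V]

theorem om_inv_iff (h2 : (2 : F) ≠ 0) (hQ : ND Q) (hf : IQ Q f) (h : f ^ 2 = 1) :
    Om Q f ↔ ∃ k, finrank F (Mo f) = 2 * k ∧
      (IsPlus (Q.restrict (Mo f)) ↔ r2 (Fintype.card F) k) := by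
  rw [← om_prod_neg h2 (nd_Fx (N := 2) hQ hf h2 h) (nd_Mo (N := 2) hQ hf h2 h)]
  exact ⟨(trQ_inv h2 hf h).symm.om, (trQ_inv h2 hf h).om⟩

theorem odd_card (h2 : (2 : F) ≠ 0) : ∃ m, Fintype.card F = 2 * m + 1 := by
  have := FiniteField.odd_card_of_char_ne_two (F := F) fun e => h2 (by
    exact_mod_cast (ringChar.spec F 2).2 e.dvd)
  exact ⟨_, (Nat.div_add_mod _ 2).symm.trans (by rw [this])⟩

theorem sq_iff_pow (h2 : (2 : F) ≠ 0) (hk : finrank F K = 2) {m : ℕ}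
    (hm : Fintype.card F = 2 * m + 1) {x : K} (hx : x ≠ 0) :
    IsSquare x ↔ x ^ (2 * m * (m + 1)) = 1 := by
  rw [FiniteField.isSquare_iff (fun e => UTr.two_ne (K := K) h2 (by
    exact_mod_cast (ringChar.spec K 2).2 e.dvd)) hx, card_ext (F := F), hk, hm,
    show (2 * m + 1) ^ 2 = 1 + 2 * (2 * m * (m + 1)) by ring, Nat.add_mul_div_left _ _ two_pos]
  simp

theorem sq_alg (h2 : (2 : F) ≠ 0) (hk : finrank F K = 2) (a : F) :
    IsSquare (algebraMap F K a) := by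
  obtain rfl | ha := eq_or_ne a 0
  · simp
  obtain ⟨m, hm⟩ := odd_card h2
  have := FiniteField.pow_card_sub_one_eq_one a ha
  rw [sq_iff_pow h2 hk hm (by simpa), ← map_pow, pow_mul, show 2 * m = Fintype.card F - 1 by omega,
    this, one_pow, map_one]

theorem exists_delta (h2' : (2 : F) ≠ 0) (hτ : τ ≠ 0) (hk : finrank F K = 2) : ∃ δ : K, δ ≠ 0 ∧ ∀ c, c ≠ 0 →
    ((∃ k, k ≠ 0 ∧ τ (k ^ 2 * c) = 0) ↔ IsSquare (c * δ)) := by
  have h1 : finrank F (LinearMap.ker τ) = 1 := by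
    have := Module.Dual.finrank_ker_add_one_of_ne_zero hτ
    omega
  obtain ⟨δ, h0, h2⟩ := finrank_eq_one_iff'.1 h1
  have h3 : (δ : K) ≠ 0 := fun e => h0 (Subtype.ext e)
  refine ⟨δ, h3, fun c hc => ⟨fun ⟨k, a, b⟩ => ?_, fun ⟨s, hs⟩ => ⟨s⁻¹ * δ, ?_, ?_⟩⟩⟩
  · obtain ⟨x, hx⟩ := h2 ⟨_, b⟩
    obtain ⟨s, hs⟩ := sq_alg h2' hk x
    have : k ^ 2 * c = s * s * δ := by
      rw [← hs, ← Algebra.smul_def]; exact (congrArg Subtype.val hx).symm
    exact ⟨s * δ / k, by field_simp; linear_combination this⟩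
  · have : s ≠ 0 := by rintro rfl; simp [hc, h3] at hs
    simp [this, h3]
  · have : s ≠ 0 := by rintro rfl; simp [hc, h3] at hs
    rw [show (s⁻¹ * δ) ^ 2 * c = δ by field_simp; linear_combination hs]
    exact δ.2

theorem exists_eps (h2 : (2 : F) ≠ 0) (hτ : τ ≠ 0) (hk : finrank F K = 2) : ∃ ε : K, ε ≠ 0 ∧
    ∀ c, c ≠ 0 → (((∃ k, k ≠ 0 ∧ τ (k ^ 2 * c) = 0) ↔ r2 (Fintype.card F) 1) ↔ IsSquare (c * ε)) := by
  obtain ⟨δ, h0, h⟩ := exists_delta h2 hτ hk
  obtain ⟨ν, hν⟩ := FiniteField.exists_nonsquare (F := K) fun e => UTr.two_ne (K := K) h2 (by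
    exact_mod_cast (ringChar.spec K 2).2 e.dvd)
  have h1 : ν ≠ 0 := by rintro rfl; simp at hν
  by_cases hr : r2 (Fintype.card F) 1
  · exact ⟨δ, h0, fun c hc => by rw [h c hc]; simp [hr]⟩
  · exact ⟨δ * ν, mul_ne_zero h0 h1, fun c hc => by
      rw [h c hc, ← mul_assoc, Orth.isSquare_mul_iff (mul_ne_zero hc h0) h1]; simp [hr, hν]⟩

/-- the sign rule for reflections over the extension -/
def Eps (τ : Dual F K) (ε : K) : Prop := ε ≠ 0 ∧
    ∀ c, c ≠ 0 → (((∃ k, k ≠ 0 ∧ τ (k ^ 2 * c) = 0) ↔ r2 (Fintype.card F) 1) ↔ IsSquare (c * ε))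

variable [FiniteDimensional K V] {ε : K}

omit [Fintype F] in
theorem rk_refl' (hQ : ND Q) {v : V} (hv : Q v ≠ 0) : rk (refl Q v) = 1 := by
  simpa using hQ.rk_refl_mul_of_notMem hv 1 (by simpa using fun e : v = 0 => hv (by simp [e]))

theorem mem_Mo_refl (H : OTr Q P τ) {v : V} (hv : P v ≠ 0) (x : V) :
    x ∈ Mo (subRep _ (H.res (refl P v))) ↔ ∃ k : K, k • v = x := by
  have h1 : mov (refl P v) = Submodule.span K {v} := by
    refine Submodule.eq_of_le_of_finrank_eq (mov_refl_le v) ?_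
    rw [finrank_span_singleton fun e => hv (by simp [e])]
    exact rk_refl' H.ndK hv
  rw [← Submodule.mem_span_singleton, ← h1]
  rfl

theorem res_refl_mem (H : OTr Q P τ) (hk : finrank F K = 2) (hε : Eps τ ε) {v : V} (hv : P v ≠ 0) :
    H.res (refl P v) ∈ commutator (OG Q) ↔ IsSquare (P v * ε) := by
  have h1 : finrank F (Mo (subRep _ (H.res (refl P v)))) = 2 :=
    (rk_res H hk _).trans (by rw [rk_refl' H.ndK hv])
  rw [← om_iff, om_inv_iff (f := subRep _ (H.res (refl P v))) H.two H.nd (fun x => (H.res _).2 x) (by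
    rw [← map_pow, ← map_pow, pow_two, refl_mul_self, map_one, map_one]), ← hε.2 _ hv, h1, isPlus_res, h1]
  have : (∃ U ≤ Mo (subRep _ (H.res (refl P v))), Sing Q U ∧ 2 * finrank F U = 2) ↔
      ∃ k, k ≠ 0 ∧ τ (k ^ 2 * P v) = 0 := by
    constructor
    · rintro ⟨U, a, b, c⟩
      obtain ⟨⟨x, hx⟩, h0⟩ := (finrank_pos_iff_exists_ne_zero (R := F) (M := U)).1 (by omega)
      obtain ⟨k, rfl⟩ := (mem_Mo_refl H hv x).1 (a hx)
      exact ⟨k, by rintro rfl; exact h0 (by simp), by rw [← q_smul, ← H.eq]; exact b _ hx⟩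
    · rintro ⟨k, a, b⟩
      refine ⟨Submodule.span F {k • v}, (Submodule.span_singleton_le_iff_mem _ _).2
        ((mem_Mo_refl H hv _).2 ⟨k, rfl⟩), fun x hx => ?_, ?_⟩
      · obtain ⟨y, rfl⟩ := Submodule.mem_span_singleton.1 hx
        rw [q_smul, H.eq, q_smul, b, mul_zero]
      · rw [finrank_span_singleton (smul_ne_zero a fun e => hv (by simp [e]))]
  rw [this]
  exact ⟨fun ⟨k, a, b⟩ => (show k = 1 by omega) ▸ b, fun h => ⟨1, rfl, h⟩⟩

theorem res_mem (H : OTr Q P τ) (hk : finrank F K = 2) (hε : Eps τ ε) (g : OG P) :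
    H.res g ∈ commutator (OG Q) ↔ (SqSpin g ↔ Even (rk g) ∨ IsSquare ε) := by
  have hg := good_of_two_ne_zero (V := V) H.two
  have h1 : ∀ g, H.res g ∈ commutator (OG Q) ↔ SqSpin (H.res g) := fun g => by
    rw [H.nd.mem_commutator_iff hg, rk_res H hk]; simp
  refine H.ndK.refl_induction H.good (P := fun g => H.res g ∈ commutator (OG Q) ↔
    (SqSpin g ↔ Even (rk g) ∨ IsSquare ε)) (by simp [sqSpin_one]) (fun v g hv ih => ?_) g
  rw [h1, map_mul, H.nd.sqSpin_mul hg, ← h1, ← h1, ih, res_refl_mem H hk hε hv,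
    H.ndK.sqSpin_mul H.good, H.ndK.sqSpin_refl hv, H.ndK.even_rk_refl_mul hv,
    Orth.isSquare_mul_iff hv hε.1]
  by_cases IsSquare ε <;> by_cases Even (rk g) <;> by_cases SqSpin g <;> simp [*]

theorem exists_sq_iff (h2 : (2 : F) ≠ 0) (t : Prop) : ∃ c : F, c ≠ 0 ∧ (IsSquare c ↔ t) := by
  obtain ⟨ν, hν⟩ := FiniteField.exists_nonsquare (F := F) fun e => h2 (by
    exact_mod_cast (ringChar.spec F 2).2 e.dvd)
  by_cases h : t
  · exact ⟨1, one_ne_zero, by simp [h]⟩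
  · exact ⟨ν, by rintro rfl; simp at hν, by simp [h, hν]⟩

omit [Fintype F] in
theorem rk_negOne (h2 : (2 : F) ≠ 0) (Q : QuadraticForm F V) : rk (negOne Q) = finrank F V := by
  rw [← rk_add_finrank_fix (negOne Q), left_eq_add, Submodule.finrank_eq_zero, eq_bot_iff]
  exact fun x hx => fpf_neg h2 x (by simpa using mem_fix.1 hx)

theorem sqSpin_neg (hQ : ND Q) (h2 : (2 : F) ≠ 0) (h : IsSquare (2 : F)) {ι : Type*} [Fintype ι]
    [DecidableEq ι] (c : Basis ι F V) : SqSpin (negOne Q) ↔ IsSquare (gram Q c).det := by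
  obtain ⟨b, b1, b2⟩ := hQ.exists_orth_basis h2
  rw [isSquare_det_gram_iff' b c, det_gram_orth b b1, negOne_eq_prod b b1 b2,
    hQ.sqSpin_list _ (by simpa [List.mem_ofFn] using b2), List.map_ofFn, List.prod_ofFn,
    Orth.isSquare_mul_iff (pow_ne_zero _ h2) (Finset.prod_ne_zero_iff.2 fun i _ => b2 i)]
  simp [h.pow]

theorem neg_mem (H : OTr Q P τ) (hk : finrank F K = 2) (hε : Eps τ ε) {ι : Type*} [Fintype ι]
    [DecidableEq ι] (c : Basis ι K V) : negOne Q ∈ commutator (OG Q) ↔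
      (IsSquare (gram P c).det ↔ Even (finrank K V) ∨ IsSquare ε) := by
  rw [← sqSpin_neg H.ndK H.twoK (map_ofNat (algebraMap F K) 2 ▸ sq_alg H.two hk 2), ← rk_negOne H.twoK P,
    ← res_mem H hk hε]
  rfl

theorem type_even (H : OTr Q P τ) (hk : finrank F K = 2) (he : Even (finrank K V)) :
    IsPlus Q ↔ IsPlus P := by
  obtain ⟨ε, hε⟩ := exists_eps H.two H.ne hk
  obtain ⟨m, hm⟩ := odd_card H.two
  have a1 := res_mem H hk hε (negOne P)
  have a2 := H.ndK.mem_commutator_iff H.good (negOne P)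
  have hn := finrank_mul_finrank F K V
  rw [rk_negOne H.twoK] at a1 a2
  rw [negOne_iff H.twoK H.ndK] at a2
  rw [show H.res (negOne P) = negOne Q from rfl, negOne_iff H.two H.nd, ← hn, hk] at a1
  have a3 : ∀ k, r2 (Fintype.card K) k := fun k => Or.inr (by
    rw [card_ext (F := F), hk, hm, show (2 * m + 1) ^ 2 = 1 + 4 * (m * (m + 1)) by ring]; omega)
  obtain ⟨e, he'⟩ := he.two_dvd
  simp only [he, a3, true_or, true_and, iff_true, exists_and_right] at a1 a2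
  refine ⟨fun h => (a2.2 (a1.1 ⟨_, rfl, iff_of_true h (Or.inl he)⟩)).2, fun h => ?_⟩
  obtain ⟨k, b1, b2⟩ := a1.2 (a2.1 ⟨⟨e, he'⟩, h⟩)
  exact b2.2 (Or.inl (Nat.eq_of_mul_eq_mul_left two_pos b1 ▸ he))

theorem co_of (H : OTr Q P τ) (hk : finrank F K = 2) (hd : 2 ≤ finrank K V) (h : TrQ Q g Q f)
    (hy : Sm K g) {w : V} (hw : Q w ≠ 0)
    (hρ : Sm K (subRep _ (refl Q w) * g * subRep _ (refl Q w))) : CO (Sm K) Q f := by
  obtain ⟨ε, hε⟩ := exists_eps H.two H.ne hk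
  have hg := good_of_two_ne_zero (V := V) H.two
  obtain ⟨e, he⟩ := h
  obtain ⟨x, hx⟩ : ∃ x : OG Q, subRep _ x⁻¹ * f * subRep _ x = g :=
    ⟨⟨e.toLinearEquiv, e.map_app⟩, LinearMap.ext fun v => e.toLinearEquiv.symm_apply_eq.2 (he v).symm⟩
  obtain ⟨y, y1, y2⟩ : ∃ y : OG Q, Even (rk y) ∧ Sm K (subRep _ y⁻¹ * f * subRep _ y) := by
    by_cases h : Even (rk x)
    · exact ⟨x, h, hx ▸ hy⟩
    · refine ⟨x * refl Q w, by rw [H.nd.even_rk_mul hg, rk_refl' H.nd hw]; simpa using h, ?_⟩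
      simpa only [← hx, mul_inv_rev, map_mul, refl_inv, mul_assoc] using hρ
  by_cases h : SqSpin y
  · exact ⟨y, (H.nd.mem_commutator_iff hg y).2 ⟨y1, h⟩, y2⟩
  obtain ⟨c, c1, c2⟩ := exists_sq_iff H.twoK (¬ IsSquare ε)
  obtain ⟨v, rfl⟩ := H.ndK.exists_Q_eq hd c
  have a1 := res_refl_mem H hk hε c1
  rw [H.nd.mem_commutator_iff hg, rk_res H hk, Orth.isSquare_mul_iff c1 hε.1, c2] at a1
  refine ⟨y * H.res (refl P v), ?_, ?_⟩
  · rw [H.nd.mem_commutator_iff hg, H.nd.even_rk_mul hg, H.nd.sqSpin_mul hg, rk_res H hk]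
    simpa [y1, h] using a1
  · simpa only [mul_inv_rev, map_mul, ← map_inv, mul_assoc] using
      ((sm_sub H (refl P v)⁻¹).mul y2).mul (sm_sub H (refl P v))

theorem trQ_invs (h2 : (2 : F) ≠ 0) (hQ : ND Q) (hn : Even (finrank F V)) (hf : Om Q f)
    (hg : Om Q g) (h : f ^ 2 = 1) (h' : g ^ 2 = 1) (e : finrank F (Mo f) = finrank F (Mo g)) :
    TrQ Q f Q g := by
  obtain ⟨k, a1, a2⟩ := (om_inv_iff h2 hQ hf.iq h).1 hf
  obtain ⟨l, b1, b2⟩ := (om_inv_iff h2 hQ hg.iq h').1 hg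
  obtain rfl : k = l := by omega
  have a3 := finrank_Fx_add f
  have b3 := finrank_Fx_add g
  have a4 := nd_Fx (N := 2) hQ hf.iq h2 h
  have b4 := nd_Fx (N := 2) hQ hg.iq h2 h'
  have a5 := nd_Mo (N := 2) hQ hf.iq h2 h
  have b5 := nd_Mo (N := 2) hQ hg.iq h2 h'
  have a6 : Even (finrank F (Fx f)) := by rw [Nat.even_iff] at *; omega
  have a7 : Even (finrank F (Mo f)) := by simp [a1]
  have c : finrank F (Fx f) = finrank F (Fx g) := by omega
  have a8 := plus_iso_iff a4 a5 (trQ_inv h2 hf.iq h).choose a6 a7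
  have b8 := plus_iso_iff b4 b5 (trQ_inv h2 hg.iq h').choose (c ▸ a6) (e ▸ a7)
  obtain ⟨e₁⟩ := a4.iso_of_isPlus_iff b4 c a6 (by tauto)
  obtain ⟨e₂⟩ := a5.iso_of_isPlus_iff b5 e a7 (a2.trans b2.symm)
  refine (trQ_inv h2 hf.iq h).symm.trans (TrQ.trans ⟨e₁.prod e₂, fun v => ?_⟩ (trQ_inv h2 hg.iq h'))
  exact Prod.ext rfl (map_smul e₂ (-1 : F) v.2)

theorem co_inv (H : OTr Q P τ) (hk : finrank F K = 2) (hf : Om Q f) (h : f ^ 2 = 1)
    (h' : ∀ a : F, f ≠ a • 1) : CO (Sm K) Q f := by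
  obtain ⟨ε, hε⟩ := exists_eps H.two H.ne hk
  obtain ⟨k, a1, -⟩ := (om_inv_iff H.two H.nd hf.iq h).1 hf
  have a2 := dims_of_inv h h'
  have a3 := finrank_Fx_add f
  have hn := finrank_mul_finrank F K V
  rw [hk] at hn
  obtain ⟨k, rfl⟩ := Nat.exists_eq_succ_of_ne_zero (show k ≠ 0 by omega)
  obtain ⟨c, c1, c2⟩ := exists_sq_iff H.twoK (Even (k + 1) ∨ IsSquare ε)
  have h3 : ND (weightedSumSquares K (Fin.cons c 1 : Fin (k + 1) → K)) :=
    nd_wss H.twoK (Fin.cases (by simpa) (by simp))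
  obtain ⟨P₁, -, ⟨e⟩⟩ := exists_cpl (k := finrank K V - (k + 1)) H.ndK h3 (by simp; omega)
    (by omega)
  have h2 : IsSquare (2 : K) := map_ofNat (algebraMap F K) 2 ▸ sq_alg H.two hk 2
  obtain ⟨y, y1, y2, y3⟩ : ∃ y : OG P, y ^ 2 = 1 ∧ rk y = k + 1 ∧ H.res y ∈ commutator (OG Q) := by
    have : rk (sumHom e (negOne _, 1)) = k + 1 := by simp [rk_sumHom, rk_negOne H.twoK]
    refine ⟨sumHom e (negOne _, 1), by
      rw [← map_pow, ← map_one (sumHom e)]; congr 1; ext <;> simp [pow_two], this, ?_⟩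
    rw [res_mem H hk hε, this, sqSpin_sumHom_left _ H.ndK h3 (good_of_two_ne_zero H.twoK),
      sqSpin_neg h3 H.twoK h2 (Pi.basisFun _ _), det_gram_wss, Fin.prod_univ_succ,
      Orth.isSquare_mul_iff (pow_ne_zero _ H.twoK) (by simpa)]
    simpa [h2.pow] using c2
  have b1 : subRep _ (H.res y) ^ 2 = 1 := by rw [← map_pow, ← map_pow, y1, map_one, map_one]
  have b2 : finrank F (Mo (subRep _ (H.res y))) = 2 * (k + 1) := y2 ▸ rk_res H hk y
  have b3 := (om_iff _).2 y3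
  haveI : Nontrivial (Mo (subRep _ (H.res y))) := Module.nontrivial_of_finrank_pos (R := F) (by omega)
  obtain ⟨w, hw⟩ := (nd_Mo (N := 2) H.nd b3.iq H.two b1).exists_nonsingular
  have b4 : (H.res y).1 w = -w :=
    (congrArg Subtype.val (LinearMap.congr_fun (res_Mo_sq b1) w)).trans (by simp)
  refine co_of H hk (by omega) (trQ_invs H.two H.nd (hn ▸ even_two_mul _) b3 hf b1 h (by omega))
    (sm_sub H y) (w := w) hw ?_
  have := refl_conj (H.res y) w
  rw [b4, refl_neg, mul_inv_eq_iff_eq_mul] at this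
  rw [← map_mul, ← map_mul, ← this, mul_assoc, refl_mul_self, mul_one]
  exact sm_sub H y

omit [Fintype F] [Fintype K] [FiniteDimensional F V] [FiniteDimensional K V] in
theorem exists_y (H : OTr Q P τ) {ι : Type*} [Fintype ι] (b : Basis ι K V)
    (hb : ∀ i j, i ≠ j → polar P (b i) (b j) = 0) {c μ ν : K} (hc : ∀ i, P (b i) = c)
    {σ : K →+* K} (h1 : ∀ a, σ (algebraMap F K a) = algebraMap F K a) (h2 : ∀ a, σ (σ a) = a)
    (hμ : σ μ * μ = -1) (hν : ∀ y, τ (ν * σ y) = τ y) (h : μ ^ 2 * c = ν * σ c) :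
    ∃ y : End F V, IQ Q y ∧ y ^ 2 = (-1 : F) • 1 ∧ (∀ (k : K) v, y (k • v) = σ k • y v) ∧
      ∀ i, y (b i) = μ • b i := by
  obtain ⟨g, c3, c4⟩ := exists_semi b (fun i => μ • b i) σ h1
  refine ⟨g, fun x => mul_left_cancel₀ H.two ?_,
    semi_sq b c3 h2 fun i => by simp [c3, c4, smul_smul, hμ], c3, c4⟩
  have := semi_form (σ := RingHom.id K) (h := P.polarBilin) b c3 (fun _ => rfl) (μ := ν)
    (fun i j => by
      simp only [c4, polarBilin_apply_apply, p_smul_left, p_smul_right]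
      by_cases e : i = j
      · rw [e, p_self, hc, map_mul, map_ofNat]; linear_combination 2 * h
      · simp [hb i j e]) x x
  rw [← p_self, ← p_self, H.pol, H.pol]
  exact (congrArg τ this).trans (hν _)

theorem refl_pair (H : OTr Q P τ) (hk : finrank F K = 2) {v u w : V} (hv : P v ≠ 0)
    (hu : Q u ≠ 0) (hw : Q w ≠ 0) (h : polar Q u w = 0) (a : ∃ k : K, k • v = u)
    (b : ∃ k : K, k • v = w) : refl Q u * refl Q w = H.res (refl P v) := by
  set T := H.res (refl P v)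
  have h1 : Submodule.span F {u, w} = mov T := by
    refine Submodule.eq_of_le_of_finrank_eq (Submodule.span_le.2 (Set.pair_subset
      ((mem_Mo_refl H hv _).2 a) ((mem_Mo_refl H hv _).2 b))) ?_
    rw [finrank_span_pair_eq (linearIndependent_pair_of_notMem (fun e => hu (by simp [e])) fun e => by
      obtain ⟨x, rfl⟩ := Submodule.mem_span_singleton.1 e
      simp [H.two, hu] at h
      simp [h] at hw)]
    exact ((rk_res H hk _).trans (by rw [rk_refl' H.ndK hv])).symm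
  have h2 : ∀ x, T.1 (T.1 x) = x := fun x => by
    rw [← OG.mul_apply, ← map_mul, refl_mul_self, map_one, OG.one_apply]
  refine OG.ext fun x => smul_right_injective V H.two ?_
  obtain ⟨s, t, h3⟩ := Submodule.mem_span_pair.1 (h1 ▸ sub_mem_mov T x)
  have h4 : T.1 x + x ∈ perp Q (Submodule.span F {u, w}) := by
    rw [h1, H.nd.perp_mov, mem_fix, map_add, h2, add_comm]
  rw [mem_perp_pair] at h4
  have h5 : (refl Q u * refl Q w).1 (T.1 x - x) = -(T.1 x - x) := by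
    rw [← h3]
    simp [refl_apply_self, hu, hw, refl_apply_of_orth h, refl_apply_of_orth (polar_comm Q u w ▸ h),
      add_comm]
  have h6 : (refl Q u * refl Q w).1 (T.1 x + x) = T.1 x + x := by
    rw [OG.mul_apply, refl_apply_of_orth h4.2, refl_apply_of_orth h4.1]
  rw [map_sub] at h5
  rw [map_add] at h6
  simp only [two_smul]
  linear_combination (norm := module) h6 - h5

theorem co_four (H : OTr Q P τ) (hk : finrank F K = 2) (hd : 2 ≤ finrank K V) (hf : IQ Q f)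
    (h : f ^ 2 = (-1 : F) • 1) : CO (Sm K) Q f := by
  obtain ⟨ε, hε⟩ := exists_eps H.two H.ne hk
  have hK := card_quad hk
  have hI := Herm.inv_frob hK
  obtain ⟨ν, c1, c2⟩ := exists_twist H.ne (frob_alg hK) hI.invol
  obtain ⟨μ, c3⟩ := hI.exists_norm (μ := -1) (by simp)
  have c4 : μ ≠ 0 := by rintro rfl; simp at c3
  obtain ⟨c, c5, c6⟩ := hI.hilbert90 (d := ν / μ ^ 2) (by
    rw [map_div₀, map_pow, div_mul_div_comm, c1, ← mul_pow, c3]; simp)
  have c7 : μ ^ 2 * c = ν * Herm.frob hK c := by rw [c6, ← mul_assoc, mul_div_cancel₀ _ (by simpa), ← c6]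
  have h3 : ND (weightedSumSquares K fun _ : Fin (finrank K V) => c) := nd_wss H.twoK fun _ => c5
  have b1 : ∀ i j, i ≠ j → polar (weightedSumSquares K fun _ : Fin (finrank K V) => c)
      (Pi.basisFun K _ i) (Pi.basisFun K _ j) = 0 := fun i j e => by
    simp [polar_wss, Pi.single_apply, e.symm]
  have b2 : ∀ i, (weightedSumSquares K fun _ : Fin (finrank K V) => c) (Pi.basisFun K _ i) = c :=
    fun i => by simp [weightedSumSquares_apply, Pi.single_apply]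
  have H' : OTr (τ.compQuadraticMap' (weightedSumSquares K fun _ : Fin (finrank K V) => c)) _ τ :=
    ⟨fun _ => rfl, H.ne, h3, H.two⟩
  obtain ⟨y, y1, y2, -⟩ := exists_y H' _ b1 b2 (frob_alg hK) hI.invol c3 c2 c7
  have d1 := (finrank_mul_finrank F K (Fin (finrank K V) → K)).symm
  have d2 := (finrank_mul_finrank F K V).symm
  rw [hk] at d1 d2
  have a1 := (neg_mem H' hk hε (Pi.basisFun _ _)).1 ((negOne_iff H.two H'.nd).2 ⟨_,
    d1, (four_plus H.two H'.nd y1 y2 d1).1⟩)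
  have a2 := (neg_mem H hk hε (finBasis K V)).1 ((negOne_iff H.two H.nd).2 ⟨_,
    d2, (four_plus H.two H.nd hf h d2).1⟩)
  obtain ⟨e⟩ := (h3.iso_iff_disc H.ndK H.twoK (by simp) (Pi.basisFun _ _) (finBasis K V)).2
    ((Orth.isSquare_mul_iff (h3.det_gram_ne_zero _) (H.ndK.det_gram_ne_zero _)).2
      (a1.trans (by simpa using a2.symm)))
  obtain ⟨y, y1, y2, y3, y4⟩ := exists_y H ((Pi.basisFun K _).map e.toLinearEquiv)
    (fun i j x => (iso_polar e _ _).trans (b1 i j x)) (fun i => (e.map_app _).trans (b2 i))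
    (frob_alg hK) hI.invol c3 c2 c7
  set v := (Pi.basisFun K _).map e.toLinearEquiv ⟨0, by omega⟩
  have hv : P v ≠ 0 := ((e.map_app _).trans (b2 _)).trans_ne c5
  haveI : Nontrivial (Mo (subRep _ (H.res (refl P v)))) := Module.nontrivial_of_finrank_pos (R := F)
    ((by rw [rk_refl' H.ndK hv]; decide : 0 < 2 * _).trans_eq (rk_res H hk (refl P v)).symm)
  obtain ⟨⟨w, w1⟩, hw⟩ := (nd_Mo (N := 2) (f := subRep _ (H.res (refl P v))) H.nd
    (fun x => (H.res _).2 x) H.two (by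
      rw [← map_pow, ← map_pow, pow_two, refl_mul_self, map_one, map_one])).exists_nonsingular
  obtain ⟨e', e1, e2⟩ := tr_four H.two (ef_polar H.nd) (ef_polar H.nd) y1.im hf.im y2 h rfl
  refine co_of H hk hd ⟨⟨e', fun x => mul_left_cancel₀ H.two (by
    rw [← p_self, ← p_self]; exact e2 x x)⟩, e1⟩ (fun k => ⟨_, y3 k⟩) (w := w) hw ?_
  obtain ⟨Y, rfl⟩ := exists_og H.nd y1
  obtain ⟨k, rfl⟩ := (mem_Mo_refl H hv _).1 w1
  have := refl_pair H hk hv hw (w := Y.1 (k • v)) (by rwa [OG.map_Q]) (by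
    have := OG.map_polar Y (k • v) (Y.1 (k • v))
    rw [show Y.1 (Y.1 (k • v)) = _ from sq_apply y2 _, polar_neg_right, polar_comm] at this
    exact mul_left_cancel₀ H.two (by linear_combination -this)) ⟨k, rfl⟩
    ⟨_, by rw [mul_smul, ← y4]; exact (y3 k v).symm⟩
  rw [← refl_conj] at this
  rw [← map_mul, ← map_mul, show refl Q (k • v) * Y * refl Q (k • v) = H.res (refl P v) * Y by
    rw [← this]; group, map_mul]
  exact (sm_sub H _).mul fun k => ⟨_, y3 k⟩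

theorem four_dvd (H : OTr Q P τ) (hk : finrank F K = 2) (hr : Odd r) (hf : IQ Q f) (h : f ^ r = 1)
    (h' : CO (Sm K) Q f) : 4 ∣ finrank F (Mo f) := by
  obtain ⟨x, rfl⟩ := exists_og H.nd hf
  obtain ⟨ω, -, h1⟩ := h'
  have h2 : subRep _ (ω⁻¹ * x * ω) ^ r = 1 := by
    rw [← map_pow, ← inv_inv ω, inv_inv ω⁻¹, conj_pow, map_mul, map_mul, map_pow, h, mul_one,
      ← map_mul, mul_inv_cancel, map_one]
  rw [← map_mul, ← map_mul] at h1
  obtain ⟨g, hg⟩ := h1.lin one_ne_zero (by simpa using h2) hr.pos (hk ▸ hr.coprime_two_right)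
  have h3 : Im P.polarBilin g := (im_res_iff (B := Q.polarBilin) (h := P.polarBilin) H.ne H.pol).1
    (hg ▸ IQ.im fun v => (ω⁻¹ * x * ω).2 v)
  have h4 : IQ P g := fun v => mul_left_cancel₀ H.twoK (by rw [← p_self, ← p_self]; exact h3 v v)
  obtain ⟨G, a1, rfl⟩ := om_of_odd H.ndK H.good h4 hr (res_pow_eq_one.1 (hg ▸ h2))
  obtain ⟨k, a2⟩ := ((H.ndK.mem_commutator_iff H.good _).1 a1).1
  have : Sim (subRep _ (ω⁻¹ * x * ω)) (subRep _ x) := ⟨ω.1, fun v => OG.apply_inv_self _ _⟩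
  rw [← Sim.finrank_Mo this, ← hg, finrank_Mo_res, hk]
  exact ⟨k, (congrArg _ a2).trans (by ring)⟩

theorem exists_rk_two {p : ℕ} [Fact p.Prime] [CharP F p] (h2 : (2 : F) ≠ 0) (hQ : ND Q)
    (hn : 4 < finrank F V) : ∃ f, IQ Q f ∧ f ^ p = 1 ∧ finrank F (Mo f) = 2 := by
  obtain ⟨U, a1, a2, -⟩ := (sq_one_iff' hQ 1).2 ⟨by omega, by omega⟩
  obtain ⟨⟨u, hu⟩, h0⟩ := (finrank_pos_iff_exists_ne_zero (R := F) (M := U)).1 (by omega)
  replace h0 : u ≠ 0 := fun e => h0 (Subtype.ext e)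
  obtain ⟨v, b1, -, b2⟩ := hQ.exists_nonsingular_perp_pair (u := u) (v := u) hn
  have h3 : ∀ n : ℕ, eich Q u v ^ n = eich Q u ((n : F) • v) := fun n => by
    induction n with
    | zero => simp
    | succ n ih => rw [pow_succ, ih, eich_mul (a2 u hu) (by simp [b1]) b1, Nat.cast_succ, add_smul,
        one_smul]
  refine ⟨subRep _ (eich Q u v), (eich Q u v).2, by rw [← map_pow, h3]; simp, ?_⟩
  have h4 : Q (v - Q v • u) ≠ 0 := by rwa [q_sub_smul_eich (a2 u hu) b1]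
  rw [eich_eq_refl_mul_refl (a2 u hu) b1 b2]
  refine (hQ.rk_refl_mul_of_notMem b2 _ fun e => ?_).trans (by rw [rk_refl' hQ h4])
  obtain ⟨c, hc⟩ := Submodule.mem_span_singleton.1 (mov_refl_le _ e)
  have h5 : (c - 1) • v = (c * Q v) • u := by
    rw [sub_smul, one_smul, mul_smul, sub_eq_iff_eq_add, ← sub_eq_iff_eq_add', ← smul_sub, hc]
  have h6 := congrArg Q h5
  rw [q_smul, q_smul, a2 u hu, mul_zero, mul_eq_zero, or_iff_left b2, sq_eq_zero_iff,
    sub_eq_zero] at h6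
  rw [h6, sub_self, zero_smul, one_mul] at h5
  exact smul_ne_zero b2 h0 h5.symm

theorem exists_Mo_O (hr : r.Prime) (h2 : r ≠ 2) (h0 : (r : F) ≠ 0) (hQ : ND Q) {e s : ℕ}
    (a2 : e + cc (orderOf (Fintype.card F : ZMod r)) * s = finrank F V)
    (a4 : e = 0 → (IsPlus Q ↔ rho (orderOf (Fintype.card F : ZMod r)) s)) :
    ∃ f, IQ Q f ∧ f ^ r = 1 ∧ e + finrank F (Mo f) = finrank F V := by
  obtain ⟨w, hw⟩ := exists_adm (one_le_t hr h0) s
  obtain ⟨f, b1, b2, b3⟩ := exists_os hr h2 h0 hQ rfl a2 a4 hw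
  exact ⟨f, b1, b2, b3.2.1 ▸ finrank_Fx_add f⟩

theorem forall_om_ext (H : OTr Q P τ) {p : ℕ} [Fact p.Prime] [CharP F p] [hr : Fact r.Prime]
    (hk : finrank F K = 2) (hd : finrank F V = 2 * d) (h3 : 3 ≤ d) {X : ℕ}
    (hX : X * Nat.card (commutator (OG P)) ∣ Nat.card (commutator (OG Q))) (h : r ∣ X) :
    (∀ f (c : F), Om Q f → f ^ r = c • 1 → (∀ a : F, f ≠ a • 1) → CO (Sm K) Q f) ↔ r = 2 := by
  have hn := finrank_mul_finrank F K V
  haveI : Nontrivial V := Module.nontrivial_of_finrank_pos (R := F) (by omega)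
  rw [hk, hd] at hn
  replace hn : finrank K V = d := by omega
  by_cases h4 : r = 2
  · subst h4
    refine iff_of_true (fun f c a1 a2 a3 => ?_) rfl
    rcases a1.iq.im.pm (ef_polar H.nd) a2 with rfl | rfl
    · exact co_inv H hk a1 (by simpa using a2) a3
    · exact co_four H hk (by omega) a1.iq a2
  refine iff_of_false (fun x => ?_) h4
  have ho := hr.out.odd_of_ne_two h4
  rw [forall_om_odd H.nd (good_of_two_ne_zero H.two) ho (CO (Sm K) Q) fun f ⟨ω, a, b⟩ =>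
    ⟨ω, a, by simpa only [mul_smul_comm, smul_mul_assoc] using b.smul (-1)⟩] at x
  suffices ∃ f, IQ Q f ∧ f ^ r = 1 ∧ finrank F (Mo f) % 4 = 2 by
    obtain ⟨f, a, b, c⟩ := this
    have := four_dvd H hk ho a b (x f a b (ne_one_of_Mo (by omega)))
    omega
  by_cases hp : r = p
  · subst hp
    obtain ⟨f, a, b, c⟩ := exists_rk_two (p := r) H.two H.nd (by omega)
    exact ⟨f, a, b, by omega⟩
  have r0 : (r : F) ≠ 0 := natCast_ne_zero_of_ne hr.out hp
  have hq : 1 < Fintype.card F := Fintype.one_lt_card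
  have a1 := Int.natCast_dvd_natCast.2 (Nat.mul_dvd_mul_right hX 4)
  rw [mul_assoc, ← H.ndK.index_commutator_odd H.twoK (by omega), Subgroup.card_mul_index,
    H.ndK.index_commutator_odd H.twoK (by omega), ← H.nd.index_commutator_odd H.two (by omega),
    Subgroup.card_mul_index, Nat.cast_mul, card_OG_T H.ndK (by omega), card_OG_T H.nd (by omega),
    card_ext (F := F), oP_pow, hk, hn, hd] at a1
  obtain ⟨T, t1, t2⟩ : ∃ T : ℤ, (X : ℤ) * (1 * ∏ j ∈ Finset.range ((d - 1) / 2),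
      ((Fintype.card F : ℤ) ^ (2 * (2 * (j + 1))) - 1)) ∣ (2 * Fintype.card F ^ oA (2 * d) * T) *
      oP (Fintype.card F) ((2 * d - 1) / 2) ∧
      ((r : ℤ) ∣ T → Odd d ∧ (r : ℤ) ∣ oT (Fintype.card F) (2 * d) (IsPlus Q)) := by
    rcases Nat.even_or_odd d with he | he
    · have e : oT (Fintype.card F ^ 2) d (IsPlus P) = oT (Fintype.card F) (2 * d) (IsPlus Q) := by
        simp only [oT, he, type_even H hk (hn ▸ he), even_two_mul, if_true, Nat.cast_pow, ← pow_mul]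
        rw [Nat.two_mul_div_two_of_even he, Nat.mul_div_cancel_left _ two_pos]
      have e' : oT (Fintype.card F) (2 * d) (IsPlus Q) ≠ 0 := by
        have : (1 : ℤ) < Fintype.card F ^ (2 * d / 2) := by
          exact_mod_cast Nat.one_lt_pow (by omega) hq
        rw [oT, if_pos (even_two_mul d)]
        split_ifs <;> omega
      refine ⟨1, Int.dvd_of_mul_dvd_mul_right e' (Dvd.dvd.trans ⟨2 * ((Fintype.card F ^ 2 : ℕ) : ℤ) ^ oA d, ?_⟩ (a1.trans
        (dvd_of_eq (by ring)))), fun y => absurd (Int.natCast_dvd_natCast.1 y) hr.out.not_dvd_one⟩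
      rw [e]; ring
    · exact ⟨_, Dvd.dvd.trans ⟨2 * ((Fintype.card F ^ 2 : ℕ) : ℤ) ^ oA d * oT _ d (IsPlus P), by ring⟩ a1, fun y => ⟨he, y⟩⟩
  obtain a2 | ⟨j, a2, a3, a4, a5⟩ := exists_not_dvd
    (g := fun j => (Fintype.card F : ℤ) ^ (2 * j) - 1) (fun j => sub_ne_zero.2 (by
      exact_mod_cast (Nat.one_lt_pow (by omega) hq).ne')) two_pos (a := (d - 1) / 2)
      (N := (2 * d - 1) / 2) (by omega) (by omega) hr.out (Int.natCast_dvd_natCast.2 h) t1
  · have hr' := Nat.prime_iff_prime_int.1 hr.out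
    obtain ⟨b1, b2⟩ := t2 ((hr'.dvd_or_dvd a2).resolve_left fun y => (hr'.dvd_or_dvd y).elim
      (fun y => h4 ((Nat.prime_dvd_prime_iff_eq hr.out Nat.prime_two).1 (by exact_mod_cast y)))
      fun y => not_dvd_pow_card hp _ (by exact_mod_cast y))
    obtain ⟨s, c1, c2⟩ := oT_hit hr.out (by have := hr.out.two_le; omega) rfl (ord_pos r0 hr.out) b2
    obtain ⟨f, a, b, c⟩ := exists_Mo_O hr.out h4 r0 H.nd (e := 0) (by omega) fun _ => c2
    exact ⟨f, a, b, by rw [Nat.odd_iff] at b1; omega⟩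
  obtain ⟨s, a6⟩ : cc (orderOf (Fintype.card F : ZMod r)) ∣ 2 * j := cc_dvd (by
    rw [orderOf_dvd_iff_pow_eq_one, ← sub_eq_zero]
    simpa using (ZMod.intCast_zmod_eq_zero_iff_dvd _ r).2 a5)
  obtain ⟨f, a, b, c⟩ := exists_Mo_O hr.out h4 r0 H.nd (e := 2 * (d - j)) (s := s) (by omega)
    (by omega)
  exact ⟨f, a, b, by omega⟩

theorem forall_omegaGL_ext {ι : Type} [Fintype ι] [DecidableEq ι] {Q : QuadraticForm F (ι → F)}
    (hQ : ND Q) (h2 : (2 : F) ≠ 0) {p : ℕ} [Fact p.Prime] [CharP F p] [Fact r.Prime]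
    (hd : Fintype.card ι = 2 * d) (h3 : 3 ≤ d) {A : Subalgebra F (Matrix ι ι F)}
    (hK : Geo.IsFieldSubalgebra 2 A) (hs : Geo.IsSelfAdjointFor (polar Q) A)
    (h : r ∣ (Geo.subalgebraNormalizer A).relIndex (Geo.omegaGL ⇑Q)) :
    (∀ x ∈ Geo.omegaGL ⇑Q, (∃ z : F, (x ^ r).1 = z • (1 : Matrix _ _ F)) →
      (∀ z : F, x.1 ≠ z • (1 : Matrix _ _ F)) →
      ∃ g ∈ Geo.omegaGL ⇑Q, g⁻¹ * x * g ∈ Geo.subalgebraNormalizer A) ↔ r = 2 := by
  have : Nonempty ι := Fintype.card_pos_iff.1 (by omega)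
  let := (Asch.isField_of hK.comm hK.inv).toField
  have : FiniteDimensional A (ι → F) := Module.Finite.of_restrictScalars_finite F A _
  have : Finite A := Module.finite_of_finite F
  have := Fintype.ofFinite A
  obtain ⟨P, τ, H⟩ := exists_oTr (K := A) hQ h2 fun k => hs k.1 k.2
  rw [forall_omegaGL_iff (S := Sm A) mem_normalizer_iff]
  exact forall_om_ext (p := p) (d := d) H hK.finrank_eq (by simpa) h3
    (relIndex_om (S := Sm A) mem_normalizer_iff H.res (res_inj H) (sm_sub H)) h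

end Cfsg.Agent.Elu
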