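import Mathlib
import Cfsg.Agent.Asch.Extra
import Cfsg.Agent.Conj.SsEx
import Cfsg.Agent.Conj.SsU
import Cfsg.Agent.Classical.SpMat

/-!
Normalizers of absolutely irreducible groups of symplectic type: general tools.
-/

set_option autoImplicit false
set_option backward.isDefEq.respectTransparency false

namespace Cfsg.Agent.Nor

open Matrix Subgroup Conj Asch Cfsg.Geo
open scoped MatrixGroups _root_.Classical

theorem card_fix {G : Type*} [Group G] [Finite G] {H : Subgroup G} {x : G} {r : ℕ} [Fact r.Prime]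
    (hx : ∀ h ∈ H, x * h * x⁻¹ ∈ H) (hr : ∀ h, x ^ r * h = h * x ^ r) :
    Nat.card H ≡ Nat.card (H ⊓ centralizer {x} : Subgroup G) [MOD r] := by
  have := Fintype.ofFinite H
  let f : Function.End H := fun h => ⟨x * h * x⁻¹, hx _ h.2⟩
  have h1 : ∀ (k : ℕ) (h : H), ((f ^ k) h : G) = x ^ k * h * (x ^ k)⁻¹ := fun k h => by
    induction k with
    | zero => simp [Function.End.one_def]
    | succ k ih =>
      rw [pow_succ', Function.End.mul_def, Function.comp_apply]
      change x * ((f ^ k) h : G) * x⁻¹ = _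
      rw [ih, pow_succ']; group
  have h2 : f ^ r ^ 1 = 1 := funext fun h => Subtype.ext (by
    rw [pow_one, h1, hr, mul_inv_cancel_right]; rfl)
  have h3 := Equiv.Perm.card_fixedPoints_modEq h2
  rw [← Nat.card_eq_fintype_card, ← Nat.card_eq_fintype_card] at h3
  refine h3.trans ?_
  rw [Nat.card_congr (β := (H ⊓ centralizer {x} : Subgroup G))
    ⟨fun a => ⟨a.1.1, a.1.2, mem_centralizer_singleton_iff.2
      (mul_inv_eq_iff_eq_mul.1 (congrArg Subtype.val a.2)).symm⟩,
    fun a => ⟨⟨a.1, a.2.1⟩, Subtype.ext (mul_inv_eq_iff_eq_mul.2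
      (mem_centralizer_singleton_iff.1 a.2.2).symm)⟩, fun _ => rfl, fun _ => rfl⟩]

theorem mem_norm {G : Type*} [Group G] [Finite G] {R : Subgroup G} {y : G}
    (h : ∀ a ∈ R, y * a * y⁻¹ ∈ R) : y ∈ normalizer (R : Set G) :=
  mem_normalizer_fintype h

theorem conj_mem {G : Type*} [Group G] {R : Subgroup G} {y : G} (h : y ∈ normalizer (R : Set G))
    {a : G} (ha : a ∈ R) : y * a * y⁻¹ ∈ R := (mem_normalizer_iff.1 h a).1 ha

variable {ι : Type} [Fintype ι] [DecidableEq ι] {F : Type*} [Field F] {R : Subgroup (GL ι F)}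
  {x y : GL ι F} {r : ℕ}

/-- Schur's property -/
def Sch (R : Subgroup (GL ι F)) : Prop :=
  ∀ M : Matrix ι ι F, (∀ g ∈ R, M * g.1 = g.1 * M) → ∃ c : F, M = c • 1

theorem Sch.of (h : ActsAbsolutelyIrreducibly (matrixSet R)) : Sch R :=
  fun M hM => h.2 M fun _ ⟨g, hg, e⟩ => e ▸ hM g hg

theorem Sch.gl (h : Sch R) (hx : ∀ g ∈ R, x * g = g * x) : ∃ c : F, x.1 = c • 1 :=
  h _ fun g hg => congrArg Units.val (hx g hg)

theorem comm_of_smul {c : F} (h : x.1 = c • 1) (g : GL ι F) : x * g = g * x :=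
  Units.ext (by simp [h])

theorem smul_mem_norm {c : F} (h : x.1 = c • 1) : x ∈ normalizer (R : Set (GL ι F)) :=
  mem_normalizer_iff.2 fun a => by rw [comm_of_smul h, mul_inv_cancel_right]

theorem trace_conj (g : GL ι F) (M : Matrix ι ι F) : (g.1 * M * (g⁻¹).1).trace = M.trace :=
  trace_cj g M

theorem tr_formula [Finite R] (hS : Sch R) (x : GL ι F)
    (hx : ∀ g ∈ R, x * g = g * x ∨ (x * g * x⁻¹ * g⁻¹).1.trace = 0) :
    (Fintype.card ι : F) ^ 2 * Nat.card (R ⊓ centralizer {x} : Subgroup _) =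
      Nat.card R * (x.1.trace * (x⁻¹).1.trace) := by
  have := Fintype.ofFinite R
  obtain ⟨c, hc⟩ := hS (∑ g : R, g.1.1 * (x⁻¹).1 * (g.1⁻¹).1) fun h hh => by
    rw [Finset.sum_mul, Finset.mul_sum, ← Equiv.sum_comp (Equiv.mulLeft (⟨h, hh⟩ : R))]
    refine Finset.sum_congr rfl fun g _ => ?_
    simp [mul_assoc]
  have h1 := congrArg trace hc
  have h2 := congrArg (fun M => trace (x.1 * M)) hc
  simp only [trace_sum, trace_conj, Finset.sum_const, Finset.card_univ, nsmul_eq_mul, trace_smul,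
    trace_one, smul_eq_mul, Finset.mul_sum, Matrix.mul_smul, mul_one] at h1 h2
  have h3 : ∀ g : R, (x.1 * (g.1.1 * (x⁻¹).1 * (g.1⁻¹).1)).trace =
      if x * g = g * x then (Fintype.card ι : F) else 0 := fun g => by
    have e : x.1 * (g.1.1 * (x⁻¹).1 * (g.1⁻¹).1) = (x * g * x⁻¹ * g⁻¹ : GL ι F).1 := by
      simp [mul_assoc]
    rw [e]
    split_ifs with h
    · rw [h]; simp
    · exact (hx g g.2).resolve_left h
  simp only [h3, ← Finset.sum_filter, Finset.sum_const, nsmul_eq_mul] at h2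
  have h4 : Nat.card (R ⊓ centralizer {x} : Subgroup _) =
      (Finset.univ.filter fun g : R => x * g = g * x).card := by
    rw [← Fintype.card_subtype, ← Nat.card_eq_fintype_card]
    exact Nat.card_congr ⟨fun a => ⟨⟨a.1, a.2.1⟩, (mem_centralizer_singleton_iff.1 a.2.2).symm⟩,
      fun a => ⟨a.1.1, a.1.2, mem_centralizer_singleton_iff.2 a.2.symm⟩, fun _ => rfl, fun _ => rfl⟩
  rw [h4, Nat.card_eq_fintype_card]
  linear_combination (Fintype.card ι : F) * h2 - x.1.trace * h1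

theorem tr_anti (h2 : (2 : F) ≠ 0) (a : GL ι F) {M : Matrix ι ι F} (h : a.1 * M = -(M * a.1)) :
    M.trace = 0 := by
  have := trace_conj a M
  rw [h, neg_mul, mul_assoc, Units.mul_inv, mul_one, trace_neg] at this
  exact (mul_eq_zero.1 (by linear_combination -this)).resolve_left h2

/-- the elusiveness statement -/
def Els (T H : Subgroup (GL ι F)) (r : ℕ) : Prop :=
  ∀ x ∈ T, (∃ z : F, (x ^ r).1 = z • (1 : Matrix ι ι F)) → (∀ z : F, x.1 ≠ z • (1 : Matrix ι ι F)) →
    ∃ g ∈ T, g⁻¹ * x * g ∈ H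

theorem conj_smul {z : F} (h : x.1 = z • (1 : Matrix ι ι F)) (g : GL ι F) : g⁻¹ * x * g = x := by
  rw [mul_assoc, comm_of_smul h, inv_mul_cancel_left]

theorem ns_conj (h : ∀ z : F, x.1 ≠ z • (1 : Matrix ι ι F)) (g : GL ι F) (z : F) :
    (g⁻¹ * x * g).1 ≠ z • (1 : Matrix ι ι F) := fun e => h z (by
  have := conj_smul e g⁻¹
  rw [← e, ← this]; congr 1; group)

theorem conj_pow' (g : GL ι F) (k : ℕ) : (g⁻¹ * x * g) ^ k = g⁻¹ * x ^ k * g := by
  simpa using conj_pow (a := g⁻¹) (b := x) (i := k)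

theorem pow_det {z : F} (hd : x.1.det = 1) (h : (x ^ r).1 = z • (1 : Matrix ι ι F)) :
    z ^ Fintype.card ι = 1 := by
  have := congrArg det h
  rw [Units.val_pow_eq_pow_val, det_pow, hd, one_pow, det_smul, det_one, mul_one] at this
  exact this.symm

theorem pow_smul' {z : F} (h : x.1 = z • (1 : Matrix ι ι F)) (k : ℕ) :
    (x ^ k).1 = z ^ k • (1 : Matrix ι ι F) := by
  rw [Units.val_pow_eq_pow_val, h, smul_pow, one_pow]

theorem smul_inj (hn : Fintype.card ι ≠ 0) {a b : F} (h : a • (1 : Matrix ι ι F) = b • 1) : a = b := by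
  obtain ⟨i⟩ := Fintype.card_pos_iff.1 (Nat.pos_of_ne_zero hn)
  simpa using congrFun (congrFun h i) i

theorem smul_ne (hn : Fintype.card ι ≠ 0) {z : F} (h : x.1 = z • (1 : Matrix ι ι F)) : z ≠ 0 := by
  rintro rfl
  have := x.mul_inv
  rw [h, zero_smul, zero_mul] at this
  exact zero_ne_one (smul_inj hn (a := (0 : F)) (b := 1) (by simpa using this))

theorem inv_smul' {z : F} (h : x.1 = z • (1 : Matrix ι ι F)) : (x⁻¹).1 = z⁻¹ • (1 : Matrix ι ι F) := by
  rcases isEmpty_or_nonempty ι with hi | hi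
  · exact Subsingleton.elim _ _
  exact Units.inv_eq_of_mul_eq_one_right (by
    rw [h, smul_mul_smul_comm, mul_inv_cancel₀ (smul_ne Fintype.card_ne_zero h)]; simp)

theorem els_of {T : Subgroup (GL ι F)} (hT : ∀ x ∈ T, x.1.det = 1) (h1 : 1 < r)
    (hr : (Fintype.card ι).Coprime r)
    (h : ∀ x ∈ T, x ^ r = 1 → x ≠ 1 → ∃ g ∈ T, g⁻¹ * x * g ∈ normalizer (R : Set (GL ι F))) :
    Els T (normalizer (R : Set (GL ι F))) r := by
  rintro x hx ⟨z, hz⟩ hs
  obtain ⟨m, -, hm⟩ := Nat.exists_mul_mod_eq_one_of_coprime hr h1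
  have e : x ^ (Fintype.card ι * m) = (x ^ r) ^ (Fintype.card ι * m / r) * x := by
    rw [← pow_mul, ← pow_succ]
    conv_lhs => rw [← Nat.div_add_mod (Fintype.card ι * m) r, hm]
  have h2 := pow_smul' hz (Fintype.card ι * m / r)
  set y := (x ^ r) ^ (Fintype.card ι * m / r)
  obtain ⟨g, hg, hg'⟩ := h _ (T.pow_mem hx (Fintype.card ι * m)) (Units.ext (by
    rw [← pow_mul, mul_comm, pow_mul, pow_smul' hz, pow_mul, pow_det (hT x hx) hz]; simp)) (fun e' => by
      rw [e, mul_eq_one_iff_inv_eq] at e'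
      exact hs _ (e' ▸ inv_smul' h2))
  refine ⟨g, hg, ?_⟩
  rw [e, ← mul_assoc, ← comm_of_smul h2, mul_assoc y, mul_assoc y] at hg'
  exact (mul_mem_cancel_left (smul_mem_norm h2)).1 hg'

theorem exists_ord [Finite F] {T H : Subgroup (GL ι F)} [hr : Fact r.Prime] (hT : ∀ x ∈ T, x.1.det = 1)
    (hc : (Fintype.card ι).Coprime r) (h : r ∣ H.relIndex T) :
    ∃ x ∈ T, x ^ r = 1 ∧ ∀ z : F, x.1 ≠ z • (1 : Matrix ι ι F) := by
  obtain ⟨x, hx⟩ := exists_prime_orderOf_dvd_card' r (h.trans (relIndex_dvd_card H T))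
  have h1 : x.1 ^ r = 1 := by rw [← hx, ← Subgroup.orderOf_coe, pow_orderOf_eq_one]
  refine ⟨x, x.2, h1, fun z hz => ?_⟩
  have h2 := pow_det (r := 1) (hT _ x.2) (by rw [pow_one]; exact hz)
  rcases isEmpty_or_nonempty ι with hi | hi
  · rw [show x = 1 from Subtype.ext (Units.ext (Subsingleton.elim _ _)), orderOf_one] at hx
    exact hr.out.one_lt.ne hx
  have h3 : z ^ r = 1 := by
    have := pow_smul' hz r
    rw [h1] at this
    simpa using congrFun (congrFun this.symm hi.some) hi.some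
  have h4 : z = 1 := (pow_eq_one_iff_of_coprime hc).1 ⟨h2, h3⟩
  rw [show x = 1 from Subtype.ext (Units.ext (by simp [hz, h4])), orderOf_one] at hx
  exact hr.out.one_lt.ne hx

/-! ### Eigenvalues -/

/-- eigenvalues of a matrix -/
noncomputable def E (A : Matrix ι ι F) : Multiset (AlgebraicClosure F) := ev _ (toLin' A)

local notation "𝕃" => AlgebraicClosure F
local notation "𝕚" => algebraMap F (AlgebraicClosure F)

variable {A B : Matrix ι ι F} {N : ℕ} {c : F}

theorem card_E (A : Matrix ι ι F) : (E A).card = Fintype.card ι := by simp [E, card_ev]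

theorem sum_E (A : Matrix ι ι F) : (E A).sum = 𝕚 A.trace := by
  rw [E, ev_toLin', ← trace_eq_sum_roots_charpoly, AddMonoidHom.map_trace]

theorem prod_E (A : Matrix ι ι F) : (E A).prod = 𝕚 A.det := by
  rw [E, prod_ev_eq_det, LinearMap.det_toLin']

theorem lin_pow (h : A ^ N = c • 1) : toLin' A ^ N = algebraMap F _ c := by
  rw [← toLin'_pow, h, map_smul, toLin'_one, Algebra.algebraMap_eq_smul_one]; rfl

theorem pow_E (h : A ^ N = c • 1) {z : 𝕃} (hz : z ∈ E A) : z ^ N = 𝕚 c :=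
  pow_eq_of_mem_ev _ (lin_pow h) hz

theorem sim_E (hN : (N : F) ≠ 0) (hc : c ≠ 0) (hA : A ^ N = c • 1) (hB : B ^ N = c • 1)
    (h : E A = E B) : Sim (toLin' A) (toLin' B) :=
  sim_of_ev _ (squarefree_X_pow_sub_C hN hc) (squarefree_X_pow_sub_C hN hc)
    (by simp [lin_pow hA]) (by simp [lin_pow hB]) h

theorem E_smul_one (a : F) : E (a • (1 : Matrix ι ι F)) = Multiset.replicate (Fintype.card ι) (𝕚 a) := by
  have := lin_pow (A := a • (1 : Matrix ι ι F)) (N := 1) (pow_one _)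
  rw [pow_one] at this
  rw [E, this, ev_scalar]; simp

theorem E_diag (d : ι → F) : E (diagonal d) = Finset.univ.val.map fun i => 𝕚 (d i) := ev_diagonal _ d

theorem E_frob [Fintype F] (A : Matrix ι ι F) : (E A).map (· ^ Fintype.card F) = E A := by
  obtain ⟨ψ, hψ⟩ := exists_frob_hom (F := F) 𝕃
  rw [← funext hψ]
  exact ev_map_self _ _ ψ fun a => by rw [hψ, ← map_pow, FiniteField.pow_card]

theorem scal_of_E [Fintype F] (hN : (N : F) ≠ 0) (hc : c ≠ 0) (hA : A ^ N = c • 1) {z : 𝕃}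
    (h : E A = Multiset.replicate (Fintype.card ι) z) : ∃ a : F, A = a • 1 ∧
      (Fintype.card ι ≠ 0 → 𝕚 a = z) := by
  rcases isEmpty_or_nonempty ι with hi | hi
  · exact ⟨0, Subsingleton.elim _ _, by simp⟩
  have h1 := E_frob A
  have h0 : z ∈ E A := h ▸ Multiset.mem_replicate.2 ⟨Fintype.card_ne_zero, rfl⟩
  rw [h, Multiset.map_replicate, Multiset.replicate_right_inj Fintype.card_ne_zero] at h1
  obtain ⟨a, rfl⟩ := mem_range_of_pow_card _ h1
  have h2 := pow_E hA h0
  rw [← map_pow, (𝕚).injective.eq_iff] at h2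
  obtain ⟨e, he⟩ := sim_E (B := a • 1) hN hc hA (by rw [smul_pow, one_pow, h2]) (h.trans (E_smul_one a).symm)
  refine ⟨a, toLin'.injective (LinearMap.ext fun v => e.injective ?_), fun _ => rfl⟩
  rw [he]; simp

theorem two_part {L : Type*} {a b : L} {M : Multiset L} (h : ∀ z ∈ M, z = a ∨ z = b) :
    ∃ i j, M = Multiset.replicate i a + Multiset.replicate j b := by
  induction M using Multiset.induction_on with
  | empty => exact ⟨0, 0, rfl⟩
  | cons z M ih =>
    obtain ⟨i, j, rfl⟩ := ih fun w hw => h w (Multiset.mem_cons_of_mem hw)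
    rcases h z (Multiset.mem_cons_self _ _) with rfl | rfl
    · exact ⟨i + 1, j, by rw [Multiset.replicate_succ, Multiset.cons_add]⟩
    · exact ⟨i, j + 1, by rw [Multiset.replicate_succ, Multiset.add_cons]⟩

theorem three_part {L : Type*} {a b c : L} {M : Multiset L} (h : ∀ z ∈ M, z = a ∨ z = b ∨ z = c) :
    ∃ i j k, M = Multiset.replicate i a + Multiset.replicate j b + Multiset.replicate k c := by
  induction M using Multiset.induction_on with
  | empty => exact ⟨0, 0, 0, rfl⟩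
  | cons z M ih =>
    obtain ⟨i, j, k, rfl⟩ := ih fun w hw => h w (Multiset.mem_cons_of_mem hw)
    rcases h z (Multiset.mem_cons_self _ _) with rfl | rfl | rfl
    · exact ⟨i + 1, j, k, by rw [Multiset.replicate_succ, Multiset.cons_add, Multiset.cons_add]⟩
    · exact ⟨i, j + 1, k, by rw [Multiset.replicate_succ, Multiset.add_cons, Multiset.cons_add]⟩
    · exact ⟨i, j, k + 1, by rw [Multiset.replicate_succ, Multiset.add_cons]⟩

theorem ne_alg {a : ℕ} (h : (a : F) ≠ 0) : (a : 𝕃) ≠ 0 := by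
  rw [← map_natCast (𝕚)]; exact (_root_.map_ne_zero _).2 h

variable [Fintype F]

theorem E_two (h2 : (2 : F) ≠ 0) (hc : c ≠ 0) (hA : A ^ 2 = c • 1) (hs : ∀ a : F, A ≠ a • 1) {δ : 𝕃}
    (hδ : δ ^ 2 = 𝕚 c) : ∃ i j, i + j = Fintype.card ι ∧ i ≠ 0 ∧ j ≠ 0 ∧
      E A = Multiset.replicate i δ + Multiset.replicate j (-δ) := by
  obtain ⟨i, j, h⟩ := two_part (M := E A) fun z hz => sq_eq_sq_iff_eq_or_eq_neg.1 ((pow_E hA hz).trans hδ.symm)
  have h1 : i + j = Fintype.card ι := by simpa [h] using card_E A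
  refine ⟨i, j, h1, ?_, ?_, h⟩ <;> rintro rfl
  · exact (scal_of_E (N := 2) h2 hc hA (z := -δ) (by simpa [← h1] using h)).elim fun a h => hs a h.1
  · exact (scal_of_E (N := 2) h2 hc hA (z := δ) (by simpa [← h1] using h)).elim fun a h => hs a h.1

theorem cases_two (hn : Fintype.card ι = 4) (h2 : (2 : F) ≠ 0) (hc : c ≠ 0) (hA : A ^ 2 = c • 1)
    (hs : ∀ a : F, A ≠ a • 1) :
    (A.trace = 0 ∧ A.det = c ^ 2) ∨ (A.trace ^ 2 = 4 * c ∧ A.det = -c ^ 2) := by
  obtain ⟨δ, hδ⟩ := IsAlgClosed.exists_pow_nat_eq (𝕚 c) two_pos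
  obtain ⟨i, j, a1, a2, a3, h⟩ := E_two h2 hc hA hs hδ
  have b1 := sum_E A
  have b2 := prod_E A
  simp only [← (𝕚).injective.eq_iff, map_zero, map_pow, map_mul, map_neg, map_ofNat, ← b1, ← b2, ← hδ, h,
    Multiset.sum_add, Multiset.sum_replicate, Multiset.prod_add, Multiset.prod_replicate, nsmul_eq_mul]
  obtain rfl : j = 4 - i := by omega
  have : i ≤ 3 := by omega
  interval_cases i
  · exact absurd rfl a2
  · right; constructor <;> norm_num <;> ring
  · left; constructor <;> norm_num <;> ring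
  · right; constructor <;> norm_num <;> ring

theorem sim_two (hn : Fintype.card ι = 4) (h2 : (2 : F) ≠ 0) (hc : c ≠ 0) (hA : A ^ 2 = c • 1)
    (hs : ∀ a : F, A ≠ a • 1) (hB : B ^ 2 = c • 1) (hs' : ∀ a : F, B ≠ a • 1)
    (ht : A.trace = B.trace) : Sim (toLin' A) (toLin' B) := by
  obtain ⟨δ, hδ⟩ := IsAlgClosed.exists_pow_nat_eq (𝕚 c) two_pos
  obtain ⟨i, j, a1, a2, a3, h⟩ := E_two h2 hc hA hs hδ
  obtain ⟨i', j', a1', a2', a3', h'⟩ := E_two h2 hc hB hs' hδ
  have h0 : δ ≠ 0 := by rintro rfl; exact hc (by simpa using hδ.symm)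
  have b1 := sum_E A
  rw [ht, ← sum_E, h, h'] at b1
  simp only [Multiset.sum_add, Multiset.sum_replicate, nsmul_eq_mul] at b1
  have h3 : (2 : 𝕃) ≠ 0 := ne_alg (a := 2) h2
  have c1 : (i : 𝕃) + j = i' + j' := by rw [← Nat.cast_add, ← Nat.cast_add, a1, a1']
  have c2 : (i : 𝕃) = i' := mul_left_cancel₀ (mul_ne_zero h3 h0) (by linear_combination b1 + δ * c1)
  have c3 : i = i' := by
    have : i ≤ 3 := by omega
    have : i' ≤ 3 := by omega
    have := Nat.pos_of_ne_zero a2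
    have := Nat.pos_of_ne_zero a2'
    interval_cases i <;> interval_cases i' <;> first
      | rfl
      | exact absurd (by push_cast at c2; linear_combination c2) (one_ne_zero (α := 𝕃))
      | exact absurd (by push_cast at c2; linear_combination -c2) (one_ne_zero (α := 𝕃))
      | exact absurd (by push_cast at c2; linear_combination c2) h3
      | exact absurd (by push_cast at c2; linear_combination -c2) h3
  obtain rfl : j = j' := by omega
  exact sim_E (N := 2) h2 hc hA hB (by rw [h, h', c3])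

theorem E_two3 (hn : Fintype.card ι = 3) (h2 : (2 : F) ≠ 0) (hA : A ^ 2 = 1) (h1 : A ≠ 1)
    (hd : A.det = 1) : E A = Multiset.replicate 1 1 + Multiset.replicate 2 (-1) := by
  obtain ⟨i, j, a1, a2, a3, h⟩ := E_two (A := A) h2 one_ne_zero (by simpa) (fun a e => by
    have e1 : a ^ 2 = 1 := smul_inj (ι := ι) (by omega) (by rw [← one_pow 2, ← smul_pow, ← e, hA]; simp)
    rw [e, det_smul, det_one, hn] at hd
    exact h1 (by rw [e, show a = 1 by linear_combination hd - a * e1, one_smul])) (δ := 1) (by simp)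
  have b2 := prod_E A
  rw [h, hd] at b2
  obtain rfl : j = 3 - i := by omega
  have : i ≤ 2 := by omega
  interval_cases i
  · exact absurd rfl a2
  · exact h
  · exact absurd (by simp at b2; linear_combination -b2) (ne_alg (a := 2) h2)

/-- stability of the eigenvalues under squaring -/
def Sq (A : Matrix ι ι F) : Prop := (E A).map (· ^ 2) = E A

omit [Fintype F] in
theorem sq_of (hA : A ^ r = 1) {k j : ℕ} (h : (E A).map (· ^ k) = E A) (hk : k ^ j ≡ 2 [MOD r]) : Sq A := by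
  have h1 : ∀ j : ℕ, (E A).map (· ^ k ^ j) = E A := fun j => by
    induction j with
    | zero => simp
    | succ j ih => conv_rhs => rw [← h, ← ih, Multiset.map_map]
                   simp [pow_succ, pow_mul]
  refine Eq.trans (Multiset.map_congr rfl fun z hz => ?_) (h1 j)
  have := pow_E (c := 1) (by simpa using hA) hz
  rw [map_one] at this
  rw [pow_eq_pow_mod _ this, pow_eq_pow_mod (k ^ j) this, hk]

theorem exists_ne_one (hN : (N : F) ≠ 0) (hA : A ^ N = 1) (h1 : A ≠ 1) : ∃ z ∈ E A, z ≠ 1 := by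
  by_contra! h
  obtain ⟨a, rfl, e⟩ := scal_of_E (c := 1) hN one_ne_zero (by simpa using hA)
    (Multiset.eq_replicate.2 ⟨card_E A, h⟩)
  rcases isEmpty_or_nonempty ι with hi | hi
  · exact h1 (Subsingleton.elim _ _)
  exact h1 (by rw [(𝕚).injective ((e Fintype.card_ne_zero).trans (map_one _).symm), one_smul])

theorem E_three (hn : Fintype.card ι = 4) (h3 : (3 : F) ≠ 0) (hA : A ^ 3 = 1) (h1 : A ≠ 1) (hs : Sq A)
    {ω : 𝕃} (hω : IsPrimitiveRoot ω 3) : ∃ j, (A.trace = 1 ∧ j = 1 ∨ A.trace = -2 ∧ j = 2) ∧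
      E A = Multiset.replicate (4 - 2 * j) 1 + Multiset.replicate j ω + Multiset.replicate j (ω ^ 2) := by
  have e3 := hω.pow_eq_one
  have w1 : ω ≠ 1 := hω.ne_one (by norm_num)
  have w2 : ω ^ 2 + ω + 1 = 0 := mul_left_cancel₀ (sub_ne_zero.2 w1) (by linear_combination e3)
  have w3 : ω ^ 2 ≠ ω := fun e => hω.ne_zero (by norm_num) (mul_left_cancel₀ (sub_ne_zero.2 w1)
    (by linear_combination e))
  obtain ⟨i, j, k, h⟩ := three_part (M := E A) (a := 1) (b := ω) (c := ω ^ 2) fun z hz => by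
    have := pow_E (c := 1) (by simpa using hA) hz
    have : (z - 1) * ((z - ω) * (z - ω ^ 2)) = 0 := by
      rw [map_one] at this; linear_combination this + (-z ^ 2 + z * ω - ω + 1) * w2
    simpa [sub_eq_zero] using this
  have a1 := card_E A
  obtain ⟨z, hz, z1⟩ := exists_ne_one (N := 3) h3 hA h1
  have a2 := congrArg (Multiset.count ω) hs
  have a3 := sum_E A
  have w4 : (ω ^ 2) ^ 2 = ω := by linear_combination ω * e3
  rw [h] at a1 a2 a3 hz
  simp [Multiset.count_replicate, w1.symm, w3, w4] at a2 a1 a3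
  subst a2
  obtain rfl : i = 4 - 2 * k := by omega
  refine ⟨k, ?_, h⟩
  have : k ≤ 2 := by omega
  simp only [← (𝕚).injective.eq_iff, map_one, map_neg, map_ofNat, ← a3]
  interval_cases k
  · simp [Multiset.mem_replicate, z1] at hz
  · left; norm_num; linear_combination w2
  · right; norm_num; linear_combination 2 * w2

theorem cases_three (hn : Fintype.card ι = 4) (h3 : (3 : F) ≠ 0) (hA : A ^ 3 = 1) (h1 : A ≠ 1)
    (hs : Sq A) : A.trace = 1 ∨ A.trace = -2 := by
  obtain ⟨ω, hω⟩ := exists_prim_root (F := F) (r := 3) h3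
  obtain ⟨j, h, -⟩ := E_three hn h3 hA h1 hs hω
  exact h.imp And.left And.left

theorem sim_three (hn : Fintype.card ι = 4) (h3 : (3 : F) ≠ 0) (hA : A ^ 3 = 1) (h1 : A ≠ 1)
    (hs : Sq A) (hB : B ^ 3 = 1) (h1' : B ≠ 1) (hs' : Sq B) (ht : A.trace = B.trace) :
    Sim (toLin' A) (toLin' B) := by
  obtain ⟨ω, hω⟩ := exists_prim_root (F := F) (r := 3) h3
  obtain ⟨j, a, h⟩ := E_three hn h3 hA h1 hs hω
  obtain ⟨j', a', h'⟩ := E_three hn h3 hB h1' hs' hω
  refine sim_E (N := 3) (c := 1) h3 one_ne_zero (by simpa) (by simpa) ?_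
  rcases a with ⟨a, rfl⟩ | ⟨a, rfl⟩ <;> rcases a' with ⟨a', rfl⟩ | ⟨a', rfl⟩
  · rw [h, h']
  · exact absurd (by linear_combination ht - a + a') h3
  · exact absurd (by linear_combination a - a' - ht) h3
  · rw [h, h']

theorem E_five (hn : Fintype.card ι = 4) (h5 : (5 : F) ≠ 0) (hA : A ^ 5 = 1) (h1 : A ≠ 1) (hs : Sq A) :
    E A = (primitiveRoots 5 𝕃).val := by
  obtain ⟨z, hz, z1⟩ := exists_ne_one (N := 5) h5 hA h1
  have z5 : z ^ 5 = 1 := by simpa using pow_E (c := 1) (by simpa using hA) hz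
  have := Fact.mk Nat.prime_five
  have hp : IsPrimitiveRoot z 5 := by
    have := IsPrimitiveRoot.orderOf z
    rwa [orderOf_eq_prime z5 z1] at this
  have h2 : ∀ w ∈ E A, w ^ 2 ∈ E A := fun w hw => hs ▸ Multiset.mem_map_of_mem _ hw
  symm
  refine Multiset.eq_of_le_of_card_le ((Multiset.le_iff_subset (Finset.nodup _)).2 fun w hw => ?_) ?_
  · have hw' := (mem_primitiveRoots (by norm_num)).1 hw
    obtain ⟨i, hi, rfl⟩ := hp.eq_pow_of_pow_eq_one hw'.pow_eq_one
    interval_cases i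
    · exact absurd (pow_zero z) (hw'.ne_one (by norm_num))
    · simpa
    · exact h2 _ hz
    · convert h2 _ (h2 _ (h2 _ hz)) using 1; linear_combination (-z ^ 3) * z5
    · convert h2 _ (h2 _ hz) using 1; ring
  · rw [card_E, hn, Finset.card_val, hp.card_primitiveRoots]; decide

theorem sim_five (hn : Fintype.card ι = 4) (h5 : (5 : F) ≠ 0) (hA : A ^ 5 = 1) (h1 : A ≠ 1)
    (hs : Sq A) (hB : B ^ 5 = 1) (h1' : B ≠ 1) (hs' : Sq B) : Sim (toLin' A) (toLin' B) :=
  sim_E (N := 5) (c := 1) h5 one_ne_zero (by simpa) (by simpa)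
    ((E_five hn h5 hA h1 hs).trans (E_five hn h5 hB h1' hs').symm)

end Cfsg.Agent.Nor
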