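import Mathlib
import Cfsg.Agent.Elu.Nor

/-!
Normalizers of groups of symplectic type: the ambient classical groups.
-/

set_option autoImplicit false
set_option backward.isDefEq.respectTransparency false

namespace Cfsg.Agent.Nor

open Matrix Subgroup Conj Asch Cfsg.Geo Herm
open scoped MatrixGroups _root_.Classical

variable {ι : Type} [Fintype ι] [DecidableEq ι] {F : Type*} [Field F] {R T U : Subgroup (GL ι F)}
  {x y : GL ι F} {r n q m : ℕ}

local notation "𝕃" => AlgebraicClosure F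
local notation "𝕚" => algebraMap F (AlgebraicClosure F)

theorem mem_SL : x ∈ specialLinear ι F ↔ x.1.det = 1 := by
  rw [specialLinear, MonoidHom.mem_ker, Units.ext_iff]; rfl

theorem det_of_sim {A B : Matrix ι ι F} (h : Sim (toLin' A) (toLin' B)) : A.det = B.det := by
  simpa using h.det_eq

/-- similar semisimple elements are conjugate -/
def CT (T : Subgroup (GL ι F)) : Prop := ∀ x ∈ T, ∀ h ∈ T, ∀ N : ℕ, (N : F) ≠ 0 → x ^ N = 1 →
  Sim (toLin' x.1) (toLin' h.1) → ∃ g ∈ T, g⁻¹ * x * g = h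

theorem ct_SL [Finite F] [Nonempty ι] : CT (specialLinear ι F) := fun x _ h _ N hN hx hs => by
  obtain ⟨c, rfl⟩ := isConj_iff.1 (isConj_GL_iff_sim.2 hs)
  obtain ⟨w, h1, h2⟩ := exists_commute_det_ss (squarefree_X_pow_sub_one hN)
    (aeval_toLin'_pow_sub_one (congrArg Units.val hx)) c.1.det
  obtain ⟨W, rfl⟩ := toLin'.surjective w
  rw [LinearMap.det_toLin'] at h2
  rw [Module.End.mul_eq_comp, Module.End.mul_eq_comp, ← toLin'_mul, ← toLin'_mul,
    toLin'.injective.eq_iff] at h1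
  let W' := GeneralLinearGroup.mkOfDetNeZero W (h2 ▸ c.det_ne_zero)
  have h3 : W' * x = x * W' := Units.ext h1
  refine ⟨W' * c⁻¹, mem_SL.2 ?_, ?_⟩
  · rw [Units.val_mul, det_mul, show W'.1.det = c.1.det from h2, ← det_mul, Units.mul_inv, det_one]
  · rw [_root_.mul_inv_rev, inv_inv, mul_assoc, ← mul_assoc x, ← h3]; group

theorem ct_SU [Finite F] (hF : Nat.card F = q ^ 2) [NeZero n] :
    CT (GU n F q ⊓ specialLinear (Fin n) F) := fun x hx h hh N hN hx1 hs => by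
  obtain ⟨c, hc⟩ := isConj_iff.1 ((isConj_GU_iff hF ⟨x, hx.1⟩ ⟨h, hh.1⟩).2 (isConj_GL_iff_sim.2 hs))
  have h0 := congrArg det ((mem_GU_iff hF _).1 c.2)
  rw [det_mul, det_ct, det_one, mul_comm] at h0
  obtain ⟨w, h1, h2, h3⟩ := exists_unitary_commute_det (inv_frob hF) ((mem_GU_iff hF _).1 hx.1) hN
    (congrArg Units.val hx1) h0
  have h4 : (mkGU hF w h1).1 * x = x * (mkGU hF w h1).1 := Units.ext h2
  refine ⟨(mkGU hF w h1).1 * c.1⁻¹, ⟨(GU n F q).mul_mem (mkGU hF w h1).2 ((GU n F q).inv_mem c.2), mem_SL.2 ?_⟩, ?_⟩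
  · rw [Units.val_mul, det_mul, show (mkGU hF w h1).1.1.det = c.1.1.det from h3, ← det_mul, Units.mul_inv,
      det_one]
  · rw [_root_.mul_inv_rev, inv_inv, mul_assoc, ← mul_assoc x, ← h4, show h = c.1 * x * c.1⁻¹ from
      (congrArg Subtype.val hc).symm]; group

theorem mem_sp {g : GL (Fin m ⊕ Fin m) F} : g ∈ spGL m F ↔ g.1 ∈ symplecticGroup (Fin m) F := by
  rw [Classical.SpMat.mem_iff_sB]
  simp only [← Classical.SpMat.sympForm_eq]; rfl

theorem ct_Sp [Finite F] : CT (spGL m F) := fun x hx h hh N hN hx1 hs => by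
  obtain ⟨c, hc⟩ := isConj_iff.1 ((sp_isConj_iff (A := ⟨x.1, mem_sp.1 hx⟩) (B := ⟨h.1, mem_sp.1 hh⟩) hN
    (Subtype.ext (congrArg Units.val hx1))).2 (isConj_iff_sim.2 hs))
  let c' : GL (Fin m ⊕ Fin m) F := ⟨c.1, (c⁻¹).1, Classical.SpMat.coe_mul_inv c, Classical.SpMat.coe_inv_mul c⟩
  refine ⟨c'⁻¹, inv_mem (mem_sp.2 c.2), Units.ext (congrArg Subtype.val hc)⟩

theorem det_sp {g : GL (Fin m ⊕ Fin m) F} (h : g ∈ spGL m F) : g.1.det = 1 :=
  SymplecticGroup.det_eq_one (mem_sp.1 h)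

theorem CT.els [Fintype F] (hT : CT T) (hn : Fintype.card ι ≠ 0) (h0 : (r : F) ≠ 0) {H : Subgroup (GL ι F)}
    (h : ∀ x ∈ T, ∀ z : F, x.1 ^ r = z • 1 → (∀ z : F, x.1 ≠ z • (1 : Matrix ι ι F)) →
      ∃ h ∈ T, h ∈ H ∧ Sim (toLin' x.1) (toLin' h.1)) : Els T H r := by
  rintro x hx ⟨z, hz⟩ hs
  obtain ⟨y, h1, h2, h3⟩ := h x hx z hz hs
  obtain ⟨g, h4, rfl⟩ := hT x hx y h1 (r * (Fintype.card F - 1)) (by
    rw [Nat.cast_mul, Nat.cast_pred Fintype.card_pos, FiniteField.cast_card_eq_zero]; simpa) (Units.ext (by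
      rw [pow_mul, pow_smul' hz, FiniteField.pow_card_sub_one_eq_one _ (smul_ne hn hz)]; simp)) h3
  exact ⟨g, h4, h2⟩

theorem CT.els' [Fintype F] (hT : CT T) (hd : ∀ x ∈ T, x.1.det = 1) (h1 : 1 < r)
    (hr : (Fintype.card ι).Coprime r) (h0 : (r : F) ≠ 0)
    (h : ∀ x ∈ T, x.1 ^ r = 1 → x.1 ≠ 1 → ∃ h ∈ T, h ∈ normalizer (R : Set (GL ι F)) ∧
      Sim (toLin' x.1) (toLin' h.1)) : Els T (normalizer (R : Set (GL ι F))) r :=
  els_of hd h1 hr fun x hx a b => by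
    obtain ⟨y, h1, h2, h3⟩ := h x hx (congrArg Units.val a) fun e => b (Units.ext e)
    obtain ⟨g, h4, rfl⟩ := hT x hx y h1 r h0 a h3
    exact ⟨g, h4, h2⟩

/-- `U` is the unitary group of the adjoint map `τ` -/
structure Adj (σ : F →+* F) (τ : Matrix ι ι F →+ Matrix ι ι F) (U : Subgroup (GL ι F)) : Prop where
  mul : ∀ A B, τ (A * B) = τ B * τ A
  smul : ∀ (c : F) A, τ (c • A) = σ c • τ A
  one : τ 1 = 1
  tr : ∀ A, (τ A).trace = σ A.trace
  mem : ∀ g : GL ι F, g ∈ U ↔ τ g.1 * g.1 = 1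

theorem adj_GU [Finite F] (hF : Nat.card F = q ^ 2) : Adj (frob hF) (ct (frob hF)) (GU n F q) :=
  ⟨ct_mul, ct_smul, ct_one, fun A => by rw [ct_apply, trace_transpose, AddMonoidHom.map_trace],
    mem_GU_iff hF⟩

/-- the symplectic adjoint -/
def spT (m : ℕ) (F : Type*) [Field F] :
    Matrix (Fin m ⊕ Fin m) (Fin m ⊕ Fin m) F →+ Matrix (Fin m ⊕ Fin m) (Fin m ⊕ Fin m) F where
  toFun A := -(J _ F * Aᵀ * J _ F)
  map_zero' := by simp
  map_add' A B := by simp only [transpose_add, mul_add, add_mul, neg_add]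

theorem spT_apply (A : Matrix (Fin m ⊕ Fin m) (Fin m ⊕ Fin m) F) : spT m F A = -(J _ F * Aᵀ * J _ F) := rfl

theorem adj_Sp : Adj (RingHom.id F) (spT m F) (spGL m F) := by
  have hJ : ∀ A : Matrix (Fin m ⊕ Fin m) (Fin m ⊕ Fin m) F, J _ F * (J _ F * A) = -A := fun A => by
    rw [← mul_assoc, J_squared, neg_one_mul]
  refine ⟨fun A B => by simp [spT_apply, mul_assoc, hJ], fun c A => by simp [spT_apply],
    by simp [spT_apply, J_squared], fun A => ?_, fun g => ?_⟩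
  · rw [spT_apply, trace_neg, trace_mul_cycle, J_squared]; simp
  · rw [mem_sp, SymplecticGroup.mem_iff', spT_apply]
    refine ⟨fun h => by rw [neg_mul, mul_assoc, mul_assoc, ← mul_assoc _ (J _ F), h, J_squared, neg_neg],
      fun h => ?_⟩
    have := congrArg (J _ F * ·) h
    simpa [mul_assoc, hJ] using this

variable {σ : F →+* F} {τ : Matrix ι ι F →+ Matrix ι ι F}

theorem Adj.inv (h : Adj σ τ U) (hx : x ∈ U) : τ x.1 = (x⁻¹).1 :=
  Units.eq_inv_of_mul_eq_one_right ((h.mem x).1 hx)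

theorem Adj.scal (h : Adj σ τ U) (hS : Sch R) (hR : R ≤ U) (hy : y ∈ normalizer (R : Set (GL ι F))) :
    ∃ c : F, τ y.1 * y.1 = c • 1 := hS _ fun g hg => by
  have h1 := h.inv (hR (inv_mem (conj_mem hy hg)))
  have h2 := h.inv (hR (inv_mem hg))
  have h3 : y.1 * g.1 = (y * g * y⁻¹).1 * y.1 := by simp [mul_assoc]
  rw [inv_inv] at h1 h2
  rw [mul_assoc, h3, ← mul_assoc, ← mul_assoc, ← h1, ← h.mul, ← h2, ← h.mul]
  simp [mul_assoc]

/-- `U` is the full linear group or a unitary group -/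
def Adm (U : Subgroup (GL ι F)) : Prop := U = ⊤ ∨ ∃ σ τ, Adj σ τ U

theorem Adm.mem (h : Adm U) (hx : ∀ σ τ, Adj σ τ U → τ x.1 * x.1 = 1) : x ∈ U :=
  h.elim (fun e => e ▸ mem_top x) fun ⟨σ, τ, h⟩ => (h.mem x).2 (hx σ τ h)

/-! ### Elements with prescribed eigenvalues -/

theorem E_inv (h0 : (r : F) ≠ 0) (hx : x ^ r = 1) : E (x⁻¹).1 = (E x.1).map (·⁻¹) :=
  ev_inv _ h0 (by rw [← toLin'_pow, ← Units.val_pow_eq_pow_val, hx]; exact toLin'_one)
    (by rw [Module.End.mul_eq_comp, ← toLin'_mul, Units.mul_inv]; exact toLin'_one)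

theorem E_GU [Fintype F] (hF : Fintype.card F = q ^ 2) {x : GL (Fin n) F} (hx : x ∈ GU n F q)
    (h0 : (r : F) ≠ 0) (h1 : x.1 ^ r = 1) : (E x.1).map (· ^ (q * (r - 1))) = E x.1 := by
  refine Eq.trans (Multiset.map_congr rfl fun z hz => ?_)
    ((exists_gu_iff 𝕃 hF h0 h1).1 ⟨⟨x, hx⟩, Sim.refl _⟩)
  have := pow_E (c := 1) (by simpa using h1) hz
  have hr : r ≠ 0 := by rintro rfl; simp at h0
  refine eq_inv_of_mul_eq_one_left ?_
  rw [← pow_add, ← mul_add_one, Nat.sub_add_cancel (Nat.one_le_iff_ne_zero.2 hr), mul_comm, pow_mul, this]; simp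

/-- `T` contains an element of order dividing `r` with eigenvalues `M` -/
def Ex (T : Subgroup (GL ι F)) (r : ℕ) (M : Multiset 𝕃) : Prop := ∃ x ∈ T, x ^ r = 1 ∧ E x.1 = M

theorem exists_mat [Fintype F] {M : Multiset 𝕃} (h1 : M.map (· ^ Fintype.card F) = M) (h2 : ∀ z ∈ M, z ^ r = 1)
    (hn : M.card = Fintype.card ι) : ∃ A : Matrix ι ι F, A ^ r = 1 ∧ E A = M := by
  obtain ⟨A, a, b⟩ := exists_of_multiset 𝕃 M h1 (s := Polynomial.X ^ r - 1) (fun z hz => by simp [h2 z hz]) hn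
  exact ⟨A, by simpa [sub_eq_zero] using a, b⟩

theorem det_of_E {A : Matrix ι ι F} (h : (E A).prod = 1) : A.det = 1 :=
  (𝕚).injective (by rw [← prod_E, h, map_one])

theorem ex_SL [Fintype F] (hr : r ≠ 0) {M : Multiset 𝕃} (h1 : M.map (· ^ Fintype.card F) = M)
    (h2 : ∀ z ∈ M, z ^ r = 1) (h3 : M.prod = 1) (hn : M.card = Fintype.card ι) :
    Ex (specialLinear ι F) r M := by
  obtain ⟨A, a, rfl⟩ := exists_mat h1 h2 hn
  exact ⟨(IsUnit.of_pow_eq_one a hr).unit, mem_SL.2 (det_of_E h3), Units.ext a, rfl⟩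

theorem ex_SU [Fintype F] (hF : Fintype.card F = q ^ 2) (h0 : (r : F) ≠ 0) {M : Multiset 𝕃}
    (h1 : M.map (fun z => (z ^ q)⁻¹) = M) (h2 : ∀ z ∈ M, z ^ r = 1) (h3 : M.prod = 1) (hn : M.card = n) :
    Ex (GU n F q ⊓ specialLinear (Fin n) F) r M := by
  obtain ⟨A, a, rfl⟩ := exists_mat (ι := Fin n) (M := M) (by
    conv_rhs => rw [← h1, ← h1, Multiset.map_map]
    simp [hF, pow_two, pow_mul]) h2 (by simpa)
  obtain ⟨g, hg⟩ := (exists_gu_iff 𝕃 hF h0 a).2 h1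
  have := (hg.pow r).one_iff.1 (by rw [← toLin'_pow, a]; exact toLin'_one)
  rw [guRep_apply, ← toLin'_pow] at this
  exact ⟨g, ⟨g.2, mem_SL.2 ((det_of_sim hg).symm.trans (det_of_E h3))⟩,
    Units.ext (toLin'.injective (this.trans toLin'_one.symm)), (Sim.ev 𝕃 hg).symm⟩

theorem ex_Sp [Fintype F] (h0 : (r : F) ≠ 0) {M : Multiset 𝕃} (h1 : M.map (· ^ Fintype.card F) = M)
    (h1' : M.map (·⁻¹) = M) (h2 : ∀ z ∈ M, z ^ r = 1) (h3 : M.prod = 1) (hn : M.card = 2 * m) :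
    Ex (spGL m F) r M := by
  obtain ⟨g, a, b⟩ := exists_sg_ev 𝕃 (Classical.SpMat.sB_nondeg (ι := Fin m)) Classical.SpMat.sB_alt h0 M
    (by simp [hn, two_mul]) h1 h1' h2 h3
  obtain ⟨c, rfl⟩ := (Classical.SpMat.spEquiv (Fin m) F).surjective g
  rw [← map_pow, EmbeddingLike.map_eq_one_iff] at a
  exact ⟨⟨c.1, (c⁻¹).1, Classical.SpMat.coe_mul_inv c, Classical.SpMat.coe_inv_mul c⟩, mem_sp.2 c.2,
    Units.ext (congrArg Subtype.val a), by rw [← b, subRep_apply, spEquiv_lin]; rfl⟩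

/-! ### Transvections -/

/-- transvections -/
def TV (x : GL ι F) : Prop := ∃ N : Matrix ι ι F, N ≠ 0 ∧ N.trace = 0 ∧
  (∀ M, N * M * N = (N * M).trace • N) ∧ x.1 = 1 + N

theorem TV.conj (h : TV x) (g : GL ι F) : TV (g * x * g⁻¹) := by
  obtain ⟨N, a, b, c, d⟩ := h
  refine ⟨cj g N, by simpa, by rw [trace_cj, b], fun M => ?_, by rw [← cj_coe, d, map_add, map_one]⟩
  rw [← cj_cj_inv g M, ← map_mul, ← map_mul, c, map_smul, trace_cj]

theorem TV.sq (h : TV x) : (x.1 - 1) * (x.1 - 1) = 0 := by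
  obtain ⟨N, a, b, c, d⟩ := h
  simpa [d, b] using c 1

theorem TV.ns (h : TV x) (z : F) : x.1 ≠ z • 1 := fun e => by
  have h1 := h.sq
  obtain ⟨N, a, b, c, d⟩ := h
  rcases isEmpty_or_nonempty ι with hi | hi
  · exact a (Subsingleton.elim _ _)
  have h2 : x.1 - 1 = (z - 1) • 1 := by rw [e, sub_smul, one_smul]
  rw [h2, smul_mul_smul_comm, one_mul, ← zero_smul F (1 : Matrix ι ι F)] at h1
  rw [mul_self_eq_zero.1 (smul_inj Fintype.card_ne_zero h1), d] at h2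
  exact a (by simpa using h2)

theorem TV.pow {p : ℕ} [hp : Fact p.Prime] [CharP F p] (h : TV x) : x ^ p = 1 := Units.ext (by
  have h1 : ∀ k : ℕ, x.1 ^ k = 1 + (k : F) • (x.1 - 1) := fun k => by
    induction k with
    | zero => simp
    | succ k ih =>
      rw [pow_succ, ih, ← sub_add_cancel x.1 1]
      simp only [add_sub_cancel_right, mul_add, add_mul, smul_mul_assoc, h.sq, Nat.cast_succ, one_mul, mul_one]
      module
  simp [h1])

theorem TV.det {p : ℕ} [hp : Fact p.Prime] [CharP F p] (h : TV x) : x.1.det = 1 := by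
  have := congrArg (fun g : GL ι F => g.1.det) h.pow
  simp only [Units.val_pow_eq_pow_val, det_pow, Units.val_one, det_one] at this
  rw [← sub_eq_zero, ← pow_eq_zero_iff hp.out.ne_zero, sub_pow_char, this]; simp

theorem exists_tv {v φ : ι → F} (hv : v ≠ 0) (hφ : φ ≠ 0) (h : φ ⬝ᵥ v = 0) :
    ∃ x : GL ι F, TV x ∧ x.1 = 1 + vecMulVec v φ ∧ (x⁻¹).1 = 1 - vecMulVec v φ := by
  have h1 : vecMulVec v φ * vecMulVec v φ = 0 := by simp [vecMulVec_mul_vecMulVec, h]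
  refine ⟨⟨1 + vecMulVec v φ, 1 - vecMulVec v φ, by simp [mul_sub, add_mul, h1],
    by simp [sub_mul, mul_add, h1]⟩, ⟨_, by simp [hv, hφ], by simp [dotProduct_comm v, h], fun M => ?_, rfl⟩,
    rfl, rfl⟩
  rw [vecMulVec_mul, vecMulVec_mul_vecMulVec, trace_vecMulVec, dotProduct_comm, vecMulVec_smul]

theorem Adj.tv (hU : Adj σ τ U) {v φ : ι → F} (hv : v ≠ 0) (hφ : φ ≠ 0) (h : φ ⬝ᵥ v = 0)
    (h' : τ (vecMulVec v φ) = -vecMulVec v φ) : ∃ x ∈ U, TV x := by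
  obtain ⟨x, a, b, c⟩ := exists_tv hv hφ h
  refine ⟨x, (hU.mem x).2 ?_, a⟩
  rw [← x.inv_mul, c]
  conv_lhs => rw [b, map_add, hU.one, h', ← b, ← sub_eq_add_neg]

theorem tv_GU [Finite F] (hF : Nat.card F = q ^ 2) : ∃ x ∈ GU 4 F q, TV x := by
  obtain ⟨a, ha⟩ := (inv_frob hF).exists_norm (μ := -1) (by simp)
  obtain ⟨c, c0, hc⟩ := (inv_frob hF).exists_skew
  refine (adj_GU hF).tv (v := ![1, a, 0, 0]) (φ := ![c, c * frob hF a, 0, 0])
    (fun e => by simpa using congrFun e 0) (fun e => c0 (by simpa using congrFun e 0))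
    (by simp [Fin.sum_univ_four, dotProduct]; linear_combination c * ha) ?_
  have : frob hF c = -c := by linear_combination hc
  ext i j
  fin_cases i <;> fin_cases j <;> simp [ct_apply, vecMulVec_apply, this, (inv_frob hF).invol, mul_comm, mul_assoc]

theorem tv_Sp : ∃ x ∈ spGL 2 F, TV x := by
  refine adj_Sp.tv (v := Pi.single (Sum.inl 0) 1) (φ := Pi.single (Sum.inr 0) 1) (by simp) (by simp)
    (by simp) ?_
  ext (i | i) (j | j) <;> fin_cases i <;> fin_cases j <;>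
    simp [spT_apply, vecMulVec_apply, J, mul_apply, Fintype.sum_sum_type, Pi.single_apply, one_apply]

theorem tv_GL : ∃ x : GL (Fin 4) F, TV x :=
  (exists_tv (v := Pi.single 0 1) (φ := Pi.single 1 1) (by simp) (by simp) (by simp)).imp fun _ h => h.1

end Cfsg.Agent.Nor
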