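import Mathlib
import Cfsg.Agent.Elu.Nor2
import Cfsg.Agent.Inv.Symp

/-!
Absolutely irreducible 2-groups of symplectic type in dimension four: structure.
-/

set_option autoImplicit false
set_option backward.isDefEq.respectTransparency false

namespace Cfsg.Agent.Nor

open Matrix Subgroup Conj Asch Cfsg.Geo
open scoped MatrixGroups _root_.Classical

section grp
variable {G : Type*} [Group G] [HasDistribNeg G] {R H : Subgroup G} {a b u v : G}

local notation "𝐜" a => centralizer ({a} : Set G)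

theorem pm (h : ∀ x ∈ R, x * x = 1 ∨ x * x = -1) (ha : a ∈ R) (hb : b ∈ R) :
    a * b = b * a ∨ a * b = -(b * a) := by
  have e : a * b = (a * a) * (a⁻¹ * b⁻¹) * (b * b) := by group
  have e' : a⁻¹ * b⁻¹ = (b * a * (b * a))⁻¹ * (b * a) := by group
  rw [e, e']
  rcases h a ha with h1 | h1 <;> rcases h b hb with h2 | h2 <;>
    rcases h _ (mul_mem hb ha) with h3 | h3 <;> simp [h1, h2, h3]

theorem ne_neg' (h1 : (1 : G) ≠ -1) (a : G) : a ≠ -a := fun e =>
  h1 (mul_left_cancel (a := a) (by simpa using e))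

theorem half (h1 : (1 : G) ≠ -1) (h : ∀ x ∈ R, x * x = 1 ∨ x * x = -1) (hH : H ≤ R) (ha : a ∈ R)
    (hb : b ∈ H) (e : a * b = -(b * a)) : Nat.card H = 2 * Nat.card (H ⊓ 𝐜 a : Subgroup G) := by
  have h2 : (𝐜 a).relIndex H = 2 := relIndex_eq_two_iff.2 ⟨b, hb, fun c hc => by
    simp only [mem_centralizer_singleton_iff]
    rcases pm h ha (hH hc) with h3 | h3
    · refine Or.inr ⟨h3.symm, fun h4 => ne_neg' h1 (c * b * a) ?_⟩
      conv_lhs => rw [h4, ← mul_assoc, h3, mul_assoc, e, mul_neg, ← mul_assoc]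
    · refine Or.inl ⟨by rw [← mul_assoc, h3, neg_mul, mul_assoc, mul_assoc, e, mul_neg, neg_neg], fun h4 =>
        ne_neg' h1 _ (h4.trans h3)⟩⟩
  rw [← h2, mul_comm, ← card_mul_index ((𝐜 a).subgroupOf H), ← inf_subgroupOf_left,
    Nat.card_congr (subgroupOfEquivOfLe inf_le_left).toEquiv, inf_subgroupOf_left]; rfl

theorem quarter (h1 : (1 : G) ≠ -1) (h : ∀ x ∈ R, x * x = 1 ∨ x * x = -1) (hH : H ≤ R) (ha : a ∈ H)
    (hb : b ∈ H) (e : a * b = -(b * a)) :
    Nat.card H = 4 * Nat.card (H ⊓ (𝐜 a) ⊓ 𝐜 b : Subgroup G) := by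
  rw [half h1 h hH (hH ha) hb e, half h1 h (inf_le_left.trans hH) (hH hb) (H := H ⊓ 𝐜 a)
    ⟨ha, mem_centralizer_singleton_iff.2 rfl⟩ (by rw [e, neg_neg])]
  omega

theorem adjust (h : ∀ x ∈ R, x * x = 1 ∨ x * x = -1) (hu : u ∈ R) (hv : v ∈ R) (e : v * u = -(u * v))
    (ha : a ∈ R) : ∃ w ∈ closure {u, v}, a * w * u = u * (a * w) ∧ a * w * v = v * (a * w) := by
  have mu : u ∈ closure ({u, v} : Set G) := subset_closure (by simp)
  have mv : v ∈ closure ({u, v} : Set G) := subset_closure (by simp)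
  have e' : ∀ x, v * (u * x) = -(u * (v * x)) := fun x => by rw [← mul_assoc, e, neg_mul, mul_assoc]
  rcases pm h hu ha with h1 | h1 <;> rcases pm h hv ha with h2 | h2
  · exact ⟨1, one_mem _, by simp [h1], by simp [h2]⟩
  · exact ⟨u, mu, by simp [← mul_assoc, h1], by rw [← mul_assoc v, h2]; simp [mul_assoc, e]⟩
  · exact ⟨v, mv, by rw [← mul_assoc u, h1]; simp [mul_assoc, e], by simp [← mul_assoc, h2]⟩
  · exact ⟨u * v, mul_mem mu mv, by rw [← mul_assoc u, h1]; simp [mul_assoc, e],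
      by rw [← mul_assoc v, h2]; simp [mul_assoc, e']⟩

theorem card_center' {G : Type*} [Group G] (R : Subgroup G) :
    Nat.card (center R) = Nat.card (R ⊓ centralizer (R : Set G) : Subgroup G) :=
  Nat.card_congr ⟨fun a => ⟨a.1.1, a.1.2, fun g hg => congrArg Subtype.val (mem_center_iff.1 a.2 ⟨g, hg⟩)⟩,
    fun a => ⟨⟨a.1, a.2.1⟩, mem_center_iff.2 fun g => Subtype.ext (a.2.2 g g.2)⟩, fun _ => rfl, fun _ => rfl⟩

end grp

variable {ι : Type} [Fintype ι] [DecidableEq ι] {F : Type*} [Field F] {R U : Subgroup (GL ι F)}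
  {a b x y u v s t : GL ι F} {r : ℕ}

local notation "𝐜" a => centralizer ({a} : Set (GL ι F))
local notation "𝐍" R => normalizer ((R : Subgroup (GL ι F)) : Set (GL ι F))

/-- the centre -/
def Zs (R : Subgroup (GL ι F)) : Subgroup (GL ι F) := R ⊓ centralizer (R : Set (GL ι F))

/-- `R` is an absolutely irreducible group of symplectic type in dimension four -/
structure E2 (R : Subgroup (GL ι F)) : Prop where
  sch : Sch R
  two : (2 : F) ≠ 0
  dim : Fintype.card ι = 4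
  neg : -1 ∈ R
  sq : ∀ x ∈ R, x * x = 1 ∨ x * x = -1
  card : Nat.card R = 16 * Nat.card (Zs R)
  zc : Nat.card (Zs R) = 2 ∨ Nat.card (Zs R) = 4

theorem Sch.zs (h : Sch R) (ha : a ∈ Zs R) : ∃ c : F, a.1 = c • 1 := h.gl fun g hg => (ha.2 g hg).symm

theorem mem_zs {c : F} (ha : a ∈ R) (h : a.1 = c • 1) : a ∈ Zs R :=
  ⟨ha, fun g _ => (comm_of_smul h g).symm⟩

theorem Sch.zs_comm (h : Sch R) (ha : a ∈ Zs R) (g : GL ι F) : a * g = g * a :=
  (h.zs ha).elim fun _ e => comm_of_smul e g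

theorem one_ne_neg (h2 : (2 : F) ≠ 0) (hn : Fintype.card ι ≠ 0) : (1 : GL ι F) ≠ -1 := fun e =>
  h2 (by linear_combination smul_inj hn (a := (1 : F)) (b := -1) (by simpa using congrArg Units.val e))

theorem e2_of [Finite F] (hs : IsSymplecticTypeGroup 2 R) (hi : ActsAbsolutelyIrreducibly (matrixSet R))
    (h2 : (2 : F) ≠ 0) (hn : Fintype.card ι = 4) (hc : Nat.card R = 16 * Nat.card (center R))
    (hz : Nat.card (center R) = 2 ∨ Nat.card (center R) = 4) : E2 R := by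
  have := Fact.mk Nat.prime_two
  obtain ⟨z, hz2⟩ := exists_prime_orderOf_dvd_card' (G := center R) 2 (by rcases hz with h | h <;> simp [h])
  have z1 : z.1 ≠ 1 := fun e => by simp [show z = 1 from Subtype.ext e] at hz2
  have z2 : z.1 * z.1 = 1 := by rw [← pow_two, ← hz2, ← Subgroup.orderOf_coe, pow_orderOf_eq_one]
  obtain ⟨c, hc'⟩ := (Sch.of hi).gl (x := z.1.1) fun g hg =>
    (congrArg Subtype.val (mem_center_iff.1 z.2 ⟨g, hg⟩)).symm
  have c2 : c * c = 1 := smul_inj (ι := ι) (by omega) (by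
    have := congrArg (fun g : R => g.1.1) z2
    simpa [hc', smul_smul] using this)
  have e : z.1.1 = -1 := Units.ext (by
    rcases mul_self_eq_one_iff.1 c2 with rfl | rfl
    · exact absurd (Subtype.ext (Units.ext (by simpa using hc'))) z1
    · simpa using hc')
  rw [card_center'] at hc hz
  refine ⟨Sch.of hi, h2, hn, e ▸ z.1.2, fun x hx => ?_, hc, hz⟩
  have := Inv.symp_sq ⟨hs.pGroup, hs.cyclic_of_characteristic⟩ (fun x => by
    have := Monoid.pow_exponent_eq_one x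
    rwa [hs.exponent_eq] at this) z.2 z1 z2 ⟨x, hx⟩
  simp only [Subtype.ext_iff, e] at this
  exact this

namespace E2
variable (h : E2 R)
include h

theorem ne : (1 : GL ι F) ≠ -1 := one_ne_neg h.two (by rw [h.dim]; simp)

theorem anti (ha : a ∈ R) (hz : a ∉ Zs R) : ∃ b ∈ R, a * b = -(b * a) := by
  by_contra! hc
  exact hz ⟨ha, fun g hg => ((pm h.sq ha hg).resolve_right (hc g hg)).symm⟩

theorem not_zs (e : a * b = -(b * a)) : a ∉ Zs R := fun ha =>
  ne_neg' h.ne _ ((h.sch.zs_comm ha b).symm.trans e)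

theorem tr (ha : a ∈ R) (hz : a ∉ Zs R) : a.1.trace = 0 := by
  obtain ⟨b, -, e⟩ := h.anti ha hz
  exact tr_anti h.two b (by simpa [neg_eq_iff_eq_neg] using (congrArg Units.val e).symm)

theorem pow4 (ha : a ∈ R) : a ^ 4 = 1 := by
  rw [show a ^ 4 = a * a * (a * a) by simp only [pow_succ, pow_zero, one_mul, mul_assoc]]
  rcases h.sq a ha with e | e <;> simp [e]

theorem fix_or (hr : Odd r) (h1 : x ^ r = 1) (ha : a ∈ R) :
    x * a = a * x ∨ x * a * x⁻¹ * a⁻¹ ∉ Zs R := or_iff_not_imp_right.2 fun hz => by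
  rw [not_not] at hz
  set z := x * a * x⁻¹ * a⁻¹ with e
  have h2 : ∀ k : ℕ, x ^ k * a = z ^ k * (a * x ^ k) := fun k => by
    induction k with
    | zero => simp
    | succ k ih =>
      rw [pow_succ', mul_assoc, ih, ← mul_assoc, ← h.sch.zs_comm (pow_mem hz k), pow_succ z, e]; group
  have h3 := h2 r
  rw [h1, one_mul, mul_one, right_eq_mul] at h3
  have h4 : z = 1 := (pow_eq_one_iff_of_coprime ((Nat.coprime_two_right.2 hr).pow_right 2)).1
    ⟨h3, h.pow4 hz.1⟩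
  rw [← mul_inv_eq_iff_eq_mul, ← mul_inv_eq_one, ← e, h4]

theorem zs_le : Zs R ≤ R ⊓ 𝐜 x := fun _ ha => ⟨ha.1, mem_centralizer_singleton_iff.2 (h.sch.zs_comm ha x)⟩

variable [Finite F]

theorem neg4 [hp : Fact r.Prime] (hr : r ≠ 2) (hx : x ∈ 𝐍 R) (h1 : x ^ r = 1)
    (hs : ∀ z : F, x.1 ≠ z • (1 : Matrix ι ι F)) :
    ((r = 3 ∨ r = 5) ∧ x.1.trace * (x⁻¹).1.trace = 1 ∧ (R ⊓ 𝐜 x) = Zs R) ∨
      (r = 3 ∧ x.1.trace * (x⁻¹).1.trace = 4) := by
  have ho := hp.out.odd_of_ne_two hr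
  have t1 := tr_formula h.sch x fun g hg => (h.fix_or ho h1 hg).imp_right
    (h.tr (mul_mem (conj_mem hx hg) (inv_mem hg)))
  have m1 := card_fix (H := R) (r := r) (fun _ => conj_mem hx) (by simp [h1])
  obtain ⟨k, hk⟩ := card_dvd_of_le (h.zs_le (x := x))
  have k16 : k ∣ 2 ^ 4 := Nat.dvd_of_mul_dvd_mul_left (Nat.card_pos (α := Zs R)) (by
    rw [← hk, mul_comm]; exact h.card ▸ card_dvd_of_le inf_le_left)
  have z0 : (Nat.card (Zs R) : F) ≠ 0 := by
    rcases h.zc with e | e <;> rw [e]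
    · exact h.two
    · rw [show ((4 : ℕ) : F) = 2 * 2 by norm_num]; exact mul_ne_zero h.two h.two
  have t2 : x.1.trace * (x⁻¹).1.trace = k := by
    rw [hk, h.card, h.dim] at t1
    refine mul_left_cancel₀ (mul_ne_zero (pow_ne_zero 4 h.two) z0) ?_
    simp only [Nat.cast_mul, Nat.cast_ofNat] at t1; linear_combination -t1
  have cz : (Nat.card (Zs R)).Coprime r := by
    have := Nat.coprime_two_left.2 ho
    rcases h.zc with e | e <;> rw [e]
    · exact this
    · exact this.pow_left 2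
  have m2 : 16 ≡ k [MOD r] := by
    rw [h.card, hk, mul_comm] at m1
    exact Nat.ModEq.cancel_left_of_coprime cz.symm m1
  have r2 := hp.out.two_le
  have pr : ∀ {m : ℕ}, r ∣ m → m ≠ 0 → r ≤ m := fun a b => Nat.le_of_dvd (Nat.pos_of_ne_zero b) a
  obtain ⟨i, hi, rfl⟩ := (Nat.dvd_prime_pow Nat.prime_two).1 k16
  have hp' := hp.out
  interval_cases i
  · have : r ∣ 15 := (Nat.modEq_iff_dvd' (by norm_num)).1 m2.symm
    refine Or.inl ⟨?_, by simpa using t2, (eq_of_le_of_card_ge h.zs_le (by rw [hk]; simp)).symm⟩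
    have := pr this (by norm_num)
    interval_cases r <;> simp_all (decide := true)
  · exfalso
    obtain ⟨a, ha, ha'⟩ : ∃ a ∈ R ⊓ 𝐜 x, a ∉ Zs R := by
      by_contra! hc
      have := card_le_of_le (show R ⊓ (𝐜 x) ≤ Zs R from hc)
      have := Nat.card_pos (α := Zs R)
      omega
    by_cases hb : ∃ b ∈ R ⊓ 𝐜 x, a * b = -(b * a)
    · obtain ⟨b, hb, e⟩ := hb
      have q1 := quarter h.ne h.sq inf_le_left ha hb e
      have := card_le_of_le (show Zs R ≤ R ⊓ (𝐜 x) ⊓ (𝐜 a) ⊓ 𝐜 b from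
        le_inf (le_inf h.zs_le (h.zs_le.trans inf_le_right)) (h.zs_le.trans inf_le_right))
      have := Nat.card_pos (α := Zs R)
      omega
    · obtain ⟨b, hb', e⟩ := h.anti ha.1 ha'
      have q1 := half h.ne h.sq le_rfl ha.1 hb' e
      have xa : x ∈ 𝐜 a := mem_centralizer_singleton_iff.2 (mem_centralizer_singleton_iff.1 ha.2).symm
      have m3 := card_fix (H := R ⊓ 𝐜 a) (x := x) (r := r) (fun g hg => ⟨conj_mem hx hg.1,
        (𝐜 a).mul_mem ((𝐜 a).mul_mem xa hg.2) ((𝐜 a).inv_mem xa)⟩) (by simp [h1])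
      rw [inf_right_comm, (inf_eq_left (a := R ⊓ 𝐜 x)).2 fun g hg => mem_centralizer_singleton_iff.2
        ((pm h.sq ha.1 hg.1).resolve_right fun e => hb ⟨g, hg, e⟩).symm, hk] at m3
      rw [h.card] at q1
      rw [show Nat.card (R ⊓ 𝐜 a : Subgroup _) = Nat.card (Zs R) * 8 by omega] at m3
      have m4 := m2.trans (Nat.ModEq.cancel_left_of_coprime cz.symm m3).symm
      have : r ∣ 2 ^ 3 := (Nat.modEq_iff_dvd' (by norm_num)).1 m4.symm
      exact hr ((Nat.prime_dvd_prime_iff_eq hp.out Nat.prime_two).1 (hp.out.dvd_of_dvd_pow this))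
  · have : r ∣ 12 := (Nat.modEq_iff_dvd' (by norm_num)).1 m2.symm
    refine Or.inr ⟨?_, by simpa using t2⟩
    have := pr this (by norm_num)
    interval_cases r <;> simp_all (decide := true)
  · have : r ∣ 2 ^ 3 := (Nat.modEq_iff_dvd' (by norm_num)).1 m2.symm
    exact absurd ((Nat.prime_dvd_prime_iff_eq hp.out Nat.prime_two).1 (hp.out.dvd_of_dvd_pow this)) hr
  · have e : R ⊓ (𝐜 x) = R := eq_of_le_of_card_ge inf_le_left (by rw [hk, h.card, mul_comm]; rfl)
    obtain ⟨c, hc⟩ := h.sch.gl (x := x) fun g hg =>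
      (mem_centralizer_singleton_iff.1 (inf_eq_left.1 e hg)).symm
    exact absurd hc (hs c)

end E2

theorem TV.inv (h : TV x) : TV x⁻¹ := by
  have h1 := h.sq
  obtain ⟨N, a, b, c, d⟩ := h
  refine ⟨-N, by simpa, by simpa, fun M => by simp [c], Units.inv_eq_of_mul_eq_one_right ?_⟩
  rw [d, add_sub_cancel_left] at h1
  simp [d, add_mul, mul_add, h1]

theorem E2.neg_tv {p : ℕ} [hp : Fact p.Prime] [CharP F p] (h : E2 R) (hx : TV x) : x ∉ 𝐍 R := fun hN => by
  have ho : Odd p := hp.out.odd_of_ne_two fun e => h.two (by simpa [e] using CharP.cast_eq_zero F p)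
  obtain ⟨a, ha, h1⟩ : ∃ a ∈ R, x * a ≠ a * x := by
    by_contra! hc
    exact (h.sch.gl hc).elim hx.ns
  have h2 := (h.fix_or ho hx.pow ha).resolve_left h1
  have h3 := mul_mem (conj_mem hN ha) (inv_mem ha)
  have h4 := h.tr h3 h2
  have h5 := h.sq _ h3
  have hy := hx.inv.conj a
  rw [show x * a * x⁻¹ * a⁻¹ = x * (a * x⁻¹ * a⁻¹) by group] at h4 h5
  generalize a * x⁻¹ * a⁻¹ = y at *
  have s1 := hy.sq
  obtain ⟨N, a1, a2, a3, a4⟩ := hx
  obtain ⟨M, b1, b2, b3, b4⟩ := hy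
  rw [b4, add_sub_cancel_left] at s1
  have s2 : N * N = 0 := by simpa [a2] using a3 1
  have s3 : (M * N).trace = -4 := by
    simp [a4, b4, add_mul, mul_add, a2, b2, h.dim, trace_mul_comm N] at h4; linear_combination h4
  have s4 := b3 N
  have s5 : M * (x * y * (x * y)).1 * M = 0 := by rcases h5 with e | e <;> simp [e, s1]
  have s6 : M * (x * y * (x * y)).1 * M = (8 : F) • M := by
    have r1 : ∀ X, M * (M * X) = 0 := fun X => by rw [← mul_assoc, s1, zero_mul]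
    have r2 : ∀ X, N * (N * X) = 0 := fun X => by rw [← mul_assoc, s2, zero_mul]
    have r3 : ∀ X, M * (N * (M * X)) = (-4 : F) • (M * X) := fun X => by
      rw [← mul_assoc, ← mul_assoc, s4, s3, smul_mul_assoc]
    have r4 : M * (N * M) = (-4 : F) • M := by rw [← mul_assoc, s4, s3]
    simp only [Units.val_mul, a4, b4, add_mul, mul_add, mul_assoc, one_mul, mul_one, r1, r2, r3, r4, s1,
      mul_zero, zero_mul, mul_smul_comm, smul_mul_assoc, smul_zero]
    module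
  rw [s6, smul_eq_zero, show (8 : F) = 2 ^ 3 by norm_num] at s5
  exact s5.elim (pow_ne_zero _ h.two) b1

/-- generators -/
structure Gen (R : Subgroup (GL ι F)) (u v s t : GL ι F) : Prop where
  mu : u ∈ R
  mv : v ∈ R
  ms : s ∈ R
  mt : t ∈ R
  uu : u * u = 1
  vv : v * v = 1
  ss : s * s = -1
  tt : t * t = -1
  vu : v * u = -(u * v)
  ts : t * s = -(s * t)
  su : s * u = u * s
  sv : s * v = v * s
  tu : t * u = u * t
  tv : t * v = v * t

/-- minus type -/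
structure Mn (R : Subgroup (GL ι F)) : Prop where
  sq : ∀ z ∈ Zs R, z * z = 1
  rk : ∀ a ∈ R, ∀ b ∈ R, a * a = 1 → b * b = 1 → a * b = b * a → a ∈ Zs R ∨ b ∈ Zs R ∨ a * b ∈ Zs R

theorem comm_closure {K : Set (GL ι F)} (h : ∀ k ∈ K, a * k = k * a) {w : GL ι F} (hw : w ∈ closure K) :
    a * w = w * a :=
  (mem_centralizer_singleton_iff.1 ((closure_le (𝐜 a)).2
    (fun k hk => mem_centralizer_singleton_iff.2 (h k hk).symm) hw)).symm

namespace E2
variable [Finite F] (h : E2 R)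
include h

theorem exists_pair (hu : u ∈ R) (hv : v ∈ R) (e : v * u = -(u * v)) : ∃ s ∈ R, ∃ t ∈ R,
    t * s = -(s * t) ∧ s * u = u * s ∧ s * v = v * s ∧ t * u = u * t ∧ t * v = v * t := by
  have q := quarter h.ne h.sq le_rfl hv hu e
  obtain ⟨s, hs, hs'⟩ : ∃ s ∈ R ⊓ (𝐜 v) ⊓ 𝐜 u, s ∉ Zs R := by
    by_contra! hc
    have := card_le_of_le (show R ⊓ (𝐜 v) ⊓ (𝐜 u) ≤ Zs R from hc)
    have := Nat.card_pos (α := Zs R)
    have := h.card
    omega
  obtain ⟨b, hb, e'⟩ := h.anti hs.1.1 hs'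
  obtain ⟨w, hw, a1, a2⟩ := adjust h.sq hu hv e hb
  have s1 := mem_centralizer_singleton_iff.1 hs.2
  have s2 := mem_centralizer_singleton_iff.1 hs.1.2
  refine ⟨s, hs.1.1, b * w, mul_mem hb ((closure_le R).2 (by rintro _ (rfl | rfl) <;> assumption) hw), ?_,
    s1, s2, a1, a2⟩
  rw [← mul_assoc, e', neg_mul, neg_neg, mul_assoc, mul_assoc,
    comm_closure (by rintro _ (rfl | rfl) <;> assumption) hw]

theorem exists_anti : ∃ a ∈ R, ∃ b ∈ R, a * b = -(b * a) := by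
  obtain ⟨s, hs, hs'⟩ : ∃ s ∈ R, s ∉ Zs R := by
    by_contra! hc
    have := card_le_of_le (show R ≤ Zs R from hc)
    have := Nat.card_pos (α := Zs R)
    have := h.card
    omega
  exact ⟨s, hs, h.anti hs hs'⟩

theorem exists_uv : ∃ u ∈ R, ∃ v ∈ R, u * u = 1 ∧ v * v = 1 ∧ v * u = -(u * v) := by
  suffices ∃ u ∈ R, ∃ v ∈ R, u * u = 1 ∧ v * u = -(u * v) by
    obtain ⟨u, hu, v, hv, a, b⟩ := this
    rcases h.sq v hv with c | c
    · exact ⟨u, hu, v, hv, a, c, b⟩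
    · exact ⟨u, hu, u * v, mul_mem hu hv, a, by
        rw [mul_assoc, ← mul_assoc v, b, neg_mul, mul_assoc, c]; simp [a],
        by rw [mul_assoc, b, mul_neg]⟩
  obtain ⟨v, hv, u, hu, e⟩ := h.exists_anti
  obtain ⟨s, hs, t, ht, a1, a2, a3, a4, a5⟩ := h.exists_pair hu hv e
  rcases h.sq u hu with c | c
  · exact ⟨u, hu, v, hv, c, e⟩
  rcases h.sq s hs with d | d
  · exact ⟨s, hs, t, ht, d, a1⟩
  exact ⟨u * s, mul_mem hu hs, v, hv, by rw [mul_assoc, ← mul_assoc s, a2, mul_assoc, d]; simp [c],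
    by rw [← mul_assoc, e, neg_mul, mul_assoc, mul_assoc, a3]⟩

theorem gen_of_i {j : GL ι F} (hj : j ∈ Zs R) (jj : j * j = -1) : ∃ u v s t, Gen R u v s t := by
  obtain ⟨u, hu, v, hv, a, b, c⟩ := h.exists_uv
  obtain ⟨s, hs, t, ht, a1, a2, a3, a4, a5⟩ := h.exists_pair hu hv c
  have key : ∀ s ∈ R, ∃ z ∈ Zs R, z * s * (z * s) = -1 := fun s hs => by
    rcases h.sq s hs with d | d
    · exact ⟨j, hj, by rw [mul_assoc, ← mul_assoc s, ← h.sch.zs_comm hj, mul_assoc, d, mul_one, jj]⟩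
    · exact ⟨1, one_mem _, by simpa⟩
  obtain ⟨z, hz, b1⟩ := key s hs
  obtain ⟨w, hw, b2⟩ := key t ht
  have z1 : ∀ a b, a * (z * b) = z * (a * b) := fun a b => by
    rw [← mul_assoc, ← h.sch.zs_comm hz, mul_assoc]
  have w1 : ∀ a b, a * (w * b) = w * (a * b) := fun a b => by
    rw [← mul_assoc, ← h.sch.zs_comm hw, mul_assoc]
  refine ⟨u, v, z * s, w * t, hu, hv, mul_mem hz.1 hs, mul_mem hw.1 ht, a, b, b1, b2, c, ?_,
    by rw [z1, mul_assoc, a2], by rw [z1, mul_assoc, a3], by rw [w1, mul_assoc, a4], by rw [w1, mul_assoc, a5]⟩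
  rw [z1, w1, mul_assoc, a1, mul_assoc, z1 w, mul_neg, mul_neg]

theorem gen_of_mn (hm : Mn R) : ∃ u v s t, Gen R u v s t := by
  obtain ⟨u, hu, v, hv, a, b, c⟩ := h.exists_uv
  obtain ⟨s, hs, t, ht, a1, a2, a3, a4, a5⟩ := h.exists_pair hu hv c
  have key : ∀ s ∈ R, s ∉ Zs R → s * u = u * s → s * v = v * s → s * s = -1 := fun s hs a1 a2 a3 =>
    (h.sq s hs).resolve_left fun d => by
      rcases hm.rk s hs u hu d a a2 with e | e | e
      · exact a1 e
      · exact h.not_zs (b := v) (by rw [c, neg_neg]) e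
      · exact h.not_zs (b := v) (by rw [← mul_assoc, ← a3, mul_assoc, mul_assoc, c, mul_neg, neg_neg]) e
  exact ⟨u, v, s, t, hu, hv, hs, ht, a, b, key s hs (h.not_zs (b := t) (by rw [a1, neg_neg])) a2 a3,
    key t ht (h.not_zs a1) a4 a5, c, a1, a2, a3, a4, a5⟩

theorem exists_i (h4 : Nat.card (Zs R) = 4) : ∃ (j : GL ι F) (i : F), j ∈ Zs R ∧ j.1 = i • 1 ∧ i * i = -1 ∧
    j * j = -1 := by
  obtain ⟨j, hj, a1, a2⟩ : ∃ j ∈ Zs R, j ≠ 1 ∧ j ≠ -1 := by
    by_contra! hc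
    have : Nat.card (Zs R) ≤ ({1, -1} : Set (GL ι F)).ncard :=
      Set.ncard_le_ncard (s := (Zs R : Set (GL ι F))) (t := {1, -1})
        fun j hj => or_iff_not_imp_left.2 (hc j hj)
    have := Set.ncard_insert_le (1 : GL ι F) {-1}
    simp at this; omega
  obtain ⟨i, hi⟩ := h.sch.zs hj
  have h1 : (j * j).1 = (i * i) • 1 := by simp [hi, smul_smul]
  have h0 : Fintype.card ι ≠ 0 := by simp [h.dim]
  rcases h.sq j hj.1 with e | e
  · rcases mul_self_eq_one_iff.1 (smul_inj h0 (b := 1) (by rw [← h1, e]; simp)) with rfl | rfl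
    · exact absurd (Units.ext (by simpa using hi)) a1
    · exact absurd (Units.ext (by simpa using hi)) a2
  · exact ⟨j, i, hj, hi, smul_inj h0 (by rw [← h1, e]; simp), e⟩

theorem mn_of (h2 : Nat.card (Zs R) = 2) (hm : IsOfMinusType 2 R) : Mn R := by
  refine ⟨fun z hz => ?_, fun a ha b hb a2 b2 ab => ?_⟩
  · have := pow_card_eq_one' (x := (⟨z, hz⟩ : Zs R))
    rw [h2, pow_two] at this
    exact congrArg Subtype.val this
  by_contra! hc
  let A := closure ({-1, a, b} : Set (GL ι F))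
  have hA : A ≤ R := (closure_le R).2 (by rintro _ (rfl | rfl | rfl) <;> first | assumption | exact h.neg)
  have h1 : ∀ x ∈ A, ∀ y ∈ A, x * y = y * x := fun x hx y hy => comm_closure (fun k hk =>
    (comm_closure (by rintro _ (rfl | rfl | rfl) <;> rcases hk with rfl | rfl | rfl <;> simp [ab]) hx).symm) hy
  have h3 : ∀ x ∈ A, x * x = 1 := fun x hx => by
    induction hx using closure_induction with
    | mem x hx => rcases hx with rfl | rfl | rfl <;> simp [a2, b2]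
    | one => simp
    | mul x y hx hy e e' => rw [mul_assoc, ← mul_assoc y, h1 y hy x hx, mul_assoc, e', mul_one, e]
    | inv x hx e => rw [← _root_.mul_inv_rev, e, inv_one]
  have h4 := hm (A.subgroupOf R) ⟨⟨fun x y => Subtype.ext (Subtype.ext (h1 _ x.2 _ y.2))⟩⟩
    fun x hx => Subtype.ext (h3 _ hx)
  rw [Nat.card_congr (subgroupOfEquivOfLe hA).toEquiv] at h4
  have ma : a ∈ A := subset_closure (by simp)
  have mb : b ∈ A := subset_closure (by simp)
  obtain ⟨c, hc', e⟩ := h.anti ha hc.1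
  have q1 := half h.ne h.sq hA hc' ma (by rw [e, neg_neg])
  obtain ⟨d, hd, d1⟩ : ∃ d ∈ A ⊓ 𝐜 c, d ∉ Zs R := by
    rcases pm h.sq hb hc' with e' | e'
    · exact ⟨b, ⟨mb, mem_centralizer_singleton_iff.2 e'⟩, hc.2.1⟩
    · exact ⟨a * b, ⟨mul_mem ma mb, mem_centralizer_singleton_iff.2 (by
        rw [mul_assoc, e', mul_neg, ← mul_assoc, e, neg_mul, neg_neg, mul_assoc])⟩, hc.2.2⟩
  obtain ⟨f, hf, e'⟩ := h.anti (hA hd.1) d1
  have q2 := half h.ne h.sq (inf_le_left.trans hA) hf hd (by rw [e', neg_neg])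
  have q3 : 1 < Nat.card (A ⊓ (𝐜 c) ⊓ 𝐜 f : Subgroup _) := (one_lt_card_iff_ne_bot _).2 fun e =>
    h.ne (mem_bot.1 (e ▸ ⟨⟨subset_closure (by simp), mem_centralizer_singleton_iff.2 (by simp)⟩,
      mem_centralizer_singleton_iff.2 (by simp)⟩ : (-1 : GL ι F) ∈ ⊥)).symm
  omega

variable (g : Gen R u v s t)
include g

theorem ind {K : Subgroup (GL ι F)} (hu : u ∈ K) (hv : v ∈ K) (hs : s ∈ K) (ht : t ∈ K) (hz : Zs R ≤ K) :
    R ≤ K := fun a ha => by
  have q1 := quarter h.ne h.sq le_rfl g.mv g.mu g.vu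
  have q2 := quarter h.ne h.sq (H := R ⊓ (𝐜 v) ⊓ 𝐜 u) (inf_le_left.trans inf_le_left)
    ⟨⟨g.mt, mem_centralizer_singleton_iff.2 g.tv⟩, mem_centralizer_singleton_iff.2 g.tu⟩
    ⟨⟨g.ms, mem_centralizer_singleton_iff.2 g.sv⟩, mem_centralizer_singleton_iff.2 g.su⟩ g.ts
  have e : Zs R = R ⊓ (𝐜 v) ⊓ (𝐜 u) ⊓ (𝐜 t) ⊓ 𝐜 s := eq_of_le_of_card_ge
    (le_inf (le_inf (le_inf h.zs_le (h.zs_le.trans inf_le_right)) (h.zs_le.trans inf_le_right))
      (h.zs_le.trans inf_le_right)) (by have := h.card; omega)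
  obtain ⟨w, hw, a1, a2⟩ := adjust h.sq g.mu g.mv g.vu ha
  have mw : a * w ∈ R := mul_mem ha ((closure_le R).2 (by rintro _ (rfl | rfl); exacts [g.mu, g.mv]) hw)
  obtain ⟨w', hw', a3, a4⟩ := adjust h.sq g.ms g.mt g.ts mw
  have b1 : u * w' = w' * u := comm_closure (by rintro _ (rfl | rfl); exacts [g.su.symm, g.tu.symm]) hw'
  have b2 : v * w' = w' * v := comm_closure (by rintro _ (rfl | rfl); exacts [g.sv.symm, g.tv.symm]) hw'
  have : a * w * w' ∈ Zs R := e ▸ ⟨⟨⟨⟨mul_mem mw ((closure_le R).2 (by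
    rintro _ (rfl | rfl); exacts [g.ms, g.mt]) hw'), mem_centralizer_singleton_iff.2 (by
      rw [mul_assoc, ← b2, ← mul_assoc, a2, mul_assoc])⟩, mem_centralizer_singleton_iff.2 (by
      rw [mul_assoc, ← b1, ← mul_assoc, a1, mul_assoc])⟩, mem_centralizer_singleton_iff.2 a4⟩,
      mem_centralizer_singleton_iff.2 a3⟩
  exact (K.mul_mem_cancel_right ((closure_le K).2 (by rintro _ (rfl | rfl) <;> assumption) hw)).1
    ((K.mul_mem_cancel_right ((closure_le K).2 (by rintro _ (rfl | rfl) <;> assumption) hw')).1 (hz this))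

theorem norm_of (hu : y * u * y⁻¹ ∈ R) (hv : y * v * y⁻¹ ∈ R) (hs : y * s * y⁻¹ ∈ R) (ht : y * t * y⁻¹ ∈ R) :
    y ∈ 𝐍 R := mem_norm fun _ ha =>
  h.ind g (K := R.comap (MulAut.conj y).toMonoidHom) hu hv hs ht (fun z hz => by
    change y * z * y⁻¹ ∈ R
    rw [← h.sch.zs_comm hz, mul_inv_cancel_right]; exact hz.1) ha

theorem neg_mn (hm : Mn R) (hx : x ∈ 𝐍 R) (h1 : x ^ 3 = 1) : R ⊓ (𝐜 x) ≠ Zs R := fun e => by
  have m1 := conj_mem hx g.mu
  have m2 := conj_mem hx m1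
  have z0 : u ∉ Zs R := h.not_zs (b := v) (by rw [g.vu, neg_neg])
  have zc : ∀ a, x * a * x⁻¹ ∈ Zs R → a ∈ Zs R := fun a ha => by
    have := h.sch.zs_comm ha x
    rw [inv_mul_cancel_right, mul_right_inj] at this
    rwa [← this] at ha
  have x3 : x * (x * (x * u * x⁻¹) * x⁻¹) * x⁻¹ = u := by
    rw [show x * (x * (x * u * x⁻¹) * x⁻¹) * x⁻¹ = x ^ 3 * u * (x ^ 3)⁻¹ by
      simp only [pow_succ, pow_zero, one_mul]; group, h1]; simp
  have s1 : x * u * x⁻¹ * (x * u * x⁻¹) = 1 := by rw [conj_mul, g.uu]; simp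
  have s2 : x * (x * u * x⁻¹) * x⁻¹ * (x * (x * u * x⁻¹) * x⁻¹) = 1 := by rw [conj_mul, s1]; simp
  have z1 : x * u * x⁻¹ ∉ Zs R := fun e => z0 (zc _ e)
  have z2 : x * (x * u * x⁻¹) * x⁻¹ ∉ Zs R := fun e => z1 (zc _ e)
  set a := x * u * x⁻¹
  set b := x * a * x⁻¹ with hb
  have mw := mul_mem g.mu (mul_mem m1 m2)
  have c1 : x * (u * (a * b)) * x⁻¹ = a * b * u := by
    conv_rhs => rw [← x3]
    simp only [a, b]; group
  have c2 : u * (a * b) ∈ Zs R := e ▸ ⟨mw, mem_centralizer_singleton_iff.2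
    ((h.fix_or (by decide) h1 mw).resolve_right (not_not.2 (by
      rw [c1]
      rcases pm h.sq g.mu (mul_mem m1 m2) with d | d <;> rw [d]
      · simp [one_mem]
      · simpa using mem_zs (c := -1) h.neg (by simp)))).symm⟩
  have c3 : u * a * (u * a) = 1 := by
    have := hm.sq _ c2
    rw [show u * a = u * (a * b) * b by rw [mul_assoc, mul_assoc, s2, mul_one], mul_assoc, ← mul_assoc b,
      ← h.sch.zs_comm c2, mul_assoc _ b, s2, mul_one, this]
  have c4 : u * a = a * u := by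
    rw [← mul_one (u * a), ← mul_left_inj (u * a), mul_one, c3, mul_assoc, ← mul_assoc u, g.uu, one_mul, s1]
  rcases hm.rk u g.mu a m1 g.uu s1 c4 with d | d | d
  · exact z0 d
  · exact z1 d
  · exact z2 ((mul_mem_cancel_left d).1 (mul_assoc u a b ▸ c2))

end E2

end Cfsg.Agent.Nor
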