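import Mathlib
import Cfsg.Agent.Elu.Nor4

/-!
Absolutely irreducible 2-groups of symplectic type in dimension four: the normalizer.
-/

set_option autoImplicit false
set_option backward.isDefEq.respectTransparency false

namespace Cfsg.Agent.Nor

open Matrix Subgroup Conj Asch Cfsg.Geo
open scoped MatrixGroups _root_.Classical

variable {ι : Type} [Fintype ι] [DecidableEq ι] {F : Type*} [Field F] {R U T : Subgroup (GL ι F)}
  {a b j x y u v s t : GL ι F} {r : ℕ} {σ : F →+* F} {τ : Matrix ι ι F →+ Matrix ι ι F}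

local notation "𝐜" a => centralizer ({a} : Set (GL ι F))
local notation "𝐍" R => normalizer ((R : Subgroup (GL ι F)) : Set (GL ι F))
local notation "𝕃" => AlgebraicClosure F
local notation "𝕚" => algebraMap F (AlgebraicClosure F)

theorem exists_gl {A B : Matrix ι ι F} (h : A * B = 1) : ∃ x : GL ι F, x.1 = A :=
  ⟨⟨A, B, h, mul_eq_one_comm.1 h⟩, rfl⟩

theorem conj_of (h : y * a = b * y) (hb : b ∈ R) : y * a * y⁻¹ ∈ R := by
  rwa [h, mul_inv_cancel_right]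

theorem Adj.pos (h : Adj σ τ U) (hu : u ∈ U) (e : u * u = 1) : τ u.1 = u.1 := by
  rw [h.inv hu, inv_eq_of_mul_eq_one_right e]

theorem Adj.neg (h : Adj σ τ U) (hu : u ∈ U) (e : u * u = -1) : τ u.1 = -u.1 := by
  rw [h.inv hu, inv_eq_of_mul_eq_one_right (b := -u) (by simp [e])]; rfl

section alg
variable {A : Type*} [Ring A] [Algebra F A] (h2 : (2 : F) ≠ 0)
include h2

theorem quat {s t g : A} (ss : s * s = -1) (tt : t * t = -1) (ts : t * s = -(s * t))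
    (hg : g = -(2⁻¹ : F) • (1 + s + t + s * t)) : g * s = t * g ∧ g * t = s * t * g ∧
      g * (-1 - g) = 1 ∧ -1 - g = -(2⁻¹ : F) • (1 + -s + -t + -t * -s) := by
  have r1 : ∀ X, s * (s * X) = -X := fun X => by rw [← mul_assoc, ss, neg_one_mul]
  have r2 : ∀ X, t * (t * X) = -X := fun X => by rw [← mul_assoc, tt, neg_one_mul]
  have r3 : ∀ X, t * (s * X) = -(s * (t * X)) := fun X => by rw [← mul_assoc, ts, neg_mul, mul_assoc]
  refine ⟨?_, ?_, ?_, ?_⟩ <;>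
    simp only [hg, mul_add, add_mul, mul_sub, mul_assoc, smul_mul_assoc, mul_smul_comm, mul_neg, neg_mul, neg_neg,
      mul_one, one_mul, r1, r2, r3, ss, tt, ts] <;> match_scalars <;> field_simp <;> ring

theorem refl {a b y : A} (aa : a * a = 1) (bb : b * b = 1) (ba : b * a = a * b)
    (hy : y = (2⁻¹ : F) • (1 + a + b - a * b)) : y * y = 1 ∧
      (∀ v, v * a = -(a * v) → v * b = b * v → y * v = b * v * y) ∧
      (∀ v, v * a = a * v → v * b = -(b * v) → y * v = a * v * y) := by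
  have r1 : ∀ X, a * (a * X) = X := fun X => by rw [← mul_assoc, aa, one_mul]
  have r2 : ∀ X, b * (b * X) = X := fun X => by rw [← mul_assoc, bb, one_mul]
  have r3 : ∀ X, b * (a * X) = a * (b * X) := fun X => by rw [← mul_assoc, ba, mul_assoc]
  refine ⟨?_, fun v c d => ?_, fun v c d => ?_⟩
  · simp only [hy, mul_add, add_mul, mul_sub, sub_mul, mul_assoc, smul_mul_assoc, mul_smul_comm,
      mul_one, one_mul, r1, r2, r3, aa, bb, ba]
    match_scalars <;> field_simp <;> ring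
  all_goals
    have r4 := fun X => (mul_assoc v a X).symm.trans (congrArg (· * X) c)
    simp only [hy, mul_add, add_mul, mul_sub, sub_mul, mul_assoc, smul_mul_assoc, mul_smul_comm, mul_neg, neg_mul,
      mul_one, one_mul, r1, r2, r3, r4, c, d]
    module

end alg

theorem Gen.swap (h : E2 R) (g : Gen R u v s t) (hj : j ∈ Zs R) (jj : j * j = -1) :
    Gen R (j * s) (j * t) (j * u) (j * v) := by
  have z : ∀ a b, j * a * (j * b) = -(a * b) := fun a b => by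
    rw [mul_assoc, ← mul_assoc a, ← h.sch.zs_comm hj, ← mul_assoc, ← mul_assoc, jj]; simp
  refine ⟨mul_mem hj.1 g.ms, mul_mem hj.1 g.mt, mul_mem hj.1 g.mu, mul_mem hj.1 g.mv, ?_, ?_, ?_, ?_, ?_, ?_,
    ?_, ?_, ?_, ?_⟩ <;> simp only [z, g.uu, g.vv, g.ss, g.tt, g.vu, g.ts, g.su, g.sv, g.tu, g.tv, neg_neg]

theorem cliff (h2 : (2 : F) ≠ 0) {γ : Fin 5 → GL ι F} (h1 : ∀ i, γ i * γ i = 1)
    (ha : ∀ i j, i ≠ j → γ i * γ j = -(γ j * γ i)) {i j : Fin 5} (hij : i ≠ j) :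
    ∃ w : GL ι F, w.1 = (γ i).1 - (γ j).1 ∧ w.1 * w.1 = (2 : F) • 1 ∧
      ∀ k, w * γ k = -(γ (Equiv.swap i j k) * w) := by
  have b1 : ∀ i, (γ i).1 * (γ i).1 = 1 := fun i => congrArg Units.val (h1 i)
  have b2 : ∀ i j, i ≠ j → (γ i).1 * (γ j).1 = -((γ j).1 * (γ i).1) := fun i j h => congrArg Units.val (ha i j h)
  have b3 : ((γ i).1 - (γ j).1) * ((γ i).1 - (γ j).1) = (2 : F) • 1 := by
    simp only [mul_sub, sub_mul, b1, b2 i j hij]; module
  obtain ⟨w, hw⟩ := exists_gl (A := (γ i).1 - (γ j).1) (B := (2⁻¹ : F) • ((γ i).1 - (γ j).1)) (by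
    rw [mul_smul_comm, b3, smul_smul, inv_mul_cancel₀ h2, one_smul])
  refine ⟨w, hw, hw ▸ b3, fun k => Units.ext ?_⟩
  simp only [Units.val_mul, Units.val_neg, hw, mul_sub, sub_mul]
  rcases eq_or_ne k i with rfl | c
  · simp [b1]
  rcases eq_or_ne k j with rfl | d
  · simp [b1]
  rw [Equiv.swap_apply_of_ne_of_ne c d, b2 k i c, b2 k j d]; abel

namespace E2
variable [Finite F] (h : E2 R) (g : Gen R u v s t) (hU : Adm U) (hR : R ≤ U)
include h g hU hR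

theorem ex3 : ∃ x ∈ U, x ∈ (𝐍 R) ∧ x ^ 3 = 1 ∧ ∀ a, s * a = a * s → t * a = a * t →
    x * a = a * x ∧ (x * a).1.trace = -2⁻¹ * a.1.trace := by
  obtain ⟨a1, a2, a3, a4⟩ := quat h.two (congrArg Units.val g.ss) (congrArg Units.val g.tt)
    (congrArg Units.val g.ts) rfl
  obtain ⟨x, hx⟩ := exists_gl a3
  rw [← hx] at a1 a2 a3 a4
  have b : ∀ a, s * a = a * s → t * a = a * t → x * a = a * x := fun a c d => Units.ext (by
    have c' : s.1 * a.1 = a.1 * s.1 := congrArg Units.val c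
    have d' : t.1 * a.1 = a.1 * t.1 := congrArg Units.val d
    simp only [Units.val_mul, hx, smul_mul_assoc, mul_smul_comm, add_mul, mul_add, one_mul, mul_one, mul_assoc, c', d']
    rw [← mul_assoc s.1, c', mul_assoc])
  refine ⟨x, hU.mem fun σ τ hτ => ?_, h.norm_of g (conj_of (b _ g.su g.tu) g.mu) (conj_of (b _ g.sv g.tv) g.mv)
    (conj_of (Units.ext a1) g.mt) (conj_of (b := s * t) (Units.ext a2) (mul_mem g.ms g.mt)), Units.ext ?_,
    fun a c d => ⟨b a c d, ?_⟩⟩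
  · rw [mul_eq_one_comm, ← a3, a4]
    congr 1
    rw [hx, hτ.smul, map_add, map_add, map_add, hτ.mul, hτ.one, hτ.neg (hR g.ms) g.ss, hτ.neg (hR g.mt) g.tt]
    simp [map_ofNat]
  · rw [Units.val_pow_eq_pow_val, Units.val_one]
    linear_combination (norm := noncomm_ring) (1 - x.1) * a3
  · have t1 : (s * a).1.trace = 0 := tr_anti h.two t (congrArg Units.val (show t * (s * a) = -(s * a * t) by
      rw [← mul_assoc, g.ts, neg_mul, mul_assoc, d, mul_assoc]))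
    have t2 : (t * a).1.trace = 0 := tr_anti h.two s (congrArg Units.val (show s * (t * a) = -(t * a * s) by
      rw [mul_assoc, ← c, ← mul_assoc t, g.ts, neg_mul, neg_neg, mul_assoc]))
    have t3 : (s * t * a).1.trace = 0 := tr_anti h.two s (congrArg Units.val (show s * (s * t * a) =
      -(s * t * a * s) by rw [mul_assoc _ a, ← c, mul_assoc s t (s * a), ← mul_assoc t, g.ts]; simp [mul_assoc]))
    simp only [Units.val_mul] at t1 t2 t3
    simp [hx, add_mul, t1, t2, t3]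

theorem ex2 (hj : j ∈ Zs R) (jj : j * j = -1) : ∃ y ∈ U, y ∈ (𝐍 R) ∧ y.1 * y.1 = 1 ∧ y.1.trace = 2 ∧
    ∀ z : F, y.1 ≠ z • 1 := by
  have g' := g.swap h hj jj
  have z : ∀ a b, a * (j * b) = j * (a * b) := fun a b => by
    rw [← mul_assoc, ← h.sch.zs_comm hj, mul_assoc]
  have e1 : j * s * u = u * (j * s) := by rw [z, mul_assoc, g.su]
  have e2 : t * (j * s) = -(j * s * t) := by rw [z, g.ts, mul_neg, mul_assoc]
  obtain ⟨a1, a2, a3⟩ := refl h.two (congrArg Units.val g.uu) (congrArg Units.val g'.uu)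
    (congrArg Units.val e1) rfl
  obtain ⟨y, hy⟩ := exists_gl a1
  rw [← hy] at a1 a2 a3
  have b : ∀ a, u * a = a * u → j * s * a = a * (j * s) → y * a = a * y := fun a c d => Units.ext (by
    have c' : u.1 * a.1 = a.1 * u.1 := congrArg Units.val c
    have d' : (j * s).1 * a.1 = a.1 * (j * s).1 := congrArg Units.val d
    rw [Units.val_mul y, Units.val_mul a, hy]
    generalize (j * s).1 = B at *
    simp only [smul_mul_assoc, mul_smul_comm, add_mul, mul_add, sub_mul, mul_sub, one_mul, mul_one,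
      mul_assoc, c', d']
    rw [← mul_assoc u.1, c', mul_assoc])
  have c1 : y * v = j * s * v * y := Units.ext (a2 _ (congrArg Units.val g.vu)
    (congrArg Units.val (show v * (j * s) = j * s * v by rw [z, mul_assoc, g.sv])))
  refine ⟨y, hU.mem fun σ τ hτ => ?_, h.norm_of g (conj_of (b _ rfl e1) g.mu)
    (conj_of c1 (mul_mem g'.mu g.mv)) (conj_of (b _ g.su.symm (by rw [z, mul_assoc])) g.ms)
    (conj_of (b := u * t) (Units.ext (a3 _ (congrArg Units.val g.tu) (congrArg Units.val e2)))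
      (mul_mem g.mu g.mt)), a1, ?_, fun c hc => ?_⟩
  · rw [← a1]
    congr 1
    rw [hy, hτ.smul, map_sub, map_add, map_add, hτ.mul, hτ.one, hτ.pos (hR g.mu) g.uu, hτ.pos (hR g'.mu) g'.uu,
      ← Units.val_mul, e1]
    simp [map_ofNat]
  · have t1 := h.tr g.mu (h.not_zs (b := v) (by rw [g.vu, neg_neg]))
    have t2 := h.tr g'.mu (h.not_zs (b := t) (by rw [e2, neg_neg]))
    have t3 := h.tr (mul_mem g.mu g'.mu) (h.not_zs (b := t) (by
      rw [← mul_assoc t, g.tu, mul_assoc u t, e2]; simp [mul_assoc]))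
    rw [hy, trace_smul, trace_sub, trace_add, trace_add, t1, t2, ← Units.val_mul, t3, trace_one, h.dim]
    have := h.two
    simp; field_simp; norm_num
  · rw [comm_of_smul hc, mul_left_inj, right_eq_mul] at c1
    exact h.not_zs (b := t) (by rw [e2, neg_neg]) (c1 ▸ one_mem _)

theorem ex5 : ∃ x ∈ U, x ∈ (𝐍 R) ∧ x ^ 5 = 1 ∧ x ≠ 1 ∧ x.1.det = 1 := by
  let γ : Fin 5 → GL ι F := ![u, v, s * (u * v), t * (u * v), s * (t * (u * v))]
  have f : ∀ {a b c : GL ι F}, a * b = c → ∀ X, a * (b * X) = c * X := fun e X => by rw [← mul_assoc, e]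
  have h1 : ∀ i, γ i * γ i = 1 := fun i => by
    fin_cases i <;> simp [γ, mul_assoc, g.uu, g.vv, g.ss, g.tt, f g.uu, f g.vv, f g.ss, f g.tt, f g.vu,
      f g.ts, f g.su, f g.sv, f g.tu, f g.tv, g.vu, g.ts, g.su, g.sv, g.tu, g.tv]
  have ha : ∀ i j, i ≠ j → γ i * γ j = -(γ j * γ i) := fun i j hij => by
    fin_cases i <;> fin_cases j <;> simp [γ, mul_assoc, g.uu, g.vv, g.ss, g.tt, f g.uu, f g.vv, f g.ss, f g.tt,
      f g.vu, f g.ts, f g.su, f g.sv, f g.tu, f g.tv, g.vu, g.ts, g.su, g.sv, g.tu, g.tv] at hij ⊢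
  have uv := mul_mem g.mu g.mv
  have hm : ∀ i, γ i ∈ R := fun i => by
    fin_cases i; exacts [g.mu, g.mv, mul_mem g.ms uv, mul_mem g.mt uv, mul_mem g.ms (mul_mem g.mt uv)]
  have ind : ∀ K : Subgroup (GL ι F), (∀ i, γ i ∈ K) → Zs R ≤ K → R ≤ K := fun K a b =>
    h.ind g (a 0) (a 1) ((K.mul_mem_cancel_right (mul_mem (a 0) (a 1))).1 (a 2))
      ((K.mul_mem_cancel_right (mul_mem (a 0) (a 1))).1 (a 3)) b
  obtain ⟨w1, a1, b1, c1⟩ := cliff h.two h1 ha (i := 0) (j := 1) (by decide)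
  obtain ⟨w2, a2, b2, c2⟩ := cliff h.two h1 ha (i := 1) (j := 2) (by decide)
  obtain ⟨w3, a3, b3, c3⟩ := cliff h.two h1 ha (i := 2) (j := 3) (by decide)
  obtain ⟨w4, a4, b4, c4⟩ := cliff h.two h1 ha (i := 3) (j := 4) (by decide)
  have h4 : (4 : F) ≠ 0 := by rw [show (4 : F) = 2 * 2 by norm_num]; exact mul_ne_zero h.two h.two
  let x := sc ι (Units.mk0 _ (inv_ne_zero h4)) * (w1 * (w2 * (w3 * w4)))
  have d1 : ∀ k, x * γ k = γ (k + 1) * x := fun k => by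
    have : Equiv.swap (0 : Fin 5) 1 (Equiv.swap 1 2 (Equiv.swap 2 3 (Equiv.swap 3 4 k))) = k + 1 := by
      revert k; decide
    simp only [x, mul_assoc, c4, f (c3 _), f (c2 _), f (c1 _), mul_neg, neg_mul, neg_neg, this]
    rw [← mul_assoc, sc_comm, mul_assoc]
  have d2 : ∀ (m : ℕ) k, x ^ m * γ k = γ (k + Fin.ofNat 5 m) * x ^ m := fun m => by
    induction m with
    | zero => simp
    | succ m ih =>
      intro k
      rw [pow_succ, mul_assoc, d1, ← mul_assoc, ih, mul_assoc]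
      congr 2
      rw [add_assoc, add_comm 1]; ext; simp [Fin.val_add]
  obtain ⟨c, hc⟩ := h.sch.gl (x := x ^ 5) fun a ha => (mem_centralizer_singleton_iff.1
    (ind (𝐜 x ^ 5) (fun i => mem_centralizer_singleton_iff.2 (by simpa using (d2 5 i).symm))
      (h.zs_le.trans inf_le_right) ha)).symm
  have e1 : ∀ w : Matrix ι ι F, w * w = (2 : F) • 1 → w.det ^ 2 = 16 := fun w hw => by
    rw [pow_two, ← det_mul, hw, det_smul, h.dim]; norm_num
  have e2 : x.1.det ^ 2 = 1 := by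
    simp only [x, Units.val_mul, det_mul, sc_coe, det_smul, mul_pow, e1 _ b1, e1 _ b2, e1 _ b3, e1 _ b4, h.dim]
    simp; field_simp; norm_num
  have e3 : c ^ 4 = x.1.det ^ 5 := by rw [← det_pow, ← Units.val_pow_eq_pow_val, hc, det_smul, h.dim]; simp
  refine ⟨x ^ 16, pow_mem (hU.mem fun σ τ hτ => ?_) _, pow_mem (mem_norm (R := R) fun a ha => ind
    (R.comap (MulAut.conj x).toMonoidHom) (fun i => conj_of (d1 i) (hm _))
      (fun z hz => conj_of (h.sch.zs_comm hz x).symm hz.1) ha) _, Units.ext ?_, fun e => ?_, ?_⟩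
  · have k : ∀ (w : GL ι F) i j, w.1 = (γ i).1 - (γ j).1 → τ w.1 = w.1 := fun w i j e => by
      rw [e, map_sub, hτ.pos (hR (hm i)) (h1 i), hτ.pos (hR (hm j)) (h1 j)]
    have f' : ∀ {a : Matrix ι ι F}, a * a = (2 : F) • 1 → ∀ X, a * (a * X) = (2 : F) • X := fun e X => by
      rw [← mul_assoc, e, smul_one_mul]
    simp only [x, Units.val_mul, sc_coe, hτ.mul, hτ.smul, hτ.one, k _ _ _ a1, k _ _ _ a2, k _ _ _ a3, k _ _ _ a4,
      mul_assoc, smul_mul_assoc, mul_smul_comm, one_mul, f' b1, f' b2, f' b3, b4, smul_smul]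
    convert one_smul F _
    simp [map_ofNat]; field_simp; norm_num
  · rw [← pow_mul, mul_comm, pow_mul, pow_smul' hc, show c ^ 16 = (c ^ 4) ^ 4 by ring, e3, ← pow_mul,
      show 5 * 4 = 2 * 10 by rfl, pow_mul, e2]; simp
  · have := d2 16 0
    rw [e, one_mul, mul_one] at this
    have := ha 0 1 (by decide)
    rw [← show γ 0 = γ 1 by assumption, h1] at this
    exact h.ne this
  · rw [Units.val_pow_eq_pow_val, det_pow, show 16 = 2 * 8 by rfl, pow_mul, e2, one_pow]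

end E2

/-- the eigenvalues of an element moving a plane only -/
noncomputable def M2 {L : Type*} [Field L] (ζ : L) : Multiset L := {ζ, ζ⁻¹, 1, 1}

theorem M2_inv {L : Type*} [Field L] (ζ : L) : (M2 ζ).map (·⁻¹) = M2 ζ := by
  simpa only [M2, Multiset.insert_eq_cons, Multiset.map_cons, Multiset.map_singleton, inv_inv, inv_one] using
    Multiset.cons_swap _ _ _

theorem M2_pow {L : Type*} [Field L] {ζ : L} {k : ℕ} (hζ : IsPrimitiveRoot ζ r) (h1 : 1 < r)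
    (hk : k % r = 1 ∨ (k + 1) % r = 0) : (M2 ζ).map (· ^ k) = M2 ζ := by
  rcases hk with hk | hk
  · simp [M2, pow_eq_pow_mod k hζ.pow_eq_one, hk]
  · have : ζ ^ k = ζ⁻¹ := eq_inv_of_mul_eq_one_left (by
      rw [← pow_succ, pow_eq_pow_mod _ hζ.pow_eq_one, hk, pow_zero])
    simpa only [M2, Multiset.insert_eq_cons, Multiset.map_cons, Multiset.map_singleton, inv_pow, this, inv_inv,
      one_pow] using Multiset.cons_swap _ _ _

theorem M2_spec {L : Type*} [Field L] {ζ : L} (hζ : IsPrimitiveRoot ζ r) (h1 : 1 < r) :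
    (∀ z ∈ M2 ζ, z ^ r = 1) ∧ (M2 ζ).prod = 1 ∧ (M2 ζ).card = 4 := by
  simp [M2, hζ.pow_eq_one, hζ.ne_zero (by omega)]

theorem ord5 (p : ℕ) : orderOf (p : ZMod 5) = 4 ↔ p % 5 = 2 ∨ p % 5 = 3 := by
  rw [← ZMod.natCast_mod, orderOf_eq_iff (by norm_num)]
  have := Nat.mod_lt p (show 0 < 5 by norm_num)
  generalize p % 5 = k at *
  interval_cases k <;> decide

namespace E2
variable [Fintype F] (h : E2 R)
include h

theorem of_ex [Fact r.Prime] (hr : r ≠ 2) (h0 : (r : F) ≠ 0) {M : Multiset 𝕃} (hM : Ex T r M) {z : 𝕃}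
    (hz : z ∈ M) (z1 : z ≠ 1) (h1 : 1 ∈ M) (hE : Els T (𝐍 R) r) :
    ((r = 3 ∨ r = 5) ∧ M.sum * (M.map (·⁻¹)).sum = 1 ∧ ∃ x ∈ 𝐍 R, x ^ r = 1 ∧ (R ⊓ 𝐜 x) = Zs R) ∨
      (r = 3 ∧ M.sum * (M.map (·⁻¹)).sum = 4) := by
  obtain ⟨x, hx, a, rfl⟩ := hM
  have hs : ∀ c : F, x.1 ≠ c • 1 := fun c e => by
    rw [e, E_smul_one] at hz h1
    exact z1 ((Multiset.eq_of_mem_replicate hz).trans (Multiset.eq_of_mem_replicate h1).symm)
  obtain ⟨g, -, hg⟩ := hE x hx ⟨1, by simp [a]⟩ hs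
  have b : (g⁻¹ * x * g) ^ r = 1 := by rw [conj_pow', a]; simp
  have t1 : (g⁻¹ * x * g).1.trace = x.1.trace := trace_conj g⁻¹ x.1
  have t2 : (g⁻¹ * x * g)⁻¹.1.trace = (x⁻¹).1.trace := by
    rw [show (g⁻¹ * x * g)⁻¹ = g⁻¹ * x⁻¹ * g by group]; exact trace_conj g⁻¹ _
  have := h.neg4 hr hg b (ns_conj hs g)
  rw [t1, t2] at this
  rw [← E_inv h0 a, sum_E, sum_E, ← map_mul]
  exact this.imp (fun c => ⟨c.1, by rw [c.2.1, map_one], _, hg, b, c.2.2⟩) fun c => ⟨c.1, by rw [c.2, map_ofNat]⟩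

theorem not_tv {p : ℕ} [Fact p.Prime] [CharP F p] (hx : x ∈ T) (ht : TV x) : ¬ Els T (𝐍 R) p := fun hE => by
  obtain ⟨g, -, hg⟩ := hE x hx ⟨1, by simp [ht.pow]⟩ ht.ns
  exact h.neg_tv (ht.conj g⁻¹) hg

theorem not5 (h0 : (5 : F) ≠ 0) {ζ : 𝕃} (hζ : IsPrimitiveRoot ζ 5) (hM : Ex T 5 (M2 ζ)) :
    ¬ Els T (𝐍 R) 5 := fun hE => by
  have := Fact.mk Nat.prime_five
  rcases h.of_ex (by norm_num) h0 hM (z := ζ) (by simp [M2]) (hζ.ne_one (by norm_num)) (by simp [M2]) hE with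
    ⟨-, e, -⟩ | ⟨e, -⟩
  · rw [M2_inv] at e
    have a := hζ.geom_sum_eq_zero (by norm_num)
    have b : ζ⁻¹ = ζ ^ 4 := (eq_inv_of_mul_eq_one_left (by rw [← pow_succ, hζ.pow_eq_one])).symm
    simp [M2, b, Finset.sum_range_succ] at e a
    have c := hζ.pow_eq_one
    have d : (ζ + ζ ^ 4) ^ 2 + (ζ + ζ ^ 4) - 1 = 0 := by linear_combination a + (ζ ^ 3 + 2) * c
    exact ne_alg (a := 5) h0 (by
      push_cast; linear_combination (3 * (ζ + ζ ^ 4) - 1) * e - (3 * (ζ + ζ ^ 4) + 8) * d)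
  · exact absurd e (by norm_num)

theorem not3 (h0 : (3 : F) ≠ 0) {ω : 𝕃} (hω : IsPrimitiveRoot ω 3) (hM : Ex T 3 {ω, ω, ω, 1}) :
    ¬ Els T (𝐍 R) 3 := fun hE => by
  have := Fact.mk Nat.prime_three
  have a := hω.geom_sum_eq_zero (by norm_num)
  have b : ω⁻¹ = ω ^ 2 := (eq_inv_of_mul_eq_one_left (by rw [← pow_succ, hω.pow_eq_one])).symm
  have c := hω.pow_eq_one
  have h3 : (3 : 𝕃) ≠ 0 := ne_alg (a := 3) h0
  have h2 : (2 : 𝕃) ≠ 0 := ne_alg (a := 2) h.two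
  rcases h.of_ex (by norm_num) h0 hM (z := ω) (by simp) (hω.ne_one (by norm_num)) (by simp) hE with
    ⟨-, e, -⟩ | ⟨-, e⟩ <;> simp [b, Finset.sum_range_succ] at e a
  · exact mul_ne_zero h2 h3 (by linear_combination e - 3 * a - 9 * c)
  · exact h3 (by linear_combination e - 3 * a - 9 * c)

theorem not3' (g : Gen R u v s t) (hm : Mn R) (h0 : (3 : F) ≠ 0) {ω : 𝕃} (hω : IsPrimitiveRoot ω 3)
    (hM : Ex T 3 (M2 ω)) : ¬ Els T (𝐍 R) 3 := fun hE => by
  have := Fact.mk Nat.prime_three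
  rcases h.of_ex (by norm_num) h0 hM (z := ω) (by simp [M2]) (hω.ne_one (by norm_num)) (by simp [M2]) hE with
    ⟨-, -, x, a, b, c⟩ | ⟨-, e⟩
  · exact h.neg_mn g hm a b c
  · rw [M2_inv] at e
    have a := hω.geom_sum_eq_zero (by norm_num)
    have b : ω⁻¹ = ω ^ 2 := (eq_inv_of_mul_eq_one_left (by rw [← pow_succ, hω.pow_eq_one])).symm
    simp [M2, b, Finset.sum_range_succ] at e a
    exact ne_alg (a := 3) h0 (by push_cast; linear_combination (ω + ω ^ 2 + 3) * a - e)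

theorem iff4 [hp : Fact r.Prime] (hd : ∀ x ∈ T, x.1.det = 1) (hΩ : r ∣ (𝐍 R).relIndex T) {P Q : Prop}
    (e2 : Els T (𝐍 R) 2) (e3 : Els T (𝐍 R) 3 ↔ P) (e5 : Els T (𝐍 R) 5 ↔ Q) :
    Els T (𝐍 R) r ↔ r = 2 ∨ (r = 3 ∧ P) ∨ (r = 5 ∧ Q) := by
  refine ⟨fun hE => or_iff_not_imp_left.2 fun hr => ?_, ?_⟩
  · obtain ⟨x, hx, a, hs⟩ := exists_ord hd (by
      rw [h.dim]; exact (Nat.coprime_two_left.2 (hp.out.odd_of_ne_two hr)).pow_left 2) hΩ
    obtain ⟨g, -, hg⟩ := hE x hx ⟨1, by simp [a]⟩ hs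
    rcases h.neg4 hr hg (by rw [conj_pow', a]; simp) (ns_conj hs g) with ⟨rfl | rfl, -⟩ | ⟨rfl, -⟩
    exacts [Or.inl ⟨rfl, e3.1 hE⟩, Or.inr ⟨rfl, e5.1 hE⟩, Or.inl ⟨rfl, e3.1 hE⟩]
  · rintro (rfl | ⟨rfl, a⟩ | ⟨rfl, a⟩)
    exacts [e2, e3.2 a, e5.2 a]

variable (g : Gen R u v s t) (hU : Adm U) (hR : R ≤ U) (hT : ∀ x, x ∈ T ↔ x ∈ U ∧ x.1.det = 1) (hC : CT T)
include g hU hR hT hC

theorem pos5 (h0 : (5 : F) ≠ 0) (hs : ∀ x ∈ T, x.1 ^ 5 = 1 → Sq x.1) : Els T (𝐍 R) 5 :=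
  hC.els' (fun x hx => ((hT x).1 hx).2) (by norm_num) (by rw [h.dim]; norm_num) h0 fun x hx a b => by
    obtain ⟨y, c1, c2, c3, c4, c5⟩ := h.ex5 g hU hR
    have hy := (hT y).2 ⟨c1, c5⟩
    have c6 : y.1 ^ 5 = 1 := congrArg Units.val c3
    exact ⟨y, hy, c2, sim_five h.dim h0 a b (hs x hx a) c6 (fun e => c4 (Units.ext e)) (hs y hy c6)⟩

theorem pos3 (hj : j ∈ Zs R) (jj : j * j = -1) (h0 : (3 : F) ≠ 0) (hs : ∀ x ∈ U, x.1 ^ 3 = 1 → Sq x.1) :
    Els T (𝐍 R) 3 :=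
  hC.els' (fun x hx => ((hT x).1 hx).2) (by norm_num) (by rw [h.dim]; norm_num) h0 fun x hx a b => by
    obtain ⟨y, c1, c2, c3, c4⟩ := h.ex3 g hU hR
    have g' := g.swap h hj jj
    obtain ⟨z, d1, d2, d3, d4⟩ := h.ex3 g' hU hR
    have h2 := h.two
    have t1 : y.1.trace = -2 := by
      have := (c4 1 (by simp) (by simp)).2
      simp [h.dim] at this; rw [this]; field_simp; norm_num
    have t2 : z.1.trace = -2 := by
      have := (d4 1 (by simp) (by simp)).2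
      simp [h.dim] at this; rw [this]; field_simp; norm_num
    have z1 : ∀ a b, b * a = a * b → j * a * b = b * (j * a) := fun a b e => by
      rw [← mul_assoc, ← h.sch.zs_comm hj, mul_assoc, mul_assoc, e]
    obtain ⟨e1, e2⟩ := c4 z (d4 s (z1 _ _ g.su) (z1 _ _ g.sv)).1.symm (d4 t (z1 _ _ g.tu) (z1 _ _ g.tv)).1.symm
    have key : ∀ w ∈ U, w ∈ (𝐍 R) → w ^ 3 = 1 → x.1.trace = w.1.trace → w.1.trace = 1 ∨ w.1.trace = -2 →
        ∃ h ∈ T, h ∈ (𝐍 R) ∧ Sim (toLin' x.1) (toLin' h.1) := fun w a1 a2 a3 a4 a5 => by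
      have a6 : w.1 ^ 3 = 1 := congrArg Units.val a3
      have := sim_three h.dim h0 a b (hs x ((hT x).1 hx).1 a) a6 (fun e => by
        rw [e, trace_one, h.dim] at a5
        rcases a5 with a5 | a5
        · exact h0 (by push_cast at a5; linear_combination a5)
        · exact mul_ne_zero h2 h0 (by push_cast at a5; linear_combination a5)) (hs w a1 a6) a4
      exact ⟨w, (hT w).2 ⟨a1, (det_of_sim this).symm.trans ((hT x).1 hx).2⟩, a2, this⟩
    have t3 : (y * z).1.trace = 1 := by rw [e2, t2]; field_simp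
    rcases cases_three h.dim h0 a b (hs x ((hT x).1 hx).1 a) with e | e
    · exact key (y * z) (mul_mem c1 d1) (mul_mem c2 d2) (by rw [Commute.mul_pow e1, c3, d3, mul_one])
        (e.trans t3.symm) (Or.inl t3)
    · exact key y c1 c2 c3 (e.trans t1.symm) (Or.inr t1)

omit hU in
theorem pos2 (hy : ∀ x ∈ T, ∀ c : F, c ≠ 0 → x.1 ^ 2 = c • 1 → x.1.trace ^ 2 = 4 * c → -c ^ 2 = 1 →
    ∃ y ∈ U, y ∈ (𝐍 R) ∧ y.1 ^ 2 = c • 1 ∧ (∀ z : F, y.1 ≠ z • 1) ∧ x.1.trace = y.1.trace) :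
    Els T (𝐍 R) 2 :=
  hC.els (by simp [h.dim]) h.two fun x hx c a b => by
    have hc : c ≠ 0 := smul_ne (x := x ^ 2) (by simp [h.dim]) a
    have hd := ((hT x).1 hx).2
    suffices ∃ y ∈ U, y ∈ (𝐍 R) ∧ y.1 ^ 2 = c • 1 ∧ (∀ z : F, y.1 ≠ z • 1) ∧ x.1.trace = y.1.trace by
      obtain ⟨y, a1, a2, a3, a4, a5⟩ := this
      have := sim_two h.dim h.two hc a b a3 a4 a5
      exact ⟨y, (hT y).2 ⟨a1, (det_of_sim this).symm.trans hd⟩, a2, this⟩
    rcases cases_two h.dim h.two hc a b with ⟨e, e'⟩ | ⟨e, e'⟩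
    · have key : ∀ w ∈ R, w ∉ Zs R → w.1 ^ 2 = c • 1 → ∃ y ∈ U, y ∈ (𝐍 R) ∧ y.1 ^ 2 = c • 1 ∧
          (∀ z : F, y.1 ≠ z • 1) ∧ x.1.trace = y.1.trace := fun w a1 a2 a3 =>
        ⟨w, hR a1, le_normalizer a1, a3, fun z e => a2 (mem_zs a1 e), e.trans (h.tr a1 a2).symm⟩
      rcases sq_eq_one_iff.1 (e'.symm.trans hd) with rfl | rfl
      · exact key u g.mu (h.not_zs (b := v) (by rw [g.vu, neg_neg])) (by simpa [pow_two] using congrArg Units.val g.uu)
      · exact key s g.ms (h.not_zs (b := t) (by rw [g.ts, neg_neg])) (by simpa [pow_two] using congrArg Units.val g.ss)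
    · exact hy x hx c hc a e (e'.symm.trans hd)

end E2

theorem Adj.half (h : Adj σ τ U) (h2 : (2 : F) ≠ 0) (hx : x ∈ U) {c : F} (hc : c ≠ 0) (a : x.1 ^ 2 = c • 1)
    (e : x.1.trace ^ 2 = 4 * c) : σ (x.1.trace / 2) * (x.1.trace / 2) = 1 := by
  have h1 : (x⁻¹).1 = c⁻¹ • x.1 := Units.inv_eq_of_mul_eq_one_right (by
    rw [mul_smul_comm, ← pow_two, a, smul_smul, inv_mul_cancel₀ hc, one_smul])
  rw [map_div₀, ← h.tr, h.inv hx, h1, trace_smul, map_ofNat, smul_eq_mul]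
  field_simp; linear_combination e

theorem E2.pos2' [Fintype F] (h : E2 R) (g : Gen R u v s t) (hU : Adm U) (hR : R ≤ U)
    (hT : ∀ x, x ∈ T ↔ x ∈ U ∧ x.1.det = 1) (hC : CT T) (hj : j ∈ Zs R) (jj : j * j = -1) :
    Els T (𝐍 R) 2 := h.pos2 g hR hT hC fun x hx c hc a e _ => by
  obtain ⟨y, a1, a2, a3, a4, a5⟩ := h.ex2 g hU hR hj jj
  have h2 := h.two
  have b : (x.1.trace / 2) ^ 2 = c := by field_simp; linear_combination e
  have b0 : x.1.trace / 2 ≠ 0 := fun e => hc (by rw [← b, e]; simp)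
  have b1 : (sc ι (Units.mk0 _ b0)).1 = (x.1.trace / 2) • 1 := sc_coe _
  refine ⟨sc ι (Units.mk0 _ b0) * y, mul_mem (hU.mem fun σ τ hτ => ?_) a1, mul_mem (smul_mem_norm b1) a2,
    ?_, fun z e => a5 ((x.1.trace / 2)⁻¹ * z) ?_, ?_⟩
  · rw [b1, hτ.smul, hτ.one, smul_mul_smul_comm, hτ.half h2 ((hT x).1 hx).1 hc a e]; simp
  · rw [Units.val_mul, b1, smul_one_mul, smul_pow, b, pow_two, a3]
  · rw [Units.val_mul, b1, smul_one_mul] at e
    rw [mul_smul, ← e, smul_smul, inv_mul_cancel₀ b0, one_smul]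
  · rw [Units.val_mul, b1, smul_one_mul, trace_smul, a4]; simp [h2]

end Cfsg.Agent.Nor
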