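import Mathlib
import Cfsg.Agent.Elu.Nor5
import Cfsg.Agent.PGrp.Blackburn
import Cfsg.Agent.Spc.Prj
import Cfsg.Agent.Asch.UMax
import Cfsg.Agent.Classical.SLBasic

/-!
The normalizer of an extraspecial group of order 27 in dimension three.
-/

set_option autoImplicit false
set_option backward.isDefEq.respectTransparency false

namespace Cfsg.Agent.Nor

open Matrix Subgroup Conj Asch Cfsg.Geo
open scoped MatrixGroups _root_.Classical commutatorElement

variable {F : Type*} [Field F] {R T : Subgroup (GL (Fin 3) F)} {P a b x y z : GL (Fin 3) F} {r : ℕ} {ω : F}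

local notation "𝐜" a => centralizer ({a} : Set (GL (Fin 3) F))
local notation "𝐍" R => normalizer ((R : Subgroup (GL (Fin 3) F)) : Set (GL (Fin 3) F))
local notation "𝕃" => AlgebraicClosure F
local notation "𝕚" => algebraMap F (AlgebraicClosure F)

/-- the cyclic shift -/
def X3 (F : Type*) [Field F] : Matrix (Fin 3) (Fin 3) F := !![0, 0, 1; 1, 0, 0; 0, 1, 0]

/-- standard generators of an extraspecial group of order 27 -/
structure S3 (R : Subgroup (GL (Fin 3) F)) (P : GL (Fin 3) F) (ω : F) (a b z : GL (Fin 3) F) : Prop where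
  root : ω ^ 2 + ω + 1 = 0
  three : (3 : F) ≠ 0
  ma : a ∈ R
  mb : b ∈ R
  mz : z ∈ R
  ha : a.1 = cj P (diagonal ![1, ω, ω ^ 2])
  hb : b.1 = cj P (X3 F)
  hz : z.1 = ω • 1
  gen : ∀ K : Subgroup (GL (Fin 3) F), a ∈ K → b ∈ K → R ≤ K

theorem cube (h : ω ^ 2 + ω + 1 = 0) {c : F} (hc : c ^ 3 = 1) : ∃ k, c = ω ^ k := by
  have : (c - 1) * ((c - ω) * (c - ω ^ 2)) = 0 := by linear_combination hc + (-c ^ 2 + c * ω - ω + 1) * h
  simp only [mul_eq_zero, sub_eq_zero] at this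
  rcases this with e | e | e
  exacts [⟨0, by simpa⟩, ⟨1, by simpa⟩, ⟨2, e⟩]

theorem eig3 {ι : Type} [Fintype ι] [DecidableEq ι] (h : ω ^ 2 + ω + 1 = 0) (h3 : (3 : F) ≠ 0)
    {A Z : Matrix ι ι F} (hA : A ^ 3 = 1) (hc : Z * A = A * Z) {w : ι → F} (hw : w ≠ 0) {μ : F}
    (hZ : Z *ᵥ w = μ • w) : ∃ v, v ≠ 0 ∧ ∃ l : F, l ^ 3 = 1 ∧ A *ᵥ v = l • v ∧ Z *ᵥ v = μ • v := by
  have w3 : ω ^ 3 = 1 := by linear_combination (ω - 1) * h
  have h1 : ∀ u, Z *ᵥ (A *ᵥ u) = A *ᵥ (Z *ᵥ u) := fun u => by rw [mulVec_mulVec, hc, mulVec_mulVec]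
  have h2 : A *ᵥ (A *ᵥ (A *ᵥ w)) = w := by
    rw [mulVec_mulVec, mulVec_mulVec, ← pow_three', hA, one_mulVec]
  by_contra! hv
  have key : ∀ l : F, l ^ 3 = 1 → w + l ^ 2 • A *ᵥ w + l • A *ᵥ (A *ᵥ w) = 0 := fun l hl => by
    by_contra e
    refine hv _ e l hl ?_ ?_
    · simp only [mulVec_add, mulVec_smul, h2]
      linear_combination (norm := module) (1 - l ^ 3) • congrArg (· • A *ᵥ w) (rfl : (1 : F) = 1) -
        congrArg (· • A *ᵥ w) hl + (l ^ 3 - 1) • congrArg (· • A *ᵥ w) (rfl : (1 : F) = 1)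
    · simp only [mulVec_add, mulVec_smul, h1, hZ]; module
  refine hw ((smul_eq_zero.1 (?_ : (3 : F) • w = 0)).resolve_left h3)
  linear_combination (norm := module) key 1 (by simp) + key ω w3 + key (ω ^ 2) (by linear_combination (ω ^ 3 + 1) * w3)
    - congrArg (· • A *ᵥ w) (show 1 + ω ^ 2 + (ω ^ 2) ^ 2 = 0 by linear_combination h + ω * w3)
    - congrArg (· • A *ᵥ (A *ᵥ w)) h

theorem gen27 [Finite F] (hR : Nat.card R = 27) (ha : a ∈ R) (hb : b ∈ R) (hab : a * b ≠ b * a)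
    (K : Subgroup (GL (Fin 3) F)) (a1 : a ∈ K) (b1 : b ∈ K) : R ≤ K := by
  have := Fact.mk Nat.prime_three
  obtain ⟨i, hi, e⟩ := (Nat.dvd_prime_pow (m := 3) Nat.prime_three).1
    (show Nat.card (R ⊓ K : Subgroup _) ∣ 3 ^ 3 from (card_dvd_of_le inf_le_left).trans hR.dvd)
  rcases hi.lt_or_eq with hi | rfl
  · have : IsMulCommutative (R ⊓ K : Subgroup _) := by
      interval_cases i
      · have := (Nat.card_eq_one_iff_unique.1 e).1; infer_instance
      · have := isCyclic_of_prime_card (p := 3) e; infer_instance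
      · exact ⟨⟨IsPGroup.commutative_of_card_eq_prime_sq e⟩⟩
    exact absurd (congrArg Subtype.val (this.1.1 ⟨a, ha, a1⟩ ⟨b, hb, b1⟩)) hab
  · exact inf_eq_left.1 (eq_of_le_of_card_ge inf_le_left (by rw [e, hR]; rfl))

theorem exists_s3 [Finite F] (hR : Nat.card R = 27) (he : Monoid.exponent R = 3) (hn : ¬ IsMulCommutative R)
    (h3 : (3 : F) ≠ 0) {θ : F} (hθ : θ ^ 2 + θ + 1 = 0) : ∃ P ω a b z, S3 R P ω a b z := by
  have := Fact.mk Nat.prime_three
  have p3 : ∀ g ∈ R, g.1 ^ 3 = 1 := fun g hg => by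
    have := Monoid.pow_exponent_eq_one (⟨g, hg⟩ : R)
    rw [he] at this
    exact congrArg (fun x : R => x.1.1) this
  obtain ⟨a, ha, b, hb, hab⟩ : ∃ a ∈ R, ∃ b ∈ R, a * b ≠ b * a := by
    by_contra! hc
    exact hn ⟨⟨fun x y => Subtype.ext (hc _ x.2 _ y.2)⟩⟩
  have hz : ⁅a, b⁆ ∈ R ⊓ centralizer (R : Set (GL (Fin 3) F)) :=
    (PGrp.center_of_card_eq_cube (p := 3) hR hn).2 ▸ commutator_mem_commutator ha hb
  have e : a * b = ⁅a, b⁆ * (b * a) := by rw [commutatorElement_def]; group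
  generalize ⁅a, b⁆ = z at hz e
  have zc : ∀ g ∈ R, z.1 * g.1 = g.1 * z.1 := fun g hg => congrArg Units.val (hz.2 g hg).symm
  obtain ⟨u, hu⟩ : ∃ u, (z.1 - 1) *ᵥ u ≠ 0 := by
    by_contra! hc
    exact hab (by rw [e, show z = 1 from Units.ext (sub_eq_zero.1 (mat_ext_single fun j => (hc _).trans (zero_mulVec _).symm)), one_mul])
  obtain ⟨w, hw, ω, -, a1, a2⟩ := eig3 hθ h3 (p3 z hz.1) (Z := z.1 ^ 2 + z.1 + 1) (by noncomm_ring) hu (μ := 0) (by
    rw [mulVec_mulVec, show (z.1 ^ 2 + z.1 + 1) * (z.1 - 1) = z.1 ^ 3 - 1 by noncomm_ring, p3 z hz.1]; simp)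
  have hω : ω ^ 2 + ω + 1 = 0 := by
    rw [add_mulVec, add_mulVec, pow_two, ← mulVec_mulVec, a1, mulVec_smul, a1, one_mulVec] at a2
    exact (smul_eq_zero.1 (by linear_combination (norm := module) a2)).resolve_right hw
  have w3 : ω ^ 3 = 1 := by linear_combination (ω - 1) * hω
  obtain ⟨v, hv, l, l3, b1, b2⟩ := eig3 hθ h3 (p3 a ha) (zc a ha) hw a1
  have c1 : ∀ u, z.1 *ᵥ (b.1 *ᵥ u) = b.1 *ᵥ (z.1 *ᵥ u) := fun u => by rw [mulVec_mulVec, zc b hb, mulVec_mulVec]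
  have c2 : ∀ u, a.1 *ᵥ (b.1 *ᵥ u) = b.1 *ᵥ (z.1 *ᵥ (a.1 *ᵥ u)) := fun u => by
    rw [← c1, mulVec_mulVec, mulVec_mulVec, mulVec_mulVec, ← Units.val_mul, e]; simp [mul_assoc]
  have c3 : b.1 *ᵥ (b.1 *ᵥ (b.1 *ᵥ v)) = v := by
    rw [mulVec_mulVec, mulVec_mulVec, ← pow_three', p3 b hb, one_mulVec]
  let M : Matrix (Fin 3) (Fin 3) F := (Matrix.of ![v, b.1 *ᵥ v, b.1 *ᵥ (b.1 *ᵥ v)])ᵀ
  have m1 : ∀ c : Fin 3 → F, M *ᵥ c = c 0 • v + c 1 • b.1 *ᵥ v + c 2 • b.1 *ᵥ (b.1 *ᵥ v) := fun c => by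
    ext i; simp [M, mulVec, dotProduct, Fin.sum_univ_three, mul_comm]
  have l0 : l ≠ 0 := by rintro rfl; simp at l3
  have d1 : a.1 * M = l • (M * diagonal ![1, ω, ω ^ 2]) := mat_ext_single fun j => by
    rw [← mulVec_mulVec, smul_mulVec, ← mulVec_mulVec, m1, m1]
    fin_cases j <;> simp [-mulVec_mulVec, c1, c2, b1, b2, mulVec_smul, smul_smul, mul_comm, pow_two, mul_left_comm]
  have d2 : b.1 * M = M * X3 F := mat_ext_single fun j => by
    rw [← mulVec_mulVec, ← mulVec_mulVec, m1, m1]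
    fin_cases j <;> simp [-mulVec_mulVec, X3, c3]
  have d3 : z.1 * M = ω • M := mat_ext_single fun j => by
    rw [← mulVec_mulVec, smul_mulVec, m1]
    fin_cases j <;> simp [-mulVec_mulVec, c1, b2, mulVec_smul]
  have hM : IsUnit M := mulVec_injective_iff_isUnit.1 ((injective_iff_map_eq_zero M.mulVecLin).2 fun c hc => by
    have k : ∀ c, M *ᵥ c = 0 → M *ᵥ (diagonal ![1, ω, ω ^ 2] *ᵥ c) = 0 := fun c hc => by
      have := congrArg (· *ᵥ c) d1
      simp only [← mulVec_mulVec, hc, smul_mulVec, mulVec_zero] at this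
      exact (smul_eq_zero.1 this.symm).resolve_left l0
    have k' : ∀ c, M *ᵥ c = 0 → c 0 = 0 := fun c hc => by
      have k1 := k _ hc
      have k2 := k _ k1
      simp only [m1, mulVec_diagonal] at hc k1 k2
      simp only [cons_val] at k1 k2
      refine (mul_eq_zero.1 ((smul_eq_zero.1 (?_ : (3 * c 0) • v = 0)).resolve_right hv)).resolve_left h3
      linear_combination (norm := module) hc + k1 + k2 - congrArg (fun t => (t * c 1) • b.1 *ᵥ v) hω -
        congrArg (fun t => (t * c 2) • b.1 *ᵥ (b.1 *ᵥ v))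
          (show 1 + ω ^ 2 + (ω ^ 2) ^ 2 = 0 by linear_combination hω + ω * w3)
    have k'' : ∀ c, M *ᵥ c = 0 → M *ᵥ (X3 F *ᵥ c) = 0 := fun c hc => by
      rw [mulVec_mulVec, ← d2, ← mulVec_mulVec, hc, mulVec_zero]
    have k1 := k' _ hc
    have k2 := k' _ (k'' _ hc)
    have k3 := k' _ (k'' _ (k'' _ hc))
    simp [X3, mulVec, dotProduct, Fin.sum_univ_three] at k2 k3
    ext i; fin_cases i <;> assumption)
  obtain ⟨P, hP⟩ := hM
  rw [← hP] at d1 d2 d3
  have hz' : z.1 = ω • 1 := P.mul_left_inj.1 (by simpa using d3)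
  obtain ⟨k, rfl⟩ := cube hω l3
  have hk := pow_smul' hz' (2 * k)
  refine ⟨P, ω, z ^ (2 * k) * a, b, z, hω, h3, mul_mem (pow_mem hz.1 _) ha, hb, hz.1,
    ((cj_eq_iff _ _ _).2 ?_).symm, ((cj_eq_iff _ _ _).2 d2.symm).symm, hz',
    gen27 hR (mul_mem (pow_mem hz.1 _) ha) hb fun e => hab ?_⟩
  · rw [Units.val_mul, hk, mul_assoc, d1, smul_one_mul, smul_smul, ← pow_add, show 2 * k + k = k * 3 by ring,
      pow_mul, l3, one_smul]
  · rwa [← mul_assoc, ← comm_of_smul hk, mul_assoc, mul_assoc, mul_right_inj] at e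

theorem exists_cj' {Y : Matrix (Fin 3) (Fin 3) F} (h : Y.det ≠ 0) : ∃ y : GL (Fin 3) F, y.1 = cj P Y :=
  ⟨P * GeneralLinearGroup.mkOfDetNeZero Y h * P⁻¹, rfl⟩

theorem E_cj (Y : Matrix (Fin 3) (Fin 3) F) : E (cj P Y) = E Y :=
  Sim.ev _ (isConj_iff_sim.1 ⟨P⁻¹, by simp [SemiconjBy, cj_apply, mul_assoc]⟩)

theorem det_cj (Y : Matrix (Fin 3) (Fin 3) F) : (cj P Y).det = Y.det := by
  rw [cj_apply, det_mul, det_mul, mul_right_comm, ← det_mul, Units.mul_inv, det_one, one_mul]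

namespace S3
variable (h : S3 R P ω a b z)
include h

theorem w3 : ω ^ 3 = 1 := by linear_combination (ω - 1) * h.root

theorem sch : Sch R := fun M hM => by
  obtain ⟨Y, rfl⟩ := (cj P).surjective M
  have h1 := hM a h.ma
  have h2 := hM b h.mb
  rw [h.ha, ← map_mul, ← map_mul, (cj P).injective.eq_iff] at h1
  rw [h.hb, ← map_mul, ← map_mul, (cj P).injective.eq_iff] at h2
  have w1 : ω - 1 ≠ 0 := fun e => h.three (by linear_combination h.root - (ω + 2) * e)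
  have w2 : ω ^ 2 - 1 ≠ 0 := fun e => w1 (by linear_combination h.w3 - ω * e)
  have e1 := congrFun₂ h1 0 1
  have e2 := congrFun₂ h1 0 2
  have f := congrFun₂ h2
  simp only [X3, mul_apply, Fin.sum_univ_three, Fin.forall_fin_succ] at f
  simp at e1 e2 f
  have g1 : Y 0 1 = 0 := (mul_eq_zero.1 (by linear_combination e1)).resolve_right w1
  have g2 : Y 0 2 = 0 := (mul_eq_zero.1 (by linear_combination e2)).resolve_right w2
  refine ⟨Y 0 0, ?_⟩
  obtain ⟨⟨f1, f2, f3⟩, ⟨f4, f5, f6⟩, f7, f8, f9⟩ := f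
  have : Y = Y 0 0 • 1 := by
    ext i j; fin_cases i <;> fin_cases j <;> simp <;> grind
  conv_lhs => rw [this, map_smul, map_one]

theorem le_SL : R ≤ specialLinear (Fin 3) F := h.gen _
  (mem_SL.2 (by rw [h.ha, det_cj, det_diagonal]; simp [Fin.prod_univ_three]; linear_combination h.w3))
  (mem_SL.2 (by rw [h.hb, det_cj]; simp [X3, det_fin_three]))

theorem mem_diag {e : Fin 3 → F} (he : ∀ i, e i ^ 3 = 1) (hp : e 0 * e 1 * e 2 = 1) :
    ∃ w ∈ R, w.1 = cj P (diagonal e) := by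
  obtain ⟨k, hk⟩ := cube h.root (he 0)
  obtain ⟨l, hl⟩ := cube h.root (he 1)
  refine ⟨z ^ k * a ^ (l + 2 * k), mul_mem (pow_mem h.mz _) (pow_mem h.ma _), ?_⟩
  rw [Units.val_mul, pow_smul' h.hz, Units.val_pow_eq_pow_val, h.ha, ← map_pow, smul_one_mul, ← map_smul,
    diagonal_pow, ← diagonal_smul]
  congr 2
  have k3 := he 0
  have l3 := he 1
  rw [hk] at k3 hp
  rw [hl] at l3 hp
  ext i
  fin_cases i <;> simp [hk, hl]
  · linear_combination ω ^ l * k3
  · linear_combination (ω ^ k) ^ 2 * (ω ^ l) ^ 2 * (k3 - hp) + e 2 * (l3 + (ω ^ l) ^ 3 * k3)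

variable [Finite F]

theorem norm_of {a' b' : GL (Fin 3) F} (ha : a' ∈ R) (hb : b' ∈ R) (e1 : y * a = a' * y) (e2 : y * b = b' * y) :
    y ∈ 𝐍 R := mem_norm (R := R) fun _ hg =>
  h.gen (R.comap (MulAut.conj y).toMonoidHom) (conj_of e1 ha) (conj_of e2 hb) hg

theorem norm_diag {d : Fin 3 → F} (hd : ∀ i, d i ^ 3 = 1) (hy : y.1 = cj P (diagonal d)) : y ∈ 𝐍 R := by
  obtain ⟨w, hw, e⟩ := h.mem_diag (e := ![d 0 * d 2 ^ 2, d 1 * d 0 ^ 2, d 2 * d 1 ^ 2]) (fun i => by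
    fin_cases i <;> simp [mul_pow, pow_right_comm _ 2 3, hd]) (by
      simp; linear_combination hd 0 + d 0 ^ 3 * hd 1 + d 0 ^ 3 * d 1 ^ 3 * hd 2)
  refine h.norm_of h.ma (mul_mem hw h.mb) (Units.ext ?_) (Units.ext ?_)
  · simp [hy, h.ha, ← map_mul, mul_comm]
  · simp only [Units.val_mul, hy, h.hb, e, ← map_mul]
    congr 1
    ext i j
    fin_cases i <;> fin_cases j <;> simp [X3, mul_assoc, ← pow_succ, hd]

theorem ex2 (h2 : (2 : F) ≠ 0) : ∃ y ∈ 𝐍 R, y.1 ^ 2 = 1 ∧ y.1 ≠ 1 ∧ y.1.det = 1 := by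
  have d : (!![-1, 0, 0; 0, 0, -1; 0, -1, 0] : Matrix (Fin 3) (Fin 3) F).det = 1 := by simp [det_fin_three]
  obtain ⟨y, hy⟩ := exists_cj' (P := P) (d.trans_ne one_ne_zero)
  refine ⟨y, h.norm_of (mul_mem h.ma h.ma) (mul_mem h.mb h.mb) (Units.ext ?_) (Units.ext ?_), ?_, fun e => ?_,
    by rw [hy, det_cj, d]⟩
  · simp only [Units.val_mul, hy, h.ha, ← map_mul]
    congr 1
    ext i j
    fin_cases i <;> fin_cases j <;> simp [pow_two]
    linear_combination (-ω) * h.w3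
  · simp only [Units.val_mul, hy, h.hb, ← map_mul]
    congr 1
    simp [X3]
  · rw [hy, ← map_pow, ← map_one (cj P)]
    congr 1
    simp [pow_two, one_fin_three]
  · rw [hy, map_eq_one_iff _ (cj P).injective] at e
    exact h2 (by have := congrFun₂ e 0 0; simp at this; linear_combination -this)

theorem neg [hp : Fact r.Prime] (hR : Nat.card R = 27) (h5 : 5 ≤ r) (hx : x ∈ 𝐍 R) (h1 : x ^ r = 1) :
    ∃ c : F, x.1 = c • 1 := by
  have m1 := card_fix (H := R) (r := r) (fun _ => conj_mem hx) (by simp [h1])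
  obtain ⟨i, hi, e⟩ := (Nat.dvd_prime_pow (m := 3) Nat.prime_three).1
    (show Nat.card (R ⊓ 𝐜 x : Subgroup _) ∣ 3 ^ 3 from (card_dvd_of_le inf_le_left).trans hR.dvd)
  rw [hR, e] at m1
  have hp' := hp.out
  interval_cases i
  · have := card_eq_one.1 e
    have e' : z = 1 := mem_bot.1 (this ▸ ⟨h.mz, mem_centralizer_singleton_iff.2 (comm_of_smul h.hz x)⟩)
    have := smul_inj (ι := Fin 3) (by simp) (a := 1) (b := ω) (by rw [← h.hz, e']; simp)
    exact absurd (by linear_combination h.root + (ω + 2) * this) h.three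
  · have : r ∣ 24 := (Nat.modEq_iff_dvd' (by norm_num)).1 m1.symm
    have := Nat.le_of_dvd (by norm_num) this
    interval_cases r <;> simp_all (decide := true)
  · have : r ∣ 18 := (Nat.modEq_iff_dvd' (by norm_num)).1 m1.symm
    have := Nat.le_of_dvd (by norm_num) this
    interval_cases r <;> simp_all (decide := true)
  · have e : R ⊓ (𝐜 x) = R := eq_of_le_of_card_ge inf_le_left (by rw [e, hR]; rfl)
    exact h.sch.gl fun g hg => (mem_centralizer_singleton_iff.1 (inf_eq_left.1 e hg)).symm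

end S3

theorem S3.iff3 [Fintype F] [hp : Fact r.Prime] (h : S3 R P ω a b z) (hR : Nat.card R = 27) (h2 : (2 : F) ≠ 0)
    (hC : CT T) (hd : ∀ x ∈ T, x.1.det = 1) (hN : ∀ y ∈ 𝐍 R, y.1.det = 1 → y ∈ T)
    (hΩ : r ∣ (𝐍 R).relIndex T) {Q : Prop} (h9 : Q → 9 ∣ Nat.card F - 1) (h81 : 81 ∣ Nat.card T → Q) :
    Els T (𝐍 R) r ↔ r = 2 ∨ (r = 3 ∧ Q) := by
  constructor
  · intro hE
    obtain rfl | rfl | h5 : r = 2 ∨ r = 3 ∨ 5 ≤ r := by
      have := hp.out.two_le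
      have : r ≠ 4 := fun e => absurd (e ▸ hp.out) (by norm_num)
      omega
    · exact Or.inl rfl
    · refine Or.inr ⟨rfl, h81 ?_⟩
      rw [← card_mul_index ((𝐍 R).subgroupOf T), ← inf_subgroupOf_left,
        Nat.card_congr (subgroupOfEquivOfLe inf_le_left).toEquiv, inf_subgroupOf_left]
      exact mul_dvd_mul (a := 27) (hR ▸ card_dvd_of_le (le_inf (fun g hg =>
        hN g (le_normalizer hg) (mem_SL.1 (h.le_SL hg))) le_normalizer)) hΩ
    · obtain ⟨x, hx, a, hs⟩ := exists_ord hd (by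
        simpa using (Nat.coprime_primes Nat.prime_three hp.out).2 (by omega)) hΩ
      obtain ⟨g, -, hg⟩ := hE x hx ⟨1, by simp [a]⟩ hs
      exact (h.neg hR h5 hg (by rw [conj_pow', a]; simp)).elim fun c e => absurd e (ns_conj hs g c)
  · rintro (rfl | ⟨rfl, hQ⟩)
    · refine hC.els' hd (by norm_num) (by rw [Fintype.card_fin]; norm_num) h2 fun x hx a b => ?_
      obtain ⟨y, a1, a2, a3, a4⟩ := h.ex2 h2
      exact ⟨y, hN y a1 a4, a1, sim_E (N := 2) (c := 1) h2 one_ne_zero (by simpa) (by simpa)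
        ((E_two3 (by simp) h2 a b (hd x hx)).trans (E_two3 (by simp) h2 a2 a3 a4).symm)⟩
    · refine hC.els (by simp) h.three fun x hx c a _ => ?_
      obtain ⟨ε, hε⟩ := Spc.exists_prim_of_dvd (h9 hQ)
      obtain ⟨k, -, rfl⟩ := (hε.pow (by norm_num) (show 9 = 3 * 3 by rfl)).eq_pow_of_pow_eq_one
        (pow_det (r := 3) (hd x hx) a)
      have e0 : ε ^ k ≠ 0 := pow_ne_zero _ (hε.ne_zero (by norm_num))
      have key : ∀ w ∈ E x.1, ∃ d : F, d ^ 3 = 1 ∧ 𝕚 (ε ^ k * d) = w := fun w hw => by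
        have e1 := pow_E a hw
        have e2 : 𝕚 (ε ^ k) ≠ 0 := (_root_.map_ne_zero _).2 e0
        obtain ⟨m, hm⟩ := cube (ω := 𝕚 ω) (c := w / 𝕚 (ε ^ k)) (by simpa using congrArg 𝕚 h.root) (by
          rw [div_pow, e1, ← map_pow, ← pow_mul, ← pow_mul, mul_comm, div_self]
          rw [pow_mul, map_pow]; exact pow_ne_zero _ e2)
        exact ⟨ω ^ m, by rw [← pow_mul, mul_comm, pow_mul, h.w3, one_pow],
          by rw [map_mul, map_pow _ ω, ← hm, mul_div_cancel₀ _ e2]⟩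
      obtain ⟨w0, w1, w2, hw⟩ := Multiset.card_eq_three.1 ((card_E x.1).trans (by simp))
      obtain ⟨d0, a0, rfl⟩ := key w0 (by simp [hw])
      obtain ⟨d1, a1, rfl⟩ := key w1 (by simp [hw])
      obtain ⟨d2, a2, rfl⟩ := key w2 (by simp [hw])
      have hd3 : ∀ i, ![d0, d1, d2] i ^ 3 = 1 := fun i => by fin_cases i <;> assumption
      obtain ⟨y, hy⟩ := exists_cj' (P := P) (Y := diagonal ![d0, d1, d2]) (by
        rw [det_diagonal]; exact Finset.prod_ne_zero_iff.2 fun i _ e => by simpa [e] using hd3 i)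
      have b1 : (sc (Fin 3) (Units.mk0 _ e0)).1 = ε ^ k • 1 := sc_coe _
      have b2 : (sc (Fin 3) (Units.mk0 _ e0) * y).1 = cj P (diagonal (ε ^ k • ![d0, d1, d2])) := by
        rw [Units.val_mul, b1, hy, smul_one_mul, diagonal_smul, map_smul]
      have b3 := mul_mem (smul_mem_norm (R := R) b1) (h.norm_diag hd3 hy)
      have b4 : Sim (toLin' x.1) (toLin' (sc (Fin 3) (Units.mk0 _ e0) * y).1) :=
        sim_E (N := 3) h.three (smul_ne (x := x ^ 3) (by simp) a) a (by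
          rw [Units.val_mul, b1, hy, smul_one_mul, smul_pow, ← map_pow, diagonal_pow,
            show ![d0, d1, d2] ^ 3 = fun _ => 1 from funext hd3, diagonal_one, map_one, pow_right_comm]) (by
          rw [b2, E_cj, E_diag, hw]; simp [Fin.univ_val_map]; rfl)
      exact ⟨_, hN _ b3 ((det_of_sim b4).symm.trans (hd x hx)), b3, b4⟩

theorem card_SL3 [Finite F] : (Nat.card (specialLinear (Fin 3) F) : ℤ) =
    (Nat.card F : ℤ) ^ 3 * ((Nat.card F : ℤ) ^ 2 - 1) * ((Nat.card F : ℤ) ^ 3 - 1) := by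
  have h1 := congrArg (Nat.cast : ℕ → ℤ) (Classical.SLBasic.card_SL (F := F) 3 (by norm_num))
  have h2 : 1 < Nat.card F := Finite.one_lt_card
  rw [Fin.prod_univ_three, Nat.cast_mul, Nat.cast_mul, Nat.cast_mul, Nat.cast_sub h2.le,
    Nat.cast_sub (Nat.pow_le_pow_right h2.le (by simp)), Nat.cast_sub (Nat.pow_le_pow_right h2.le (by simp)),
    Nat.cast_sub (Nat.pow_le_pow_right h2.le (by simp))] at h1
  rw [show Nat.card (specialLinear (Fin 3) F) = Nat.card SL(3, F) from (Nat.card_congr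
    ⟨fun a => ⟨a.1.1, mem_SL.1 a.2⟩, fun a => ⟨SpecialLinearGroup.toGL a, mem_SL.2 a.2⟩,
      fun _ => Subtype.ext (Units.ext rfl), fun _ => rfl⟩)]
  refine mul_left_cancel₀ (show (Nat.card F : ℤ) - 1 ≠ 0 by omega) ?_
  simp at h1
  rw [h1]; ring

theorem card_SU3 [Finite F] {q : ℕ} (hF : Nat.card F = q ^ 2) :
    (Nat.card (GU 3 F q ⊓ specialLinear (Fin 3) F : Subgroup _) : ℤ) = q ^ 3 * (q ^ 2 - 1) * (q ^ 3 + 1) := by
  have h1 := (Herm.hf_sB hF 3).card_UG_int hF (n := 3) (by simp)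
  rw [← (Herm.hf_sB hF 3).card_SUG hF, ← card_SU' hF] at h1
  refine mul_left_cancel₀ (show (q : ℤ) + 1 ≠ 0 by omega) ?_
  simp only [Finset.prod_range_succ, Finset.prod_range_zero, Nat.cast_mul, Nat.cast_add, Nat.cast_one] at h1
  rw [h1]; ring

end Cfsg.Agent.Nor
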