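import Mathlib
import Cfsg.Agent.Root.TS

/-! Families of one-parameter groups `1 + t α` forming sets of `k`-root subgroups. -/

set_option autoImplicit false
set_option backward.isDefEq.respectTransparency false

namespace Cfsg.Agent.Elu.RootF

open Subgroup Cfsg.Agent.LocalEven Cfsg.Agent.Root Matrix
open scoped commutatorElement

variable {k : Type*} [Field k] {R : Type*} [Ring R] [Algebra k R] {G : Type*} [Group G]
  {ι : G →* R} {α β : R}

theorem iota_commutator' (ha : α * α = 0) (hb : β * β = 0) (h1 : α * β * α = 0)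
    (h2 : β * α * β = 0) {a b : G} {s t : k}
    (hs : ι a = 1 + s • α) (ht : ι b = 1 + t • β) :
    ι ⁅a, b⁆ = 1 + (s * t) • (α * β - β * α) := by
  have i1 : ι a⁻¹ = 1 + (-s) • α := iota_inv ι (by rw [hs, Root.one_add_mul ha]; simp)
  have i2 : ι b⁻¹ = 1 + (-t) • β := iota_inv ι (by rw [ht, Root.one_add_mul hb]; simp)
  have ha' : ∀ x, α * (α * x) = 0 := fun x => by rw [← mul_assoc, ha, zero_mul]
  have hb' : ∀ x, β * (β * x) = 0 := fun x => by rw [← mul_assoc, hb, zero_mul]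
  have h1' : ∀ x, α * (β * (α * x)) = 0 := fun x => by rw [← mul_assoc, ← mul_assoc, h1, zero_mul]
  rw [mul_assoc] at h1 h2
  rw [commutatorElement_def, map_mul, map_mul, map_mul, hs, ht, i1, i2]
  simp only [mul_add, add_mul, one_mul, mul_one, smul_mul_assoc, mul_smul_comm, mul_assoc, ha', hb',
    h1', h1, h2, ha, hb, mul_zero, smul_zero, add_zero]
  module

theorem br_sq (ha : α * α = 0) (hb : β * β = 0) (h1 : α * β * α = 0) (h2 : β * α * β = 0) :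
    (α * β - β * α) * (α * β - β * α) = 0 := by
  have ha' : ∀ x, α * (α * x) = 0 := fun x => by rw [← mul_assoc, ha, zero_mul]
  have hb' : ∀ x, β * (β * x) = 0 := fun x => by rw [← mul_assoc, hb, zero_mul]
  have h1' : ∀ x, α * (β * (α * x)) = 0 := fun x => by rw [← mul_assoc, ← mul_assoc, h1, zero_mul]
  have h2' : ∀ x, β * (α * (β * x)) = 0 := fun x => by rw [← mul_assoc, ← mul_assoc, h2, zero_mul]
  simp only [mul_sub, sub_mul, mul_assoc, ha', hb', h1', h2', mul_zero, sub_self]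

theorem TG_cc' (hι : Function.Injective ι) (ha : α * α = 0) (hb : β * β = 0) (h1 : α * β * α = 0)
    (h2 : β * α * β = 0) (hf : Full k ι α) (hf' : Full k ι β) :
    ⁅TG k ι α ha, TG k ι β hb⁆ = TG k ι (α * β - β * α) (br_sq ha hb h1 h2) ∧
      CC (TG k ι α ha) (TG k ι β hb) := by
  have e : ⁅TG k ι α ha, TG k ι β hb⁆ = TG k ι (α * β - β * α) (br_sq ha hb h1 h2) := by
    apply le_antisymm
    · rw [commutator_le]
      rintro a ⟨s, hs⟩ b ⟨t, ht⟩
      exact ⟨s * t, iota_commutator' ha hb h1 h2 hs ht⟩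
    · rintro c ⟨u, hu⟩
      obtain ⟨a, e1⟩ := hf u
      obtain ⟨b, e2⟩ := hf' 1
      have : c = ⁅a, b⁆ := hι (by rw [iota_commutator' ha hb h1 h2 e1 e2, hu, mul_one])
      rw [this]
      exact commutator_mem_commutator ⟨u, e1⟩ ⟨1, e2⟩
  refine ⟨e, ?_, ?_, ?_, ?_⟩
  · rw [e]; apply TG_com hι
    rw [sub_mul, mul_sub, h1, mul_assoc β, ha, ← mul_assoc α α, ha, ← mul_assoc α β, h1]
    simp
  · rw [e]; apply TG_com hι
    rw [sub_mul, mul_sub, h2, mul_assoc α, hb, ← mul_assoc β β, hb, ← mul_assoc β α, h2]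
    simp
  · rw [e]
    rintro a ⟨s, hs⟩ a1 c ⟨u, hu⟩
    have hs0 : s ≠ 0 := by
      rintro rfl
      exact a1 (hι (by simpa using hs))
    obtain ⟨b, e2⟩ := hf' (s⁻¹ * u)
    refine ⟨b, ⟨_, e2⟩, hι ?_⟩
    rw [iota_commutator' ha hb h1 h2 hs e2, hu, mul_inv_cancel_left₀ hs0]
  · rw [e]
    rintro b ⟨t, ht⟩ b1 c ⟨u, hu⟩
    have ht0 : t ≠ 0 := by
      rintro rfl
      exact b1 (hι (by simpa using ht))
    obtain ⟨a, e2⟩ := hf (u * t⁻¹)
    refine ⟨a, ⟨_, e2⟩, hι ?_⟩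
    rw [iota_commutator' ha hb h1 h2 e2 ht, hu, inv_mul_cancel_right₀ ht0]

variable (k) in
/-- opposite pair -/
def Opp (α β : R) : Prop := ∃ c : k, c ≠ 0 ∧ α * β * α = c • α ∧ β * α * β = c • β

variable (k ι) in
/-- the family -/
def Fam (P : R → Prop) : Set (Subgroup G) := {A | ∃ α, ∃ h : α * α = 0, P α ∧ A = TG k ι α h}

variable (k ι) in
/-- good families -/
structure Good (P : R → Prop) : Prop where
  inj : Function.Injective ι
  sq : ∀ α, P α → α * α = 0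
  ne : ∀ α, P α → α ≠ 0
  full : ∀ α, P α → Full k ι α
  conj : ∀ α, P α → ∀ g, P (ι g * α * ι g⁻¹)
  tri : ∀ α β, P α → P β → α * β = β * α ∨ Opp k α β ∨
    (α * β * α = 0 ∧ β * α * β = 0 ∧ P (α * β - β * α))

variable {P : R → Prop}

theorem Good.psl2 (h : Good k ι P) (ha : P α) (hb : P β) (ho : Opp k α β) :
    IsPSL2PairOver k (TG k ι α (h.sq α ha)) (TG k ι β (h.sq β hb)) ∧
      IsRankOnePair (TG k ι α (h.sq α ha)) (TG k ι β (h.sq β hb)) := by
  obtain ⟨c, hc, h1, h2⟩ := ho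
  exact TG_psl2' h.inj _ _ hc h1 h2 (h.full α ha) (h.full β hb) (h.ne α ha)

theorem Good.adj (h : Good k ι P) (ha : P α) (hb : P β) (ho : Opp k α β) :
    FAdj (Fam k ι P) (TG k ι α (h.sq α ha)) (TG k ι β (h.sq β hb)) :=
  ⟨⟨α, _, ha, rfl⟩, ⟨β, _, hb, rfl⟩, (h.psl2 ha hb ho).2⟩

theorem Good.root (h : Good k ι P) (ht : (⨆ A ∈ Fam k ι P, A) = ⊤) :
    IsRootSubgroupSet (Fam k ι P) := by
  apply isRootSubgroupSet_mk
  · rintro _ ⟨α, h0, -, rfl⟩
    exact TG_com h.inj rfl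
  · rintro _ ⟨α, h0, ha, rfl⟩
    exact TG_ne_bot (h.full α ha) (h.ne α ha)
  · exact ht
  · rintro _ ⟨α, h0, ha, rfl⟩ g
    exact ⟨_, _, h.conj α ha g, cj_TG g h0⟩
  · rintro _ ⟨α, h0, ha, rfl⟩ _ ⟨β, h0', hb, rfl⟩
    rcases h.tri α β ha hb with h1 | h1 | ⟨h1, h2, h3⟩
    · exact Or.inl (TG_com h.inj h1)
    · exact Or.inr (Or.inl (h.psl2 ha hb h1).2)
    · obtain ⟨e, c⟩ := TG_cc' h.inj h0 h0' h1 h2 (h.full α ha) (h.full β hb)
      exact Or.inr (Or.inr ⟨⟨_, _, h3, e⟩, c⟩)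

theorem Good.kroot (h : Good k ι P) (ht : (⨆ A ∈ Fam k ι P, A) = ⊤) :
    IsKRootSubgroupSet k (Fam k ι P) := by
  refine ⟨h.root ht, ?_⟩
  have hS := rs_of (h.root ht)
  rintro _ ⟨α, h0, ha, rfl⟩ _ ⟨β, h0', hb, rfl⟩ hr
  rcases h.tri α β ha hb with h1 | h1 | ⟨h1, h2, h3⟩
  · exact absurd (TG_com h.inj h1) (r1_not_com hr)
  · exact (h.psl2 ha hb h1).1
  · obtain ⟨e, -⟩ := TG_cc' h.inj h0 h0' h1 h2 (h.full α ha) (h.full β hb)
    exact absurd hr (hS.not_r1_of_comm_mem ⟨α, _, ha, rfl⟩ ⟨β, _, hb, rfl⟩ ⟨_, _, h3, e⟩)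

theorem Good.degenerate (h : Good k ι P) (ht : (⨆ A ∈ Fam k ι P, A) = ⊤)
    (hd : ∀ α β, P α → P β → α * β = β * α ∨ Opp k α β) : IsDegenerateRootSet (Fam k ι P) := by
  have hS := rs_of (h.root ht)
  rintro _ hA _ hB hc
  have h1 := hS.not_r1_of_comm_mem hA hB hc.1
  have h2 := hS.not_com_of_mem hc.1
  obtain ⟨α, h0, ha, rfl⟩ := hA
  obtain ⟨β, h0', hb, rfl⟩ := hB
  rcases hd α β ha hb with h3 | h3
  · exact h2 (TG_com h.inj h3)
  · exact h1 (h.psl2 ha hb h3).2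

variable (k) in
/-- adjacency of parameters -/
def PAdj (P : R → Prop) (α β : R) : Prop := P α ∧ P β ∧ Opp k α β

theorem Good.conn (h : Good k ι P)
    (hc : ∀ α β, P α → P β → Relation.ReflTransGen (PAdj k P) α β) :
    IsConnectedFamily (FAdj (Fam k ι P)) (Fam k ι P) := by
  rintro _ ⟨α, h0, ha, rfl⟩ _ ⟨β, h0', hb, rfl⟩
  have := hc α β ha hb
  induction this with
  | refl => exact Relation.ReflTransGen.refl
  | tail _ h2 ih => exact (ih (h.sq _ h2.1) h2.1).tail (h.adj h2.1 h2.2.1 h2.2.2)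

theorem Good.cls (h : Good k ι P) (ht : (⨆ A ∈ Fam k ι P, A) = ⊤) (hne : ∃ α, P α)
    (hc : ∀ α β, P α → P β → Relation.ReflTransGen (PAdj k P) α β) :
    IsRootSubgroupClass (Fam k ι P) := by
  obtain ⟨α, ha⟩ := hne
  exact ⟨h.root ht, ⟨_, α, h.sq α ha, ha, rfl⟩, fun A hA B hB => conj_of_reach (h.conn hc A hA B hB)⟩

theorem image_fam (H : Subgroup G) :
    (fun A : Subgroup G => A.subgroupOf H) '' Fam k ι P = Fam k (ι.comp H.subtype) P := by
  ext A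
  constructor
  · rintro ⟨_, ⟨α, h0, ha, rfl⟩, rfl⟩
    exact ⟨α, h0, ha, rfl⟩
  · rintro ⟨α, h0, ha, rfl⟩
    exact ⟨_, ⟨α, h0, ha, rfl⟩, rfl⟩

theorem Good.sub (h : Good k ι P) : Good k (ι.comp (⨆ B ∈ Fam k ι P, B).subtype) P where
  inj := h.inj.comp Subtype.val_injective
  sq := h.sq
  ne := h.ne
  full α ha t := by
    obtain ⟨g, hg⟩ := h.full α ha t
    exact ⟨⟨g, (le_iSup₂_of_le (f := fun A (_ : A ∈ Fam k ι P) => A) _ ⟨α, h.sq α ha, ha, rfl⟩
      le_rfl) ⟨t, hg⟩⟩, hg⟩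
  conj α ha g := h.conj α ha g
  tri := h.tri

theorem sub_top : (⨆ A ∈ Fam k (ι.comp (⨆ B ∈ Fam k ι P, B).subtype) P, A) = ⊤ := by
  rw [← image_fam, iSup_image]
  apply Subgroup.map_injective (⨆ B ∈ Fam k ι P, B).subtype_injective
  rw [← MonoidHom.range_eq_map, range_subtype]
  simp only [Subgroup.map_iSup, subgroupOf_map_subtype]
  refine iSup_congr fun A => iSup_congr fun hA => ?_
  exact inf_eq_left.2 (le_iSup₂_of_le (f := fun A (_ : A ∈ Fam k ι P) => A) A hA le_rfl)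

end Cfsg.Agent.Elu.RootF
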