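import Mathlib
import Cfsg.Agent.Elu.RootF
import Cfsg.Agent.Orth.Matrix

/-! Siegel transvection groups as abstract root subgroups. -/

set_option autoImplicit false
set_option backward.isDefEq.respectTransparency false

namespace Cfsg.Agent.Elu.Sieg

open Subgroup Cfsg.Agent.LocalEven Cfsg.Agent.Root Cfsg.Agent.Elu.RootF Cfsg.Agent.Orth QuadraticMap

variable {F V : Type*} [Field F] [AddCommGroup V] [Module F V] {Q : QuadraticForm F V}

variable (Q) in
/-- a basis of a singular line -/
structure Line (p r : V) : Prop where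
  li : ∀ s t : F, s • p + t • r = 0 → s = 0 ∧ t = 0
  qp : Q p = 0
  qr : Q r = 0
  pr : polar Q p r = 0

variable (Q) in
/-- the nilpotent map of a line -/
def al (p r : V) : Module.End F V := (Q.polarBilin r).smulRight p - (Q.polarBilin p).smulRight r

theorem al_apply (p r v : V) : al Q p r v = polar Q r v • p - polar Q p v • r := rfl

theorem Line.pp {p r : V} (h : Line Q p r) : polar Q p p = 0 := by rw [p_self, h.qp, mul_zero]
theorem Line.rr {p r : V} (h : Line Q p r) : polar Q r r = 0 := by rw [p_self, h.qr, mul_zero]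
theorem Line.rp {p r : V} (h : Line Q p r) : polar Q r p = 0 := by rw [polar_comm, h.pr]

theorem Line.symm {p r : V} (h : Line Q p r) : Line Q r p :=
  ⟨fun s t e => (h.li t s (by rw [add_comm, e])).symm, h.qr, h.qp, h.rp⟩

theorem Line.neg {p r : V} (h : Line Q p r) : Line Q p (-r) :=
  ⟨fun s t e => (h.li s (-t) (by rw [← e]; module)).imp_right neg_eq_zero.1, h.qp,
    by rw [QuadraticMap.map_neg, h.qr], by rw [polar_neg_right, h.pr, neg_zero]⟩

theorem Line.ne {p r : V} (h : Line Q p r) : p ≠ 0 := fun e =>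
  one_ne_zero (h.li 1 0 (by simp [e])).1

theorem al_neg (p r : V) : al Q p (-r) = al Q r p := by
  ext v; simp only [al_apply, polar_neg_left]; module

theorem Line.sq {p r : V} (h : Line Q p r) : al Q p r * al Q p r = 0 := by
  ext v
  simp [al_apply, polar_sub_right, h.pp, h.rr, h.pr, h.rp]

theorem exists_one (hQ : ND Q) {p : V} (hp : p ≠ 0) : ∃ u, polar Q p u = 1 := by
  obtain ⟨u, hu⟩ : ∃ u, polar Q p u ≠ 0 := by
    by_contra h; push Not at h; exact hp (hQ p h)
  exact ⟨(polar Q p u)⁻¹ • u, by rw [p_smul_right, inv_mul_cancel₀ hu]⟩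

theorem exists_dual (hQ : ND Q) {p r : V} (h : ∀ s t : F, s • p + t • r = 0 → s = 0 ∧ t = 0) :
    ∃ u w, polar Q p u = 1 ∧ polar Q r u = 0 ∧ polar Q p w = 0 ∧ polar Q r w = 1 := by
  obtain ⟨u, hu⟩ := exists_one hQ (p := p) fun e => one_ne_zero (h 1 0 (by simp [e])).1
  obtain ⟨w, hw⟩ := exists_one hQ (p := r - polar Q r u • p) fun e =>
    one_ne_zero (h (-polar Q r u) 1 (by rw [← e]; module)).2
  rw [polar_sub_left, p_smul_left] at hw
  refine ⟨u - polar Q r u • (w - polar Q p w • u), w - polar Q p w • u, ?_, ?_, ?_, ?_⟩ <;>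
    simp only [polar_sub_right, p_smul_right, hu]
  · ring
  · linear_combination (-polar Q r u) * hw
  · ring
  · linear_combination hw

/-- the pairing of two lines -/
def DD (Q : QuadraticForm F V) (p r p' r' : V) : F :=
  polar Q r p' * polar Q p r' - polar Q r r' * polar Q p p'

theorem aba (p r p' r' : V) :
    al Q p r * al Q p' r' * al Q p r = DD Q p r p' r' • al Q p r := by
  ext v
  simp only [Module.End.mul_apply, al_apply, LinearMap.smul_apply, polar_sub_right, p_smul_right,
    DD, polar_comm Q r' p, polar_comm Q r' r, polar_comm Q p' p, polar_comm Q p' r]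
  module

theorem DD_symm (p r p' r' : V) : DD Q p' r' p r = DD Q p r p' r' := by
  simp only [DD, polar_comm Q r' p, polar_comm Q r' r, polar_comm Q p' p, polar_comm Q p' r]; ring

theorem opp {p r p' r' : V} (h : DD Q p r p' r' ≠ 0) : Opp F (al Q p r) (al Q p' r') :=
  ⟨_, h, aba p r p' r', by rw [aba, DD_symm]⟩

theorem factor {a b c d : F} (h : a * d - b * c = 0) :
    ∃ u₁ u₂ w₁ w₂ : F, c = u₁ * w₁ ∧ d = u₁ * w₂ ∧ a = u₂ * w₁ ∧ b = u₂ * w₂ := by
  by_cases hc : c = 0
  · by_cases hd : d = 0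
    · exact ⟨0, 1, a, b, by simp [hc], by simp [hd], by simp, by simp⟩
    · refine ⟨d, b, 0, 1, by simp [hc], by simp, ?_, by simp⟩
      rw [hc, mul_zero, sub_zero] at h
      simpa [hd] using h
  · refine ⟨c, a, 1, d / c, by simp, by field_simp, by simp, ?_⟩
    field_simp
    linear_combination -h

theorem al_eq_zero {x y : V} (h : ¬ ∀ s t : F, s • x + t • y = 0 → s = 0 ∧ t = 0) : al Q x y = 0 := by
  push Not at h
  obtain ⟨s, t, h1, h2⟩ := h
  by_cases hs : s = 0
  · have : y = 0 := by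
      rw [hs, zero_smul, zero_add] at h1
      exact (smul_eq_zero.1 h1).resolve_left (h2 hs)
    ext v; simp [al_apply, this]
  · have : x = (-t / s) • y := by
      apply smul_right_injective V hs
      show s • x = s • (-t / s) • y
      rw [smul_smul, mul_div_cancel₀ _ hs]
      linear_combination (norm := module) h1
    ext v
    simp only [al_apply, this, p_smul_left, LinearMap.zero_apply]
    module

variable (Q) in
/-- the parameters -/
def PP (α : Module.End F V) : Prop := ∃ p r, Line Q p r ∧ α = al Q p r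

theorem tri {α β : Module.End F V} (ha : PP Q α) (hb : PP Q β) : α * β = β * α ∨ Opp F α β ∨
    (α * β * α = 0 ∧ β * α * β = 0 ∧ PP Q (α * β - β * α)) := by
  obtain ⟨p, r, h, rfl⟩ := ha
  obtain ⟨p', r', h', rfl⟩ := hb
  by_cases hD : DD Q p r p' r' = 0
  swap
  · exact Or.inr (Or.inl (opp hD))
  obtain ⟨u₁, u₂, w₁, w₂, e1, e2, e3, e4⟩ := factor hD
  have key : al Q p r * al Q p' r' - al Q p' r' * al Q p r =
      al Q (w₂ • p' - w₁ • r') (u₂ • p - u₁ • r) := by
    ext v
    simp only [Module.End.mul_apply, al_apply, LinearMap.sub_apply, polar_sub_right, p_smul_right,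
      polar_sub_left, p_smul_left,
      polar_comm Q r' p, polar_comm Q r' r, polar_comm Q p' p, polar_comm Q p' r, e1, e2, e3, e4]
    module
  by_cases hl : ∀ s t : F, s • (w₂ • p' - w₁ • r') + t • (u₂ • p - u₁ • r) = 0 → s = 0 ∧ t = 0
  · refine Or.inr (Or.inr ⟨by rw [aba, hD, zero_smul], by rw [aba, DD_symm, hD, zero_smul],
      _, _, ⟨hl, ?_, ?_, ?_⟩, key⟩)
    · simp [q_sub, q_smul, h'.qp, h'.qr, h'.pr]
    · simp [q_sub, q_smul, h.qp, h.qr, h.pr]
    · simp only [polar_sub_right, p_smul_right, polar_sub_left, p_smul_left,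
        polar_comm Q r' p, polar_comm Q r' r, polar_comm Q p' p, polar_comm Q p' r, e1, e2, e3, e4]
      ring
  · rw [al_eq_zero hl] at key
    exact Or.inl (sub_eq_zero.1 key)

variable {G : Type*} [Group G] {ι : G →* Module.End F V}

theorem iota_inv_apply (g : G) (v : V) : ι g (ι g⁻¹ v) = v := by
  rw [← Module.End.mul_apply, ← map_mul, mul_inv_cancel, map_one, Module.End.one_apply]

theorem good (hQ : ND Q) (hι : Function.Injective ι) (h1 : ∀ g v, Q (ι g v) = Q v)
    (h2 : ∀ f : OG Q, ∃ g, ∀ v, ι g v = f.1 v) : Good F ι (PP Q) where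
  inj := hι
  sq := by rintro _ ⟨p, r, h, rfl⟩; exact h.sq
  ne := by
    rintro _ ⟨p, r, h, rfl⟩ e
    obtain ⟨u, hu⟩ := exists_one hQ h.symm.ne
    have := al_apply (Q := Q) p r u
    rw [e, hu] at this
    exact one_ne_zero (h.li 1 (-polar Q p u) (by
      rw [neg_smul, ← sub_eq_add_neg, ← this]; rfl)).1
  full := by
    rintro _ ⟨p, r, h, rfl⟩ t
    obtain ⟨g, hg⟩ := h2 (eich Q p (t • r))
    refine ⟨g, LinearMap.ext fun v => ?_⟩
    rw [hg, eich_apply h.qp (by rw [p_smul_right, h.pr, mul_zero])]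
    simp only [q_smul, h.qr, p_smul_left, LinearMap.add_apply, LinearMap.smul_apply, al_apply,
      Module.End.one_apply]
    module
  conj := by
    rintro _ ⟨p, r, h, rfl⟩ g
    have hp := polar_of_isom (ι g) (h1 g)
    refine ⟨ι g p, ι g r, ⟨fun s t e => h.li s t ?_, by rw [h1, h.qp], by rw [h1, h.qr],
      by rw [hp, h.pr]⟩, LinearMap.ext fun v => ?_⟩
    · have := iota_inv_apply (ι := ι) g⁻¹ (s • p + t • r)
      rw [inv_inv, map_add, map_smul, map_smul, e, map_zero] at this
      exact this.symm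
    · simp only [Module.End.mul_apply, al_apply, map_sub, map_smul]
      rw [← hp r, ← hp p, iota_inv_apply]
  tri _ _ := tri

theorem mem_iff (hQ : ND Q) (h1 : ∀ g v, Q (ι g v) = Q v) {p r : V} (h : Line Q p r) (g : G) :
    (∀ v, polar Q v p = 0 → polar Q v r = 0 → ι g v = v) ↔ g ∈ TG F ι (al Q p r) h.sq := by
  constructor
  · intro hg
    have hp := polar_of_isom (ι g) (h1 g)
    obtain ⟨u, w, e1, e2, e3, e4⟩ := exists_dual hQ h.li
    have k1 : ∀ v, ι g (v - polar Q p v • u - polar Q r v • w) =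
        v - polar Q p v • u - polar Q r v • w := fun v => by
      apply hg <;> rw [polar_comm] <;> simp [polar_sub_right, e1, e2, e3, e4]
    have k2 : ∀ x, ι g x = x + polar Q (ι g x - x) u • p + polar Q (ι g x - x) w • r := fun x => by
      rw [← sub_eq_zero]
      apply hQ
      intro v
      have := hp x (v - polar Q p v • u - polar Q r v • w)
      rw [k1] at this
      simp only [polar_sub_right, p_smul_right, polar_sub_left, polar_add_left, p_smul_left] at this ⊢
      linear_combination this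
    obtain ⟨a, b, hu⟩ : ∃ a b : F, ι g u = u + a • p + b • r := ⟨_, _, k2 u⟩
    obtain ⟨c, d, hw⟩ : ∃ c d : F, ι g w = w + c • p + d • r := ⟨_, _, k2 w⟩
    have q1 := h1 g u
    have q2 := h1 g w
    have q3 := hp u w
    rw [hu] at q1
    rw [hw] at q2
    rw [hu, hw] at q3
    simp only [q_add, q_smul, h.qp, h.qr, polar_add_left, polar_add_right, p_smul_left, p_smul_right,
      polar_comm Q u p, polar_comm Q u r, polar_comm Q w p, polar_comm Q w r, e1, e2, e3, e4,
      h.pp, h.rr, h.pr, h.rp] at q1 q2 q3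
    have ha : a = 0 := by linear_combination q1
    have hd : d = 0 := by linear_combination q2
    have hb : b = -c := by linear_combination q3
    refine ⟨c, LinearMap.ext fun v => ?_⟩
    have := k1 v
    rw [map_sub, map_sub, map_smul, map_smul, hu, hw, ha, hd, hb] at this
    simp only [LinearMap.add_apply, LinearMap.smul_apply, al_apply, Module.End.one_apply]
    linear_combination (norm := module) this
  · rintro ⟨t, ht⟩ v e1 e2
    rw [polar_comm] at e1 e2
    simp [ht, al_apply, e1, e2]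

variable (Q) in
/-- reachability -/
abbrev Rch (α β : Module.End F V) : Prop := Relation.ReflTransGen (PAdj F (PP Q)) α β

theorem rch_opp {p r p' r' : V} (h : Line Q p r) (h' : Line Q p' r') (hD : DD Q p r p' r' ≠ 0) :
    Rch Q (al Q p r) (al Q p' r') :=
  Relation.ReflTransGen.single ⟨⟨p, r, h, rfl⟩, ⟨p', r', h', rfl⟩, opp hD⟩

theorem rch_pt (hQ : ND Q) {p r r' : V} (h : Line Q p r) (h' : Line Q p r') (e : polar Q r' r = 0) :
    Rch Q (al Q p r) (al Q p r') := by
  obtain ⟨w, a1, a2, a3⟩ : ∃ w, polar Q p w = 0 ∧ polar Q r w ≠ 0 ∧ polar Q r' w ≠ 0 := by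
    obtain ⟨-, w, -, -, b1, b2⟩ := exists_dual hQ h.li
    obtain ⟨-, w', -, -, c1, c2⟩ := exists_dual hQ h'.li
    by_cases d1 : polar Q r' w = 0
    · by_cases d2 : polar Q r w' = 0
      · exact ⟨w + w', by simp [polar_add_right, b1, c1], by simp [polar_add_right, b2, d2],
          by simp [polar_add_right, c2, d1]⟩
      · exact ⟨w', c1, d2, by simp [c2]⟩
    · exact ⟨w, b1, by simp [b2], d1⟩
  obtain ⟨y, y1, y2, y3, y4⟩ : ∃ y, polar Q p y = 0 ∧ polar Q r y ≠ 0 ∧ polar Q r' y ≠ 0 ∧ Q y = 0 := by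
    refine ⟨w - (Q w / polar Q r w) • r, ?_, ?_, ?_, ?_⟩
    · simp [polar_sub_right, a1, h.pr]
    · simpa [polar_sub_right, h.qr] using a2
    · simpa [polar_sub_right, e] using a3
    · rw [q_sub, q_smul, h.qr, p_smul_right, polar_comm Q w r]; field_simp; ring
  obtain ⟨x, -, x1, x2, -, -⟩ := exists_dual hQ (p := p) (r := y) fun s t e => by
    have := congrArg (polar Q r) e
    rw [polar_add_right, p_smul_right, p_smul_right, h.rp, polar_zero_right, mul_zero,
      zero_add] at this
    have ht : t = 0 := (mul_eq_zero.1 this).resolve_right y2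
    rw [ht, zero_smul, add_zero] at e
    exact ⟨(smul_eq_zero.1 e).resolve_right h.ne, ht⟩
  have z1 : polar Q p (x - Q x • p) = 1 := by simp [polar_sub_right, x1, h.qp]
  have hl : Line Q (x - Q x • p) y := by
    refine ⟨fun s t e => ?_, ?_, y4, ?_⟩
    · have := congrArg (polar Q p) e
      rw [polar_add_right, p_smul_right, p_smul_right, z1, y1, polar_zero_right, mul_zero,
        add_zero, mul_one] at this
      rw [this, zero_smul, zero_add] at e
      exact ⟨this, (smul_eq_zero.1 e).resolve_right (by rintro rfl; simp at y2)⟩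
    · rw [q_sub, q_smul, h.qp, p_smul_right, polar_comm Q x p, x1]; ring
    · rw [polar_sub_left, p_smul_left, y1, polar_comm, x2]; ring
  exact (rch_opp h hl (by simpa [DD, y1, z1] using y2)).trans
    (rch_opp hl h' (by rw [DD_symm]; simpa [DD, y1, z1] using y3))

theorem rch_swap (hQ : ND Q) {p r : V} (h : Line Q p r) : Rch Q (al Q p r) (al Q r p) := by
  rw [← al_neg p r]
  exact rch_pt hQ h h.neg (by rw [polar_neg_left, h.rr, neg_zero])

theorem rch_symm {α β : Module.End F V} (h : Rch Q α β) : Rch Q β α := by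
  induction h with
  | refl => exact Relation.ReflTransGen.refl
  | tail _ h2 ih =>
    obtain ⟨a, b, c, d, e, f⟩ := h2
    exact Relation.ReflTransGen.head ⟨b, a, c, d, f, e⟩ ih

section
variable (hQ : ND Q) {W : Submodule F V} (hW : ∀ v ∈ W, Q v = 0)
  (hW' : ∀ v, (∀ w ∈ W, polar Q v w = 0) → v ∈ W)
  (hW3 : ∀ a b, ∃ z ∈ W, z ≠ 0 ∧ polar Q a z = 0 ∧ polar Q b z = 0)

include hW in
theorem polar_W {v w : V} (hv : v ∈ W) (hw : w ∈ W) : polar Q v w = 0 := by
  rw [polar, hW _ (add_mem hv hw), hW v hv, hW w hw]; simp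

include hQ hW in
theorem rch_W {p r p' r' : V} (h : Line Q p r) (h' : Line Q p' r') (hp : p ∈ W) (hr : r ∈ W)
    (hp' : p' ∈ W) (hr' : r' ∈ W) : Rch Q (al Q p r) (al Q p' r') := by
  have key : ∀ {x y : V}, Line Q x y → x ∈ W → y ∈ W →
      (∀ s t : F, s • p + t • x = 0 → s = 0 ∧ t = 0) → Rch Q (al Q p r) (al Q x y) := by
    intro x y hl hx hy hi
    have h1 : Line Q p x := ⟨hi, h.qp, hl.qp, polar_W hW hp hx⟩
    exact ((rch_pt hQ h h1 (polar_W hW hx hr)).trans (rch_swap hQ h1)).trans
      (rch_pt hQ h1.symm hl (polar_W hW hy hp))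
  by_cases h1 : ∀ s t : F, s • p + t • p' = 0 → s = 0 ∧ t = 0
  · exact key h' hp' hr' h1
  · refine (key h'.symm hr' hp' fun s t e => ?_).trans (rch_swap hQ h'.symm)
    push Not at h1
    obtain ⟨a, b, e1, e2⟩ := h1
    have hb : b ≠ 0 := by
      rintro rfl
      rw [zero_smul, add_zero] at e1
      exact e2 ((smul_eq_zero.1 e1).resolve_right h.ne) rfl
    have ha : a ≠ 0 := by
      rintro rfl
      rw [zero_smul, zero_add] at e1
      exact h'.ne ((smul_eq_zero.1 e1).resolve_left hb)
    obtain ⟨c1, c2⟩ := h'.li (-(s * b)) (a * t) (by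
      linear_combination (norm := module) a • e - s • e1)
    exact ⟨(mul_eq_zero.1 (neg_eq_zero.1 c1)).resolve_right hb, (mul_eq_zero.1 c2).resolve_left ha⟩

include hQ hW hW3 in
theorem to_W1 {p r : V} (h : Line Q p r) (hp : p ∈ W) :
    ∃ x y, Line Q x y ∧ x ∈ W ∧ y ∈ W ∧ Rch Q (al Q p r) (al Q x y) := by
  obtain ⟨u, hu⟩ := exists_one hQ h.ne
  obtain ⟨z, hz, z0, z1, z2⟩ := hW3 r u
  have hl : Line Q p z := by
    refine ⟨fun s t e => ?_, h.qp, hW z hz, polar_W hW hp hz⟩
    have := congrArg (polar Q u) e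
    rw [polar_add_right, p_smul_right, p_smul_right, z2, polar_comm Q u p, hu, polar_zero_right,
      mul_zero, add_zero, mul_one] at this
    rw [this, zero_smul, zero_add] at e
    exact ⟨this, (smul_eq_zero.1 e).resolve_right z0⟩
  exact ⟨p, z, hl, hp, hz, rch_pt hQ h hl (by rw [polar_comm, z1])⟩

include hQ hW hW' hW3 in
theorem to_W {p r : V} (h : Line Q p r) :
    ∃ x y, Line Q x y ∧ x ∈ W ∧ y ∈ W ∧ Rch Q (al Q p r) (al Q x y) := by
  by_cases hp : p ∈ W
  · exact to_W1 hQ hW hW3 h hp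
  obtain ⟨x, hx, x1⟩ : ∃ x ∈ W, polar Q p x = 1 := by
    obtain ⟨x, hx, x1⟩ : ∃ x ∈ W, polar Q p x ≠ 0 := by
      by_contra hn; push Not at hn; exact hp (hW' p hn)
    exact ⟨(polar Q p x)⁻¹ • x, W.smul_mem _ hx, by rw [p_smul_right, inv_mul_cancel₀ x1]⟩
  have hl : Line Q p (r - polar Q r x • p) := by
    refine ⟨fun s t e => ?_, h.qp, by simp [q_sub, q_smul, h.qp, h.qr, h.rp],
      by simp [polar_sub_right, h.pr, h.qp]⟩
    obtain ⟨c1, c2⟩ := h.li (s - t * polar Q r x) t (by rw [← e]; module)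
    rw [c2, zero_mul, sub_zero] at c1
    exact ⟨c1, c2⟩
  by_cases hz : r - polar Q r x • p ∈ W
  · obtain ⟨a, b, l, ha, hb, hr⟩ := to_W1 hQ hW hW3 hl.symm hz
    refine ⟨a, b, l, ha, hb, ((rch_pt hQ h hl ?_).trans (rch_swap hQ hl)).trans hr⟩
    simp [polar_sub_left, h.qr, h.pr]
  obtain ⟨y, hy, y1⟩ : ∃ y ∈ W, polar Q (r - polar Q r x • p) y ≠ 0 := by
    by_contra hn; push Not at hn; exact hz (hW' _ hn)
  have hy' : y - polar Q p y • x ∈ W := W.sub_mem hy (W.smul_mem _ hx)
  have y2 : polar Q p (y - polar Q p y • x) = 0 := by simp [polar_sub_right, x1]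
  have y3 : polar Q r (y - polar Q p y • x) ≠ 0 := by
    rw [polar_sub_left, p_smul_left] at y1
    rw [polar_sub_right, p_smul_right, mul_comm]; exact y1
  have hl' : Line Q x (y - polar Q p y • x) := by
    refine ⟨fun s t e => ?_, hW x hx, hW _ hy', polar_W hW hx hy'⟩
    have := congrArg (polar Q p) e
    rw [polar_add_right, p_smul_right, p_smul_right, y2, x1, polar_zero_right,
      mul_zero, add_zero, mul_one] at this
    rw [this, zero_smul, zero_add] at e
    exact ⟨this, (smul_eq_zero.1 e).resolve_right (fun e' => y3 (by rw [e', polar_zero_right]))⟩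
  exact ⟨_, _, hl', hx, hy', rch_opp h hl' (by simpa only [DD, y2, x1, mul_zero, mul_one, zero_sub,
    neg_ne_zero] using y3)⟩

include hQ hW hW' hW3 in
theorem conn (α β : Module.End F V) (ha : PP Q α) (hb : PP Q β) : Rch Q α β := by
  obtain ⟨p, r, h, rfl⟩ := ha
  obtain ⟨p', r', h', rfl⟩ := hb
  obtain ⟨x, y, l, hx, hy, e⟩ := to_W hQ hW hW' hW3 h
  obtain ⟨x', y', l', hx', hy', e'⟩ := to_W hQ hW hW' hW3 h'
  exact (e.trans (rch_W hQ hW l l' hx hy hx' hy')).trans (rch_symm e')

end

end Cfsg.Agent.Elu.Sieg
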