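import Mathlib
import Cfsg.Agent.Orth.Class2
import Cfsg.Agent.Conj.SsForm
import Cfsg.Agent.Classical.SpSimple

/-! The Zassenhaus formula for the spinor norm; determinants of similarities of alternating forms. -/

set_option autoImplicit false
set_option backward.isDefEq.respectTransparency false

namespace Cfsg.Agent.Elu.Zas

open Module QuadraticMap Matrix Cfsg.Agent.Orth Cfsg.Agent.Conj

variable {F V : Type*} [Field F] [AddCommGroup V] [Module F V] [FiniteDimensional F V]
  {Q : QuadraticForm F V}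

theorem det_alt {B : LinearMap.BilinForm F V} (hB : B.Nondegenerate) (hA : B.IsAlt) {c : End F V}
    {μ : F} (hμ : μ ≠ 0) (h : ∀ x y, B (c x) (c y) = μ * B x y) :
    LinearMap.det c = μ ^ (finrank F V / 2) := by
  obtain ⟨m, b, hm, hb⟩ := Classical.SpSimple.exists_basis_J hB hA
  have hJ : LinearMap.BilinForm.toMatrix b B = J (Fin m) F := by
    ext i j; rw [LinearMap.BilinForm.toMatrix_apply, hb]
  set A := LinearMap.toMatrix b b c with hAc
  have h1 : Aᵀ * J (Fin m) F * A = μ • J (Fin m) F := by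
    rw [← hJ, hAc, ← LinearMap.BilinForm.toMatrix_comp b b B c c]
    ext i j
    simp [LinearMap.BilinForm.toMatrix_apply, h]
  let D : Matrix (Fin m ⊕ Fin m) (Fin m ⊕ Fin m) F := fromBlocks (μ⁻¹ • 1) 0 0 1
  have h2 : Dᵀ * J (Fin m) F * D = μ⁻¹ • J (Fin m) F := by
    simp [D, J, fromBlocks_transpose, fromBlocks_multiply, fromBlocks_smul]
  have h3 : A * D ∈ symplecticGroup (Fin m) F := by
    rw [SymplecticGroup.mem_iff', transpose_mul]
    calc Dᵀ * Aᵀ * J (Fin m) F * (A * D) = Dᵀ * (Aᵀ * J (Fin m) F * A) * D := by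
          simp only [Matrix.mul_assoc]
      _ = _ := by rw [h1, Matrix.mul_smul, Matrix.smul_mul, h2, smul_smul, mul_inv_cancel₀ hμ, one_smul]
  have h4 := SymplecticGroup.det_eq_one h3
  rw [det_mul, hAc, LinearMap.det_toMatrix] at h4
  simp only [D, det_fromBlocks_zero₁₂, det_smul, det_one, mul_one, Fintype.card_fin] at h4
  rw [hm, Nat.mul_div_cancel_left _ two_pos]
  rw [inv_pow] at h4
  exact (mul_inv_eq_one₀ (pow_ne_zero _ hμ)).1 h4

theorem det_adj {B : LinearMap.BilinForm F V} {ε : F} (hB : EF B ε) (c : End F V) :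
    LinearMap.det (hB.adj c) = LinearMap.det c := by
  let b := finBasis F V
  have hn : B.Nondegenerate := ⟨hB.nd, fun x hx => hB.nd x fun y => hB.zero_symm (hx y)⟩
  have h0 : (LinearMap.BilinForm.toMatrix b B).det ≠ 0 :=
    (LinearMap.BilinForm.nondegenerate_iff_det_ne_zero b).1 hn
  have h1 := LinearMap.BilinForm.toMatrix_compLeft b B (hB.adj c)
  have h2 := LinearMap.BilinForm.toMatrix_compRight b B c
  have h3 : B.compLeft (hB.adj c) = B.compRight c := by
    ext x y; simp [hB.adj_apply]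
  rw [h3, h2] at h1
  have h4 := congrArg det h1
  rw [det_mul, det_mul, det_transpose, LinearMap.det_toMatrix, LinearMap.det_toMatrix,
    mul_comm] at h4
  exact (mul_right_cancel₀ h0 h4).symm

variable [Finite F]

theorem sqSpin_of_odd (hQ : ND Q) (h2 : (2 : F) ≠ 0) {D : OG Q} {k : ℕ} (hk : Odd k)
    (h : D ^ k = 1) : SqSpin D := by
  obtain ⟨l, rfl⟩ := hk
  have : D = D ^ (l + 1) * D ^ (l + 1) := by
    rw [← pow_add, show l + 1 + (l + 1) = 2 * l + 1 + 1 by ring, pow_succ, h, one_mul]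
  rw [this]
  exact ((hQ.mem_commutator_iff (good_of_two_ne_zero h2) _).1
    (hQ.sq_mem_commutator (good_of_two_ne_zero h2) _)).2

theorem sqSpin_of_quad (hQ : ND Q) (h2 : (2 : F) ≠ 0) {D : OG Q}
    (h : ∀ v, D.1 (D.1 v - v) = D.1 v - v) : SqSpin D := by
  obtain ⟨p, hp⟩ := CharP.exists F
  have hpp := CharP.char_is_prime F p
  have hp2 : p ≠ 2 := by
    rintro rfl
    exact h2 (CharP.cast_eq_zero F 2)
  refine sqSpin_of_odd hQ h2 (hpp.odd_of_ne_two hp2) (OG.ext fun v => ?_)
  have : ∀ k : ℕ, (D ^ k).1 v = v + (k : F) • (D.1 v - v) := by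
    intro k
    induction k with
    | zero => simp
    | succ k ih =>
      rw [pow_succ', OG.mul_apply, ih, map_add, map_smul, h]
      push_cast
      module
  rw [this, CharP.cast_eq_zero F p]; simp

omit [Finite F] in
theorem exists_psi (hQ : ND Q) {n : ℕ} (b : Basis (Fin n) F V) :
    ∃ ψ : (V × V) ≃ₗ[F] (Fin n ⊕ Fin n → F), (∀ x y, plusQ n F (ψ (x, y)) = polar Q x y) ∧
      ∀ x, ψ (x, 0) = Sum.elim (b.equivFun x) 0 := by
  let f : (V × V) →ₗ[F] (Fin n ⊕ Fin n → F) :=
    { toFun := fun z => Sum.elim (b.equivFun z.1) fun i => polar Q (b i) z.2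
      map_add' := fun z w => by ext (i | i) <;> simp [polar_add_right]
      map_smul' := fun c z => by ext (i | i) <;> simp }
  have hf : ∀ x y, plusQ n F (f (x, y)) = polar Q x y := fun x y => by
    conv_rhs => rw [← b.sum_repr x, p_sum_left]
    simp [plusQ_apply, f]
  have hi : Function.Injective f := by
    rw [injective_iff_map_eq_zero]
    rintro ⟨x, y⟩ h
    have h1 : x = 0 := b.equivFun.injective (by ext i; simpa [f] using congrFun h (.inl i))
    have h2 : y = 0 := hQ y fun z => by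
      rw [polar_comm, ← b.sum_repr z, p_sum_left]
      refine Finset.sum_eq_zero fun i _ => ?_
      rw [p_smul_left, show polar Q (b i) y = 0 from congrFun h (.inr i), mul_zero]
    rw [h1, h2]; rfl
  refine ⟨LinearMap.linearEquivOfInjective f hi (by simp [finrank_eq_card_basis b]), hf, fun x => ?_⟩
  ext (i | i) <;> simp [f]

theorem zassenhaus (hQ : ND Q) (h2 : (2 : F) ≠ 0) (g : OG Q) {P : End F V} (hu : IsUnit P)
    (hP : ∀ v, P v = (2 : F)⁻¹ • (v + g.1 v)) : SqSpin g ↔ IsSquare (LinearMap.det P) := by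
  let b := finBasis F V
  set n := finrank F V
  obtain ⟨ψ, h1, h3⟩ := exists_psi hQ b
  have hR := nd_plusQ (F := F) n
  have hg := good_of_two_ne_zero (V := Fin n ⊕ Fin n → F) h2
  have hp : ∀ x y x' y', polar (plusQ n F) (ψ (x, y)) (ψ (x', y')) = polar Q x y' + polar Q x' y := by
    intro x y x' y'
    rw [polar, ← map_add, Prod.mk_add_mk, h1, h1, h1]
    simp only [polar_add_left, polar_add_right]; ring
  let e₀ : (V × V) ≃ₗ[F] (V × V) :=
    { toFun := fun z => (z.1 + z.2, (2 : F)⁻¹ • (z.1 - z.2))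
      invFun := fun z => ((2 : F)⁻¹ • z.1 + z.2, (2 : F)⁻¹ • z.1 - z.2)
      map_add' := fun z w => by ext <;> simp <;> module
      map_smul' := fun c z => by ext <;> simp <;> module
      left_inv := fun z => by ext <;> simp only <;> match_scalars <;> field_simp <;> ring
      right_inv := fun z => by ext <;> simp only <;> match_scalars <;> field_simp <;> ring }
  let e : (Q.prod (-Q)).IsometryEquiv (plusQ n F) := ⟨e₀.trans ψ, fun z => by
    show plusQ n F (ψ (z.1 + z.2, (2 : F)⁻¹ • (z.1 - z.2))) = _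
    rw [h1, p_smul_right, polar_add_left, polar_sub_right, polar_sub_right, p_self, p_self,
      polar_comm Q z.2 z.1]
    simp; field_simp; ring⟩
  have he : ∀ x y, e (x, y) = ψ (x + y, (2 : F)⁻¹ • (x - y)) := fun _ _ => rfl
  obtain ⟨P', hP'⟩ := hu.exists_right_inv
  have hP1 : ∀ v, P (P' v) = v := fun v => by rw [← End.mul_apply, hP', End.one_apply]
  have hP2 : ∀ v, P' (P v) = v := fun v => by
    rw [← End.mul_apply, mul_eq_one_comm.1 hP', End.one_apply]
  let S : End F V := (4 : F)⁻¹ • ((g.1.toLinearMap - 1) * P')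
  have hS : ∀ v, S (P v) = (4 : F)⁻¹ • (g.1 v - v) := fun v => by simp [S, hP2]
  have hS' : ∀ v, polar Q v (S v) = 0 := fun v => by
    rw [← hP1 v, hS, hP, p_smul_left, p_smul_right, polar_add_left, polar_sub_right,
      polar_sub_right, OG.map_polar, polar_comm Q (g.1 _) (P' v)]
    ring
  let U₀ : End F (V × V) := 1 + (LinearMap.inr F V V).comp (S.comp (LinearMap.fst F V V))
  have hU₀ : ∀ x y, U₀ (x, y) = (x, y + S x) := fun x y => by simp [U₀]
  let U : OG (plusQ n F) := hR.ogOfLin (ψ.toLinearMap.comp (U₀.comp ψ.symm.toLinearMap)) fun v => by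
    obtain ⟨⟨x, y⟩, rfl⟩ := ψ.surjective v
    simp only [LinearMap.comp_apply, LinearEquiv.coe_coe, LinearEquiv.symm_apply_apply, hU₀, h1,
      polar_add_right, hS', add_zero]
  have hU : ∀ x y, U.1 (ψ (x, y)) = ψ (x, y + S x) := fun x y => by
    show ψ (U₀ (ψ.symm (ψ _))) = _
    rw [LinearEquiv.symm_apply_apply, hU₀]
  have sU : SqSpin U := sqSpin_of_quad hR h2 fun v => by
    obtain ⟨⟨x, y⟩, rfl⟩ := ψ.surjective v
    rw [hU, ← map_sub, Prod.mk_sub_mk, hU]; simp
  have hd : (LinearMap.toMatrix b b P).det ≠ 0 := by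
    rw [LinearMap.det_toMatrix]; exact (hu.map LinearMap.det).ne_zero
  let A := GeneralLinearGroup.mkOfDetNeZero _ hd
  have hA : ∀ x, (levi n F A).1 (ψ (x, 0)) = ψ (P x, 0) := fun x => by
    rw [levi_apply, h3, h3, fromBlocks_mulVec]
    simp only [Sum.elim_comp_inl, Sum.elim_comp_inr, mulVec_zero, zero_mulVec, add_zero]
    congr 1
    exact LinearMap.toMatrix_mulVec_repr b b P x
  have hG : ∀ x, (sumHom e (g, 1)).1 (ψ (x, 0)) = (U * levi n F A).1 (ψ (x, 0)) := fun x => by
    have : ψ (x, 0) = e ((2 : F)⁻¹ • x, (2 : F)⁻¹ • x) := by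
      rw [he]; congr 2
      · match_scalars; field_simp; ring
      · simp
    rw [OG.mul_apply, hA, hU, this, sumHom_apply, he, hS, hP]
    simp only [map_smul, OG.one_apply]
    congr 2
    · module
    · have h4 : (4 : F) ≠ 0 := by rw [show (4 : F) = 2 * 2 by norm_num]; exact mul_ne_zero h2 h2
      match_scalars <;> field_simp <;> ring
  have sD : SqSpin ((U * levi n F A)⁻¹ * sumHom e (g, 1)) := by
    set D := (U * levi n F A)⁻¹ * sumHom e (g, 1)
    have hD : ∀ x, D.1 (ψ (x, 0)) = ψ (x, 0) := fun x => by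
      rw [OG.mul_apply, hG, OG.inv_apply_self]
    refine sqSpin_of_quad hR h2 fun v => ?_
    obtain ⟨⟨x, y⟩, hxy⟩ := ψ.surjective (D.1 v - v)
    have : y = 0 := hQ y fun z => by
      have h5 := hp z 0 x y
      rw [hxy, polar_sub_right, ← hD z, OG.map_polar, hD z] at h5
      rw [polar_comm]; simpa using h5.symm
    rw [← hxy, this, hD]
  have hQ' : SqSpin (sumHom e (g, 1)) ↔ SqSpin g :=
    sqSpin_sumHom_left e hR hQ (good_of_two_ne_zero h2) g
  have e1 : sumHom e (g, 1) = U * levi n F A * ((U * levi n F A)⁻¹ * sumHom e (g, 1)) := by group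
  rw [← hQ', e1, hR.sqSpin_mul hg, hR.sqSpin_mul hg, sqSpin_levi hg, ← LinearMap.det_toMatrix b]
  simp only [sU, sD, true_iff, iff_true]
  rfl

end Cfsg.Agent.Elu.Zas
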