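import Mathlib
import Cfsg.Agent.Elu.Zas
import Cfsg.Agent.Conj.SsMat
import Cfsg.Agent.Conj.Eig
import Cfsg.Agent.Classical.GamO7

/-! Centralizers of semisimple isometries of odd order cover the diagonal automorphisms. -/

set_option autoImplicit false
set_option backward.isDefEq.respectTransparency false

namespace Cfsg.Agent.Elu.SsO

open Module QuadraticMap Cfsg.Agent.Orth Cfsg.Agent.Conj Cfsg.Agent.Elu.Zas

section alg
open scoped IsMulCommutative
variable {F A : Type*} [Field F] [Ring A] [Algebra F A] [Finite A]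

theorem norm_pair' (τ : A →+ A) (hmul : ∀ x y, τ (x * y) = τ y * τ x)
    (halg : ∀ a, τ (algebraMap F A a) = algebraMap F A a) {g h : A} (hc : g * h = h * g)
    (hg : g * τ g = 1) (hgg : τ (τ g) = g) (hu : IsUnit (g * g - 1)) (hh : IsUnit h)
    (hτ : τ h = h) : ∃ c, c * g = g * c ∧ τ c * c = h ∧ c * τ c = h := by
  obtain ⟨_, τ', h1, h2, θ, hθ⟩ := exists_res_pair τ hmul halg hc hg hgg
    (by rw [hτ]; exact Algebra.self_mem_adjoin_singleton F h) (by rw [hτ, hτ]) hu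
  have : Finite (Algebra.adjoin F {g, h}) := Subtype.finite
  obtain ⟨c, hc'⟩ := Herm.ring_norm_surj h2 hθ (h := ⟨h, Algebra.subset_adjoin (by simp)⟩)
    (isUnit_subalg _ hh) (Subtype.ext (by rw [h1]; exact hτ))
  refine ⟨c, commute_of_mem_pair hc c.2, ?_, by rw [← h1]; exact congrArg Subtype.val hc'⟩
  rw [mul_comm] at hc'
  rw [← h1]; exact congrArg Subtype.val hc'

end alg

universe u
variable {F : Type*} [Field F] {V : Type u} [AddCommGroup V] [Module F V] [FiniteDimensional F V]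
  {Q : QuadraticForm F V}

/-- no eigenvalue `±1` -/
structure Fpf (X : OG Q) : Prop where
  h1 : ∀ v, X.1 v = v → v = 0
  h2 : ∀ v, X.1 v = -v → v = 0

theorem det_comm (hQ : ND Q) {X : OG Q} (hX : Fpf X) {c : End F V} {μ : F} (hμ : μ ≠ 0)
    (hc : ∀ v, c (X.1 v) = X.1 (c v)) (h : ∀ u v, polar Q (c u) (c v) = μ * polar Q u v) :
    LinearMap.det c = μ ^ (finrank F V / 2) ∧ Even (finrank F V) := by
  let ω : LinearMap.BilinForm F V :=
    LinearMap.BilinForm.compLeft Q.polarBilin X.1.toLinearMap -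
      LinearMap.BilinForm.compRight Q.polarBilin X.1.toLinearMap
  have hω : ∀ u v, ω u v = polar Q (X.1 u) v - polar Q u (X.1 v) := fun _ _ => rfl
  have hA : ω.IsAlt := fun v => by rw [hω, polar_comm, sub_self]
  have hn : ∀ u, (∀ v, ω u v = 0) → u = 0 := fun u hu => by
    have h3 : X.1 (X.1 u) - u = 0 := hQ _ fun v => by
      have := hu (X⁻¹.1 v)
      rw [hω, OG.apply_inv_self, OG.polar_inv_right] at this
      rw [polar_sub_left, this]
    have h4 := hX.h1 (X.1 u + u) (by rw [map_add, sub_eq_zero.1 h3, add_comm])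
    exact hX.h2 u (eq_neg_of_add_eq_zero_left h4)
  have hnd : ω.Nondegenerate := ⟨hn, fun u hu => hn u fun v => by rw [← hA.neg_eq, hu, neg_zero]⟩
  refine ⟨det_alt hnd hA hμ fun u v => by rw [hω, hω, ← hc, ← hc, h, h, mul_sub], ?_⟩
  obtain ⟨m, -, hm, -⟩ := Classical.SpSimple.exists_basis_J hnd hA
  exact hm ▸ even_two_mul m

theorem det_comm_og (hQ : ND Q) {X c : OG Q} (hX : Fpf X) (hc : c * X = X * c) : detO Q c = 1 := by
  have := (det_comm hQ hX (c := c.1.toLinearMap) one_ne_zero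
    (fun v => congrArg (fun g : OG Q => g.1 v) hc) (fun u v => by simp)).1
  rwa [one_pow] at this

variable [Finite F]

theorem indec (hQ : ND Q) (h2 : (2 : F) ≠ 0) [Nontrivial V] {X : OG Q} (hX : Fpf X) {N : ℕ}
    (hN : (N : F) ≠ 0) (hXN : X ^ N = 1)
    (hI : ∀ W : Submodule F V, W ⊓ perp Q W = ⊥ → X ∈ stab Q W → W = ⊥ ∨ W = ⊤) :
    ∃ c : OG Q, c * X = X * c ∧ ¬ SqSpin c := by
  haveI : Finite V := Module.finite_of_finite F
  haveI : Finite (End F V) := Module.finite_of_finite F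
  have hB := ef_polar hQ
  set x : End F V := subRep _ X with hx
  have hxv : ∀ v, x v = X.1 v := fun _ => rfl
  have a1 : hB.adj x * x = 1 := (hB.adj_mul_eq_one_iff x).2 fun u v => OG.map_polar X u v
  have a2 : x * hB.adj x = 1 := mul_eq_one_comm.1 a1
  have hu : IsUnit (x * x - 1) := isUnit_sq_sub_one hX.h1 hX.h2
  have np : ∀ h : End F V, x * h = h * x → IsUnit h → hB.adj h = h →
      ∃ c, c * x = x * c ∧ hB.adj c * c = h ∧ c * hB.adj c = h := fun h e1 e2 e3 =>
    norm_pair' (F := F) hB.adj hB.adj_mul (fun a => hB.adj_algebraMap a) e1 a2 (hB.adj_adj x) hu e2 e3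
  have cadj : ∀ c : End F V, Commute c x → Commute (hB.adj c) x := fun c hc => by
    have h1 := congrArg hB.adj hc.eq
    rw [hB.adj_mul, hB.adj_mul] at h1
    calc hB.adj c * x = x * (hB.adj x * hB.adj c) * x := by rw [← mul_assoc, a2, one_mul]
      _ = x * hB.adj c := by rw [h1, mul_assoc, mul_assoc, a1, mul_one]
  have iso : ∀ c : End F V, hB.adj c * c = 1 → ∀ v, Q (c v) = Q v := fun c hc v => by
    have := (hB.adj_mul_eq_one_iff c).1 hc v v
    simp only [polarBilin_apply_apply, p_self] at this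
    exact mul_left_cancel₀ h2 this
  have dich : ∀ h : End F V, Commute h x → hB.adj h = h → IsUnit h ∨ IsNilpotent h := by
    intro h e1 e2
    obtain ⟨n, hn, hn1⟩ := (h.eventually_isCompl_ker_pow_range_pow.and
      (Filter.eventually_ge_atTop 1)).exists
    have hp : perp Q (LinearMap.range (h ^ n)) ≤ LinearMap.ker (h ^ n) := fun v hv =>
      hQ _ fun w => by
        have := hB.adj_apply (h ^ n) v w
        rw [hB.adj_pow, e2] at this
        exact this.trans (mem_perp'.1 hv _ ⟨w, rfl⟩)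
    rcases hI (LinearMap.range (h ^ n)) (eq_bot_iff.2 ((inf_le_inf_left _ hp).trans
      hn.symm.disjoint.le_bot)) (mem_stab_of_le (by
        rintro _ ⟨w, rfl⟩
        exact ⟨x w, by rw [← End.mul_apply, (e1.pow_left n).eq]; rfl⟩)) with h3 | h3
    · exact Or.inr ⟨n, LinearMap.range_eq_bot.1 h3⟩
    · exact Or.inl ((isUnit_pow_iff (by omega)).1 ((LinearMap.isUnit_iff_range_eq_top _).2 h3))
  obtain ⟨δ, hδ⟩ := FiniteField.exists_nonsquare (F := F) (by
    intro h; exact h2 (by exact_mod_cast (ringChar.spec F 2).2 (h ▸ dvd_rfl)))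
  have hδ0 : δ ≠ 0 := by rintro rfl; exact hδ IsSquare.zero
  obtain ⟨c, hc, hcd⟩ := exists_commute_det_ss (squarefree_X_pow_sub_one hN)
    (aeval_of_pow (f := x) (by rw [hx, ← map_pow, hXN, map_one])) δ
  have hcu : IsUnit c := (LinearMap.isUnit_iff_isUnit_det _).2 (hcd ▸ hδ0.isUnit)
  obtain ⟨s, s1, s2, s3⟩ := np (hB.adj c * c) ((cadj c hc).mul_left hc).eq.symm
    ((hB.isUnit_adj hcu).mul hcu) (by rw [hB.adj_mul, hB.adj_adj])
  have hsu : IsUnit s := isUnit_of_mul_isUnit_right (s2 ▸ (hB.isUnit_adj hcu).mul hcu)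
  have dX : ∀ u : End F V, Commute u x → hB.adj u * u = 1 → LinearMap.det u = 1 := fun u e1 e2 => by
    have := (det_comm hQ hX (c := u) one_ne_zero (fun v => LinearMap.congr_fun e1.eq v)
      fun a b => by rw [one_mul]; exact (hB.adj_mul_eq_one_iff u).1 e2 a b).1
    rwa [one_pow] at this
  have hsd : LinearMap.det s = δ := by
    obtain ⟨t, ht⟩ := hsu.exists_right_inv
    have ht' : t * s = 1 := mul_eq_one_comm.1 ht
    have c1 : Commute t x := by
      calc t * x = t * (x * s) * t := by rw [mul_assoc, mul_assoc, ht, mul_one]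
        _ = x * t := by rw [← s1, ← mul_assoc, ht', one_mul]
    have := dX (c * t) (Commute.mul_left hc c1) (by
      rw [hB.adj_mul, mul_assoc, ← mul_assoc _ c, ← s2, ← mul_assoc, ← mul_assoc, ← hB.adj_mul, ht,
        hB.adj_one, one_mul, ht])
    have h3 : c = c * t * s := by rw [mul_assoc, ht', mul_one]
    rw [← hcd, h3, map_mul, this, one_mul]
  by_contra hall
  push Not at hall
  have key : ∀ b : End F V, Commute b x → Commute b (hB.adj b) → LinearMap.det b = δ →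
      IsNilpotent (b + hB.adj b) := by
    intro b b1 b2 b3
    refine (dich _ (b1.add_left (cadj b b1)) (by rw [map_add, hB.adj_adj, add_comm])).resolve_left
      fun hh => ?_
    have hbu : IsUnit b := (LinearMap.isUnit_iff_isUnit_det _).2 (b3 ▸ hδ0.isUnit)
    obtain ⟨t, ht⟩ := (hB.isUnit_adj hbu).exists_right_inv
    have ht' : t * hB.adj b = 1 := mul_eq_one_comm.1 ht
    have ht2 : hB.adj t * b = 1 := by
      have := congrArg hB.adj ht
      rwa [hB.adj_mul, hB.adj_adj, hB.adj_one] at this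
    have c1 : Commute t x := by
      calc t * x = t * (x * hB.adj b) * t := by rw [mul_assoc, mul_assoc, ht, mul_one]
        _ = x * t := by rw [← (cadj b b1).eq, ← mul_assoc, ht', one_mul]
    have w1 : hB.adj (b * t) * (b * t) = 1 := by
      rw [hB.adj_mul, mul_assoc, ← mul_assoc _ b, ← b2.eq, mul_assoc, ht, mul_one, ht2]
    let w : OG Q := hQ.ogOfLin (b * t) (iso _ w1)
    have hw := hall w (OG.ext fun v => LinearMap.congr_fun (b1.mul_left c1).eq v)
    have e1 : (1 : End F V) + b * t = (b + hB.adj b) * t := by rw [add_mul, ht, add_comm]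
    have hP : IsUnit ((2 : F)⁻¹ • ((b + hB.adj b) * t)) :=
      (hh.mul (IsUnit.of_mul_eq_one _ ht')).smul (Units.mk0 _ (inv_ne_zero h2))
    rw [zassenhaus hQ h2 w hP (fun v => by rw [← e1]; rfl)] at hw
    obtain ⟨d, -, d2, -⟩ := np _ (b1.add_left (cadj b b1)).eq.symm hh
      (by rw [map_add, hB.adj_adj, add_comm])
    obtain ⟨k, hk⟩ := (det_comm hQ hX (c := 1) one_ne_zero (fun _ => rfl) (by simp)).2
    have d3 : LinearMap.det t * δ = 1 := by
      rw [← b3, ← det_adj hB b, ← map_mul, ht', map_one]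
    have d4 : LinearMap.det d ≠ 0 :=
      ((isUnit_of_mul_isUnit_right (d2 ▸ hh)).map LinearMap.det).ne_zero
    rw [LinearMap.det_smul, map_mul, ← d2, map_mul, det_adj, hk, ← mul_assoc,
      show (2 : F)⁻¹ ^ (k + k) * (LinearMap.det d * LinearMap.det d) =
        ((2 : F)⁻¹ ^ k * LinearMap.det d) ^ 2 by ring,
      isSquare_sq_mul_iff (mul_ne_zero (pow_ne_zero _ (inv_ne_zero h2)) d4),
      eq_inv_of_mul_eq_one_left d3, isSquare_inv] at hw
    exact hδ hw
  have cs : Commute s x := s1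
  have cs' : Commute s (hB.adj s) := s3.trans s2.symm
  have cx : Commute x (hB.adj x) := a2.trans a1.symm
  have cs2 : Commute (hB.adj s) x := cadj s cs
  have cs3 : Commute s (hB.adj x) := by
    have := congrArg hB.adj cs2.eq
    rwa [hB.adj_mul, hB.adj_mul, hB.adj_adj, eq_comm] at this
  have cs4 : Commute (hB.adj s) (hB.adj x) := by
    have := congrArg hB.adj cs.eq
    rwa [hB.adj_mul, hB.adj_mul, eq_comm] at this
  have n1 := key s cs cs' hsd
  have n2 := key (s * x) (cs.mul_left (Commute.refl x)) (by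
    rw [hB.adj_mul]
    exact (cs3.mul_right cs').mul_left (cx.mul_right cs2.symm)) (by
    rw [map_mul, hsd, dX x (Commute.refl x) a1, mul_one])
  rw [hB.adj_mul] at n2
  have n3 : IsNilpotent ((s + hB.adj s) * hB.adj x) :=
    (cs3.add_left cs4).isNilpotent_mul_right n1
  have n4 := Commute.isNilpotent_sub (by
    refine Commute.add_left (Commute.mul_left ?_ ?_) (Commute.mul_left ?_ ?_)
    · exact ((Commute.refl s).add_right cs').mul_right cs3
    · exact (cs.symm.add_right cs2.symm).mul_right cx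
    · exact (cs3.symm.add_right cs4.symm).mul_right (Commute.refl _)
    · exact (cs'.symm.add_right (Commute.refl _)).mul_right cs4) n2 n3
  have e2 : s * x + hB.adj x * hB.adj s - (s + hB.adj s) * hB.adj x =
      s * ((x * x - 1) * hB.adj x) := by
    rw [add_mul, cs4.eq, sub_mul, mul_assoc x x, a2, mul_one, one_mul, mul_sub]; abel
  rw [e2] at n4
  exact n4.not_isUnit (hsu.mul (hu.mul (IsUnit.of_mul_eq_one _ a1)))

theorem exists_fpf (h2 : (2 : F) ≠ 0) {N : ℕ} (hN : (N : F) ≠ 0) (n : ℕ) :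
    ∀ {V : Type u} [AddCommGroup V] [Module F V] [FiniteDimensional F V] {Q : QuadraticForm F V},
      finrank F V = n → Nontrivial V → ND Q → ∀ X : OG Q, Fpf X → X ^ N = 1 →
      ∃ c : OG Q, c * X = X * c ∧ ¬ SqSpin c := by
  induction n using Nat.strong_induction_on with
  | _ n ih =>
  intro V _ _ _ Q hn _ hQ X hX hXN
  by_cases hI : ∀ W : Submodule F V, W ⊓ perp Q W = ⊥ → X ∈ stab Q W → W = ⊥ ∨ W = ⊤
  · exact indec hQ h2 hX hN hXN hI
  push Not at hI
  obtain ⟨W, h1, h3, h4, h5⟩ := hI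
  rw [← hQ.range_sumHom_splitIso h1] at h3
  obtain ⟨⟨a, b⟩, rfl⟩ := h3
  set e := splitIso (hQ.isCompl_perp h1)
  have hW := (nd_restrict_iff W).2 h1
  have ha : a ^ N = 1 := by
    rw [← map_pow, ← map_one (sumHom e)] at hXN
    exact congrArg Prod.fst (sumHom_injective e hXN)
  have hv : ∀ v : W, (sumHom e (a, b)).1 v = a.1 v := fun v => by
    have := sumHom_apply e (a, b) v 0
    simpa [e] using this
  obtain ⟨c, c1, c2⟩ := ih _ (hn ▸ Submodule.finrank_lt h5) rfl (Submodule.nontrivial_iff_ne_bot.2 h4)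
    hW a ⟨fun v h => Subtype.ext (hX.h1 v (by rw [hv, h])),
      fun v h => Subtype.ext (hX.h2 v (by rw [hv, h]; rfl))⟩ ha
  refine ⟨sumHom e (c, 1), by rw [← map_mul, ← map_mul, Prod.mk_mul_mk, Prod.mk_mul_mk, c1]; simp, ?_⟩
  rwa [sqSpin_sumHom_left e hQ hW (good_of_two_ne_zero h2)]

omit [Finite F] [FiniteDimensional F V] in
theorem neg_fpf (h2 : (2 : F) ≠ 0) {X : OG Q} {N : ℕ} (ho : Odd N) (hXN : X ^ N = 1) (v : V)
    (h : X.1 v = -v) : v = 0 := by
  have h1 : X.1 v = v := neg_fix_of_odd (g := subRep _ X) ho (by rw [← map_pow, hXN, map_one]) v h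
  have : (2 : F) • v = 0 := by rw [two_smul]; nth_rewrite 1 [← h1]; rw [h, neg_add_cancel]
  exact (smul_eq_zero.1 this).resolve_left h2

omit [Finite F] in
theorem mov_inf (hQ : ND Q) {X : OG Q} {N : ℕ} (hN : (N : F) ≠ 0) (hXN : X ^ N = 1) :
    mov X ⊓ perp Q (mov X) = ⊥ := by
  rw [hQ.perp_mov, eq_bot_iff]
  rintro v ⟨h1, h2⟩
  obtain ⟨w, hw⟩ := mem_mov.1 h1
  exact eq_zero_of_mem_Mv (g := subRep _ X) (a := 1) (squarefree_X_pow_sub_one hN)
    (aeval_of_pow (by rw [← map_pow, hXN, map_one])) (mem_Mv.2 ⟨w, by rw [one_smul]; exact hw⟩)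
    (by rw [one_smul]; exact mem_fix.1 h2)

theorem exists_spin (hQ : ND Q) (h2 : (2 : F) ≠ 0) {X : OG Q} {N : ℕ} (hN : (N : F) ≠ 0)
    (ho : Odd N) (hXN : X ^ N = 1) (h1 : X ≠ 1) :
    ∃ c : OG Q, c * X = X * c ∧ Even (rk c) ∧ ¬ SqSpin c := by
  have h3 := mov_inf hQ hN hXN
  have h4 : X ∈ stab Q (mov X) := mem_stab_of_le fun v hv => by
    have := (mov X).add_mem (sub_mem_mov X v) hv
    rwa [sub_add_cancel] at this
  rw [← hQ.range_sumHom_splitIso h3] at h4
  obtain ⟨⟨a, b⟩, hab⟩ := h4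
  set e := splitIso (hQ.isCompl_perp h3)
  have hW := (nd_restrict_iff _).2 h3
  have ha : a ^ N = 1 := by
    rw [← hab, ← map_pow, ← map_one (sumHom e)] at hXN
    exact congrArg Prod.fst (sumHom_injective e hXN)
  have hv : ∀ v : mov X, X.1 v = a.1 v := fun v => by
    have := sumHom_apply e (a, b) v 0
    rw [hab] at this
    simpa [e] using this
  have hf : Fpf a := ⟨fun v h => Subtype.ext (h3.le ⟨v.2, by
      rw [hQ.perp_mov]; exact mem_fix.2 (by rw [hv, h])⟩), neg_fpf h2 ho ha⟩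
  obtain ⟨c, c1, c2⟩ := exists_fpf h2 hN _ rfl (Submodule.nontrivial_iff_ne_bot.2 fun h =>
    h1 (OG.ext fun v => sub_eq_zero.1 (h.le (sub_mem_mov X v)))) hW a hf ha
  refine ⟨sumHom e (c, 1), ?_, ?_, ?_⟩
  · have : sumHom e (c, 1) * sumHom e (a, b) = sumHom e (a, b) * sumHom e (c, 1) := by
      rw [← map_mul, ← map_mul, Prod.mk_mul_mk, Prod.mk_mul_mk, c1]; simp
    rwa [hab] at this
  · rw [rk_sumHom, rk_one, add_zero]
    exact (hW.detO_eq_one_iff h2 c).1 (det_comm_og hW hf c1)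
  · rwa [sqSpin_sumHom_left e hQ hW (good_of_two_ne_zero h2)]

open Classical.GamO Classical.AutO

theorem exists_og_comm (hQ : ND Q) {X : OG Q} {N : ℕ} (hN : (N : F) ≠ 0)
    (ho : Odd N) (hXN : X ^ N = 1) {g : Gam Q} (hg : g.σ = 1) :
    ∃ o : OG Q, Commute ((og o)⁻¹ * g) (og X) := by
  have h1 : subRep _ X ^ N = 1 := by rw [← map_pow, hXN, map_one]
  have := (og_isConj_iff hQ (g := X) (h := cO g X) (squarefree_X_pow_sub_one hN) (aeval_of_pow h1)
    (neg_fix_of_odd ho h1)).2 ⟨g.lin hg, fun v => (cO_apply g X v).symm⟩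
  obtain ⟨o, ho⟩ := isConj_iff.1 this
  refine ⟨o, ?_⟩
  have h3 := congrArg og ho
  rw [og_cO, map_mul, map_mul, map_inv] at h3
  calc (og o)⁻¹ * g * og X = (og o)⁻¹ * (g * og X * g⁻¹) * g := by group
    _ = og X * ((og o)⁻¹ * g) := by rw [← h3]; group

theorem exists_om_comm (h : Big Q) (h2 : (2 : F) ≠ 0) (hn : Even (finrank F V)) {X : OG Q} {N : ℕ}
    (hN : (N : F) ≠ 0) (ho : Odd N) (hXN : X ^ N = 1) (h1 : X ≠ 1) {g : Gam Q} (hg : g ∈ DO Q) :
    ∃ o ∈ Om Q, Commute ((og o)⁻¹ * g) (og X) := by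
  have hQ := h.nd
  have hgd := good_of_two_ne_zero (V := V) h2
  have mulc : ∀ {o c : OG Q}, Commute ((og o)⁻¹ * g) (og X) → c * X = X * c →
      Commute ((og (o * c))⁻¹ * g) (og X) := fun {o c} e1 e2 => by
    rw [map_mul, mul_inv_rev, mul_assoc]
    exact Commute.mul_left (Commute.map e2 og).inv_left e1
  obtain ⟨o, o1, o2⟩ : ∃ o : OG Q, Even (rk o) ∧ Commute ((og o)⁻¹ * g) (og X) := by
    obtain ⟨o, o2⟩ := exists_og_comm hQ hN ho hXN (σ_of_mem_DO h hg)
    by_cases o1 : Even (rk o)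
    · exact ⟨o, o1, o2⟩
    by_cases hf : ∀ v, X.1 v = v → v = 0
    · refine absurd ((og_mem_DO h).1 ?_ hn) o1
      have c1 : ((og o)⁻¹ * g).σ = 1 := by simp [σ_of_mem_DO h hg]
      have c2 : (og o)⁻¹ * g ∈ DO Q := (mem_DO_odd h2).2 ⟨c1, fun _ => by
        rw [det_eq c1]
        refine (det_comm hQ ⟨hf, neg_fpf h2 ho hXN⟩ (Units.ne_zero _)
          (fun v => congrArg (fun a : Gam Q => a.T v) o2.eq) fun u v => ?_).1
        have := Gam.polar ((og o)⁻¹ * g) u v
        rw [c1] at this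
        exact this⟩
      have := (DO Q).mul_mem hg ((DO Q).inv_mem c2)
      simpa using this
    · push Not at hf
      obtain ⟨v, v1, v2⟩ := hf
      have h3 := hQ.nd_perp (mov_inf hQ hN hXN)
      haveI : Nontrivial (perp Q (mov X)) := Submodule.nontrivial_iff_ne_bot.2 fun e =>
        v2 (e.le (by rw [hQ.perp_mov]; exact mem_fix.2 v1))
      obtain ⟨⟨w, hw⟩, w1⟩ := h3.exists_nonsingular
      rw [hQ.perp_mov, mem_fix] at hw
      have w2 : Q w ≠ 0 := w1
      refine ⟨o * refl Q w, ?_, mulc o2 ?_⟩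
      · rw [hQ.even_rk_mul hgd]
        have := hQ.even_rk_refl_mul w2 1
        simp only [mul_one, rk_one, Even.zero, not_true, iff_false] at this
        simp [o1, this]
      · have := refl_conj X w
        rw [hw] at this
        rw [← mul_inv_eq_iff_eq_mul.1 this]
  by_cases o3 : SqSpin o
  · exact ⟨o, (hQ.mem_commutator_iff hgd o).2 ⟨o1, o3⟩, o2⟩
  obtain ⟨c, c1, c2, c3⟩ := exists_spin hQ h2 hN ho hXN h1
  refine ⟨o * c, (hQ.mem_commutator_iff hgd _).2 ⟨?_, ?_⟩, mulc o2 c1⟩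
  · rw [hQ.even_rk_mul hgd]; simp [o1, c2]
  · rw [hQ.sqSpin_mul hgd]; simp [o3, c3]

theorem conj_iff {G : Type*} [Group G] {K H : Subgroup G} (hle : K ≤ H) {x : G}
    (h : ∀ g ∈ H, ∃ k ∈ K, Commute (k⁻¹ * g) x) (y : G) : IsConjUnder K x y ↔ IsConjUnder H x y := by
  refine ⟨fun ⟨k, hk, e⟩ => ⟨k, hle hk, e⟩, fun ⟨g, hg, e⟩ => ?_⟩
  obtain ⟨k, hk, c⟩ := h g hg
  refine ⟨k, hk, ?_⟩
  calc y = k * (k⁻¹ * g * x) * g⁻¹ := by rw [e]; group
    _ = k * x * k⁻¹ := by rw [c.eq]; group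

theorem ss_classes {P : Type*} [Group P] {A : Gam Q →* MulAut P} (hA : Model A) (h2 : (2 : F) ≠ 0)
    (hn : Even (finrank F V)) {x : MulAut P} (hx : x ∈ (GO Q).map A) {r : ℕ} (hr : r.Prime)
    (hro : Odd r) (hr0 : (r : F) ≠ 0) (hxr : orderOf x = r) :
    (∀ y, (IsConjUnder (Inn P) x y ↔ IsConjUnder ((DO Q).map A) x y) ∧
      (IsConjUnder ((DO Q ⊓ ZO Q).map A) x y ↔ IsConjUnder ((DO Q).map A) x y)) ∧
    ∀ y, IsConjUnder ((ZO Q).map A) x y ↔ IsConjUnder ((GO Q).map A) x y := by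
  have h := hA.big
  haveI := nontrivial h
  have x1 : x ^ r = 1 := hxr ▸ pow_orderOf_eq_one x
  obtain ⟨k, hk⟩ := hro
  obtain ⟨X, X1, X2⟩ : ∃ X : OG Q, X ^ r = 1 ∧ A (og X) = x := by
    obtain ⟨a, ha, rfl⟩ := hx
    have ha' : a.σ = 1 := ha
    obtain ⟨c, o, e⟩ := mem_ZO.1 ((ZO Q).pow_mem (x := a * a) ⟨by simp [ha'], a.μ, by simp [ha']⟩ (k + 1))
    have e1 : A (og o) = A a := by
      rw [← hA.sc_mul c, ← e, map_pow, map_mul, ← pow_two, ← pow_mul,
        show 2 * (k + 1) = r + 1 by omega, pow_succ, x1, one_mul]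
    obtain ⟨d, hd⟩ := hA.ker.1 (show A (og o ^ r) = 1 by rw [map_pow, e1, x1])
    have hd2 : d ^ 2 = 1 := by
      have := congrArg Gam.μ hd
      rw [← map_pow, og_μ, sc_μ] at this
      exact this.symm
    refine ⟨o ^ (r + 1), og_injective ?_, by rw [map_pow, map_pow, e1, pow_succ, x1, one_mul]⟩
    rw [← pow_mul, mul_comm, pow_mul, map_pow, map_pow, hd, ← map_pow,
      show r + 1 = 2 * (k + 1) by omega, pow_mul, hd2, one_pow, map_one, map_one]
  have X3 : X ≠ 1 := by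
    rintro rfl
    rw [map_one, map_one] at X2
    rw [← X2, orderOf_one] at hxr
    exact hr.one_lt.ne hxr
  have key : ∀ g ∈ (DO Q).map A, ∃ k ∈ Inn P, Commute (k⁻¹ * g) x := by
    rintro _ ⟨g, hg, rfl⟩
    obtain ⟨o, o1, o2⟩ := exists_om_comm h h2 hn hr0 ⟨k, hk⟩ X1 X3 hg
    refine ⟨A (og o), hA.mem_inn.2 (og_mem_NO_of h o1), ?_⟩
    rw [← X2, ← map_inv, ← map_mul]
    exact o2.map A
  refine ⟨fun y => ⟨conj_iff (hA.inn_le (NO_le_DO h)) key y,
    conj_iff (Subgroup.map_mono inf_le_left) (fun g hg => ?_) y⟩,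
    conj_iff (Subgroup.map_mono ZO_le_GO) ?_⟩
  · obtain ⟨k, k1, k2⟩ := key g hg
    exact ⟨k, hA.inn_le (NO_le_SZ h) k1, k2⟩
  · rintro _ ⟨g, hg, rfl⟩
    obtain ⟨o, o2⟩ := exists_og_comm h.nd hr0 ⟨k, hk⟩ X1 hg
    refine ⟨A (og o), ⟨_, og_mem_ZO o, rfl⟩, ?_⟩
    rw [← X2, ← map_inv, ← map_mul]
    exact o2.map A

end Cfsg.Agent.Elu.SsO
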