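import Mathlib
import Cfsg.Agent.Elu.Ext2
import Cfsg.Agent.Max2.TenF

/-!
Tensor decomposition subgroups of symplectic groups.
-/

set_option autoImplicit false
set_option backward.isDefEq.respectTransparency false

namespace Cfsg.Agent.Elu

open Module Conj Spc Max2 Orth QuadraticMap TensorProduct
open Herm (UG)
open scoped _root_.Classical

universe u
variable {F : Type u} {U W V : Type*} [Field F] [AddCommGroup U] [Module F U] [AddCommGroup W]
  [Module F W] [AddCommGroup V] [Module F V] {a : End F U} {b : End F W} {f : End F V} {r : ℕ}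

theorem sim_comm : Sim (map a b) (map b a) :=
  ⟨TensorProduct.comm F U W, fun v => (TensorProduct.map_comm b a v).symm⟩

theorem map_scal (c d : F) : map (c • 1 : End F U) (d • 1 : End F W) = (c * d) • 1 := by
  rw [TensorProduct.map_smul_left, TensorProduct.map_smul_right, TensorProduct.map_one, smul_smul]

theorem scal_of_map [Nontrivial W] (h : map a b = 1) : ∃ c : F, a = c • 1 := by
  by_contra x
  obtain ⟨u, hu⟩ := exists_not_eigen (γ := a) (not_exists.1 x)
  obtain ⟨w, hw⟩ := exists_ne (0 : W)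
  have e : a u ⊗ₜ[F] b w = u ⊗ₜ w := LinearMap.congr_fun h (u ⊗ₜ w)
  refine hu (mem_span_of_tmul_eq (fun y => ?_) e)
  rw [y, tmul_zero] at e
  exact tmul_ne_zero (by rintro rfl; simp at hu) hw e.symm

variable [FiniteDimensional F U] [FiniteDimensional F W] [FiniteDimensional F V]

theorem mo_comm : finrank F (Mo (map a b)) = finrank F (Mo (map b a)) := Sim.finrank_Mo sim_comm

omit [FiniteDimensional F U] in
theorem mo_right (b : End F W) :
    finrank F (Mo (map (1 : End F U) b)) = finrank F U * finrank F (Mo b) := by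
  have : map (1 : End F U) b - 1 = (b - 1).lTensor U := by
    rw [LinearMap.lTensor_sub]; exact congrArg _ (LinearMap.lTensor_id U W).symm
  rw [Mo, this, LinearMap.lTensor_range, LinearMap.finrank_range_of_inj
    (Module.Flat.lTensor_preserves_injective_linearMap _ (Submodule.injective_subtype _)),
    finrank_tensorProduct]

omit [FiniteDimensional F U] [FiniteDimensional F W] in
theorem mv_inj (ha : Function.Injective a) {w : W} (hw : b w ∉ F ∙ w) :
    Function.Injective ((map a b - 1) ∘ₗ inW F U w) := (injective_iff_map_eq_zero _).2 fun u e => by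
  obtain ⟨φ, h1, h2⟩ := Max.exists_dual_two hw
  exact ha (by simpa [h1, h2] using congrArg (cW U φ) e)

theorem le_mo (ha : Function.Injective a) (hb : ∀ c : F, b ≠ c • 1) :
    finrank F U ≤ finrank F (Mo (map a b)) := by
  obtain ⟨w, hw⟩ := exists_not_eigen hb
  rw [← LinearMap.finrank_range_of_inj (mv_inj ha hw)]
  exact Submodule.finrank_mono (LinearMap.range_comp_le_range _ _)

theorem lt_mo (ha : Function.Injective a) (ha' : ∀ c : F, a ≠ c • 1) (hb : ∀ c : F, b ≠ c • 1)
    (h3 : 3 ≤ finrank F W) : finrank F U < finrank F (Mo (map a b)) := by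
  by_contra x
  obtain ⟨w, hw⟩ := exists_not_eigen hb
  have h1 := Submodule.eq_of_le_of_finrank_le (LinearMap.range_comp_le_range (inW F U w) (map a b - 1))
    (by rw [LinearMap.finrank_range_of_inj (mv_inj ha hw)]; exact not_lt.1 x)
  obtain ⟨z, hz⟩ : ∃ z, z ∉ Submodule.span F {w, b w} := by
    by_contra y
    have := finrank_span_pair_le (F := F) w (b w)
    rw [Submodule.eq_top_iff'.2 (fun v => not_not.1 fun e => y ⟨v, e⟩), finrank_top] at this
    omega
  obtain ⟨φ, a1, a2, a3⟩ := Max.exists_dual_three hz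
  have a4 : ∀ u, φ (b z) • a u = u := fun u => by
    obtain ⟨u', e⟩ := h1.ge (LinearMap.mem_range_self _ (u ⊗ₜ z))
    exact sub_eq_zero.1 (Eq.symm (by simpa [a1, a2, a3] using congrArg (cW U φ) e))
  refine ha' (φ (b z))⁻¹ (LinearMap.ext fun u => ?_)
  by_cases e : φ (b z) = 0
  · rw [← a4 u]; simp [e]
  · rw [LinearMap.smul_apply, End.one_apply, eq_inv_smul_iff₀ e, a4]

theorem min_le_mo (ha : Function.Injective a) (hb : Function.Injective b)
    (h : ∀ c : F, map a b ≠ c • 1) : min (finrank F U) (finrank F W) ≤ finrank F (Mo (map a b)) := by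
  by_cases x : ∃ c : F, b = c • 1
  · obtain ⟨c, rfl⟩ := x
    rw [mo_comm]
    exact (min_le_right _ _).trans (le_mo hb (by rintro d rfl; exact h _ (map_scal d c)))
  · exact (min_le_left _ _).trans (le_mo ha (not_exists.1 x))

variable {B : LinearMap.BilinForm F V} {β : LinearMap.BilinForm F U} {Q : QuadraticForm F W}
  {E : V ≃ₗ[F] U ⊗[F] W}

/-- decomposable maps -/
def TT (E : V ≃ₗ[F] U ⊗[F] W) (f : End F V) : Prop :=
  ∃ (a : U ≃ₗ[F] U) (b : W ≃ₗ[F] W), ∀ u w, E (f (E.symm (u ⊗ₜ w))) = a u ⊗ₜ b w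

omit [FiniteDimensional F U] [FiniteDimensional F W] [FiniteDimensional F V] in
theorem cs_tt : CS (TT E) B f ↔ ∃ (a : U ≃ₗ[F] U) (b : W ≃ₗ[F] W),
    TrS (trB B E) (map a.toLinearMap b.toLinearMap) B f := by
  refine ⟨fun ⟨g, ⟨a, b, h⟩, h'⟩ => ⟨a, b, TrS.trans ⟨E.symm, fun v => ?_, fun _ _ => rfl⟩ h'⟩,
    fun ⟨a, b, h⟩ => ⟨E.symm.conj (map a.toLinearMap b.toLinearMap), ⟨a, b, by simp⟩,
      TrS.trans ⟨E, by simp, by simp⟩ h⟩⟩
  exact LinearMap.congr_fun (show E.symm.toLinearMap ∘ₗ map a.toLinearMap b.toLinearMap =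
    g ∘ₗ E.symm.toLinearMap from TensorProduct.ext' fun u w => by simp [← h]) v

variable [Fintype F]

theorem cc_le_mo {ε : F} (hr : r.Prime) (h2 : r ≠ 2) (h0 : (r : F) ≠ 0) (hB : EF B ε) (hf : Im B f)
    (h : f ^ r = 1) (h1 : f ≠ 1) : cc (orderOf (Fintype.card F : ZMod r)) ≤ finrank F (Mo f) := by
  obtain ⟨s, w, -, a, -⟩ := shp_fpf hr h2 h0 (ef_res hB (nds_Mo hB hf h0 h)) (hf.res (Mo_inv f))
    (res_pow_one _ h) (fpf_Mo h0 h) rfl
  have := finrank_Fx_add f
  exact Nat.le_of_dvd (Nat.pos_of_ne_zero fun e => h1 (eq_one_iff_Fx.2 (by omega))) ⟨s, a⟩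

theorem cc_lt_mo {ε ε' : F} {γ : LinearMap.BilinForm F W} (hr : r.Prime) (h2 : r ≠ 2)
    (h0 : (r : F) ≠ 0) (hβ : EF β ε) (hγ : EF γ ε') (ha : Im β a) (hb : Im γ b) (h : a ^ r = 1)
    (h' : b ^ r = 1) (h1 : map a b ≠ 1) (d1 : 2 ≤ finrank F U) (d2 : 3 ≤ finrank F W) :
    cc (orderOf (Fintype.card F : ZMod r)) < finrank F (Mo (map a b)) := by
  have hc := cc_pos (ord_pos h0 hr)
  haveI : Nontrivial U := Module.nontrivial_of_finrank_pos (R := F) (by omega)
  haveI : Nontrivial W := Module.nontrivial_of_finrank_pos (R := F) (by omega)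
  by_cases x : a = 1
  · subst x
    have := cc_le_mo hr h2 h0 hγ hb h' (by rintro rfl; exact h1 TensorProduct.map_one)
    rw [mo_right]; nlinarith
  have a1 := cc_le_mo hr h2 h0 hβ ha h x
  by_cases y : b = 1
  · subst y
    rw [mo_comm, mo_right]; nlinarith
  refine (a1.trans (Submodule.finrank_le _)).trans_lt (lt_mo (ha.inj hβ) ?_ ?_ d2)
  · exact (forall_odd_iff hβ (hr.odd_of_ne_two h2) (fun f => ∀ c : F, f ≠ c • 1) fun f e c y =>
      e (-c) (by rw [← neg_one_mul, mul_smul, ← y]; simp)).1 (fun _ _ _ _ e => e) a ha h x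
  · exact (forall_odd_iff hγ (hr.odd_of_ne_two h2) (fun f => ∀ c : F, f ≠ c • 1) fun f e c y =>
      e (-c) (by rw [← neg_one_mul, mul_smul, ← y]; simp)).1 (fun _ _ _ _ e => e) b hb h' y

omit [Fintype F] [FiniteDimensional F V] [FiniteDimensional F U] [FiniteDimensional F W] in
theorem Mo_pow_le (k : ℕ) : Mo (f ^ k) ≤ Mo f := by
  rw [Mo, ← mul_geom_sum]
  exact LinearMap.range_comp_le_range _ _

theorem forall_sp_ten (hB : AF B) (hβ : AF β) (hQ : ND Q) (hT : TB (trB B E) β Q.polarBilin)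
    (h2 : (2 : F) ≠ 0) {p : ℕ} [Fact p.Prime] [CharP F p] [hr : Fact r.Prime]
    (d1 : 2 ≤ finrank F U) (d2 : 3 ≤ finrank F W) (h : r ∣ Nat.card (UG B)) :
    (∀ f (c : F), Im B f → f ^ r = c • 1 → (∀ a : F, f ≠ a • 1) → CS (TT E) B f) ↔
      r = 2 ∧ finrank F U = 2 := by
  have hn : finrank F V = finrank F U * finrank F W := E.finrank_eq.trans finrank_tensorProduct
  have hn' : 6 ≤ finrank F V := by nlinarith
  haveI : Nontrivial V := Module.nontrivial_of_finrank_pos (R := F) (by omega)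
  haveI : Nontrivial U := Module.nontrivial_of_finrank_pos (R := F) (by omega)
  haveI : Nontrivial W := Module.nontrivial_of_finrank_pos (R := F) (by omega)
  have hB' : AF (trB B E) := ⟨⟨fun _ => rfl, Or.inr rfl, fun x y => hB.ef.symm _ _, fun x hx =>
    E.symm.map_eq_zero_iff.1 (hB.ef.nd _ fun y => by simpa using hx (E y))⟩, fun x => hB.alt _⟩
  have key : ∀ f, 0 < finrank F (Mo f) → finrank F (Mo f) < 6 → CS (TT E) B f →
      min (finrank F U) (finrank F W) ≤ finrank F (Mo f) := fun f a1 a2 a3 => by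
    obtain ⟨a, b, e⟩ := cs_tt.1 a3
    have a4 := finrank_Fx_add f
    rw [← Sim.finrank_Mo e.sim, ← Sim.finrank_Fx e.sim] at *
    exact min_le_mo a.injective b.injective (ne_smul_of_dims (by omega) a1)
  by_cases hp : r = p
  · subst hp
    obtain ⟨f, a1, a2, a3⟩ := hB.exists_tv (p := r)
    refine iff_of_false (fun x => ?_) fun x => h2 (by simpa [x.1] using CharP.cast_eq_zero F r)
    have := finrank_Fx_add f
    have := key f (by omega) (by omega)
      (x f 1 a1 (by simpa) (ne_smul_of_dims (by omega) (by omega)))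
    omega
  have r0 : (r : F) ≠ 0 := natCast_ne_zero_of_ne hr.out hp
  have im : ∀ (a : U ≃ₗ[F] U) (b : W ≃ₗ[F] W), Im β a.toLinearMap → Im Q.polarBilin b.toLinearMap →
      Im (trB B E) (map a.toLinearMap b.toLinearMap) := fun a b x y =>
    hT.congr_mem (μ := 1) (fun u v => (one_mul _).trans (x u v)) fun u v =>
      (y u v).trans (one_mul _).symm
  by_cases h4 : r = 2
  · subst h4
    refine ⟨fun x => ⟨rfl, ?_⟩, fun ⟨_, h5⟩ f c a1 a2 a3 => ?_⟩
    · have := Nat.even_iff.1 hB.even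
      obtain ⟨X, a0, a1, -⟩ := (hB.ndec_one_iff (finrank F V - 2)).2
        ⟨by rw [Nat.even_iff]; omega, by omega⟩
      obtain ⟨f, a2, a3, a4⟩ := exists_inv h2 hB.ef a1
      have := finrank_Fx_add f
      have := key f (by omega) (by omega)
        (x f 1 a2 (by simpa) (ne_smul_of_dims (by omega) (by omega)))
      omega
    rw [cs_tt]
    rcases a1.pm hB.ef a2 with rfl | rfl
    · rw [one_smul] at a2
      obtain ⟨j, hj⟩ := (hB.res (nds_Fx (N := 2) hB.ef a1 h2 a2)).even.two_dvd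
      have := finrank_Fx_add f
      obtain ⟨X, b1, b2⟩ := exists_nd_sub hQ h2 (a := j) (by nlinarith)
      obtain ⟨g, b3, b4, b5⟩ := exists_inv h2 (ef_polar hQ) (nds_iff_nd.2 b2)
      have b6 := finrank_Fx_add g
      have b7 := finrank_Fx_add (map (1 : End F U) g)
      have b8 : map (1 : End F U) g ^ 2 = 1 := by
        rw [TensorProduct.map_pow, b4, one_pow, TensorProduct.map_one]
      rw [mo_right, finrank_tensorProduct, h5] at b7
      obtain ⟨e, he⟩ := hB'.iso hB E.finrank_eq.symm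
      obtain ⟨G, rfl⟩ : ∃ G : W ≃ₗ[F] W, G.toLinearMap = g :=
        ⟨LinearEquiv.ofInjectiveEndo g (b3.inj (ef_polar hQ)), rfl⟩
      obtain ⟨g', c1, c2⟩ := exists_tr (f := map (1 : End F U) G.toLinearMap) e he
        (im 1 G (fun _ _ => rfl) b3)
      have c3 := Sim.finrank_Fx c2.sim
      exact ⟨1, G, c2.trans (tr_inv h2 hB c1 a1 (by
        simpa using Sim.pow_eq c2.sim (c := 1) (b8.trans (one_smul _ _).symm)) a2 (by omega))⟩
    · obtain ⟨g, b1, b2⟩ := hβ.exists_sq_neg
      obtain ⟨G, rfl⟩ : ∃ G : U ≃ₗ[F] U, G.toLinearMap = g :=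
        ⟨LinearEquiv.ofInjectiveEndo g (b1.inj hβ.ef), rfl⟩
      refine ⟨G, 1, tr_four h2 hB'.ef hB.ef
        (im _ _ b1 fun _ _ => rfl) a1 ?_ a2 E.finrank_eq.symm⟩
      rw [TensorProduct.map_pow, b2, TensorProduct.map_smul_left]
      exact congrArg _ TensorProduct.map_one
  refine iff_of_false (fun x => ?_) fun x => h4 x.1
  have ho := hr.out.odd_of_ne_two h4
  rw [forall_odd_iff hB.ef ho (CS (TT E) B) fun f y => by
    obtain ⟨a, b, e, y1, y2⟩ := cs_tt.1 y
    exact cs_tt.2 ⟨LinearEquiv.neg F * a, b, e, fun v => by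
      rw [LinearMap.smul_apply, ← y1, ← map_smul, ← LinearMap.smul_apply,
        ← TensorProduct.map_smul_left]
      congr 3; ext; simp, y2⟩] at x
  have hc := cc_pos (ord_pos r0 hr.out)
  haveI : Finite V := Module.finite_of_finite F
  haveI : Finite (UG B) := Finite.of_injective (fun g => (g.1 : V → V)) fun _ _ e =>
    Subtype.ext (DFunLike.coe_injective e)
  obtain ⟨g, hg⟩ := exists_prime_orderOf_dvd_card' r h
  obtain ⟨f, a1, a2, a3⟩ := hB.exists_Mo hr.out h4 r0 ((cc_le_mo hr.out h4 r0 hB.ef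
    (f := subRep _ g) g.2 (by rw [← map_pow, ← hg, pow_orderOf_eq_one, map_one]) fun e =>
      hr.out.one_lt.ne' (by rw [← hg, subRep_injective _ (e.trans (map_one _).symm), orderOf_one])).trans
      (Submodule.finrank_le _))
  obtain ⟨a, b, e⟩ := cs_tt.1 (x f a1 a2 (ne_one_of_Mo (by omega)))
  have b1 := e.im a1
  have b2 : map a.toLinearMap b.toLinearMap ^ r = 1 := by
    simpa using Sim.pow_eq e.symm.sim (c := 1) (by simpa)
  have b3 : ∀ u w u' w', β (a u) (a u') * polar Q (b w) (b w') = β u u' * polar Q w w' :=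
    fun u w u' w' => (hT _ _ _ _).symm.trans ((b1 (u ⊗ₜ w) (u' ⊗ₜ w')).trans (hT _ _ _ _))
  obtain ⟨w, hw⟩ := exists_ne (0 : W)
  obtain ⟨w', hw'⟩ := hQ.exists_polar_one hw
  set μ := polar Q (b w) (b w')
  have b4 : ∀ u u', β (a u) (a u') * μ = β u u' := fun u u' => by rw [b3, hw', mul_one]
  obtain ⟨u, hu⟩ := exists_ne (0 : U)
  obtain ⟨u', hu'⟩ := not_forall.1 fun y => hu (hβ.ef.nd u y)
  have b5 : μ ≠ 0 := fun y => hu' (by rw [← b4, y, mul_zero])
  have b6 : Im β (μ • a.toLinearMap ^ 2) := fun x y => by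
    simp [pow_two, ← b4 x y, ← b4 (a x) (a y)]; ring
  have b7 : Im Q.polarBilin (μ⁻¹ • b.toLinearMap ^ 2) := fun x y => by
    have : ∀ x y, polar Q (b x) (b y) = μ * polar Q x y := fun x y =>
      mul_left_cancel₀ hu' (by rw [← b4 u u', mul_right_comm, b3, b4]; ring)
    simp [pow_two, this, b5]
  have b8 : map ((μ • a.toLinearMap ^ 2) ^ 2) ((μ⁻¹ • b.toLinearMap ^ 2) ^ 2) =
      map a.toLinearMap b.toLinearMap ^ 4 := by
    rw [← TensorProduct.map_pow, TensorProduct.map_smul_left, TensorProduct.map_smul_right,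
      smul_inv_smul₀ b5, ← TensorProduct.map_pow, ← pow_mul]
  have b9 : map ((μ • a.toLinearMap ^ 2) ^ r) ((μ⁻¹ • b.toLinearMap ^ 2) ^ r) = 1 := by
    rw [← TensorProduct.map_pow, TensorProduct.map_smul_left, TensorProduct.map_smul_right,
      smul_inv_smul₀ b5, ← TensorProduct.map_pow, ← pow_mul, mul_comm, pow_mul, b2, one_pow]
  obtain ⟨c, c1⟩ := scal_of_map b9
  obtain ⟨d, c2⟩ := scal_of_map (a := (μ⁻¹ • b.toLinearMap ^ 2) ^ r) (b := (μ • a.toLinearMap ^ 2) ^ r)
    ((pow_one _).symm.trans ((Sim.pow_eq (N := 1) (c := (1 : F)) sim_comm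
      ((pow_one _).trans (b9.trans (one_smul _ _).symm))).trans (one_smul _ _)))
  have := cc_lt_mo hr.out h4 r0 hβ.ef (ef_polar hQ) (b6.pow 2) (b7.pow 2)
    (by rw [← pow_mul, mul_comm, pow_mul, c1]; rcases b6.pm hβ.ef c1 with rfl | rfl <;> simp)
    (by rw [← pow_mul, mul_comm, pow_mul, c2]; rcases b7.pm (ef_polar hQ) c2 with rfl | rfl <;> simp)
    (by
      rw [b8]
      intro y
      have := (pow_gcd_eq_one.2 ⟨y, b2⟩)
      rw [Nat.Coprime.gcd_eq_one (by simpa using ho.coprime_two_left.pow_left 2), pow_one] at this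
      rw [← Sim.finrank_Mo e.sim, this] at a3
      rw [Mo, sub_self, LinearMap.range_zero, finrank_bot] at a3
      exact hc.ne a3) d1 d2
  rw [b8, ← a3, ← Sim.finrank_Mo e.sim] at this
  exact this.not_ge (Submodule.finrank_mono (Mo_pow_le 4))

end Cfsg.Agent.Elu
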